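import Cfsg.Agent.Linear.CycloFactors
import Cfsg.Agent.Linear.SpPrimeClasses

/-!
# Factorisations of self-reciprocal polynomials dividing powers of `X^r - 1`
-/

set_option autoImplicit false
set_option linter.unusedSectionVars false

namespace Cfsg.Agent.Linear.TSCrit

open Polynomial UniqueFactorizationMonoid Cfsg.Agent.Linear.SpPrimeClasses
  Cfsg.Agent.Linear.CycloFactors Cfsg.Agent.Linear.PrimeOrderClasses

variable {F : Type*} [Field F] [Fintype F]

theorem X_sub_one_props : (X - 1 : F[X]).Monic ∧ Irreducible (X - 1 : F[X]) ∧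
    (X - 1 : F[X]).natDegree = 1 ∧ hat (X - 1 : F[X]) = X - 1 := by
  refine ⟨?_, ?_, ?_, ?_⟩
  · rw [← C_1]; exact monic_X_sub_C 1
  · rw [← C_1]; exact irreducible_X_sub_C 1
  · rw [← C_1]; exact natDegree_X_sub_C 1
  · rw [hat, reverse_X_sub_one, coeff_sub, coeff_X_zero, coeff_one_zero, zero_sub, inv_neg, inv_one, map_neg, C_1]
    ring

variable {r i : ℕ} {S : Finset F[X]}

theorem fac_props (hS : Factors r i S) (f : ℕ) {L : Multiset F[X]} (hL : ∀ P ∈ L, P ∈ S) :
    ∀ P ∈ Multiset.replicate f (X - 1) + L, Irreducible P ∧ P.Monic := fun P hP => by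
  rcases Multiset.mem_add.1 hP with h | h
  · rw [Multiset.eq_of_mem_replicate h]; exact ⟨X_sub_one_props.2.1, X_sub_one_props.1⟩
  · exact ⟨hS.irred P (hL P h), hS.monic P (hL P h)⟩

theorem monic_form (hS : Factors r i S) (f : ℕ) {L : Multiset F[X]} (hL : ∀ P ∈ L, P ∈ S) :
    ((X - 1) ^ f * L.prod : F[X]).Monic :=
  (X_sub_one_props.1.pow f).mul (monic_multiset_prod_of_monic L (fun P => P) (fun P hP => hS.monic P (hL P hP)) |>
    fun h => by rwa [Multiset.map_id'] at h)

theorem natDegree_form (hS : Factors r i S) (f : ℕ) {L : Multiset F[X]} (hL : ∀ P ∈ L, P ∈ S) :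
    ((X - 1) ^ f * L.prod : F[X]).natDegree = f + i * Multiset.card L := by
  have hLm : L.prod.Monic := by
    have h := monic_multiset_prod_of_monic L (fun P => P) (fun P hP => hS.monic P (hL P hP))
    rwa [Multiset.map_id'] at h
  rw [Monic.natDegree_mul (X_sub_one_props.1.pow f) hLm, X_sub_one_props.1.natDegree_pow, X_sub_one_props.2.2.1,
    mul_one, natDegree_prod_eq L (fun P hP => hS.monic P (hL P hP)) i (fun P hP => hS.deg P (hL P hP)), mul_comm i]

theorem factors_form [DecidableEq F] (hS : Factors r i S) (f : ℕ) {L : Multiset F[X]} (hL : ∀ P ∈ L, P ∈ S) :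
    normalizedFactors ((X - 1) ^ f * L.prod : F[X]) = Multiset.replicate f (X - 1) + L := by
  rw [← normalizedFactors_prod_monic _ (fac_props hS f hL), Multiset.prod_add, Multiset.prod_replicate]

theorem count_X_sub_one [DecidableEq F] (hS : Factors r i S) {L : Multiset F[X]} (hL : ∀ P ∈ L, P ∈ S) :
    L.count (X - 1) = 0 :=
  Multiset.count_eq_zero_of_notMem fun h => hS.eval_one _ (hL _ h) (by simp)

theorem hat_ne (hS : Factors r i S) {P : F[X]} (hP : P ∈ S) : P ≠ X - 1 :=
  fun h => hS.eval_one P hP (by simp [h])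

theorem form_inj (hS : Factors r i S) {f f' : ℕ} {L L' : Multiset F[X]} (hL : ∀ P ∈ L, P ∈ S) (hL' : ∀ P ∈ L', P ∈ S)
    (h : ((X - 1) ^ f * L.prod : F[X]) = (X - 1) ^ f' * L'.prod) : f = f' ∧ L = L' := by
  classical
  have h1 := congrArg normalizedFactors h
  rw [factors_form hS f hL, factors_form hS f' hL'] at h1
  have hf : f = f' := by
    have h2 := congrArg (Multiset.count (X - 1 : F[X])) h1
    simpa [count_X_sub_one hS hL, count_X_sub_one hS hL'] using h2
  exact ⟨hf, add_left_cancel (hf ▸ h1)⟩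

theorem decompose (hS : Factors r i S) {χ : F[X]} (hχ : χ.Monic) {K : ℕ} (hK : χ ∣ (X ^ r - 1) ^ K) :
    ∃ f L, (∀ P ∈ L, P ∈ S) ∧ χ = (X - 1) ^ f * Multiset.prod L := by
  classical
  have hall : ∀ P ∈ normalizedFactors χ, P = X - 1 ∨ P ∈ S := fun P hP => by
    have hi := irreducible_of_normalized_factor P hP
    refine hS.complete P hi ?_ (hi.prime.dvd_of_dvd_pow ((dvd_of_mem_normalizedFactors hP).trans hK))
    rw [← normalize_normalized_factor P hP]
    exact monic_normalize hi.ne_zero
  refine ⟨(normalizedFactors χ).count (X - 1), (normalizedFactors χ).filter (fun P => ¬ (X - 1) = P), fun P hP => ?_, ?_⟩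
  · obtain ⟨h1, h2⟩ := Multiset.mem_filter.1 hP
    exact (hall P h1).resolve_left (Ne.symm h2)
  · conv_lhs => rw [← prod_normalizedFactors_monic hχ, ← Multiset.filter_add_not (fun P => (X - 1) = P) (normalizedFactors χ)]
    rw [Multiset.prod_add, Multiset.filter_eq, Multiset.prod_replicate]

theorem hat_form (f : ℕ) (L : Multiset F[X]) :
    hat ((X - 1) ^ f * L.prod : F[X]) = (X - 1) ^ f * (L.map hat).prod := by
  rw [hat_mul, hat_prod]
  congr 1
  induction f with
  | zero => exact hat_one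
  | succ f ih => rw [pow_succ, hat_mul, ih, X_sub_one_props.2.2.2]

theorem map_hat_mem (hS : Factors r i S) {L : Multiset F[X]} (hL : ∀ P ∈ L, P ∈ S) : ∀ P ∈ L.map hat, P ∈ S :=
  fun P hP => by
    obtain ⟨Q, hQ, rfl⟩ := Multiset.mem_map.1 hP
    exact hS.hat_mem Q (hL Q hQ)

theorem map_hat_eq (hS : Factors r i S) {f : ℕ} {L : Multiset F[X]} (hL : ∀ P ∈ L, P ∈ S)
    (h : ((X - 1) ^ f * L.prod : F[X]).reverse = (X - 1) ^ f * L.prod) : L.map hat = L := by
  have h1 := hat_eq_of_reverse_eq (monic_form hS f hL) h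
  rw [hat_form] at h1
  exact (form_inj hS (map_hat_mem hS hL) hL h1).2

/-- Splitting a hat-invariant multiset of factors. -/
theorem split (hS : Factors r i S) : ∀ L : Multiset F[X], (∀ P ∈ L, P ∈ S) → L.map hat = L →
    ∃ H O : Multiset F[X], L = H + H.map hat + O ∧ O.Nodup ∧ (Odd i → O = 0) := by
  classical
  refine fun L => Multiset.strongInductionOn L fun L ih hL hh => ?_
  by_cases hp : ∃ P ∈ L, hat P ∈ L.erase P
  · obtain ⟨P, hP, hP'⟩ := hp
    set L' := (L.erase P).erase (hat P) with hL'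
    have hLeq : L = P ::ₘ hat P ::ₘ L' := by rw [hL', Multiset.cons_erase hP', Multiset.cons_erase hP]
    have hlt : L' < L := by
      rw [hLeq]; exact (Multiset.lt_cons_self _ _).trans (Multiset.lt_cons_self _ _)
    have hmem : ∀ Q ∈ L', Q ∈ S := fun Q hQ => hL Q (Multiset.mem_of_le hlt.le hQ)
    have hh' : L'.map hat = L' := by
      rw [hLeq, Multiset.map_cons, Multiset.map_cons, hS.hat_hat P (hL P hP), Multiset.cons_swap,
        Multiset.cons_inj_right, Multiset.cons_inj_right] at hh
      exact hh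
    obtain ⟨H, O, hHO, hO, hOi⟩ := ih L' hlt hmem hh'
    refine ⟨P ::ₘ H, O, ?_, hO, hOi⟩
    rw [hLeq, hHO, Multiset.map_cons, Multiset.cons_add, Multiset.cons_add, Multiset.add_cons, Multiset.cons_add]
  · push Not at hp
    have hfix : ∀ P ∈ L, hat P = P ∧ P ∉ L.erase P := fun P hP => by
      have h1 : hat P ∈ L := by rw [← hh]; exact Multiset.mem_map_of_mem _ hP
      have h2 : hat P = P := by
        by_contra hne
        exact hp P hP ((Multiset.mem_erase_of_ne hne).2 h1)
      exact ⟨h2, fun h => hp P hP (by rwa [h2])⟩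
    refine ⟨0, L, by simp, Multiset.nodup_iff_count_le_one.2 fun P => ?_, fun hodd => Multiset.eq_zero_of_forall_notMem
      fun P hP => hS.not_self hodd P (hL P hP) (hfix P hP).1⟩
    by_cases hP : P ∈ L
    · have := Multiset.count_eq_zero.2 (hfix P hP).2
      rw [Multiset.count_erase_self] at this
      omega
    · rw [Multiset.count_eq_zero.2 hP]; omega

theorem card_le_of_nodup (hS : Factors r i S) {O : Multiset F[X]} (hO : O.Nodup) (hOS : ∀ P ∈ O, P ∈ S) :
    Multiset.card O ≤ S.card :=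
  Finset.card_le_card (s := ⟨O, hO⟩) fun P hP => hOS P hP

theorem reverse_form (hS : Factors r i S) (f : ℕ) {L : Multiset F[X]} (hL : ∀ P ∈ L, P ∈ S) (hh : L.map hat = L)
    (hf : Even f) : ((X - 1) ^ f * L.prod : F[X]).reverse = (X - 1) ^ f * L.prod := by
  rw [reverse_mul_of_domain]
  congr 1
  · have : ∀ k : ℕ, ((X - 1 : F[X]) ^ k).reverse = (-(X - 1)) ^ k := by
      intro k
      induction k with
      | zero => rw [pow_zero, pow_zero, ← C_1, reverse_C]
      | succ k ih => rw [pow_succ, reverse_mul_of_domain, ih, reverse_X_sub_one, pow_succ]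
    rw [this, hf.neg_pow]
  · refine reverse_eq_of_hat_eq (by rw [hat_prod, hh]) ?_ ?_
    · rw [eval_multiset_prod]
      refine Multiset.prod_ne_zero fun h0 => ?_
      obtain ⟨P, hP, hPz⟩ := Multiset.mem_map.1 h0
      exact hS.eval_one P (hL P hP) hPz
    · rw [coeff_zero_multiset_prod]
      refine Multiset.prod_ne_zero fun h0 => ?_
      obtain ⟨P, hP, hPz⟩ := Multiset.mem_map.1 h0
      exact hS.coeff_zero P (hL P hP) hPz

/-- A self-reciprocal polynomial contains `π * hat π` with `π` of degree `m`. -/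
theorem exists_half (hS : Factors r i S) (hi : 0 < i) {f m : ℕ} {L H O : Multiset F[X]} (hL : ∀ P ∈ L, P ∈ S)
    (hHO : L = H + H.map hat + O) (hOh : O.map hat = O) (hf : Even f) (j e : ℕ) (hj : j ≤ Multiset.card H)
    (he : 2 * e ≤ f) (hm : m = e + i * j) :
    ∃ π ρ : F[X], π.Monic ∧ π.natDegree = m ∧ π.coeff 0 ≠ 0 ∧ ρ.Monic ∧ ρ.reverse = ρ ∧
      ρ.natDegree + 2 * m = f + i * Multiset.card L ∧
      ((X - 1) ^ f * L.prod : F[X]) = π * hat π * ρ := by
  obtain ⟨A, hAH, hAc⟩ : ∃ A, A ≤ H ∧ Multiset.card A = j := by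
    induction H using Quotient.inductionOn with
    | h l => exact ⟨↑(l.take j), (List.take_sublist j l).subperm, by simpa using hj⟩
  obtain ⟨H', rfl⟩ := le_iff_exists_add.1 hAH
  have hA : ∀ P ∈ A, P ∈ S := fun P hP => hL P (by rw [hHO]; simp [hP])
  have hH' : ∀ P ∈ H' + H'.map hat + O, P ∈ S := fun P hP => hL P (by
    rw [hHO, Multiset.map_add]; simp only [Multiset.mem_add] at hP ⊢; tauto)
  have hhh : H'.map (fun P => hat (hat P)) = H' := by
    conv_rhs => rw [← Multiset.map_id H']
    exact Multiset.map_congr rfl fun P hP => hS.hat_hat P (hH' P (by simp [hP]))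
  refine ⟨(X - 1) ^ e * A.prod, (X - 1) ^ (f - 2 * e) * (H' + H'.map hat + O).prod, monic_form hS e hA,
    ?_, ?_, monic_form hS _ hH', reverse_form hS _ hH' ?_ ?_, ?_, ?_⟩
  · rw [natDegree_form hS e hA, hAc, hm]
  · rw [mul_coeff_zero, coeff_zero_eq_eval_zero ((X - 1 : F[X]) ^ e), eval_pow, eval_sub, eval_X, eval_one,
      coeff_zero_multiset_prod]
    refine mul_ne_zero (pow_ne_zero _ (by simp)) (Multiset.prod_ne_zero fun h0 => ?_)
    obtain ⟨P, hP, hPz⟩ := Multiset.mem_map.1 h0
    exact hS.coeff_zero P (hA P hP) hPz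
  · rw [Multiset.map_add, Multiset.map_add, Multiset.map_map, hOh, add_comm (H'.map hat)]
    congr 1
    congr 1
  · obtain ⟨a, ha⟩ := hf
    exact ⟨a - e, by omega⟩
  · have hc := congrArg Multiset.card hHO
    simp only [Multiset.card_add, Multiset.card_map] at hc
    rw [natDegree_form hS _ hH', hc, hm, hAc]
    simp only [Multiset.card_add, Multiset.card_map, Nat.mul_add]
    omega
  · rw [hat_form, hHO, Multiset.map_add]
    simp only [Multiset.prod_add]
    rw [show f = e + e + (f - 2 * e) by omega, pow_add, pow_add, show e + e + (f - 2 * e) - 2 * e = f - 2 * e by omega]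
    ring

/-- The shape of a polynomial `π` with `π * hat π` dividing a given product. -/
theorem half_shape (hS : Factors r i S) {f K : ℕ} {L : Multiset F[X]} (hL : ∀ P ∈ L, P ∈ S) {π : F[X]} (hπ : π.Monic)
    (hπ0 : π.coeff 0 ≠ 0) (hd : π * hat π ∣ (X - 1) ^ f * L.prod) (hK : ((X - 1) ^ f * L.prod : F[X]) ∣ (X ^ r - 1) ^ K) :
    ∃ (e : ℕ) (A : Multiset F[X]), π.natDegree = e + i * Multiset.card A ∧ 2 * e ≤ f ∧ A + A.map hat ≤ L := by
  classical
  obtain ⟨e, A, hA, rfl⟩ := decompose hS hπ (((dvd_mul_right _ _).trans hd).trans hK)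
  have hA' := map_hat_mem hS hA
  have hAA : ∀ P ∈ A + A.map hat, P ∈ S := fun P hP => (Multiset.mem_add.1 hP).elim (hA P) (hA' P)
  rw [hat_form, show ((X - 1) ^ e * A.prod) * ((X - 1) ^ e * (A.map hat).prod) =
    ((X - 1) ^ (e + e) * (A + A.map hat).prod : F[X]) by rw [pow_add, Multiset.prod_add]; ring] at hd
  rw [dvd_iff_normalizedFactors_le_normalizedFactors (monic_form hS _ hAA).ne_zero (monic_form hS _ hL).ne_zero,
    factors_form hS _ hAA, factors_form hS _ hL] at hd
  refine ⟨e, A, natDegree_form hS e hA, ?_, Multiset.le_iff_count.2 fun P => ?_⟩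
  · have := Multiset.le_iff_count.1 hd (X - 1)
    have a1 := count_X_sub_one hS hAA
    have a2 := count_X_sub_one hS hL
    simp only [Multiset.count_add, Multiset.count_replicate_self] at this a1
    omega
  · by_cases hP : P = X - 1
    · rw [hP, count_X_sub_one hS hAA]; exact Nat.zero_le _
    · have := Multiset.le_iff_count.1 hd P
      rw [Multiset.count_add, Multiset.count_add (s := Multiset.replicate f _), Multiset.count_replicate,
        Multiset.count_replicate, if_neg (Ne.symm hP), if_neg (Ne.symm hP)] at this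
      simpa using this

end Cfsg.Agent.Linear.TSCrit
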