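import Cfsg.Agent.Linear.CycloFactors
import Cfsg.Agent.Linear.GUPrimeCount
import Cfsg.Agent.Linear.OrthPrimeClasses
import Cfsg.Agent.Forms.SympElements
import Cfsg.Agent.GeomClasses.SubspaceDerange

/-!
# Semisimple isometries and their invariant totally isotropic subspaces
-/

set_option autoImplicit false
set_option linter.unusedSectionVars false

namespace Cfsg.Agent.Linear.TSDerange

open Polynomial Module UniqueFactorizationMonoid Cfsg.Agent.Forms Cfsg.Agent.Linear.SpPrimeClasses
  Cfsg.Agent.Linear.CycloFactors Cfsg.Agent.Linear.PrimeOrderClasses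

variable {F : Type*} [Field F] [Fintype F]

section Invariant

variable {V : Type*} [AddCommGroup V] [Module F V] [FiniteDimensional F V]

theorem charpoly_of_isCompl (T : Module.End F V) {U W : Submodule F V} (h : IsCompl U W)
    (hU : ∀ u ∈ U, T u ∈ U) (hW : ∀ w ∈ W, T w ∈ W) :
    T.charpoly = (T.restrict hU).charpoly * (T.restrict hW).charpoly := by
  let e := Submodule.prodEquivOfIsCompl U W h
  rw [← LinearMap.charpoly_prodMap, ← e.charpoly_conj ((T.restrict hU).prodMap (T.restrict hW))]
  congr 1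
  refine LinearMap.ext fun v => ?_
  obtain ⟨⟨u, w⟩, rfl⟩ := e.surjective v
  rw [LinearEquiv.conj_apply_apply, e.symm_apply_apply]
  simp [e]

theorem restrict_pow_eq {T : Module.End F V} {U : Submodule F V} (hU : ∀ u ∈ U, T u ∈ U) {N : ℕ} {z : F}
    (h : T ^ N = z • 1) : (T.restrict hU) ^ N = z • 1 := by
  have key : ∀ (k : ℕ) (u : U), (((T.restrict hU) ^ k) u : V) = (T ^ k) u := by
    intro k
    induction k with
    | zero => intro u; rfl
    | succ k ih =>
      intro u
      rw [pow_succ', Module.End.mul_apply, pow_succ', Module.End.mul_apply, ← ih]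
      rfl
  refine LinearMap.ext fun u => Subtype.ext ?_
  rw [key, h]
  rfl

/-- The characteristic polynomial of an isometry with an invariant totally isotropic subspace. -/
theorem exists_dvd {B : LinearMap.BilinForm F V} (hB : B.Nondegenerate) (hrefl : ∀ x y, B x y = 0 → B y x = 0)
    (a : V ≃ₗ[F] V) (ha : ∀ x y, B (a x) (a y) = B x y) {N : ℕ} (hN0 : 0 < N) (hN : (N : F) ≠ 0)
    (haN : (a : Module.End F V) ^ N = 1) {W : Submodule F V} (hW : ∀ x ∈ W, a x ∈ W)
    (hWB : ∀ x ∈ W, ∀ y ∈ W, B x y = 0) :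
    ∃ π : F[X], π.Monic ∧ π.coeff 0 ≠ 0 ∧ π.natDegree = finrank F W ∧
      π * hat π ∣ LinearMap.charpoly (a : Module.End F V) ∧
      ∃ N' : ℕ, aeval ((a : Module.End F V).restrict hW) (X ^ N' - 1 : F[X]) = 0 ∧ N' = N := by
  classical
  set T : Module.End F V := (a : Module.End F V) with hT
  have hTz : T ^ N = (1 : F) • 1 := by rw [haN, one_smul]
  set S := T.restrict hW with hS
  have hSN : S ^ N = 1 := by rw [hS, restrict_pow_eq hW hTz, one_smul]
  have hWsymm : ∀ x ∈ W, a.symm x ∈ W := by
    intro x hx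
    have hinj : Function.Injective S := fun u v h => Subtype.ext (a.injective (congrArg Subtype.val h))
    obtain ⟨y, hy⟩ := LinearMap.injective_iff_surjective.1 hinj ⟨x, hx⟩
    have : a (y : V) = x := congrArg Subtype.val hy
    rw [← this, a.symm_apply_apply]
    exact y.2
  set P := B.orthogonal W with hP
  have hWP : W ≤ P := fun x hx y hy => hWB y hy x hx
  have hPinv : ∀ x ∈ P, T x ∈ P := fun x hx y hy => by
    show B y (a x) = 0
    rw [← a.apply_symm_apply y, ha]
    exact hx _ (hWsymm y hy)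
  obtain ⟨C, hC, hCinv⟩ := GeomClasses.SubspaceDerange.exists_compl hN0 hN one_ne_zero hTz hPinv
  let Φ : C →ₗ[F] Module.Dual F W :=
    { toFun := fun c => (B.flip (c : V)).comp W.subtype
      map_add' := fun c c' => LinearMap.ext fun w => by simp
      map_smul' := fun r c => LinearMap.ext fun w => by simp }
  have hΦ : ∀ c w, Φ c w = B (w : V) (c : V) := fun c w => rfl
  have hΦinj : Function.Injective Φ := by
    rw [← LinearMap.ker_eq_bot, LinearMap.ker_eq_bot']
    intro c hc
    refine Subtype.ext ((Submodule.disjoint_def.1 hC.disjoint) _ ?_ c.2)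
    intro y hy
    exact LinearMap.congr_fun hc ⟨y, hy⟩
  have hdimC : finrank F C = finrank F W := by
    have h1 := Submodule.finrank_add_eq_of_isCompl hC
    have h2 := LinearMap.BilinForm.finrank_orthogonal hB W
    have h3 := Submodule.finrank_le W
    rw [hP] at h1
    omega
  let e : C ≃ₗ[F] Module.Dual F W := LinearEquiv.ofBijective Φ ⟨hΦinj,
    (LinearMap.injective_iff_surjective_of_finrank_eq_finrank (by rw [hdimC, Subspace.dual_finrank_eq])).1 hΦinj⟩
  let b := Module.finBasis F W
  set A := LinearMap.toMatrix b b S with hA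
  have hAN : A ^ N = 1 := by
    rw [hA]
    show (LinearMap.toMatrixAlgEquiv b S) ^ N = 1
    rw [← map_pow, hSN, map_one]
  have hAu : IsUnit A := IsUnit.of_pow_eq_one hAN hN0.ne'
  have hSc : S.charpoly = A.charpoly := (LinearMap.charpoly_toMatrix S b).symm
  set S' : Module.End F W := Matrix.toLin b b A⁻¹ with hS'
  have hSS' : S * S' = 1 := by
    rw [hS', show S = Matrix.toLin b b A from (Matrix.toLin_toMatrix b b S).symm, Module.End.mul_eq_comp,
      ← Matrix.toLin_mul, Matrix.mul_nonsing_inv _ ((Matrix.isUnit_iff_isUnit_det _).1 hAu), Matrix.toLin_one]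
    rfl
  have hconj : e.conj (T.restrict hCinv) = Module.Dual.transpose (R := F) S' := by
    refine LinearMap.ext fun φ => ?_
    obtain ⟨c, rfl⟩ := e.surjective φ
    rw [LinearEquiv.conj_apply_apply, e.symm_apply_apply]
    refine LinearMap.ext fun w => ?_
    show B (w : V) (a (c : V)) = B ((S' w : W) : V) (c : V)
    have h : (w : V) = a ((S' w : W) : V) := (congrArg Subtype.val (LinearMap.congr_fun hSS' w)).symm
    conv_lhs => rw [h, ha]
  have hCc : (T.restrict hCinv).charpoly = hat S.charpoly := by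
    rw [← e.charpoly_conj, hconj, ← LinearMap.charpoly_toMatrix (Module.Dual.transpose (R := F) S') b.dualBasis,
      LinearMap.toMatrix_transpose, Matrix.charpoly_transpose, hS', LinearMap.toMatrix_toLin,
      GUPrimeCount.charpoly_inv_hat hAu, hSc]
  refine ⟨S.charpoly, LinearMap.charpoly_monic S, ?_, LinearMap.charpoly_natDegree S, ?_, N, ?_, rfl⟩
  · intro h
    have hdet := ((Matrix.isUnit_iff_isUnit_det _).1 hAu).ne_zero
    rw [Matrix.det_eq_sign_charpoly_coeff, ← hSc, h, mul_zero] at hdet
    exact hdet rfl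
  · rw [charpoly_of_isCompl T hC hPinv hCinv, hCc]
    refine mul_dvd_mul ?_ dvd_rfl
    let W' : Submodule F P := W.comap P.subtype
    let T' := T.restrict hPinv
    have hW' : ∀ x ∈ W', T' x ∈ W' := fun x hx => hW x.1 hx
    have hT'z : T' ^ N = (1 : F) • 1 := restrict_pow_eq hPinv hTz
    obtain ⟨U, hU, hUinv⟩ := GeomClasses.SubspaceDerange.exists_compl hN0 hN one_ne_zero hT'z hW'
    rw [charpoly_of_isCompl T' hU hW' hUinv]
    refine Dvd.dvd.mul_right (dvd_of_eq ?_) _
    rw [← (Submodule.comapSubtypeEquivOfLe hWP).symm.charpoly_conj S]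
    congr 1
  · rw [map_sub, map_pow, aeval_X, map_one, sub_eq_zero]
    exact hSN

end Invariant

theorem pow_eq_one_of_dvd {M : Type*} [AddCommGroup M] [Module F M] [Module.Finite F M] {A : Module.End F M}
    {k r N : ℕ} (hk : (k : F) ≠ 0) (hAk : A ^ k = 1) (hdvd : A.charpoly ∣ (X ^ r - 1) ^ N) : A ^ r = 1 :=
  OrthPrimeClasses.pow_r_eq_one hk hAk hdvd

/-- An alternating space with an isometry fixing a totally isotropic subspace, with given characteristic
polynomial. -/
theorem exists_invariant {n : ℕ} (B : LinearMap.BilinForm F (Fin n → F)) (hA : B.IsAlt) (hB : B.Nondegenerate)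
    (a : (Fin n → F) ≃ₗ[F] (Fin n → F)) (ha : ∀ x y, B (a x) (a y) = B x y) {N : ℕ} (hN0 : 0 < N) (hN : (N : F) ≠ 0)
    (haN : (a : Module.End F (Fin n → F)) ^ N = 1) {π ρ : F[X]} {m : ℕ} (hπ : π.Monic) (hπd : π.natDegree = m)
    (hπ0 : π.coeff 0 ≠ 0) (hρ : ρ.Monic) (hρr : ρ.reverse = ρ) (hρe : Even ρ.natDegree)
    (hc : LinearMap.charpoly (a : Module.End F (Fin n → F)) = π * hat π * ρ) :
    ∃ W : Submodule F (Fin n → F), finrank F W = m ∧ (∀ x ∈ W, ∀ y ∈ W, B x y = 0) ∧ ∀ x ∈ W, a x ∈ W := by
  classical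
  set k := ρ.natDegree with hk
  have hdvd : ∃ K, π * hat π * ρ ∣ (X ^ N - 1) ^ K := by
    refine ⟨n, hc ▸ ?_⟩
    set A := LinearMap.toMatrix' (a : Module.End F (Fin n → F)) with hAd
    have hAN : A ^ N = 1 := by
      rw [hAd]
      show (LinearMap.toMatrixAlgEquiv' (a : Module.End F (Fin n → F))) ^ N = 1
      rw [← map_pow, haN, map_one]
    have hmc : LinearMap.charpoly (a : Module.End F (Fin n → F)) = A.charpoly := by
      rw [hAd, ← Matrix.charpoly_toLin', Matrix.toLin'_toMatrix']
    rw [hmc]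
    have hm := Matrix.charpoly_monic A
    rw [← prod_normalizedFactors_monic hm]
    have hle : Multiset.card (normalizedFactors A.charpoly) ≤ n := by
      have h1 : A.charpoly.natDegree = n := by rw [Matrix.charpoly_natDegree_eq_dim, Fintype.card_fin]
      conv_rhs => rw [← h1, ← prod_normalizedFactors_monic hm]
      rw [natDegree_multiset_prod_of_monic _ fun Q hQ => by
        rw [← normalize_normalized_factor Q hQ]
        exact monic_normalize (irreducible_of_normalized_factor Q hQ).ne_zero]
      calc Multiset.card (normalizedFactors A.charpoly) = ((normalizedFactors A.charpoly).map fun _ => 1).sum := by simp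
        _ ≤ _ := Multiset.sum_map_le_sum_map _ _ fun Q hQ => (irreducible_of_normalized_factor Q hQ).natDegree_pos
    refine dvd_trans ?_ (pow_dvd_pow _ hle)
    rw [← Multiset.prod_replicate, ← Multiset.map_const']
    conv_lhs => rw [← Multiset.map_id (normalizedFactors A.charpoly)]
    exact Multiset.prod_dvd_prod_of_dvd _ _ fun Q hQ => dvd_X_pow_sub_one_of_dvd_charpoly hAN
      (irreducible_of_normalized_factor Q hQ) (dvd_of_mem_normalizedFactors hQ)
  obtain ⟨K, hK⟩ := hdvd
  obtain ⟨u, ku, hku, huk, huc⟩ := exists_semisimple_charpoly m π hπ hπd hπ0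
  have huN : u ^ N = 1 := pow_eq_one_of_dvd hku huk
    (huc ▸ (dvd_mul_of_dvd_left (dvd_mul_right _ _) _).trans hK)
  obtain ⟨B', a', k', hA', hB', ha', hk', hak', hca'⟩ := exists_symp_semisimple k ρ hρe hρ rfl hρr
  have ha'N : (a' : Module.End F (Fin k → F)) ^ N = 1 := pow_eq_one_of_dvd hk' hak'
    (hca' ▸ (dvd_mul_left _ _).trans hK)
  set P := LinearMap.toMatrix' u with hP
  have hPN : P ^ N = 1 := by
    rw [hP]
    show (LinearMap.toMatrixAlgEquiv' u) ^ N = 1
    rw [← map_pow, huN, map_one]
  have hPu : IsUnit P := IsUnit.of_pow_eq_one hPN hN0.ne'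
  have hPd := (Matrix.isUnit_iff_isUnit_det _).1 hPu
  have hQ' : (P⁻¹).transpose ^ N = 1 := by
    rw [← Matrix.transpose_pow, Matrix.inv_pow', hPN, inv_one, Matrix.transpose_one]
  let t : Module.End F ((Fin m → F) × ((Fin m → F) × (Fin k → F))) := (Matrix.toLin' P).prodMap ((Matrix.toLin' (P⁻¹).transpose).prodMap (a' : Module.End F (Fin k → F)))
  have htj : ∀ j : ℕ, t ^ j = ((Matrix.toLin' P) ^ j).prodMap (((Matrix.toLin' (P⁻¹).transpose) ^ j).prodMap
      ((a' : Module.End F (Fin k → F)) ^ j)) := by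
    intro j
    induction j with
    | zero => rfl
    | succ j ih => rw [pow_succ, ih, pow_succ, pow_succ, pow_succ]; rfl
  have htN : t ^ N = 1 := by
    rw [htj, ← Matrix.toLin'_pow, ← Matrix.toLin'_pow, hPN, hQ', ha'N, Matrix.toLin'_one]
    rfl
  let β : LinearMap.BilinForm F ((Fin m → F) × ((Fin m → F) × (Fin k → F))) := LinearMap.mk₂ F
    (fun x y => dotProduct x.1 y.2.1 - dotProduct x.2.1 y.1 + B' x.2.2 y.2.2)
    (fun x x' y => by simp [add_dotProduct]; ring)
    (fun c x y => by simp only [Prod.smul_fst, Prod.smul_snd, smul_dotProduct, map_smul, LinearMap.smul_apply, smul_eq_mul]; ring)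
    (fun x y y' => by simp [dotProduct_add]; ring)
    (fun c x y => by simp only [Prod.smul_fst, Prod.smul_snd, dotProduct_smul, map_smul, smul_eq_mul]; ring)
  have hβ : ∀ x y, β x y = dotProduct x.1 y.2.1 - dotProduct x.2.1 y.1 + B' x.2.2 y.2.2 := fun x y => rfl
  have hβA : β.IsAlt := fun x => by rw [hβ, dotProduct_comm x.2.1, hA' x.2.2]; ring
  have hβn : ∀ x, (∀ y, β x y = 0) → x = 0 := by
    intro x hx
    refine Prod.ext (funext fun l => ?_) (Prod.ext (funext fun l => ?_) (hB'.1 _ fun z => ?_))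
    · simpa [hβ] using hx (0, (Pi.single l 1, 0))
    · simpa [hβ] using hx (Pi.single l 1, (0, 0))
    · simpa [hβ] using hx (0, (0, z))
  have hdot : ∀ x y : Fin m → F, dotProduct (P.mulVec x) ((P⁻¹).transpose.mulVec y) = dotProduct x y := fun x y => by
    rw [Matrix.dotProduct_mulVec, Matrix.vecMul_transpose, Matrix.mulVec_mulVec, Matrix.nonsing_inv_mul _ hPd,
      Matrix.one_mulVec]
  have ht : ∀ x : ((Fin m → F) × ((Fin m → F) × (Fin k → F))), t x = (P.mulVec x.1, ((P⁻¹).transpose.mulVec x.2.1, a' x.2.2)) := fun x => by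
    simp only [t, LinearMap.prodMap_apply, Matrix.toLin'_apply, LinearEquiv.coe_coe]
  have hpP : (Matrix.toLin' P).charpoly = π := by rw [hP, Matrix.toLin'_toMatrix', huc]
  have hPc : P.charpoly = π := by rw [← Matrix.charpoly_toLin', hpP]
  have htc : t.charpoly = π * hat π * ρ := by
    simp only [t]
    rw [LinearMap.charpoly_prodMap, LinearMap.charpoly_prodMap, hpP, Matrix.charpoly_toLin', Matrix.charpoly_transpose,
      GUPrimeCount.charpoly_inv_hat hPu, hPc, hca', mul_assoc]
  clear_value t
  have hβt : ∀ x y, β (t x) (t y) = β x y := fun x y => by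
    rw [hβ, hβ, ht, ht]
    dsimp only
    rw [hdot, dotProduct_comm ((P⁻¹).transpose.mulVec _), hdot, dotProduct_comm y.1, ha']
  have hdim : finrank F ((Fin m → F) × ((Fin m → F) × (Fin k → F))) = n := by
    have h1 : (LinearMap.charpoly (a : Module.End F (Fin n → F))).natDegree = n := by
      rw [LinearMap.charpoly_natDegree, Module.finrank_fin_fun]
    rw [hc, ← htc, LinearMap.charpoly_natDegree] at h1
    exact h1
  obtain ⟨e, he⟩ := exists_isometryEquiv hdim β hβA hβn B hA hB
  have hti : Function.Injective t := by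
    intro x y h
    have h' := congrArg (fun z => (t ^ (N - 1)) z) h
    simp only [← Module.End.mul_apply, ← pow_succ, Nat.sub_add_cancel hN0, htN] at h'
    exact h'
  let te := LinearEquiv.ofInjectiveEndo t hti
  let b := (e.symm.trans te).trans e
  have hb : ∀ x y, B (b x) (b y) = B x y := fun x y => by
    show B (e (t (e.symm x))) (e (t (e.symm y))) = _
    rw [he, hβt, ← he, e.apply_symm_apply, e.apply_symm_apply]
  have hbe : (b : Module.End F (Fin n → F)) = e.conj t := LinearMap.ext fun x => rfl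
  have hbN : (b : Module.End F (Fin n → F)) ^ N = 1 := by
    refine LinearMap.ext fun x => ?_
    have h1 : ∀ j : ℕ, ((b : Module.End F (Fin n → F)) ^ j) x = e ((t ^ j) (e.symm x)) := by
      intro j
      induction j with
      | zero => simp
      | succ j ih => rw [pow_succ', Module.End.mul_apply, ih, pow_succ', Module.End.mul_apply]; simp [b, te]
    rw [h1, htN]
    simp
  obtain ⟨g, hg, hgB⟩ := exists_isometry_conj hN n B B hA hB hA hB b a hb ha hbN haN
    (by rw [hbe, e.charpoly_conj, htc, hc])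
  let j : (Fin m → F) →ₗ[F] (Fin n → F) := g.toLinearMap ∘ₗ e.toLinearMap ∘ₗ LinearMap.inl F _ _
  have hjv : ∀ x, j x = g (e (x, 0)) := fun x => rfl
  have hji : Function.Injective j := fun x y h => by
    rw [hjv, hjv] at h
    exact congrArg Prod.fst (e.injective (g.injective h))
  refine ⟨LinearMap.range j, ?_, ?_, ?_⟩
  · rw [LinearMap.finrank_range_of_inj hji, Module.finrank_fin_fun]
  · rintro _ ⟨x, rfl⟩ _ ⟨y, rfl⟩
    rw [hjv, hjv, hgB, he, hβ]
    simp
  · rintro _ ⟨x, rfl⟩
    refine ⟨P.mulVec x, ?_⟩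
    rw [hjv, hjv, ← hg]
    congr 1
    show e (P.mulVec x, 0) = e (t (e.symm (e (x, 0))))
    rw [e.symm_apply_apply]
    congr 1
    rw [ht]; simp; rfl

end Cfsg.Agent.Linear.TSDerange
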