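import Cfsg.Agent.Linear.OrthSpaces
import Cfsg.Agent.Linear.OrthPrimeClasses
import Cfsg.Agent.Linear.OrthPrimeCount
import Cfsg.Agent.Linear.TSDerange
import Cfsg.Agent.Linear.TSCrit

/-!
# Isometries of odd prime order `r ≠ p` of quadratic spaces
-/

set_option autoImplicit false
set_option linter.unusedSectionVars false

namespace Cfsg.Agent.Linear.OrthFree

open Polynomial Module UniqueFactorizationMonoid Cfsg.Agent.Forms Cfsg.Agent.Linear.SpPrimeClasses
  Cfsg.Agent.Linear.CycloFactors Cfsg.Agent.Linear.PrimeOrderClasses Cfsg.Agent.Linear.OrthTypes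
  Cfsg.Agent.Linear.OrthSpaces Cfsg.Agent.KnownB.Proj.Orth

/-- The data of a prime `r ≠ p` and its factors. -/
structure Ctx (F : Type*) [Field F] [Fintype F] (q r i : ℕ) (S : Finset F[X]) : Prop where
  hq : Fintype.card F = q
  hr : r.Prime
  hr2 : r ≠ 2
  hrF : (r : F) ≠ 0
  hrq : ¬ r ∣ q
  hi : i = orderOf (q : ZMod r)
  hi0 : 0 < i
  hS : Factors r i S
  hScard : S.card = (r - 1) / i

variable {F : Type*} [Field F] [Fintype F]

theorem exists_ctx {p q r i : ℕ} [Fact p.Prime] [CharP F p] (hq : Fintype.card F = q) (hr : r.Prime) (hr2 : r ≠ 2)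
    (hrp : r ≠ p) (hi : i = orderOf (q : ZMod r)) :
    ∃ S : Finset F[X], Ctx F q r i S ∧ 1 ≤ (r - 1) / i := by
  haveI := Fact.mk hr
  have hrF : (r : F) ≠ 0 := fun h => hrp (((CharP.cast_eq_zero_iff F p r).1 h |>
    (Nat.prime_dvd_prime_iff_eq (Fact.out : p.Prime) hr).1).symm)
  obtain ⟨f₀, -, hf₀⟩ := FiniteField.card F p
  have hrq : ¬ r ∣ q := fun h =>
    hrp ((Nat.prime_dvd_prime_iff_eq hr Fact.out).1 (hr.dvd_of_dvd_pow (hq.symm.trans hf₀ ▸ h)))
  obtain ⟨hi0, -⟩ := GeomClasses.SubspaceDerange.dvd_pow_sub_one hrq hi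
  have hti : (r - 1) / i * i = r - 1 := Nat.div_mul_cancel (by
    rw [hi]
    exact ZMod.orderOf_dvd_card_sub_one fun h => hrq ((ZMod.natCast_eq_zero_iff q r).1 h))
  obtain ⟨S, hScard, hS⟩ := exists_factors hq r i _ hr hr2 hrp hi hti
  refine ⟨S, ⟨hq, hr, hr2, hrF, hrq, hi, hi0, hS, hScard⟩, Nat.one_le_iff_ne_zero.2 fun h => ?_⟩
  rw [h, zero_mul] at hti; have := hr.two_le; omega

/-- The dimension of a minimal nondegenerate free subspace. -/
def cc (i : ℕ) : ℕ := if Even i then i else 2 * i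

theorem cc_pos {i : ℕ} (hi : 0 < i) : 0 < cc i := by unfold cc; split_ifs <;> omega

theorem cc_le {i : ℕ} : i ≤ cc i ∧ cc i ≤ 2 * i := by unfold cc; split_ifs <;> omega

theorem cc_even (i : ℕ) : Even (cc i) := by
  unfold cc; split_ifs with h
  · exact h
  · exact even_two_mul i

section Iso

variable {U V : Type*} [AddCommGroup U] [Module F U] [FiniteDimensional F U] [AddCommGroup V] [Module F V]
  [FiniteDimensional F V] {Q' : QuadraticForm F U} {Q : QuadraticForm F V}

/-- A space embeds isometrically onto a subspace of the same type. -/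
theorem embeds_of_type (hQ' : (QuadraticMap.polarBilin Q').Nondegenerate) {W : Submodule F V} (hW : Nd Q W) {w : ℕ}
    (hd' : finrank F U = 2 * w) (hd : finrank F W = 2 * w) (ht : IsPlus Q' w ↔ Plus Q W) : Embeds Q' Q := by
  have key : ∃ e : U ≃ₗ[F] W, ∀ x, Q (e x : V) = Q' x := by
    by_cases h : Plus Q W
    · obtain ⟨e, he⟩ := (plus_iff hW hd).1 h
      obtain ⟨e', he'⟩ := ht.2 h
      refine ⟨e'.symm.trans e, fun x => ?_⟩
      obtain ⟨y, rfl⟩ := e'.surjective x
      show (Q.comp W.subtype) (e (e'.symm (e' y))) = _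
      rw [e'.symm_apply_apply, he, he']
    · obtain ⟨-, a, b, hab, e, he⟩ := (not_plus_iff hW hd).1 h
      obtain ⟨-, a', b', hab', e', he'⟩ : 1 ≤ w ∧ IsMinus Q' (w - 1) :=
        (classify hQ' hd').resolve_left fun h' => h (ht.1 h')
      obtain ⟨M, hM⟩ := exists_plane_change (w - 1) hab hab'
      refine ⟨e'.symm.trans (M.trans e), fun x => ?_⟩
      obtain ⟨y, rfl⟩ := e'.surjective x
      show (Q.comp W.subtype) (e (M (e'.symm (e' y)))) = _
      rw [e'.symm_apply_apply, he, hM, he']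
  obtain ⟨e, he⟩ := key
  exact ⟨W.subtype ∘ₗ e.toLinearMap, W.injective_subtype.comp e.injective, he⟩

end Iso

variable {V : Type*} [AddCommGroup V] [Module F V] [FiniteDimensional F V] {Q : QuadraticForm F V}
  {q r i : ℕ} {S : Finset F[X]}

local notation "BQ" => QuadraticMap.polarBilin Q

theorem polar_inv {T : Module.End F V} (hTQ : ∀ v, Q (T v) = Q v) (x y : V) :
    QuadraticMap.polar Q (T x) (T y) = QuadraticMap.polar Q x y := by
  simp only [QuadraticMap.polar, ← map_add, hTQ]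

theorem injective_of_pow {T : Module.End F V} {N : ℕ} (hN : 0 < N) (hT : T ^ N = 1) : Function.Injective T :=
  fun u v h => by
  have h' := congrArg (T ^ (N - 1)) h
  rwa [← Module.End.mul_apply, ← Module.End.mul_apply, ← pow_succ, Nat.sub_add_cancel hN, hT,
    Module.End.one_apply, Module.End.one_apply] at h'

theorem perp_invariant {T : Module.End F V} (hTQ : ∀ v, Q (T v) = Q v) (hinj : Function.Injective T)
    {U : Submodule F V} (hU : ∀ u ∈ U, T u ∈ U) : ∀ v ∈ perp BQ U, T v ∈ perp BQ U := by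
  intro v hv u hu
  obtain ⟨u', hu'⟩ := (LinearMap.injective_iff_surjective (f := T.restrict hU)).1
    (fun a b h => Subtype.ext (hinj (congrArg Subtype.val h))) ⟨u, hu⟩
  rw [show u = T (u' : V) from (congrArg Subtype.val hu').symm]
  show QuadraticMap.polar Q (T (u' : V)) (T v) = 0
  rw [polar_inv hTQ]
  exact hv _ u'.2

/-- The fixed part of a nondegenerate invariant subspace is nondegenerate. -/
theorem nd_fixed (h : Ctx F q r i S) {T : Module.End F V} (hT : T ^ r = 1) (hTQ : ∀ v, Q (T v) = Q v)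
    {W : Submodule F V} (hW : ∀ w ∈ W, T w ∈ W) (hWn : Nd Q W) : Nd Q (W ⊓ LinearMap.ker (T - 1)) := by
  intro w hw hz
  refine hWn w hw.1 fun x hx => ?_
  have hTw : T w = w := sub_eq_zero.1 hw.2
  have hpow : ∀ l : ℕ, (T ^ l) x ∈ W ∧ QuadraticMap.polar Q w ((T ^ l) x) = QuadraticMap.polar Q w x := by
    intro l
    induction l with
    | zero => exact ⟨hx, rfl⟩
    | succ l ih =>
      rw [pow_succ', Module.End.mul_apply]
      refine ⟨hW _ ih.1, ?_⟩
      rw [← ih.2, ← polar_inv hTQ w ((T ^ l) x), hTw]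
  have hs : ∑ l ∈ Finset.range r, (T ^ l) x ∈ W ⊓ LinearMap.ker (T - 1) := by
    refine ⟨Submodule.sum_mem _ fun l _ => (hpow l).1, ?_⟩
    show (T - 1) _ = 0
    rw [← LinearMap.sum_apply, ← Module.End.mul_apply, mul_geom_sum, hT, sub_self, LinearMap.zero_apply]
  have h1 := hz _ hs
  rw [← QuadraticMap.polarBilin_apply_apply, map_sum] at h1
  simp only [QuadraticMap.polarBilin_apply_apply] at h1
  rw [Finset.sum_congr rfl (fun l _ => (hpow l).2),
    Finset.sum_const, Finset.card_range, nsmul_eq_mul] at h1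
  exact (mul_eq_zero.1 h1).resolve_left h.hrF

/-- The decomposition of a nondegenerate invariant subspace. -/
theorem split_fixed (h : Ctx F q r i S) (hB : (BQ).Nondegenerate) {T : Module.End F V} (hT : T ^ r = 1)
    (hTQ : ∀ v, Q (T v) = Q v) {W : Submodule F V} (hW : ∀ w ∈ W, T w ∈ W) (hWn : Nd Q W) :
    ∃ R : Submodule F V, R ≤ W ∧ (∀ w ∈ R, T w ∈ R) ∧ Nd Q R ∧ R ⊓ LinearMap.ker (T - 1) = ⊥ ∧
      R ≤ perp BQ (W ⊓ LinearMap.ker (T - 1)) ∧ (W ⊓ LinearMap.ker (T - 1)) ⊔ R = W ∧
      finrank F ↥(W ⊓ LinearMap.ker (T - 1)) + finrank F R = finrank F W := by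
  have hK := nd_fixed h hT hTQ hW hWn
  obtain ⟨hRn, hRd, hRs⟩ := nd_split hB hK hWn inf_le_left
  have hKi : ∀ v ∈ W ⊓ LinearMap.ker (T - 1), T v ∈ W ⊓ LinearMap.ker (T - 1) := fun v hv => by
    rwa [show T v = v from sub_eq_zero.1 hv.2]
  refine ⟨_, inf_le_left, fun w hw => ⟨hW w hw.1, perp_invariant hTQ (injective_of_pow h.hr.pos hT) hKi w hw.2⟩,
    hRn, eq_bot_iff.2 fun v hv => ?_, inf_le_right, hRs, hRd⟩
  rw [Submodule.mem_bot]
  refine hK v ⟨hv.1.1, hv.2⟩ fun x hx => ?_
  rw [QuadraticMap.polar_comm]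
  exact mem_perp_iff.1 hv.1.2 x hx

theorem charpoly_dvd (h : Ctx F q r i S) {M : Type*} [AddCommGroup M] [Module F M] [FiniteDimensional F M]
    {A : Module.End F M} (hA : A ^ r = 1) : ∃ K, A.charpoly ∣ (X ^ r - 1) ^ K := by
  classical
  let b := Module.finBasis F M
  set Am := LinearMap.toMatrixAlgEquiv b A with hAm
  have hAr : Am ^ r = 1 := by rw [hAm, ← map_pow, hA, map_one]
  have hc : A.charpoly = Am.charpoly := (LinearMap.charpoly_toMatrix A b).symm
  refine ⟨Multiset.card (normalizedFactors A.charpoly), ?_⟩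
  rw [← Multiset.prod_replicate, ← Multiset.map_const']
  conv_lhs => rw [← prod_normalizedFactors_monic A.charpoly_monic, ← Multiset.map_id (normalizedFactors A.charpoly)]
  exact Multiset.prod_dvd_prod_of_dvd _ _ fun Q' hQ' => dvd_X_pow_sub_one_of_dvd_charpoly hAr
    (irreducible_of_normalized_factor Q' hQ') (hc ▸ dvd_of_mem_normalizedFactors hQ')

/-- The characteristic polynomial of a free isometry, and the type of the space. -/
theorem free_type_top (h : Ctx F q r i S) (hB : (BQ).Nondegenerate) {T : Module.End F V} (hT : T ^ r = 1)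
    (hTQ : ∀ v, Q (T v) = Q v) (hfree : ∀ v, T v = v → v = 0) :
    ∃ (L : Multiset F[X]) (J : ℕ), (∀ P ∈ L, P ∈ S) ∧ L.map hat = L ∧ T.charpoly = L.prod ∧
      i * Multiset.card L = cc i * J ∧ finrank F V = cc i * J ∧
      (Plus Q (⊤ : Submodule F V) ↔ (Odd i ∨ Even J)) := by
  classical
  haveI := Fact.mk h.hr
  obtain ⟨K, hK⟩ := charpoly_dvd h hT
  obtain ⟨f, L, hL, hfL⟩ := TSCrit.decompose h.hS T.charpoly_monic hK
  have hf0 : f = 0 := by
    by_contra hf
    obtain ⟨v, hv⟩ := ((Module.End.hasEigenvalue_iff_isRoot_charpoly T 1).2 (by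
      rw [hfL, IsRoot, eval_mul, eval_pow, eval_sub, eval_X, eval_one, sub_self, zero_pow hf,
        zero_mul])).exists_hasEigenvector
    exact hv.2 (hfree v (by simpa using hv.apply_eq_smul))
  subst hf0
  rw [pow_zero, one_mul] at hfL
  have hdim : i * Multiset.card L = finrank F V := by
    rw [← LinearMap.charpoly_natDegree T, hfL, natDegree_prod_eq L (fun P hP => h.hS.monic P (hL P hP)) i
      (fun P hP => h.hS.deg P (hL P hP)), mul_comm]
  have hhat : L.map hat = L := by
    let b := Module.finBasis F V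
    let G := LinearMap.BilinForm.toMatrix b BQ
    have hGu : IsUnit G.det := isUnit_iff_ne_zero.2 ((LinearMap.BilinForm.nondegenerate_iff_det_ne_zero b).1 hB)
    have hcomp : LinearMap.BilinForm.comp BQ T T = BQ :=
      LinearMap.ext fun x => LinearMap.ext fun y => by simpa using polar_inv hTQ x y
    have hA : (LinearMap.toMatrix b b T).transpose * G * LinearMap.toMatrix b b T = G := by
      have h1 := LinearMap.BilinForm.toMatrix_comp b b BQ T T
      rw [hcomp] at h1
      exact h1.symm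
    have h2 := OrthPrimeCount.hat_charpoly hGu hA
    rw [LinearMap.charpoly_toMatrix, hfL, hat_prod] at h2
    refine (TSCrit.form_inj h.hS (f := 0) (f' := 0) (TSCrit.map_hat_mem h.hS hL) hL ?_).2
    rw [pow_zero, one_mul, one_mul, h2]
  obtain ⟨H, O, hHO, hOn, hOo⟩ := TSCrit.split h.hS L hL hhat
  by_cases hio : Odd i
  · refine ⟨L, Multiset.card H, hL, hhat, hfL, ?_, ?_, iff_of_true ?_ (Or.inl hio)⟩
    · rw [hHO, hOo hio, cc, if_neg (Nat.not_even_iff_odd.2 hio), add_zero, Multiset.card_add, Multiset.card_map]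
      ring
    · rw [← hdim, hHO, hOo hio, cc, if_neg (Nat.not_even_iff_odd.2 hio), add_zero, Multiset.card_add,
        Multiset.card_map]
      ring
    · let e := S.equivFin
      let T0 : F[X] → Prop := fun P => ∃ (hP : P ∈ S), e ⟨P, hP⟩ < e ⟨hat P, h.hS.hat_mem P hP⟩
      have hT0 : ∀ P ∈ S, (T0 P ↔ ¬ T0 (hat P)) := fun P hP => by
        constructor
        · rintro ⟨hP', hlt⟩ ⟨hP'', hlt'⟩
          have : (⟨hat (hat P), h.hS.hat_mem _ hP''⟩ : S) = ⟨P, hP'⟩ := Subtype.ext (h.hS.hat_hat P hP)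
          rw [this] at hlt'
          exact lt_asymm hlt hlt'
        · intro hn
          refine ⟨hP, lt_of_le_of_ne (not_lt.1 fun hlt => hn ⟨h.hS.hat_mem P hP, ?_⟩) fun heq => ?_⟩
          · have : (⟨hat (hat P), h.hS.hat_mem _ (h.hS.hat_mem P hP)⟩ : S) = ⟨P, hP⟩ :=
              Subtype.ext (h.hS.hat_hat P hP)
            rw [this]; exact hlt
          · exact h.hS.not_self hio P hP (congrArg Subtype.val (e.injective heq)).symm
      set A := L.filter T0
      set A' := L.filter fun P => ¬ T0 P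
      have hA' : A.map hat = A' := by
        have hLh : L.filter (fun P => ¬ T0 P) = (L.map hat).filter (fun P => ¬ T0 P) := by rw [hhat]
        simp only [A', A]
        rw [hLh, Multiset.filter_map]
        congr 1
        refine Multiset.filter_congr fun P hP => ?_
        simpa using hT0 P (hL P hP)
      have hAA : A + A' = L := Multiset.filter_add_not _ _
      have hmem : ∀ P ∈ A, P ∈ S := fun P hP => hL P (Multiset.mem_of_mem_filter hP)
      refine (plus_iff (nd_top hB) (w := Multiset.card H * i) (by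
        rw [finrank_top, ← hdim, hHO, hOo hio, add_zero, Multiset.card_add, Multiset.card_map]; ring)).2 ?_
      obtain ⟨a, ha⟩ : ∃ a : (⊤ : Submodule F V) ≃ₗ[F] (⊤ : Submodule F V), ∀ x, (a x : V) = T (x : V) := by
        refine ⟨LinearEquiv.ofInjectiveEndo (T.restrict (fun x _ => Submodule.mem_top : ∀ x ∈ (⊤ : Submodule F V), T x ∈ ⊤))
          fun x y hxy => Subtype.ext (injective_of_pow h.hr.pos hT (congrArg Subtype.val hxy)), fun x => rfl⟩
      refine OrthPrimeClasses.isPlus_of_split (res_nondeg (nd_top hB)) (by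
        rw [finrank_top, ← hdim, hHO, hOo hio, add_zero, Multiset.card_add, Multiset.card_map]; ring)
        (a := a) (fun x => by show Q (a x : V) = Q (x : V); rw [ha, hTQ])
        (fun x hx => Subtype.ext (hfree _ (by rw [← ha, hx]))) (A := A.prod) (A' := A'.prod) ?_ ?_ ?_ ?_
      · rw [← Multiset.prod_add, hAA, ← hfL]
        have he : (a : Module.End F (⊤ : Submodule F V)) = Submodule.topEquiv.symm.conj T :=
          LinearMap.ext fun x => Subtype.ext (by rw [LinearEquiv.coe_coe, ha]; rfl)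
        have := LinearMap.aeval_self_charpoly (a : Module.End F (⊤ : Submodule F V))
        rwa [he, LinearEquiv.charpoly_conj, ← he] at this
      · refine isRelPrime_iff_isCoprime.1 ?_
        refine (UniqueFactorizationMonoid.isRelPrime_iff_no_prime_factors ?_).2 ?_
        · exact (monic_multiset_prod_of_monic A (fun P => P) fun P hP => h.hS.monic P (hmem P hP)).ne_zero |> fun e => by
            rwa [Multiset.map_id'] at e
        · intro d hd1 hd2 hdp
          obtain ⟨P1, hP1, hd1'⟩ := hdp.exists_mem_multiset_dvd hd1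
          obtain ⟨P2, hP2, hd2'⟩ := hdp.exists_mem_multiset_dvd hd2
          obtain ⟨hP2L, hP2n⟩ := Multiset.mem_filter.1 hP2
          have hass : Associated P1 P2 :=
            (hdp.irreducible.associated_of_dvd (h.hS.irred P1 (hmem P1 hP1)) hd1').symm.trans
              (hdp.irreducible.associated_of_dvd (h.hS.irred P2 (hL P2 hP2L)) hd2')
          exact hP2n (eq_of_monic_of_associated (h.hS.monic P1 (hmem P1 hP1)) (h.hS.monic P2 (hL P2 hP2L)) hass ▸
            (Multiset.mem_filter.1 hP1).2)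
      · rw [coeff_zero_multiset_prod]
        refine Multiset.prod_ne_zero fun h0 => ?_
        obtain ⟨P, hP, hPz⟩ := Multiset.mem_map.1 h0
        exact h.hS.coeff_zero P (hmem P hP) hPz
      · rw [hat_prod, hA']
  · have hie : Even i := Nat.not_odd_iff_even.1 hio
    refine ⟨L, Multiset.card L, hL, hhat, hfL, by rw [cc, if_pos hie], by rw [cc, if_pos hie, hdim], ?_⟩
    obtain ⟨hh, hhh⟩ := hie
    have hw : finrank F V = 2 * (hh * Multiset.card L) := by rw [← hdim, hhh]; ring
    have hrq0 : (q : ZMod r) ≠ 0 := fun e => h.hrq ((ZMod.natCast_eq_zero_iff q r).1 e)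
    have hq1 : (q : ZMod r) ≠ 1 := fun e => hio (by rw [h.hi, e, orderOf_one]; exact odd_one)
    have hneg : (q : ZMod r) ^ hh = -1 := by
      have hsq : ((q : ZMod r) ^ hh) * ((q : ZMod r) ^ hh) = 1 := by rw [← pow_add, ← hhh, h.hi, pow_orderOf_eq_one]
      refine (mul_self_eq_one_iff.1 hsq).resolve_left fun h1 => ?_
      have := Nat.le_of_dvd (by have := h.hi0; omega) (orderOf_dvd_of_pow_eq_one h1)
      rw [← h.hi] at this
      have := h.hi0
      omega
    have hne : (1 : ZMod r) ≠ -1 := fun e => by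
      have h2 : ((2 : ℕ) : ZMod r) = 0 := by push_cast; linear_combination e
      rw [ZMod.natCast_eq_zero_iff] at h2
      exact h.hr2 ((Nat.prime_dvd_prime_iff_eq h.hr Nat.prime_two).1 h2)
    let a := LinearEquiv.ofInjectiveEndo T (injective_of_pow h.hr.pos hT)
    have har : a ^ r = 1 := LinearEquiv.ext fun v => by
      have hpow : ∀ j : ℕ, (a ^ j) v = (T ^ j) v := fun j => by
        induction j with
        | zero => rfl
        | succ j ih => rw [pow_succ', pow_succ', LinearEquiv.mul_apply, Module.End.mul_apply, ih]; rfl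
      rw [hpow, hT]; rfl
    obtain ⟨hsp, hsm⟩ := sign_of_free h.hq h.hr hw hrq0 hq1 (a := a) hTQ har hfree
    have hqw : (q : ZMod r) ^ (hh * Multiset.card L) = (-1) ^ Multiset.card L := by rw [pow_mul, hneg]
    have htop : Plus Q (⊤ : Submodule F V) ↔ IsPlus Q (hh * Multiset.card L) := by
      rw [plus_iff (nd_top hB) (w := hh * Multiset.card L) (by rw [finrank_top, hw])]
      constructor
      · rintro ⟨e, he⟩
        exact ⟨e.trans Submodule.topEquiv, fun x => he x⟩
      · rintro ⟨e, he⟩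
        exact ⟨e.trans Submodule.topEquiv.symm, fun x => he x⟩
    rw [htop, or_iff_right hio]
    rcases classify hB hw with hp | ⟨hw1, hm⟩
    · refine iff_of_true hp ?_
      have h1 := hsp hp
      rw [hqw] at h1
      by_contra hn
      rw [(Nat.not_even_iff_odd.1 hn).neg_one_pow] at h1
      exact hne h1.symm
    · have h1 := hsm (hh * Multiset.card L - 1) (by omega) hm
      rw [hqw] at h1
      refine iff_of_false (fun hp => ?_) fun he => ?_
      · have hp' := hsp hp
        rw [hqw, h1] at hp'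
        exact hne hp'.symm
      · rw [he.neg_one_pow] at h1; exact hne h1

theorem free_type (h : Ctx F q r i S) {T : Module.End F V} (hT : T ^ r = 1)
    (hTQ : ∀ v, Q (T v) = Q v) {W : Submodule F V} (hW : ∀ w ∈ W, T w ∈ W) (hWn : Nd Q W)
    (hfree : W ⊓ LinearMap.ker (T - 1) = ⊥) :
    ∃ (L : Multiset F[X]) (J : ℕ), (∀ P ∈ L, P ∈ S) ∧ L.map hat = L ∧ (T.restrict hW).charpoly = L.prod ∧
      i * Multiset.card L = cc i * J ∧ finrank F W = cc i * J ∧ (Plus Q W ↔ (Odd i ∨ Even J)) := by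
  obtain ⟨L, J, h1, h2, h3, h4, h5, h6⟩ := free_type_top (Q := Q.comp W.subtype) h (res_nondeg hWn)
    (T := T.restrict hW) (by rw [TSDerange.restrict_pow_eq hW (z := 1) (by rw [hT, one_smul]), one_smul])
    (fun w => hTQ (w : V)) (fun w hw => Subtype.ext (by
      have hm : (w : V) ∈ W ⊓ LinearMap.ker (T - 1) := ⟨w.2, sub_eq_zero.2 (congrArg Subtype.val hw)⟩
      rwa [hfree, Submodule.mem_bot] at hm))
  refine ⟨L, J, h1, h2, h3, h4, h5, ?_⟩
  rw [← h6]
  constructor
  · rintro ⟨U, hUW, hU, hUd⟩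
    refine ⟨U.comap W.subtype, le_top, fun x hx => hU _ hx, ?_⟩
    rw [(Submodule.comapSubtypeEquivOfLe hUW).finrank_eq, finrank_top, hUd]
  · rintro ⟨U, -, hU, hUd⟩
    refine ⟨U.map W.subtype, Submodule.map_subtype_le _ _, by rintro _ ⟨x, hx, rfl⟩; exact hU x hx, ?_⟩
    rw [Submodule.finrank_map_subtype_eq, hUd, finrank_top]

/-- The complete data of an isometry of order `r`. -/
theorem structure_of (h : Ctx F q r i S) (hB : (BQ).Nondegenerate) {T : Module.End F V} (hT : T ^ r = 1)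
    (hTQ : ∀ v, Q (T v) = Q v) :
    ∃ (R : Submodule F V) (hR : ∀ w ∈ R, T w ∈ R) (L : Multiset F[X]) (J : ℕ), Nd Q R ∧
      Nd Q (LinearMap.ker (T - 1)) ∧ R ⊓ LinearMap.ker (T - 1) = ⊥ ∧ R ≤ perp BQ (LinearMap.ker (T - 1)) ∧
      LinearMap.ker (T - 1) ⊔ R = ⊤ ∧ finrank F (LinearMap.ker (T - 1)) + cc i * J = finrank F V ∧
      (∀ P ∈ L, P ∈ S) ∧ L.map hat = L ∧ (T.restrict hR).charpoly = L.prod ∧ i * Multiset.card L = cc i * J ∧
      finrank F R = cc i * J ∧ (Plus Q R ↔ (Odd i ∨ Even J)) ∧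
      T.charpoly = (X - 1) ^ finrank F (LinearMap.ker (T - 1)) * L.prod := by
  have htop : ∀ w ∈ (⊤ : Submodule F V), T w ∈ (⊤ : Submodule F V) := fun _ _ => trivial
  have hK := nd_fixed h hT hTQ htop (nd_top hB)
  obtain ⟨R, -, hR, hRn, hRf, hRp, hRs, hRd⟩ := split_fixed h hB hT hTQ htop (nd_top hB)
  rw [top_inf_eq] at hK hRp hRs hRd
  rw [finrank_top] at hRd
  obtain ⟨L, J, h1, h2, h3, h4, h5, h6⟩ := free_type h hT hTQ hR hRn hRf
  have hKi : ∀ v ∈ LinearMap.ker (T - 1), T v ∈ LinearMap.ker (T - 1) := fun v hv => by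
    rwa [show T v = v from sub_eq_zero.1 hv]
  refine ⟨R, hR, L, J, hRn, hK, hRf, hRp, hRs, by omega, h1, h2, h3, h4, h5, h6, ?_⟩
  have hc : IsCompl (LinearMap.ker (T - 1)) R :=
    ⟨disjoint_iff.2 (inf_bot hB hK hRp), codisjoint_iff.2 hRs⟩
  rw [TSDerange.charpoly_of_isCompl T hc hKi hR, h3]
  congr 1
  rw [show T.restrict hKi = 1 from LinearMap.ext fun v => Subtype.ext (sub_eq_zero.1 v.2)]
  exact LinearMap.charpoly_one

theorem dvd_pow_of_factors (hS : Factors r i S) {L : Multiset F[X]} (hL : ∀ P ∈ L, P ∈ S) :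
    L.prod ∣ (X ^ r - 1) ^ Multiset.card L := by
  rw [← Multiset.prod_replicate, ← Multiset.map_const']
  conv_lhs => rw [← Multiset.map_id L]
  exact Multiset.prod_dvd_prod_of_dvd _ _ fun P hP => hS.dvd P (hL P hP)

/-- An isometry of order `r` with prescribed factors. -/
theorem exists_elem (h : Ctx F q r i S) (hB : (BQ).Nondegenerate) {L : Multiset F[X]} (hL : ∀ P ∈ L, P ∈ S)
    (hh : L.map hat = L) {J : ℕ} (hJ : i * Multiset.card L = cc i * J)
    (hfit : cc i * J < finrank F V ∨ (cc i * J = finrank F V ∧ (Plus Q (⊤ : Submodule F V) ↔ (Odd i ∨ Even J)))) :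
    ∃ T : Module.End F V, T ^ r = 1 ∧ (∀ v, Q (T v) = Q v) ∧
      finrank F (LinearMap.ker (T - 1)) = finrank F V - cc i * J ∧
      T.charpoly = (X - 1) ^ (finrank F V - cc i * J) * L.prod := by
  classical
  obtain ⟨w, hw⟩ := (cc_even i).mul_right J
  rw [← two_mul] at hw
  have hLm : L.prod.Monic := by
    have := TSCrit.monic_form h.hS 0 hL
    rwa [pow_zero, one_mul] at this
  have hdeg : L.prod.natDegree = 2 * w := by
    rw [natDegree_prod_eq L (fun P hP => h.hS.monic P (hL P hP)) i (fun P hP => h.hS.deg P (hL P hP)), mul_comm,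
      hJ, hw]
  have hrev : L.prod.reverse = L.prod := by
    have := TSCrit.reverse_form h.hS 0 hL hh ⟨0, rfl⟩
    rwa [pow_zero, one_mul] at this
  have h1 : L.prod.eval 1 ≠ 0 := by
    rw [eval_multiset_prod]
    refine Multiset.prod_ne_zero fun h0 => ?_
    obtain ⟨P, hP, hPz⟩ := Multiset.mem_map.1 h0
    exact h.hS.eval_one P (hL P hP) hPz
  obtain ⟨Q', a, hQ', ha, har, hca⟩ := OrthPrimeClasses.exists_free_elem hLm hdeg hrev h1
    (h.hr.odd_of_ne_two h.hr2) (dvd_pow_of_factors h.hS hL)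
  obtain ⟨L', J', -, -, hca', -, hd', ht'⟩ := free_type_top h hQ' har ha
    (OrthPrimeClasses.free_of_eval_ne a (by rw [hca]; exact h1))
  rw [finrank_fin_fun, ← hw] at hd'
  obtain rfl : J = J' := Nat.eq_of_mul_eq_mul_left (cc_pos h.hi0) hd'
  have htQ' : IsPlus Q' w ↔ (Odd i ∨ Even J) := by
    rw [← ht', plus_iff (nd_top hQ') (w := w) (by rw [finrank_top, finrank_fin_fun])]
    constructor
    · rintro ⟨e, he⟩
      exact ⟨e.trans Submodule.topEquiv.symm, fun x => he x⟩
    · rintro ⟨e, he⟩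
      exact ⟨e.trans Submodule.topEquiv, fun x => he x⟩
  obtain ⟨U, -, hUn, hUd, hUt⟩ := exists_even hB (nd_top hB) (Odd i ∨ Even J) (u := w) (fun hw0 => by
      refine Or.inr ?_
      have : cc i * J = 0 := by omega
      rcases Nat.mul_eq_zero.1 this with h' | h'
      · have := cc_pos h.hi0; omega
      · exact h' ▸ Even.zero)
    (by
      rw [finrank_top]
      rcases hfit with h' | ⟨h', h''⟩
      · left; omega
      · exact Or.inr ⟨by omega, h''⟩)
  have hemb : Embeds Q' Q := embeds_of_type hQ' hUn (by rw [finrank_fin_fun]) hUd (htQ'.trans hUt.symm)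
  obtain ⟨b, hb, hbr, hbc⟩ := OrthPrimeClasses.exists_extend hQ' hB hemb ha har
  rw [hca, finrank_fin_fun, ← hw] at hbc
  refine ⟨b, hbr, hb, ?_, hbc⟩
  obtain ⟨R, hR, LR, JR, -, -, -, -, -, hdimR, hLR, -, -, hJR, -, -, hcR⟩ := structure_of h hB hbr hb
  rw [hbc] at hcR
  exact ((TSCrit.form_inj h.hS hL hLR hcR).1).symm

/-- Conjugacy of semisimple isometries. -/
theorem exists_conj (h : Ctx F q r i S) (hB : (BQ).Nondegenerate) {A B : Module.End F V} (hA : A ^ r = 1)
    (hBr : B ^ r = 1) (hAQ : ∀ v, Q (A v) = Q v) (hBQ : ∀ v, Q (B v) = Q v) (hc : A.charpoly = B.charpoly) :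
    ∃ g : V ≃ₗ[F] V, (∀ v, Q (g v) = Q v) ∧ ∀ v, g (A v) = B (g v) := by
  haveI := Fact.mk h.hr
  have key : ∀ (C : Module.End F V) (hC : C ^ r = 1),
      LinearEquiv.ofInjectiveEndo C (injective_of_pow h.hr.pos hC) ^ r = 1 := fun C hC => by
    refine LinearEquiv.ext fun v => ?_
    have hpow : ∀ j : ℕ, (LinearEquiv.ofInjectiveEndo C (injective_of_pow h.hr.pos hC) ^ j) v = (C ^ j) v := fun j => by
      induction j with
      | zero => rfl
      | succ j ih => rw [pow_succ', pow_succ', LinearEquiv.mul_apply, Module.End.mul_apply, ih]; rfl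
    rw [hpow, hC]; rfl
  obtain ⟨c, hcc⟩ := OrthPrimeClasses.exists_intertwine h.hrF (key A hA) (key B hBr) hc
  exact OrthSemisimpleConj.exists_conj Q hB (h.hr.odd_of_ne_two h.hr2) h.hrF (a := _) (b := _) hAQ hBQ
    (key A hA) (key B hBr) hcc

/-- An isometry of a hyperbolic space with an invariant singular half. -/
theorem exists_block (h : Ctx F q r i S) {A : Multiset F[X]} (hA : ∀ P ∈ A, P ∈ S) {m : ℕ}
    (hm : i * Multiset.card A = m) :
    ∃ (t : Module.End F (Fin m ⊕ Fin m → F)) (U : Submodule F (Fin m ⊕ Fin m → F)), t ^ r = 1 ∧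
      (∀ x, qPlus m F (t x) = qPlus m F x) ∧ (∀ u ∈ U, t u ∈ U) ∧ (∀ u ∈ U, qPlus m F u = 0) ∧
      finrank F U = m ∧ t.charpoly = (A + A.map hat).prod := by
  classical
  have hAm : A.prod.Monic := by
    have := TSCrit.monic_form h.hS 0 hA
    rwa [pow_zero, one_mul] at this
  have hAd : A.prod.natDegree = m := by
    rw [natDegree_prod_eq A (fun P hP => h.hS.monic P (hA P hP)) i (fun P hP => h.hS.deg P (hA P hP)), mul_comm, hm]
  have hA0 : A.prod.coeff 0 ≠ 0 := by
    rw [coeff_zero_multiset_prod]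
    refine Multiset.prod_ne_zero fun h0 => ?_
    obtain ⟨P, hP, hPz⟩ := Multiset.mem_map.1 h0
    exact h.hS.coeff_zero P (hA P hP) hPz
  obtain ⟨u, ku, hku, huk, huc⟩ := exists_semisimple_charpoly m A.prod hAm hAd hA0
  have hur : u ^ r = 1 := OrthPrimeClasses.pow_r_eq_one hku huk (huc ▸ dvd_pow_of_factors h.hS hA)
  set P := LinearMap.toMatrix' u with hP
  have hPr : P ^ r = 1 := by
    rw [hP]
    show (LinearMap.toMatrixAlgEquiv' u) ^ r = 1
    rw [← map_pow, hur, map_one]
  have hPu : IsUnit P := IsUnit.of_pow_eq_one hPr h.hr.ne_zero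
  have hPd := (Matrix.isUnit_iff_isUnit_det _).1 hPu
  set P' := (P⁻¹).transpose with hP'
  have hP'r : P' ^ r = 1 := by rw [hP', ← Matrix.transpose_pow, Matrix.inv_pow', hPr, inv_one, Matrix.transpose_one]
  let M := Matrix.fromBlocks P 0 0 P'
  have hMk : ∀ k : ℕ, M ^ k = Matrix.fromBlocks (P ^ k) 0 0 (P' ^ k) := by
    intro k
    induction k with
    | zero => simp [M]
    | succ k ih => rw [pow_succ, ih, pow_succ, pow_succ]; simp [M, Matrix.fromBlocks_multiply]
  let ι : (Fin m → F) →ₗ[F] (Fin m ⊕ Fin m → F) :=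
    { toFun := fun f => Sum.elim f 0
      map_add' := fun f g => by funext s; rcases s with s | s <;> simp
      map_smul' := fun c f => by funext s; rcases s with s | s <;> simp }
  have hιi : Function.Injective ι := fun f g hfg => funext fun l => congrFun hfg (Sum.inl l)
  refine ⟨Matrix.toLin' M, LinearMap.range ι, ?_, fun x => ?_, ?_, ?_, ?_, ?_⟩
  · rw [← Matrix.toLin'_pow, hMk, hPr, hP'r, Matrix.fromBlocks_one, Matrix.toLin'_one]; rfl
  · have hdot : ∀ a b : Fin m → F, dotProduct (P.mulVec a) (P'.mulVec b) = dotProduct a b := fun a b => by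
      rw [hP', Matrix.dotProduct_mulVec, Matrix.vecMul_transpose, Matrix.mulVec_mulVec, Matrix.nonsing_inv_mul _ hPd,
        Matrix.one_mulVec]
    have hq : ∀ y : Fin m ⊕ Fin m → F, qPlus m F y = dotProduct (y ∘ Sum.inl) (y ∘ Sum.inr) := fun y => by
      simp [Cfsg.quadFormPlus, dotProduct]
    rw [hq, hq, Matrix.toLin'_apply]
    simp only [M, Matrix.fromBlocks_mulVec, Matrix.zero_mulVec, add_zero, zero_add, Sum.elim_comp_inl,
      Sum.elim_comp_inr]
    exact hdot _ _
  · rintro _ ⟨f, rfl⟩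
    refine ⟨P.mulVec f, ?_⟩
    funext s
    rcases s with s | s <;> simp [ι, M, Matrix.fromBlocks_mulVec, Function.comp_def, Matrix.mulVec, dotProduct]
  · rintro _ ⟨f, rfl⟩
    simp [ι, Cfsg.quadFormPlus]
  · rw [LinearMap.finrank_range_of_inj hιi, finrank_fin_fun]
  · rw [Matrix.charpoly_toLin', Matrix.charpoly_fromBlocks_zero₂₁, hP', Matrix.charpoly_transpose,
      GUPrimeCount.charpoly_inv_hat hPu,
      show P.charpoly = A.prod by rw [← Matrix.charpoly_toLin', hP, Matrix.toLin'_toMatrix', huc],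
      Multiset.prod_add, hat_prod]

/-- Singular invariant subspaces of a free space. -/
theorem exists_sing_free (h : Ctx F q r i S) (hB : (BQ).Nondegenerate) {T : Module.End F V} (hT : T ^ r = 1)
    (hTQ : ∀ v, Q (T v) = Q v) (hfree : ∀ v, T v = v → v = 0) {L H O : Multiset F[X]}
    (hc : T.charpoly = L.prod) (hL : ∀ P ∈ L, P ∈ S) (hHO : L = H + H.map hat + O) (hOh : O.map hat = O)
    (hOodd : Odd i → O = 0) {j : ℕ} (hj : j ≤ Multiset.card H) :
    ∃ U : Submodule F V, (∀ u ∈ U, T u ∈ U) ∧ Sing Q U ∧ finrank F U = i * j := by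
  classical
  obtain ⟨A, hAH, hAc⟩ : ∃ A, A ≤ H ∧ Multiset.card A = j := by
    induction H using Quotient.inductionOn with
    | h l => exact ⟨↑(l.take j), (List.take_sublist j l).subperm, by simpa using hj⟩
  obtain ⟨H', hH'⟩ := le_iff_exists_add.1 hAH
  have hA : ∀ P ∈ A, P ∈ S := fun P hP => hL P (by rw [hHO, hH']; simp [hP])
  obtain ⟨L', J, hL', -, hTc, hLJ, hdim, htype⟩ := free_type_top h hB hT hTQ hfree
  have hLL' : L' = L := (TSCrit.form_inj h.hS (f := 0) (f' := 0) hL' hL (by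
    rw [pow_zero, one_mul, one_mul, ← hTc, hc])).2
  rw [hLL'] at hLJ
  clear hLL' hTc hL' L'
  set L2 := H' + H'.map hat + O with hL2
  have hL2S : ∀ P ∈ L2, P ∈ S := fun P hP => hL P (by
    rw [hHO, hH', Multiset.map_add]; simp only [hL2, Multiset.mem_add] at hP ⊢; tauto)
  have hH'S : ∀ P ∈ H', P ∈ S := fun P hP => hL2S P (by simp [hL2, hP])
  have hL2h : L2.map hat = L2 := by
    rw [hL2, Multiset.map_add, Multiset.map_add, Multiset.map_map, hOh, add_comm (H'.map hat)]
    congr 2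
    conv_rhs => rw [← Multiset.map_id H']
    exact Multiset.map_congr rfl fun P hP => h.hS.hat_hat P (hH'S P hP)
  have hLeq : L = (A + A.map hat) + L2 := by rw [hHO, hH', hL2, Multiset.map_add]; abel
  have hcard : Multiset.card L = 2 * j + (2 * Multiset.card H' + Multiset.card O) := by
    rw [hLeq, hL2]; simp only [Multiset.card_add, Multiset.card_map, hAc]; omega
  obtain ⟨J2, hJ2⟩ : ∃ J2, i * Multiset.card L2 = cc i * J2 := by
    rw [hL2]
    simp only [Multiset.card_add, Multiset.card_map]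
    by_cases hie : Even i
    · exact ⟨_, by rw [cc, if_pos hie]⟩
    · refine ⟨Multiset.card H', ?_⟩
      rw [hOodd (Nat.not_even_iff_odd.1 hie), Multiset.card_zero, cc, if_neg hie]; ring
  have hJsum : cc i * J = 2 * (i * j) + cc i * J2 := by
    rw [← hLJ, ← hJ2, hcard, hL2]; simp only [Multiset.card_add, Multiset.card_map]; ring
  -- the hyperbolic piece
  obtain ⟨X, -, hXn, hXp, hXd⟩ := exists_hyp (nd_top hB) (u := i * j) (by
    rw [finrank_top, hdim]
    rcases Nat.eq_zero_or_pos (cc i * J2) with h0 | h0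
    · refine Or.inr ⟨by omega, htype.2 ?_⟩
      rcases Nat.even_or_odd i with he | ho
      · refine Or.inr ⟨j, ?_⟩
        rw [cc, if_pos he] at hJsum h0
        exact Nat.eq_of_mul_eq_mul_left h.hi0 (by rw [hJsum, h0]; ring)
      · exact Or.inl ho
    · left; omega)
  obtain ⟨hYn, hYd, hYs⟩ := nd_split hB hXn (nd_top hB) le_top
  rw [top_inf_eq] at hYn hYd hYs
  set Y := perp BQ X
  rw [finrank_top, hdim] at hYd
  -- the type of the complement
  have hYt : cc i * J2 = finrank F Y ∧ (Plus Q Y ↔ (Odd i ∨ Even J2)) := by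
    refine ⟨by omega, ?_⟩
    have hs := plus_sup hB hXn hYn le_rfl ⟨i * j, by omega⟩
      (show Even (finrank F Y) by
        obtain ⟨v, hv⟩ := (cc_even i).mul_right J2
        exact ⟨v, by omega⟩)
    rw [hYs] at hs
    have hY : Plus Q Y ↔ (Odd i ∨ Even J) :=
      ⟨fun hy => htype.1 (hs.2 (iff_of_true hXp hy)), fun hj' => (hs.1 (htype.2 hj')).1 hXp⟩
    rw [hY]
    by_cases hio : Odd i
    · simp [hio]
    refine or_congr Iff.rfl ?_
    rw [cc, if_pos (Nat.not_odd_iff_even.1 hio)] at hJsum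
    have hJ : J = 2 * j + J2 := Nat.eq_of_mul_eq_mul_left h.hi0 (by rw [hJsum]; ring)
    rw [hJ, Nat.even_add]
    simp
  obtain ⟨TY, hTYr, hTYQ, -, hTYc⟩ := exists_elem (Q := Q.comp Y.subtype) h (res_nondeg hYn) hL2S hL2h hJ2
    (Or.inr ⟨hYt.1, by
      rw [← hYt.2]
      constructor
      · rintro ⟨U, -, hU, hUd⟩
        refine ⟨U.map Y.subtype, Submodule.map_subtype_le _ _, by rintro _ ⟨x, hx, rfl⟩; exact hU x hx, ?_⟩
        rw [Submodule.finrank_map_subtype_eq, hUd, finrank_top]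
      · rintro ⟨U, hUW, hU, hUd⟩
        refine ⟨U.comap Y.subtype, le_top, fun x hx => hU _ hx, ?_⟩
        rw [(Submodule.comapSubtypeEquivOfLe hUW).finrank_eq, finrank_top, hUd]⟩)
  rw [hYt.1, Nat.sub_self, pow_zero, one_mul] at hTYc
  obtain ⟨t, U, htr, htQ, hUt, hU0, hUd, htc⟩ := exists_block h hA (m := i * j) (by rw [hAc])
  obtain ⟨eX, heX⟩ := (plus_iff hXn hXd).1 hXp
  let TX : Module.End F X := eX.conj t
  have hcompl : IsCompl X Y := nd_isCompl hB hXn
  let e := Submodule.prodEquivOfIsCompl X Y hcompl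
  let G : Module.End F V := e.conj (TX.prodMap TY)
  have hG : ∀ (x : X) (y : Y), G ((x : V) + y) = (TX x : V) + TY y := fun x y => by
    show e ((TX.prodMap TY) (e.symm ((x : V) + y))) = _
    rw [show (x : V) + y = e (x, y) from rfl, e.symm_apply_apply]; rfl
  have hTXQ : ∀ x : X, Q ((TX x : X) : V) = Q (x : V) := fun x => by
    obtain ⟨z, rfl⟩ := eX.surjective x
    show (Q.comp X.subtype) (eX (t (eX.symm (eX z)))) = (Q.comp X.subtype) (eX z)
    rw [eX.symm_apply_apply, heX, htQ, heX]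
  have hGQ : ∀ v, Q (G v) = Q v := fun v => by
    obtain ⟨⟨x, y⟩, rfl⟩ := e.surjective v
    show Q (G ((x : V) + y)) = Q ((x : V) + y)
    rw [hG, Q_add_of_perp (Subtype.prop _) (TY y).2, Q_add_of_perp x.2 y.2, hTXQ]
    congr 1
    exact hTYQ y
  have hGr : G ^ r = 1 := by
    have hp : ∀ k : ℕ, (TX.prodMap TY) ^ k = (TX ^ k).prodMap (TY ^ k) := by
      intro k
      induction k with
      | zero => rfl
      | succ k ih => rw [pow_succ, ih, pow_succ, pow_succ]; rfl
    have hTX : TX ^ r = 1 := by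
      show (eX.conjAlgEquiv F t) ^ r = 1
      rw [← map_pow, htr, map_one]
    show (e.conjAlgEquiv F (TX.prodMap TY)) ^ r = 1
    rw [← map_pow, hp, hTX, hTYr, show ((1 : Module.End F X).prodMap (1 : Module.End F Y)) = 1 from rfl, map_one]
  have hGc : G.charpoly = T.charpoly := by
    show (e.conj (TX.prodMap TY)).charpoly = _
    rw [e.charpoly_conj, LinearMap.charpoly_prodMap, hTYc, hc, hLeq,
      show TX.charpoly = (A + A.map hat).prod by
        show (eX.conj t).charpoly = _
        rw [eX.charpoly_conj, htc]]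
    simp only [Multiset.prod_add]
  obtain ⟨g, hgQ, hg⟩ := exists_conj h hB hGr hT hGQ hTQ hGc
  let j' : U →ₗ[F] V := g.toLinearMap ∘ₗ X.subtype ∘ₗ eX.toLinearMap ∘ₗ U.subtype
  have hj'v : ∀ x : U, j' x = g ((eX x.1 : X) : V) := fun x => rfl
  have hj'i : Function.Injective j' := fun x y hxy => by
    rw [hj'v, hj'v] at hxy
    exact Subtype.ext (eX.injective (Subtype.ext (g.injective hxy)))
  refine ⟨LinearMap.range j', ?_, ?_, by rw [LinearMap.finrank_range_of_inj hj'i, hUd]⟩
  · rintro _ ⟨x, rfl⟩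
    refine ⟨⟨t x.1, hUt _ x.2⟩, ?_⟩
    rw [hj'v, hj'v, ← hg]
    congr 1
    have h2 := hG (eX x.1) 0
    rw [Submodule.coe_zero, add_zero, map_zero, Submodule.coe_zero, add_zero] at h2
    rw [h2]
    show ((eX (t x.1) : X) : V) = ((eX (t (eX.symm (eX x.1))) : X) : V)
    rw [eX.symm_apply_apply]
  · rintro _ ⟨x, rfl⟩
    rw [hj'v, hgQ]
    exact (heX _).trans (hU0 _ x.2)

end Cfsg.Agent.Linear.OrthFree
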