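import Cfsg.Agent.Linear.Torus
import Cfsg.Agent.TwoGroups.ExtSub
import Cfsg.Agent.Forms.QuadOrder

/-! # `O^±_2(q)` are dihedral -/

namespace Cfsg.Agent.Linear

open Matrix

variable {F : Type*} [Field F]

lemma mem_isometryGroup_iff {ι : Type} [Fintype ι] [DecidableEq ι] {Q : (ι → F) → F}
    {g : GL ι F} : g ∈ Cfsg.isometryGroup F Q ↔ ∀ u, Q (g.1 *ᵥ u) = Q u :=
  ⟨fun h u => h u u, fun h u _ => h u⟩

/-- A group of order `2n` with a cyclic subgroup of order `n` inverted by an involution outside. -/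
lemma nonempty_dihedral {G C : Type*} [Group G] [Group C] [Finite C] [IsCyclic C] {n : ℕ}
    (hC : Nat.card C = n) (hG : Nat.card G = 2 * n) (f : C →* G) (hf : Function.Injective f)
    (y : G) (hy : y ∉ f.range) (hy2 : y * y = 1) (hinv : ∀ c, y * f c * y⁻¹ = (f c)⁻¹) :
    Nonempty (G ≃* DihedralGroup n) := by
  obtain ⟨c, hc⟩ := IsCyclic.exists_generator (α := C)
  refine TwoGroups.IsTwoExt.dihedral (x := f c) (y := y) ⟨?_, hG, hC ▸ Nat.card_pos, ?_, hy2, ?_⟩
  · rw [orderOf_injective f hf, orderOf_eq_card_of_forall_mem_zpowers hc, hC]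
  · intro h
    obtain ⟨i, hi⟩ := Subgroup.mem_zpowers_iff.1 h
    exact hy ⟨c ^ i, by rw [map_zpow, hi]⟩
  · rw [hinv, _root_.zpow_neg_one]

/-- The split torus inside `O(x y)`. -/
def plusTorus (t : Fˣ) : GL (Fin 1 ⊕ Fin 1) F :=
  ⟨diagonal (Sum.elim (fun _ => (t : F)) fun _ => ((t⁻¹ : Fˣ) : F)),
    diagonal (Sum.elim (fun _ => ((t⁻¹ : Fˣ) : F)) fun _ => (t : F)),
    by rw [diagonal_mul_diagonal, ← diagonal_one]; congr 1; funext i; rcases i with i | i <;> simp,
    by rw [diagonal_mul_diagonal, ← diagonal_one]; congr 1; funext i; rcases i with i | i <;> simp⟩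

/-- The interchange of the two coordinates. -/
def plusSwap : GL (Fin 1 ⊕ Fin 1) F :=
  ⟨Matrix.fromBlocks 0 1 1 0, Matrix.fromBlocks 0 1 1 0,
    by simp [fromBlocks_multiply], by simp [fromBlocks_multiply]⟩

theorem quadFormPlus_one_dihedral [Fintype F] {q : ℕ} (hF : Fintype.card F = q) :
    Nonempty (Cfsg.isometryGroup F (Cfsg.quadFormPlus 1 F) ≃* DihedralGroup (q - 1)) := by
  have ht : ∀ t : Fˣ, plusTorus t ∈ Cfsg.isometryGroup F (Cfsg.quadFormPlus 1 F) := fun t =>
    mem_isometryGroup_iff.2 fun u => by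
      simp [plusTorus, Cfsg.quadFormPlus, mulVec_diagonal]
      field_simp
  let f : Fˣ →* Cfsg.isometryGroup F (Cfsg.quadFormPlus 1 F) :=
    MonoidHom.mk' (fun t => ⟨plusTorus t, ht t⟩) fun s t => Subtype.ext (Units.ext (by
      simp only [plusTorus, Subgroup.coe_mul, Units.val_mul, diagonal_mul_diagonal]
      congr 1
      funext i
      rcases i with i | i <;> simp [mul_comm]))
  have hs : plusSwap ∈ Cfsg.isometryGroup F (Cfsg.quadFormPlus 1 F) :=
    mem_isometryGroup_iff.2 fun u => by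
      simp [plusSwap, Cfsg.quadFormPlus, fromBlocks_mulVec, mul_comm]
  refine nonempty_dihedral (C := Fˣ) (n := q - 1) ?_ ?_ f (fun s t h => ?_) ⟨plusSwap, hs⟩ ?_ ?_
    fun t => ?_
  · rw [Nat.card_units, Nat.card_eq_fintype_card, hF]
  · have h := Forms.card_isometryGroup_plus 1 hF le_rfl
    simpa using h
  · ext
    exact congrArg (fun g : Cfsg.isometryGroup F (Cfsg.quadFormPlus 1 F) =>
      (g.1 : Matrix (Fin 1 ⊕ Fin 1) (Fin 1 ⊕ Fin 1) F) (Sum.inl 0) (Sum.inl 0)) h |>
        fun e => by simpa [f, plusTorus] using e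
  · rintro ⟨t, h⟩
    have := congrArg (fun g : Cfsg.isometryGroup F (Cfsg.quadFormPlus 1 F) =>
      (g.1 : Matrix (Fin 1 ⊕ Fin 1) (Fin 1 ⊕ Fin 1) F) (Sum.inl 0) (Sum.inl 0)) h
    simp [f, plusTorus, plusSwap] at this
  · exact Subtype.ext (Units.ext (by simp [plusSwap, fromBlocks_multiply]))
  · rw [mul_inv_eq_iff_eq_mul, ← map_inv]
    refine Subtype.ext (Units.ext ?_)
    simp only [f, plusTorus, plusSwap, MonoidHom.mk'_apply, Subgroup.coe_mul, Units.val_mul]
    ext (i | i) (j | j) <;> fin_cases i <;> fin_cases j <;>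
      simp [Matrix.mul_apply, Fintype.sum_sum_type, diagonal_apply, mul_comm]

/-- A vector of `F^(∅ ⊕ 2)` as an element of the quadratic algebra. -/
def toQA (a b : F) (u : (Fin 0 ⊕ Fin 0) ⊕ Fin 2 → F) : QuadraticAlgebra F (-b) a :=
  ⟨u (.inr 0), u (.inr 1)⟩

lemma quadFormMinus_zero (a b : F) (u : (Fin 0 ⊕ Fin 0) ⊕ Fin 2 → F) :
    Cfsg.quadFormMinus 0 F a b u = (toQA a b u).norm := by
  simp [Cfsg.quadFormMinus, toQA, QuadraticAlgebra.norm_def]
  ring

/-- Index equivalence. -/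
def minusIdx : Fin 2 ≃ (Fin 0 ⊕ Fin 0) ⊕ Fin 2 := (Equiv.emptySum (Fin 0 ⊕ Fin 0) (Fin 2)).symm

/-- Multiplication by a norm-one element. -/
noncomputable def minusTorus (a b : F) :
    normOne (-b) a →* GL ((Fin 0 ⊕ Fin 0) ⊕ Fin 2) F where
  toFun z := GeneralLinearGroup.mkOfDetNeZero
    ((nonsplitTorus (-b) a z).1.submatrix minusIdx.symm minusIdx.symm)
    (by rw [det_submatrix_equiv_self, (nonsplitTorus (-b) a z).2]; exact one_ne_zero)
  map_one' := by
    apply Units.ext
    change ((nonsplitTorus (-b) a 1).1.submatrix minusIdx.symm minusIdx.symm) = 1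
    rw [map_one]
    exact submatrix_one_equiv _
  map_mul' z w := by
    apply Units.ext
    change ((nonsplitTorus (-b) a (z * w)).1.submatrix minusIdx.symm minusIdx.symm) =
      ((nonsplitTorus (-b) a z).1.submatrix minusIdx.symm minusIdx.symm) *
        ((nonsplitTorus (-b) a w).1.submatrix minusIdx.symm minusIdx.symm)
    rw [map_mul]
    exact (submatrix_mul_equiv _ _ _ _ _).symm

lemma minusIdx_symm_inr (i : Fin 2) : minusIdx.symm (Sum.inr i) = i := rfl

lemma toQA_minusTorus (a b : F) (z : normOne (-b) a) (u : (Fin 0 ⊕ Fin 0) ⊕ Fin 2 → F) :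
    toQA a b ((minusTorus a b z).1 *ᵥ u) = (z.1 : QuadraticAlgebra F (-b) a) * toQA a b u := by
  change toQA a b (((nonsplitTorus (-b) a z).1.submatrix minusIdx.symm minusIdx.symm) *ᵥ u) = _
  have hv : (nonsplitTorus (-b) a z).1 = !![(z.1 : QuadraticAlgebra F (-b) a).re,
      -b * (z.1 : QuadraticAlgebra F (-b) a).im; (z.1 : QuadraticAlgebra F (-b) a).im,
      (z.1 : QuadraticAlgebra F (-b) a).re + a * (z.1 : QuadraticAlgebra F (-b) a).im] := rfl
  rw [hv]
  ext <;> simp [toQA, mulVec, dotProduct, Fintype.sum_sum_type, minusIdx_symm_inr] <;>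
    ring

/-- The conjugation of the quadratic algebra. -/
noncomputable def minusRefl (a : F) : GL ((Fin 0 ⊕ Fin 0) ⊕ Fin 2) F :=
  GeneralLinearGroup.mkOfDetNeZero ((!![1, a; 0, -1]).submatrix minusIdx.symm minusIdx.symm)
    (by rw [det_submatrix_equiv_self, det_fin_two_of]; simp)

lemma toQA_minusRefl (a b : F) (u : (Fin 0 ⊕ Fin 0) ⊕ Fin 2 → F) :
    toQA a b ((minusRefl a).1 *ᵥ u) = star (toQA a b u) := by
  change toQA a b (((!![1, a; 0, -1]).submatrix minusIdx.symm minusIdx.symm) *ᵥ u) = _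
  ext <;> simp [toQA, mulVec, dotProduct, Fintype.sum_sum_type, minusIdx_symm_inr]

theorem quadFormMinus_zero_dihedral [Fintype F] {q : ℕ} (hF : Fintype.card F = q) (a b : F)
    (hab : ∀ z₁ z₂ : F, z₁ ^ 2 + a * z₁ * z₂ + b * z₂ ^ 2 = 0 → z₁ = 0 ∧ z₂ = 0) :
    Nonempty (Cfsg.isometryGroup F (Cfsg.quadFormMinus 0 F a b) ≃* DihedralGroup (q + 1)) := by
  have : Fact (∀ r : F, r ^ 2 ≠ -b + a * r) :=
    ⟨fun r hr => one_ne_zero (α := F) (by
      have := (hab r (-1) (by linear_combination hr)).2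
      linear_combination -this)⟩
  have ht : ∀ z, minusTorus a b z ∈ Cfsg.isometryGroup F (Cfsg.quadFormMinus 0 F a b) := fun z =>
    mem_isometryGroup_iff.2 fun u => by
      rw [quadFormMinus_zero, quadFormMinus_zero, toQA_minusTorus, map_mul, mem_normOne.1 z.2,
        one_mul]
  have hr : minusRefl a ∈ Cfsg.isometryGroup F (Cfsg.quadFormMinus 0 F a b) :=
    mem_isometryGroup_iff.2 fun u => by
      rw [quadFormMinus_zero, quadFormMinus_zero, toQA_minusRefl]
      simp [QuadraticAlgebra.norm_def]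
      ring
  have hvec : ∀ g h : GL ((Fin 0 ⊕ Fin 0) ⊕ Fin 2) F,
      (∀ u, toQA a b (g.1 *ᵥ u) = toQA a b (h.1 *ᵥ u)) → g = h := fun g h he => by
    refine Units.ext (Matrix.ext_iff_mulVec.2 fun u => ?_)
    funext i
    rcases i with (i | i) | i
    · exact i.elim0
    · exact i.elim0
    · fin_cases i
      · exact congrArg QuadraticAlgebra.re (he u)
      · exact congrArg QuadraticAlgebra.im (he u)
  let f : normOne (-b) a →* Cfsg.isometryGroup F (Cfsg.quadFormMinus 0 F a b) :=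
    (minusTorus a b).codRestrict _ ht
  let e0 : (Fin 0 ⊕ Fin 0) ⊕ Fin 2 → F := Sum.elim (fun _ => 0) ![1, 0]
  have he0 : toQA a b e0 = 1 := by ext <;> simp [toQA, e0, QuadraticAlgebra.re_one, QuadraticAlgebra.im_one]
  refine nonempty_dihedral (n := q + 1) ?_ ?_ f (fun z w h => ?_) ⟨minusRefl a, hr⟩ ?_ ?_
    fun z => ?_
  · rw [card_normOne, hF]
  · have h := Forms.card_isometryGroup_minus 0 hF a b hab
    simpa using h
  · have := congrArg (fun g : Cfsg.isometryGroup F (Cfsg.quadFormMinus 0 F a b) =>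
      toQA a b (g.1.1 *ᵥ e0)) h
    simp only [f, MonoidHom.codRestrict_apply, toQA_minusTorus, he0, mul_one] at this
    exact Subtype.ext (Units.ext this)
  · rintro ⟨z, h⟩
    have h0 := congrArg (fun g : Cfsg.isometryGroup F (Cfsg.quadFormMinus 0 F a b) =>
      toQA a b (g.1.1 *ᵥ e0)) h
    simp only [f, MonoidHom.codRestrict_apply, toQA_minusTorus, toQA_minusRefl, he0, mul_one,
      star_one] at h0
    let e1 : (Fin 0 ⊕ Fin 0) ⊕ Fin 2 → F := Sum.elim (fun _ => 0) ![0, 1]
    have h1 := congrArg (fun g : Cfsg.isometryGroup F (Cfsg.quadFormMinus 0 F a b) =>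
      toQA a b (g.1.1 *ᵥ e1)) h
    simp only [f, MonoidHom.codRestrict_apply, toQA_minusTorus, toQA_minusRefl, h0, one_mul] at h1
    have hi := congrArg QuadraticAlgebra.im h1
    have hr' := congrArg QuadraticAlgebra.re h1
    simp [toQA, e1] at hi hr'
    exact this.out 1 (by
      exfalso
      have h2 : (2 : F) = 0 := by linear_combination hi
      -- in characteristic two the coefficient `a` vanishes, so the norm is a square
      have ha : a = 0 := hr'.symm
      obtain ⟨s, hs⟩ := FiniteField.isSquare_of_char_two (by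
        by_contra hne; exact Ring.two_ne_zero hne h2) (-b)
      exact this.out s (by rw [ha, hs]; ring))
  · refine Subtype.ext (hvec _ _ fun u => ?_)
    simp only [Subgroup.coe_mul, Units.val_mul, ← mulVec_mulVec, toQA_minusRefl, star_star,
      Subgroup.coe_one, Units.val_one, one_mulVec]
  · rw [mul_inv_eq_iff_eq_mul, ← map_inv]
    refine Subtype.ext (hvec _ _ fun u => ?_)
    simp only [f, MonoidHom.codRestrict_apply, Subgroup.coe_mul, Units.val_mul, ← mulVec_mulVec,
      toQA_minusRefl, toQA_minusTorus, star_mul']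
    congr 1
    have h1 : (z.1 : QuadraticAlgebra F (-b) a) * star (z.1 : QuadraticAlgebra F (-b) a) = 1 := by
      rw [← QuadraticAlgebra.algebraMap_norm_eq_mul_star, mem_normOne.1 z.2, map_one]
    rw [Subgroup.coe_inv]
    exact (Units.inv_eq_of_mul_eq_one_right h1).symm

end Cfsg.Agent.Linear
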