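import Cfsg.Agent.KnownB.Proj.Unit.Lang
import Cfsg.Agent.Linear.GUUnipotentClasses

/-!
# Centralisers of field automorphisms in the projective unitary group
-/

set_option autoImplicit false
set_option linter.unusedSectionVars false

namespace Cfsg.Agent.Linear.GUFieldAut

open Matrix Cfsg.Agent.Forms Cfsg.Agent.Linear.HermRoot Cfsg.Agent.Linear.SURegUnipotent

variable {K : Type*} [Field K] [Fintype K] {q₀ q r n : ℕ}

theorem card_fixed_cosets (hr : r.Prime) (hr2 : r ≠ 2) (hn : 1 ≤ n) (hq : q = q₀ ^ r)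
    (hK : Fintype.card K = q ^ 2) (σ : K ≃+* K) (hσ : orderOf σ = r) :
    (Nat.card {g : ↥(Cfsg.GU n K q) // ∃ c : K, c ≠ 0 ∧
        ((g : GL (Fin n) K) : Matrix (Fin n) (Fin n) K).map σ =
          c • ((g : GL (Fin n) K) : Matrix (Fin n) (Fin n) K)} : ℤ) =
      ((q + 1) / (q₀ + 1) : ℕ) *
        ((q₀ : ℤ) ^ (n * (n - 1) / 2) * ∏ i : Fin n, ((q₀ : ℤ) ^ ((i : ℕ) + 1) - (-1) ^ ((i : ℕ) + 1))) := by
  classical
  have hrodd : Odd r := hr.odd_of_ne_two hr2
  let K0 : Subfield K := RingHom.eqLocusField (σ : K →+* K) (RingHom.id K)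
  have hK0mem : ∀ x : K, x ∈ K0 ↔ σ x = x := fun x => Iff.rfl
  haveI : Fintype K0 := Fintype.ofFinite K0
  have hcard := KnownB.Proj.Unit.card_fixed hK hσ K0 hK0mem
  have hK0 : Fintype.card K0 = q₀ ^ 2 := by
    rw [Nat.card_eq_fintype_card, hq, ← pow_mul, mul_comm r 2, pow_mul] at hcard
    exact Nat.pow_left_injective hr.ne_zero hcard
  set ι : K0 →+* K := K0.subtype
  set τ := frobQ hK
  set τ0 := frobQ hK0
  have hτ : ∀ x : K0, ι (τ0 x) = τ (ι x) := fun x => by
    rw [frobQ_apply, frobQ_apply, hq, ← map_pow, KnownB.Proj.Unit.pow_q_eq hK0 hrodd x]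
  have hH : ∀ M : Matrix (Fin n) (Fin n) K0, H τ (M.map ι) = (H τ0 M).map ι := fun M => by
    ext i j
    simp only [H, transpose_apply, Matrix.map_apply, hτ]
  have hσι : ∀ x : K0, σ (ι x) = ι x := fun x => (hK0mem _).1 x.2
  let G0 := ↥(Cfsg.GU n K0 q₀)
  let ψ : G0 →* ↥(Cfsg.GU n K q) :=
    (((Matrix.GeneralLinearGroup.map ι).comp (Cfsg.GU n K0 q₀).subtype)).codRestrict _ fun g => by
      rw [mem_GU hK]
      show H τ (g.1.1.map ι) * g.1.1.map ι = 1
      rw [hH, ← Matrix.map_mul, (mem_GU hK0 g.1).1 g.2, Matrix.map_one _ (map_zero ι) (map_one ι)]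
  have hψ : ∀ g, (ψ g).1.1 = g.1.1.map ι := fun g => rfl
  let Φ : normOne K q × G0 →* ↥(Cfsg.GU n K q) :=
    { toFun := fun p => KnownB.Proj.Unit.sc n hK p.1 * ψ p.2
      map_one' := by simp
      map_mul' := fun a b => by
        simp only [Prod.fst_mul, Prod.snd_mul, map_mul]
        exact (KnownB.Proj.Unit.sc_comm hK b.1 (ψ a.2)).mul_mul_mul_comm _ _ }
  have hΦ : ∀ p, (Φ p).1.1 = ((p.1 : Kˣ) : K) • p.2.1.1.map ι := fun p => by
    show (KnownB.Proj.Unit.sc n hK p.1).1.1 * (ψ p.2).1.1 = _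
    rw [KnownB.Proj.Unit.sc_val, hψ]
    ext i j
    simp [Matrix.diagonal_mul]
  have hrange : Nat.card {g : ↥(Cfsg.GU n K q) // ∃ c : K, c ≠ 0 ∧ g.1.1.map σ = c • g.1.1} = Nat.card Φ.range := by
    refine Nat.card_congr (Equiv.subtypeEquivRight fun g => ⟨fun ⟨c, hc0, hc⟩ => ?_, ?_⟩)
    · haveI : Nonempty (Fin n) := ⟨⟨0, hn⟩⟩
      obtain ⟨a, b, hab⟩ : ∃ a b, g.1.1 a b ≠ 0 := by
        by_contra h
        push Not at h
        exact g.1.isUnit.ne_zero (Matrix.ext fun a b => h a b)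
      set v := g.1.1 a b with hv
      have hfix : ∀ i j, σ (v⁻¹ * g.1.1 i j) = v⁻¹ * g.1.1 i j := fun i j => by
        have h1 := congrFun (congrFun hc i) j
        have h2 := congrFun (congrFun hc a) b
        simp only [Matrix.map_apply, Matrix.smul_apply, smul_eq_mul] at h1 h2
        rw [map_mul, map_inv₀, hv, h1, h2, mul_inv, mul_comm c⁻¹, mul_assoc, ← mul_assoc c⁻¹, inv_mul_cancel₀ hc0,
          one_mul]
      let M : Matrix (Fin n) (Fin n) K0 := fun i j => ⟨v⁻¹ * g.1.1 i j, (hK0mem _).2 (hfix i j)⟩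
      have hM : M.map ι = v⁻¹ • g.1.1 := by ext i j; rfl
      have h1 : H τ (M.map ι) * M.map ι = (τ v⁻¹ * v⁻¹) • (1 : Matrix (Fin n) (Fin n) K) := by
        rw [hM, H_smul, smul_mul_assoc, mul_smul_comm, smul_smul, (mem_GU hK g.1).1 g.2]
      rw [hH, ← Matrix.map_mul] at h1
      set μ : K0 := (H τ0 M * M) ⟨0, hn⟩ ⟨0, hn⟩ with hμ
      have hμv : ι μ = τ v⁻¹ * v⁻¹ := by
        have := congrFun (congrFun h1 ⟨0, hn⟩) ⟨0, hn⟩
        simpa [hμ] using this
      have hμ0 : μ ≠ 0 := fun h => by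
        rw [h, map_zero, eq_comm, mul_eq_zero] at hμv
        have hv0 : v⁻¹ ≠ 0 := inv_ne_zero hab
        exact hμv.elim (fun e => hv0 ((map_eq_zero τ).1 e)) hv0
      have hμτ : τ0 μ = μ := ι.injective (by
        rw [hτ, hμv, map_mul, frobQ_frobQ hK, mul_comm])
      obtain ⟨l, hl0, hl⟩ := exists_norm_of_fixed τ0 (frobQ_frobQ hK0)
        (by
          by_contra h
          push Not at h
          exact frobQ_ne_id hK0 (RingHom.ext h)) hμτ hμ0
      let lam : K := v * ι l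
      have hlam0 : lam ≠ 0 := mul_ne_zero hab ((map_ne_zero ι).2 hl0)
      have hlam : Units.mk0 lam hlam0 ∈ normOne K q := by
        refine (mem_normOne hK).2 ?_
        show v * ι l * τ (v * ι l) = 1
        rw [map_mul, ← hτ, mul_mul_mul_comm, ← map_mul, hl, hμv, map_inv₀]
        field_simp [hab, (map_ne_zero τ).2 hab]
      have hMu : IsUnit (l⁻¹ • M) := by
        rw [Matrix.isUnit_iff_isUnit_det]
        refine isUnit_iff_ne_zero.2 fun h0 => ?_
        have := congrArg ι h0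
        rw [RingHom.map_det, RingHom.mapMatrix_apply, map_zero] at this
        have e : (l⁻¹ • M).map ι = (ι l⁻¹ * v⁻¹) • g.1.1 := by
          ext i j
          show ι (l⁻¹ * M i j) = (ι l⁻¹ * v⁻¹) * g.1.1 i j
          rw [map_mul, mul_assoc]; rfl
        rw [e, Matrix.det_smul] at this
        rcases mul_eq_zero.1 this with h | h
        · exact mul_ne_zero ((map_ne_zero ι).2 (inv_ne_zero hl0)) (inv_ne_zero hab) (eq_zero_of_pow_eq_zero h)
        · exact ((Matrix.isUnit_iff_isUnit_det _).1 g.1.isUnit).ne_zero h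
      have hmem : hMu.unit ∈ Cfsg.GU n K0 q₀ := by
        rw [mem_GU hK0]
        refine Matrix.map_injective ι.injective ?_
        show (H τ0 (l⁻¹ • M) * (l⁻¹ • M)).map ι = (1 : Matrix (Fin n) (Fin n) K0).map ι
        have e : H τ0 (l⁻¹ • M) * (l⁻¹ • M) = μ⁻¹ • (H τ0 M * M) := by
          rw [H_smul, smul_mul_assoc, mul_smul_comm, smul_smul, map_inv₀, ← mul_inv, mul_comm (τ0 l), hl]
        rw [e, Matrix.map_one _ (map_zero ι) (map_one ι),
          show (μ⁻¹ • (H τ0 M * M)).map ι = ι μ⁻¹ • (H τ0 M * M).map ι by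
            ext i j; exact map_mul ι μ⁻¹ _,
          h1, smul_smul, ← hμv, ← map_mul, inv_mul_cancel₀ hμ0, map_one, one_smul]
      refine ⟨(⟨_, hlam⟩, ⟨_, hmem⟩), Subtype.ext (Units.ext ?_)⟩
      rw [hΦ]
      show lam • (l⁻¹ • M).map ι = g.1.1
      ext i j
      show v * ι l * ι (l⁻¹ * M i j) = g.1.1 i j
      rw [map_mul, map_inv₀]
      show v * ι l * ((ι l)⁻¹ * (v⁻¹ * g.1.1 i j)) = _
      field_simp [hab, (map_ne_zero ι).2 hl0]
    · rintro ⟨⟨l, h⟩, rfl⟩
      refine ⟨σ ((l : Kˣ) : K) * ((l : Kˣ) : K)⁻¹, mul_ne_zero ((map_ne_zero σ).2 (Units.ne_zero _))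
        (inv_ne_zero (Units.ne_zero _)), ?_⟩
      rw [hΦ]
      ext i j
      simp only [Matrix.map_apply, Matrix.smul_apply, smul_eq_mul, map_mul, hσι]
      field_simp [Units.ne_zero (l : Kˣ)]
  have hker : Nat.card Φ.ker = q₀ + 1 := by
    rw [← card_normOne hK0]
    refine (Nat.card_congr (Equiv.ofBijective (fun l : normOne K0 q₀ =>
      (⟨(⟨Units.map ι.toMonoidHom l.1, ?_⟩, KnownB.Proj.Unit.sc n hK0 l⁻¹), ?_⟩ : Φ.ker)) ⟨fun l l' h => ?_, fun p => ?_⟩)).symm
    · refine (mem_normOne hK).2 ?_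
      show ι ((l.1 : K0ˣ) : K0) * τ (ι ((l.1 : K0ˣ) : K0)) = 1
      rw [← hτ, ← map_mul, (mem_normOne hK0).1 l.2, map_one]
    · refine MonoidHom.mem_ker.2 (Subtype.ext (Units.ext ?_))
      rw [hΦ, KnownB.Proj.Unit.sc_val]
      ext i j
      rw [Matrix.smul_apply, Matrix.map_apply, OneMemClass.coe_one, Units.val_one, Matrix.one_apply]
      rcases eq_or_ne i j with rfl | hij
      · rw [Matrix.diagonal_apply_eq, if_pos rfl, InvMemClass.coe_inv, Units.val_inv_eq_inv_val, map_inv₀]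
        show ι ((l.1 : K0ˣ) : K0) * (ι ((l.1 : K0ˣ) : K0))⁻¹ = 1
        exact mul_inv_cancel₀ ((map_ne_zero ι).2 (Units.ne_zero _))
      · rw [Matrix.diagonal_apply_ne _ hij, map_zero, smul_zero, if_neg hij]
    · exact Subtype.ext (Units.ext (ι.injective (congrArg (fun p : Φ.ker => ((p.1.1 : Kˣ) : K)) h)))
    · obtain ⟨⟨l, h⟩, hp⟩ := p
      have hp' : ((l : Kˣ) : K) • h.1.1.map ι = 1 := by
        rw [← hΦ (l, h), MonoidHom.mem_ker.1 hp]
        rfl
      have hl : ι (h.1.1 ⟨0, hn⟩ ⟨0, hn⟩) = ((l : Kˣ) : K)⁻¹ := by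
        have := congrFun (congrFun hp' ⟨0, hn⟩) ⟨0, hn⟩
        simp only [Matrix.smul_apply, Matrix.map_apply, smul_eq_mul, Matrix.one_apply_eq] at this
        exact eq_inv_of_mul_eq_one_right this
      set m := h.1.1 ⟨0, hn⟩ ⟨0, hn⟩
      have hm0 : m ≠ 0 := fun h0 => by
        rw [h0, map_zero, eq_comm, inv_eq_zero] at hl
        exact Units.ne_zero _ hl
      have hmn : (Units.mk0 m hm0)⁻¹ ∈ normOne K0 q₀ := by
        refine inv_mem ((mem_normOne hK0).2 (ι.injective ?_))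
        show ι (m * τ0 m) = ι 1
        rw [map_mul, hτ, hl, map_inv₀, ← mul_inv, (mem_normOne hK).1 l.2, inv_one, map_one]
      refine ⟨⟨_, hmn⟩, Subtype.ext (Prod.ext (Subtype.ext (Units.ext ?_)) (Subtype.ext (Units.ext ?_)))⟩
      · show ι ((Units.mk0 m hm0)⁻¹ : K0ˣ).1 = _
        rw [Units.val_inv_eq_inv_val, Units.val_mk0, map_inv₀, hl, inv_inv]
      · show (KnownB.Proj.Unit.sc n hK0 _).1.1 = h.1.1
        rw [KnownB.Proj.Unit.sc_val]
        refine Matrix.map_injective ι.injective ?_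
        simp only
        rw [Matrix.diagonal_map (map_zero ι)]
        have e : h.1.1.map ι = ((l : Kˣ) : K)⁻¹ • (1 : Matrix (Fin n) (Fin n) K) := by
          rw [← hp', smul_smul, inv_mul_cancel₀ (Units.ne_zero _), one_smul]
        rw [e, InvMemClass.coe_inv, Units.val_inv_eq_inv_val]
        ext i j
        rcases eq_or_ne i j with rfl | hij
        · simp [Matrix.diagonal, hl]
        · simp [Matrix.diagonal, hij]
  have htot : Nat.card Φ.range * (q₀ + 1) = (q + 1) * Nat.card G0 := by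
    have h := Subgroup.card_eq_card_quotient_mul_card_subgroup Φ.ker
    rw [Nat.card_congr (QuotientGroup.quotientKerEquivRange Φ).toEquiv, Nat.card_prod, card_normOne hK, hker] at h
    exact h.symm
  have hdvd : q₀ + 1 ∣ q + 1 := by
    have := Odd.nat_add_dvd_pow_add_pow q₀ 1 hrodd
    rwa [one_pow, ← hq] at this
  rw [hrange, ← GUUnipotentClasses.card_GU_int hK0, ← Nat.cast_mul, Nat.cast_inj]
  refine Nat.eq_of_mul_eq_mul_right (Nat.succ_pos q₀) ?_
  rw [Nat.succ_eq_add_one, htot, mul_right_comm, Nat.div_mul_cancel hdvd]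

end Cfsg.Agent.Linear.GUFieldAut
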