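import Cfsg.Agent.FGS2.GLCrossSylow
import Mathlib

/-!
# Sylow `r`-subgroups of `SL_n(q)` for `r > n`
-/

set_option autoImplicit false
set_option linter.unusedSectionVars false

namespace Cfsg.Agent.Linear.HomocyclicSylow

open Cfsg.Agent.FGS2 Polynomial

variable {F : Type*} [Field F] [Fintype F] {n : ℕ}

theorem padic_cyclotomic {q r e : ℕ} [Fact r.Prime] (hq1 : 1 < q) (hrq : ¬ r ∣ q) (he : e = orderOf (q : ZMod r)) :
    padicValNat r ((cyclotomic e ℤ).eval (q : ℤ)).natAbs = padicValNat r (q ^ e - 1) := by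
  have he0 : 0 < e := Nat.pos_of_ne_zero (he ▸ GLCross.orderOf_ne_zero hrq)
  have hprod := congrArg (fun P : ℤ[X] => (P.eval (q : ℤ)).natAbs) (prod_cyclotomic_eq_X_pow_sub_one he0 ℤ)
  simp only [eval_prod, eval_sub, eval_pow, eval_X, eval_one] at hprod
  rw [show ((q : ℤ) ^ e - 1).natAbs = q ^ e - 1 by
    rw [← Int.natCast_pow, ← Nat.cast_one, ← Nat.cast_sub (Nat.one_le_pow _ _ (by omega)), Int.natAbs_natCast]] at hprod
  rw [← Finset.mul_prod_erase _ _ (Nat.mem_divisors_self e he0.ne'), Int.natAbs_mul] at hprod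
  have hne : q ^ e - 1 ≠ 0 := by have := Nat.one_lt_pow he0.ne' hq1; omega
  have hnd : ¬ r ∣ (∏ d ∈ (e.divisors).erase e, (cyclotomic d ℤ).eval (q : ℤ)).natAbs := by
    rw [← Int.natCast_dvd, Prime.dvd_finsetProd_iff (Nat.prime_iff_prime_int.1 Fact.out)]
    rintro ⟨d, hd, hrd⟩
    rw [Finset.mem_erase, Nat.mem_divisors] at hd
    obtain ⟨hde, hdd, -⟩ := hd
    have hdlt : d < e := lt_of_le_of_ne (Nat.le_of_dvd he0 hdd) hde
    have hd0 : 0 < d := Nat.pos_of_dvd_of_pos hdd he0
    have h1 : (r : ℤ) ∣ (q : ℤ) ^ d - 1 := by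
      refine hrd.trans ?_
      have := eval_dvd (x := (q : ℤ)) (cyclotomic.dvd_X_pow_sub_one d ℤ)
      simpa using this
    rw [← Int.natCast_pow, ← Nat.cast_one, ← Nat.cast_sub (Nat.one_le_pow _ _ (by omega)), Int.natCast_dvd_natCast,
      GLCross.dvd_pow_sub_one_iff hrq, ← he] at h1
    exact absurd (Nat.le_of_dvd hd0 h1) (by omega)
  rw [← hprod, padicValNat.mul (fun h => hne (by rw [← hprod, h, zero_mul]))
    (fun h => hne (by rw [← hprod, h, mul_zero])), padicValNat.eq_zero_of_not_dvd hnd, add_zero]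

theorem exists_cyclic_hom {K : Type} [Field K] [Finite K] {N : ℕ} (hN : N ∣ Nat.card Kˣ) :
    ∃ ψ : Multiplicative (ZMod N) →* Kˣ, Function.Injective ψ := by
  classical
  obtain ⟨z, hz⟩ := IsCyclic.exists_ofOrder_eq_natCard (α := Kˣ)
  set w := z ^ (Nat.card Kˣ / N)
  have hw : orderOf w = N := by
    show orderOf (z ^ (Nat.card Kˣ / N)) = N
    rw [← hz]
    exact orderOf_pow_orderOf_div (orderOf_pos z).ne' (hz ▸ hN)
  have hc : Nat.card (Subgroup.zpowers w) = N := by rw [Nat.card_zpowers, hw]
  let e : Multiplicative (ZMod N) ≃* Subgroup.zpowers w :=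
    (ZMod.ringEquivCongr hc.symm).toAddEquiv.toMultiplicative.trans (zmodCyclicMulEquiv inferInstance)
  exact ⟨(Subgroup.zpowers w).subtype.comp e.toMonoidHom, (Subgroup.zpowers w).subtype_injective.comp e.injective⟩

theorem sylow_equiv {q : ℕ} (hq : Fintype.card F = q) (n r : ℕ) [hr : Fact r.Prime] (hrn : n < r) (hrq : ¬ r ∣ q)
    (P : Sylow r (Matrix.SpecialLinearGroup (Fin n) F)) :
    Nonempty (↥(P : Subgroup (Matrix.SpecialLinearGroup (Fin n) F)) ≃*
      (Fin ((Finset.Icc 2 n).filter (fun i => orderOf (q : ZMod r) ∣ i)).card →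
        Multiplicative (ZMod (r ^ padicValNat r ((cyclotomic (orderOf (q : ZMod r)) ℤ).eval (q : ℤ)).natAbs)))) := by
  classical
  set G := Matrix.SpecialLinearGroup (Fin n) F
  rcases Nat.lt_or_ge n 2 with hn | hn
  · haveI : Subsingleton G := ⟨fun A B => by
      rcases (show n = 0 ∨ n = 1 by omega) with rfl | rfl
      · exact Subtype.ext (Matrix.ext fun i => i.elim0)
      · refine Subtype.ext ?_
        ext i j
        have hA := A.2
        have hB := B.2
        rw [Matrix.det_fin_one] at hA hB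
        fin_cases i; fin_cases j
        exact hA.trans hB.symm⟩
    rw [Finset.Icc_eq_empty (by omega), Finset.filter_empty, Finset.card_empty]
    exact ⟨{ toFun := fun _ => 1
             invFun := fun _ => 1
             left_inv := fun x => Subsingleton.elim _ _
             right_inv := fun x => Subsingleton.elim _ _
             map_mul' := fun _ _ => Subsingleton.elim _ _ }⟩
  have hr2 : r ≠ 2 := by omega
  have hq1 : 1 < q := hq ▸ Fintype.one_lt_card
  set e := orderOf (q : ZMod r) with he
  have he0 : 0 < e := Nat.pos_of_ne_zero (GLCross.orderOf_ne_zero hrq)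
  rw [padic_cyclotomic hq1 hrq he]
  set a := padicValNat r (q ^ e - 1) with ha
  obtain ⟨K, hKf, hKfin, hK, hhom⟩ := GLCross.exists_mon_hom (F := F) e n he0.ne'
  have hK' : Nat.card K = q ^ e := by rw [hK, Nat.card_eq_fintype_card, hq]
  have hcard : padicValNat r (Nat.card (GL (Fin n) F)) = n / e * a := by
    rw [GLCross.padic_card_eq hr2 hq hrq n K hK', GLCross.card_mon, Nat.card_units, hK', Nat.card_fin, ← he,
      padicValNat.mul (pow_ne_zero _ (by have := Nat.one_lt_pow he0.ne' hq1; omega)) (Nat.factorial_ne_zero _),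
      padicValNat.pow, padicValNat.eq_zero_of_not_dvd (n := (n / e).factorial) (fun h => by
        have := (hr.out.dvd_factorial).1 h
        have := Nat.div_le_self n e
        omega), add_zero]
  have hGL : Nat.card (GL (Fin n) F) = Nat.card G * (q - 1) := by
    haveI : NeZero n := ⟨by omega⟩
    let f : G → (Matrix.GeneralLinearGroup.det : GL (Fin n) F →* Fˣ).ker := fun g =>
      ⟨Matrix.SpecialLinearGroup.toGL g, by rw [MonoidHom.mem_ker]; exact Units.ext g.2⟩
    have hf : Function.Bijective f :=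
      ⟨fun x y h => Matrix.SpecialLinearGroup.toGL_injective (congrArg Subtype.val h),
        fun g => ⟨⟨g.1.1, congrArg Units.val (MonoidHom.mem_ker.1 g.2)⟩, Subtype.ext (Units.ext rfl)⟩⟩
    rw [Nat.card_congr (Equiv.ofBijective f hf), ← hq, ← Fintype.card_units, ← Nat.card_eq_fintype_card,
      ← Subgroup.card_top (G := Fˣ), ← MonoidHom.range_eq_top.2 (Matrix.GeneralLinearGroup.det_surjective (n := Fin n) (R := F)),
      ← Subgroup.index_ker, Subgroup.card_mul_index]
  have hSL : padicValNat r (Nat.card G) + padicValNat r (q - 1) = n / e * a := by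
    rw [← hcard, hGL, padicValNat.mul Nat.card_pos.ne' (by omega)]
  set m := ((Finset.Icc 2 n).filter (fun i => e ∣ i)).card with hm
  set N := r ^ a with hN
  haveI : NeZero N := ⟨pow_ne_zero _ hr.out.ne_zero⟩
  have hNdvd : N ∣ Nat.card Kˣ := by rw [Nat.card_units, hK']; exact pow_padicValNat_dvd
  -- an embedding into SL
  suffices h : ∃ φ : (Fin m → Multiplicative (ZMod N)) →* G, Function.Injective φ ∧
      padicValNat r (Nat.card G) = m * a by
    obtain ⟨φ, hφ, hv⟩ := h
    let Q : Sylow r G := Sylow.ofCard φ.range (by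
      rw [← Nat.card_congr (MonoidHom.ofInjective hφ).toEquiv, Nat.card_fun, Nat.card_fin,
        Nat.card_congr Multiplicative.toAdd, Nat.card_zmod, Nat.factorization_def _ hr.out, hv, hN, ← pow_mul, mul_comm])
    exact ⟨(P.equiv Q).trans (MonoidHom.ofInjective hφ).symm⟩
  by_cases he1 : e = 1
  · have hm' : m = n - 1 := by
      rw [hm, Finset.filter_true_of_mem fun i _ => by rw [he1]; exact one_dvd i, Nat.card_Icc]
      omega
    have ha' : padicValNat r (q - 1) = a := by rw [ha, he1, pow_one]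
    have hv : padicValNat r (Nat.card G) = m * a := by
      rw [ha', he1, Nat.div_one] at hSL
      rw [hm', Nat.sub_mul, one_mul]
      omega
    obtain ⟨z, hz⟩ := IsCyclic.exists_ofOrder_eq_natCard (α := Fˣ)
    have hNF : N ∣ Nat.card Fˣ := by
      rw [Nat.card_units, Nat.card_eq_fintype_card, hq, hN, ← ha']; exact pow_padicValNat_dvd
    have hw : orderOf (z ^ (Nat.card Fˣ / N)) = N := by
      rw [← hz]; exact orderOf_pow_orderOf_div (orderOf_pos z).ne' (hz ▸ hNF)
    let ζ : Multiplicative (ZMod N) ≃* Subgroup.zpowers (z ^ (Nat.card Fˣ / N)) :=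
      (ZMod.ringEquivCongr ((Nat.card_zpowers _).trans hw).symm).toAddEquiv.toMultiplicative.trans
        (zmodCyclicMulEquiv inferInstance)
    let ψ : Multiplicative (ZMod N) →* Fˣ := (Subgroup.zpowers (z ^ (Nat.card Fˣ / N))).subtype.comp ζ.toMonoidHom
    have hψ : Function.Injective ψ := (Subgroup.subtype_injective _).comp ζ.injective
    let d : (Fin m → Multiplicative (ZMod N)) → Fin m ⊕ Unit → F :=
      fun x => Sum.elim (fun i => (ψ (x i) : F)) (fun _ => ((∏ i, ψ (x i))⁻¹ : Fˣ))
    have hd1 : ∀ x, ∏ k, d x k = 1 := fun x => by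
      rw [Fintype.prod_sum_type]
      simp only [d, Sum.elim_inl, Sum.elim_inr, Fintype.prod_unique, ← Units.coe_prod, Units.mul_inv]
    let eι : Fin m ⊕ Unit ≃ Fin n := Fintype.equivFinOfCardEq (by simp; omega)
    have hdm : ∀ x y k, d (x * y) k = d x k * d y k := fun x y k => by
      rcases k with i | i
      · show ((ψ (x i * y i) : Fˣ) : F) = (ψ (x i) : F) * (ψ (y i) : F)
        rw [map_mul, Units.val_mul]
      · show (((∏ i, ψ (x i * y i))⁻¹ : Fˣ) : F) = (((∏ i, ψ (x i))⁻¹ : Fˣ) : F) * (((∏ i, ψ (y i))⁻¹ : Fˣ) : F)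
        rw [← Units.val_mul, ← mul_inv, ← Finset.prod_mul_distrib, Finset.prod_congr rfl fun i _ => map_mul ψ (x i) (y i)]
    refine ⟨MonoidHom.mk' (fun x => ⟨Matrix.diagonal (fun j => d x (eι.symm j)), by
        rw [Matrix.det_diagonal, eι.symm.prod_comp (d x), hd1]⟩)
      (fun x y => Subtype.ext (by
        show Matrix.diagonal (fun j => d (x * y) (eι.symm j)) =
          Matrix.diagonal (fun j => d x (eι.symm j)) * Matrix.diagonal (fun j => d y (eι.symm j))
        rw [Matrix.diagonal_mul_diagonal]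
        exact congrArg Matrix.diagonal (funext fun j => hdm x y _))), fun x y h => funext fun i => ?_, hv⟩
    have h'' : (fun j => d x (eι.symm j)) = fun j => d y (eι.symm j) :=
      Matrix.diagonal_injective (congrArg Subtype.val h)
    have h' : d x (Sum.inl i) = d y (Sum.inl i) := by
      have := congrFun h'' (eι (Sum.inl i))
      simpa only [Equiv.symm_apply_apply] using this
    exact hψ (Units.ext h')
  · have hm' : m = n / e := by
      rw [hm, ← Nat.Ioc_filter_dvd_card_eq_div n e]
      congr 1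
      ext i
      simp only [Finset.mem_filter, Finset.mem_Icc, Finset.mem_Ioc]
      constructor
      · exact fun ⟨⟨h1, h2⟩, h3⟩ => ⟨⟨by omega, h2⟩, h3⟩
      · intro ⟨⟨h1, h2⟩, h3⟩
        have := Nat.le_of_dvd h1 h3
        exact ⟨⟨by omega, h2⟩, h3⟩
    have hrq1 : ¬ r ∣ q - 1 := fun h => he1 (by
      have := (GLCross.dvd_pow_sub_one_iff (p := r) hrq 1).1 (by rwa [pow_one])
      rwa [Nat.dvd_one] at this)
    have hv : padicValNat r (Nat.card G) = m * a := by
      rw [padicValNat.eq_zero_of_not_dvd hrq1, add_zero] at hSL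
      rw [hm', hSL]
    obtain ⟨ψ, hψ⟩ := exists_cyclic_hom hNdvd
    obtain ⟨f, hf⟩ := hhom (Fin m) (by rw [Nat.card_fin, hm']; exact Nat.mul_div_le _ _)
    let g : (Fin m → Multiplicative (ZMod N)) →* GL (Fin n) F :=
      f.comp (SemidirectProduct.inl.comp (MonoidHom.compLeft ψ (Fin m)))
    have hg : Function.Injective g := hf.comp (SemidirectProduct.inl_injective.comp fun x y h =>
      funext fun i => hψ (congrFun h i))
    have hdet : ∀ x, Matrix.GeneralLinearGroup.det (g x) = 1 := fun x => by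
      set u := Matrix.GeneralLinearGroup.det (g x)
      have h1 : u ^ N = 1 := by
        have : x ^ N = 1 := funext fun i => Multiplicative.toAdd.injective (by
          simp)
        rw [← map_pow, ← map_pow, this, map_one, map_one]
      have h2 := Nat.dvd_gcd (orderOf_dvd_of_pow_eq_one h1) (orderOf_dvd_card (x := u))
      rw [Fintype.card_units, hq, hN, Nat.Coprime.gcd_eq_one (Nat.Coprime.pow_left a (hr.out.coprime_iff_not_dvd.2 hrq1)),
        Nat.dvd_one, orderOf_eq_one_iff] at h2
      exact h2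
    refine ⟨MonoidHom.mk' (fun x => ⟨(g x).1, congrArg Units.val (hdet x)⟩) (fun x y => Subtype.ext (by
      show (g (x * y)).1 = (g x).1 * (g y).1
      rw [map_mul, Units.val_mul])), fun x y h => hg (Units.ext ?_), hv⟩
    exact congrArg Subtype.val h

end Cfsg.Agent.Linear.HomocyclicSylow
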