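import Cfsg.Agent.GeomClasses.OrthTools
import Cfsg.Agent.GeomClasses.OmegaBridge
import Cfsg.Agent.Forms.InvolTwoOrth
import Cfsg.Agent.Forms.OrthGen

/-!
# Elements of `Ω` given as linear maps
-/

set_option autoImplicit false
set_option linter.unusedSectionVars false

namespace Cfsg.Agent.Linear.OmegaElem

open Cfsg.Agent.Forms Cfsg.Agent.GeomClasses

variable {F : Type*} [Field F] [Fintype F]

theorem generated {V : Type*} [AddCommGroup V] [Module F V] [FiniteDimensional F V] (Q : QuadraticForm F V)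
    (hQ : (QuadraticMap.polarBilin Q).Nondegenerate) (hn : 5 ≤ Module.finrank F V) :
    Subgroup.closure (reflectionSet Q) = ⊤ := by
  by_cases h2 : (2 : F) = 0
  · haveI : Fact (Nat.Prime 2) := ⟨Nat.prime_two⟩
    haveI : CharP F 2 := CharTwo.of_one_ne_zero_of_two_eq_zero one_ne_zero h2
    exact closure_reflectionSet_char_two hQ (Or.inr (Or.inl (by omega)))
  · exact closure_reflectionSet_odd h2 Q hQ

variable {ι : Type} [Fintype ι] [DecidableEq ι] {Q : QuadraticForm F (ι → F)}

theorem preserves {x : GL ι F} (hx : x ∈ Cfsg.Geo.omegaGL ⇑Q) (v : ι → F) :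
    Q (Matrix.toLin' (x : Matrix ι ι F) v) = Q v := by
  rw [Matrix.toLin'_apply]
  exact omegaGL_preserves Q hx v

/-- An isometry of odd order lies in `Ω`. -/
theorem exists_of_odd (hQ : (QuadraticMap.polarBilin Q).Nondegenerate) (hn : 5 ≤ Fintype.card ι)
    {T : Module.End F (ι → F)} {r : ℕ} (hr : Odd r) (hT : T ^ r = 1) (hTQ : ∀ v, Q (T v) = Q v) :
    ∃ x : GL ι F, x ∈ Cfsg.Geo.omegaGL ⇑Q ∧ Matrix.toLin' (x : Matrix ι ι F) = T ∧ x ^ r = 1 := by
  set A := LinearMap.toMatrix' T with hA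
  have hAr : A ^ r = 1 := by
    rw [hA]
    show (LinearMap.toMatrixAlgEquiv' T) ^ r = 1
    rw [← map_pow, hT, map_one]
  obtain ⟨x, hx⟩ : ∃ x : GL ι F, (x : Matrix ι ι F) = A :=
    ⟨(IsUnit.of_pow_eq_one hAr (Nat.ne_of_gt hr.pos)).unit, rfl⟩
  have hxr : x ^ r = 1 := Units.ext (by rw [Units.val_pow_eq_pow_val, hx, hAr, Units.val_one])
  have hxT : Matrix.toLin' (x : Matrix ι ι F) = T := by rw [hx, hA, Matrix.toLin'_toMatrix']
  obtain ⟨g, rfl⟩ : ∃ g : orthGroup Q, orthToGL Q g = x :=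
    ⟨isometryEquiv Q ⟨x, mem_isometryGroup_iff.2 fun v => by
      rw [← Matrix.toLin'_apply, hxT]; exact hTQ v⟩, by simp [orthToGL]⟩
  refine ⟨_, ?_, hxT, hxr⟩
  rw [omegaGL_eq_map]
  refine Subgroup.mem_map_of_mem _ ?_
  have hinj : Function.Injective (orthToGL Q) :=
    fun a b h => (isometryEquiv Q).symm.injective (Subtype.ext h)
  have hg : g ^ r = 1 := hinj (by rw [map_pow, hxr, map_one])
  have hsq : ∀ y : Abelianization (orthGroup Q), y * y = 1 := by
    intro y
    obtain ⟨z, rfl⟩ : ∃ z, Abelianization.of z = y := QuotientGroup.mk_surjective y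
    have hz : z ∈ Subgroup.closure (reflectionSet Q) :=
      generated Q hQ (by rw [Module.finrank_pi]; exact hn) ▸ Subgroup.mem_top z
    induction hz using Subgroup.closure_induction with
    | mem u hu => obtain ⟨v, hv, rfl⟩ := hu; rw [← map_mul, reflection_mul_self, map_one]
    | one => simp
    | mul a b _ _ ha hb => rw [map_mul, mul_mul_mul_comm, ha, hb, one_mul]
    | inv a _ ha => rw [map_inv, ← mul_inv, ha, inv_one]
  have h0 : Abelianization.of g = 1 := by
    obtain ⟨k, rfl⟩ := hr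
    have h := congrArg Abelianization.of hg
    rwa [map_pow, map_one, pow_succ, pow_mul, pow_two, hsq, one_pow, one_mul] at h
  rwa [← Abelianization.ker_of, MonoidHom.mem_ker]

end Cfsg.Agent.Linear.OmegaElem
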