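import Cfsg.Agent.Linear.InvolOmega
import Cfsg.Agent.Linear.OmegaElem

/-!
# Isometries with square `-1`, where `-1` is not a square
-/

set_option autoImplicit false
set_option linter.unusedSectionVars false

namespace Cfsg.Agent.Linear.InvolMinusOne

open Module Cfsg.Agent.Forms Cfsg.Agent.Linear.OrthSpaces

variable {F : Type*} [Field F] [Fintype F] {V : Type*} [AddCommGroup V] [Module F V] [FiniteDimensional F V]
  {Q : QuadraticForm F V} {q : ℕ}

local notation "BQ" => QuadraticMap.polarBilin Q

theorem exists_sum_sq (hF : Fintype.card F = q) (hq : Odd q) (a : F) : ∃ x y : F, x ^ 2 + y ^ 2 = a := by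
  obtain ⟨x, y, h⟩ := FiniteField.exists_root_sum_quadratic (R := F) (f := Polynomial.X ^ 2)
    (g := Polynomial.X ^ 2 - Polynomial.C a) (Polynomial.degree_X_pow 2)
    (Polynomial.degree_X_pow_sub_C (by decide) _) (by rw [hF]; exact Nat.odd_iff.1 hq)
  exact ⟨x, y, by simp at h; linear_combination h⟩

theorem polar_T {T : Module.End F V} (hT : ∀ v, T (T v) = -v) (hTQ : ∀ v, Q (T v) = Q v) (x y : V) :
    QuadraticMap.polar Q (T x) (T y) = QuadraticMap.polar Q x y ∧
      QuadraticMap.polar Q x (T y) = -QuadraticMap.polar Q (T x) y := by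
  have h : ∀ x y, QuadraticMap.polar Q (T x) (T y) = QuadraticMap.polar Q x y := fun x y => by
    simp only [QuadraticMap.polar, ← map_add, hTQ]
  refine ⟨h x y, ?_⟩
  rw [← h x (T y), hT, QuadraticMap.polar_neg_right]

theorem polar_self_T (h2 : (2 : F) ≠ 0) {T : Module.End F V} (hT : ∀ v, T (T v) = -v)
    (hTQ : ∀ v, Q (T v) = Q v) (v : V) : QuadraticMap.polar Q v (T v) = 0 := by
  have h := (polar_T hT hTQ v v).2
  rw [QuadraticMap.polar_comm (⇑Q) (T v) v] at h
  exact (mul_eq_zero.1 (show (2 : F) * QuadraticMap.polar Q v (T v) = 0 by linear_combination h)).resolve_left h2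

/-- Orthogonal planes `⟨v, T v⟩` with `Q v = 1` filling an invariant nondegenerate space. -/
theorem exists_family (hB : (BQ).Nondegenerate) (hF : Fintype.card F = q) (hq : Odd q) {T : Module.End F V} (hT : ∀ v, T (T v) = -v)
    (hTQ : ∀ v, Q (T v) = Q v) :
    ∀ (d : ℕ) (X : Submodule F V), Nd Q X → (∀ x ∈ X, T x ∈ X) → 2 * d ≤ finrank F X →
      ∃ v : Fin d → V, (∀ j, v j ∈ X) ∧ (∀ j, Q (v j) = 1) ∧
        ∀ j k, j ≠ k → QuadraticMap.polar Q (v j) (v k) = 0 ∧ QuadraticMap.polar Q (v j) (T (v k)) = 0 := by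
  have h2 := two_ne_zero_of_odd hF hq
  intro d
  induction d with
  | zero => exact fun X _ _ _ => ⟨Fin.elim0, fun j => j.elim0, fun j => j.elim0, fun j => j.elim0⟩
  | succ d ih =>
    intro X hX hXi hd
    obtain ⟨w, hwX, hw0⟩ : ∃ w ∈ X, Q w ≠ 0 := by
      by_contra hcon
      push Not at hcon
      have := sing_le hX le_rfl hcon
      omega
    obtain ⟨a, b, hab⟩ := exists_sum_sq hF hq (Q w)⁻¹
    set v := a • w + b • T w with hv
    have hvX : v ∈ X := X.add_mem (X.smul_mem _ hwX) (X.smul_mem _ (hXi w hwX))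
    have hv1 : Q v = 1 := by
      rw [hv, QuadraticMap.map_add Q, QuadraticMap.map_smul, QuadraticMap.map_smul, QuadraticMap.polar_smul_left,
        QuadraticMap.polar_smul_right, polar_self_T h2 hT hTQ, hTQ, smul_eq_mul, smul_eq_mul]
      have := inv_mul_cancel₀ hw0
      simp only [smul_zero, add_zero]
      linear_combination Q w * hab + this
    let P : Submodule F V := Submodule.span F {v, T v}
    have hP : ∀ x ∈ P, ∃ s t : F, x = s • v + t • T v := fun x hx => by
      obtain ⟨s, t, h⟩ := Submodule.mem_span_pair.1 hx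
      exact ⟨s, t, h.symm⟩
    have hTT : QuadraticMap.polar Q (T v) (T v) = 2 := by
      rw [(polar_T hT hTQ v v).1, QuadraticMap.polar_self, hv1]; simp
    have hvv : QuadraticMap.polar Q v v = 2 := by rw [QuadraticMap.polar_self, hv1]; simp
    have hvT : QuadraticMap.polar Q v (T v) = 0 := polar_self_T h2 hT hTQ v
    have hPn : Nd Q P := by
      intro x hx h
      obtain ⟨s, t, rfl⟩ := hP x hx
      have h1 := h v (Submodule.subset_span (Or.inl rfl))
      have h3 := h (T v) (Submodule.subset_span (Or.inr rfl))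
      simp only [QuadraticMap.polar_add_left, QuadraticMap.polar_smul_left, smul_eq_mul, hvv, hvT, hTT,
        QuadraticMap.polar_comm (⇑Q) (T v) v, mul_zero, add_zero, zero_add, mul_eq_zero, h2, or_false] at h1 h3
      rw [h1, h3]; simp
    have hPX : P ≤ X := Submodule.span_le.2 (by
      rintro x (rfl | rfl)
      exacts [hvX, hXi _ hvX])
    obtain ⟨hRn, hRd, -⟩ := nd_split hB hPn hX hPX
    have hPd : finrank F P ≤ 2 := by
      have h := finrank_range_le_card (R := F) ![v, T v]
      rw [Matrix.range_cons_cons_empty, Fintype.card_fin] at h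
      exact h
    obtain ⟨u, huX, hu1, huo⟩ := ih (X ⊓ perp BQ P) hRn (fun x hx => ⟨hXi x hx.1, mem_perp_iff.2 fun y hy => by
      obtain ⟨s, t, rfl⟩ := hP y hy
      have hy' : T (s • v + t • T v) ∈ P := by
        rw [map_add, map_smul, map_smul, hT]
        exact P.add_mem (P.smul_mem _ (Submodule.subset_span (Or.inr rfl)))
          (P.smul_mem _ (P.neg_mem (Submodule.subset_span (Or.inl rfl))))
      rw [(polar_T hT hTQ _ x).2, mem_perp_iff.1 hx.2 _ hy', neg_zero]⟩) (by omega)
    have hperp : ∀ k, QuadraticMap.polar Q v (u k) = 0 ∧ QuadraticMap.polar Q (T v) (u k) = 0 := fun k =>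
      ⟨mem_perp_iff.1 (huX k).2 _ (Submodule.subset_span (Or.inl rfl)),
        mem_perp_iff.1 (huX k).2 _ (Submodule.subset_span (Or.inr rfl))⟩
    refine ⟨Fin.cons v u, Fin.cases hvX fun j => (huX j).1, Fin.cases hv1 hu1, fun j k hjk => ?_⟩
    cases j using Fin.cases with
    | zero =>
      cases k using Fin.cases with
      | zero => exact absurd rfl hjk
      | succ k =>
        simp only [Fin.cons_zero, Fin.cons_succ]
        exact ⟨(hperp k).1, by rw [(polar_T hT hTQ _ _).2, (hperp k).2, neg_zero]⟩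
    | succ j =>
      cases k using Fin.cases with
      | zero =>
        simp only [Fin.cons_zero, Fin.cons_succ]
        exact ⟨by rw [QuadraticMap.polar_comm]; exact (hperp j).1, by rw [QuadraticMap.polar_comm]; exact (hperp j).2⟩
      | succ k =>
        simp only [Fin.cons_succ]
        exact huo j k fun h => hjk (by rw [h])

/-- An adapted orthogonal family of the whole space. -/
structure Frame (Q : QuadraticForm F V) (T : Module.End F V) {d : ℕ} (a : F) (v : Fin d → V) : Prop where
  val : ∀ j, Q (v j) = a ∧ Q (T (v j)) = a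
  self : ∀ j, QuadraticMap.polar Q (v j) (T (v j)) = 0
  orth : ∀ j k, j ≠ k → QuadraticMap.polar Q (v j) (v k) = 0 ∧ QuadraticMap.polar Q (v j) (T (v k)) = 0 ∧
    QuadraticMap.polar Q (T (v j)) (T (v k)) = 0
  sq : ∀ j, T (T (v j)) = -v j

theorem exists_frame (hF : Fintype.card F = q) (hq : Odd q) (hB : (BQ).Nondegenerate) {T : Module.End F V}
    (hT : ∀ v, T (T v) = -v) (hTQ : ∀ v, Q (T v) = Q v) {d : ℕ} (hd : finrank F V = 2 * d) :
    ∃ v : Fin d → V, Frame Q T 1 v := by
  obtain ⟨v, -, h1, h3⟩ := exists_family hB hF hq hT hTQ d ⊤ (nd_top hB) (fun x _ => trivial)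
    (by rw [finrank_top, hd])
  refine ⟨v, fun j => ⟨h1 j, by rw [hTQ, h1]⟩, fun j => polar_self_T (two_ne_zero_of_odd hF hq) hT hTQ _,
    fun j k hjk => ⟨(h3 j k hjk).1, (h3 j k hjk).2, by rw [(polar_T hT hTQ _ _).1]; exact (h3 j k hjk).1⟩,
    fun j => hT _⟩

variable {d : ℕ} {T : Module.End F V} {a : F} {v : Fin d → V}

theorem Frame.polar (h : Frame Q T a v) (s s' : Fin d ⊕ Fin d) :
    QuadraticMap.polar Q (Sum.elim v (fun j => T (v j)) s) (Sum.elim v (fun j => T (v j)) s') =
      if s = s' then 2 * a else 0 := by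
  rcases s with j | j <;> rcases s' with k | k <;> rcases eq_or_ne j k with rfl | hjk <;>
    simp_all [QuadraticMap.polar_self, h.val, h.self, two_mul, QuadraticMap.polar_comm (⇑Q) (T _) (v _)]
  · exact (h.orth j k hjk).1
  · exact (h.orth j k hjk).2.1
  · exact (h.orth k j (Ne.symm hjk)).2.1
  · exact (h.orth j k hjk).2.2

/-- The basis of a frame. -/
theorem Frame.exists_basis (h : Frame Q T a v) (h2 : (2 : F) ≠ 0) (ha : a ≠ 0) (hd : finrank F V = 2 * d) :
    ∃ b : Basis (Fin d ⊕ Fin d) F V, ∀ s, b s = Sum.elim v (fun j => T (v j)) s := by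
  have hli := LinearMap.BilinForm.linearIndependent_of_iIsOrtho (B := BQ) (v := Sum.elim v (fun j => T (v j)))
    (LinearMap.BilinForm.iIsOrtho_def.2 fun s s' hs => by
      rw [QuadraticMap.polarBilin_apply_apply, h.polar, if_neg hs])
    fun s => by rw [QuadraticMap.polarBilin_apply_apply, h.polar, if_pos rfl]; exact mul_ne_zero h2 ha
  rcases Nat.eq_zero_or_pos d with rfl | hd0
  · haveI : Subsingleton V := Module.finrank_zero_iff.1 (by simpa using hd)
    exact ⟨Basis.empty V, fun s => Subsingleton.elim _ _⟩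
  · haveI : Nonempty (Fin d ⊕ Fin d) := ⟨Sum.inl ⟨0, hd0⟩⟩
    exact ⟨basisOfLinearIndependentOfCardEqFinrank hli (by simp [hd, two_mul]),
      fun s => by rw [coe_basisOfLinearIndependentOfCardEqFinrank]⟩

/-- Two vectors of the space. -/
theorem Frame.perp_fix (g : orthGroup Q) {l : List (Fin d)} (x : V)
    (hg : g = ((l.flatMap fun j => [v j + T (v j), v j]).map (reflection Q)).prod)
    (hx : ∀ j ∈ l, QuadraticMap.polar Q (v j) x = 0 ∧ QuadraticMap.polar Q (T (v j)) x = 0) :
    (g : V ≃ₗ[F] V) x = x := by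
  subst hg
  induction l with
  | nil => simp
  | cons j l ih =>
    obtain ⟨h1, h3⟩ := hx j List.mem_cons_self
    rw [List.flatMap_cons, List.map_append, List.prod_append, orth_mul_apply,
      ih fun k hk => hx k (List.mem_cons_of_mem _ hk)]
    simp [orth_mul_apply, Forms.reflection_apply, QuadraticMap.polar_add_left, h1, h3]

/-- `T` as a product of reflections. -/
theorem Frame.prod_apply (h : Frame Q T a v) (h2 : (2 : F) ≠ 0) (ha : a ≠ 0) :
    ∀ l : List (Fin d), l.Nodup → ∀ k ∈ l, ∀ x, x = v k ∨ x = T (v k) →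
      (((l.flatMap fun j => [v j + T (v j), v j]).map (reflection Q)).prod : V ≃ₗ[F] V) x = T x := by
  intro l
  induction l with
  | nil => simp
  | cons j l ih =>
    intro hnd k hk x hx
    obtain ⟨hjl, hnd'⟩ := List.nodup_cons.1 hnd
    rw [List.flatMap_cons, List.map_append, List.prod_append, orth_mul_apply]
    have hu : Q (v j + T (v j)) = 2 * a := by
      rw [QuadraticMap.map_add Q, (h.val j).1, (h.val j).2, h.self]; ring
    rcases List.mem_cons.1 hk with rfl | hkl
    · have hfix := Frame.perp_fix (Q := Q) (T := T) (v := v) _ x (l := l) rfl fun i hi => by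
        have hik : i ≠ k := fun e => hjl (e ▸ hi)
        rcases hx with rfl | rfl
        · exact ⟨(h.orth i k hik).1, by
            rw [QuadraticMap.polar_comm]; exact (h.orth k i (Ne.symm hik)).2.1⟩
        · exact ⟨(h.orth i k hik).2.1, (h.orth i k hik).2.2⟩
      rw [hfix]
      have e1 : QuadraticMap.polar Q (v k) (v k) = 2 * a := by
        rw [QuadraticMap.polar_self, (h.val k).1, two_nsmul, two_mul]
      have e2 : QuadraticMap.polar Q (T (v k)) (T (v k)) = 2 * a := by
        rw [QuadraticMap.polar_self, (h.val k).2, two_nsmul, two_mul]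
      have e3 : QuadraticMap.polar Q (T (v k)) (v k) = 0 := by rw [QuadraticMap.polar_comm]; exact h.self k
      rcases hx with rfl | rfl
      · simp only [List.map_cons, List.map_nil, List.prod_cons, List.prod_nil, mul_one, orth_mul_apply,
          Forms.reflection_apply, hu, (h.val k).1, QuadraticMap.polar_add_left, QuadraticMap.polar_sub_right,
          QuadraticMap.polar_smul_right, e1, e3, smul_eq_mul]
        rw [show a⁻¹ * (2 * a) = (2 : F) by field_simp,
          show (2 * a)⁻¹ * (2 * a + 0 - 2 * (2 * a + 0)) = (-1 : F) by field_simp; ring]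
        module
      · simp only [List.map_cons, List.map_nil, List.prod_cons, List.prod_nil, mul_one, orth_mul_apply,
          Forms.reflection_apply, hu, (h.val k).1, QuadraticMap.polar_add_left, QuadraticMap.polar_sub_right,
          QuadraticMap.polar_smul_right, e2, h.self k, mul_zero, zero_smul, sub_zero, zero_add]
        rw [h.sq, inv_mul_cancel₀ (mul_ne_zero h2 ha)]
        module
    · rw [ih hnd' k hkl x hx]
      refine Frame.perp_fix (T := T) (v := v) _ (T x) (l := [j]) (by simp) fun i hi => ?_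
      rw [List.mem_singleton] at hi
      subst hi
      have hik : i ≠ k := fun e => hjl (e ▸ hkl)
      rcases hx with rfl | rfl
      · exact ⟨(h.orth i k hik).2.1, (h.orth i k hik).2.2⟩
      · rw [h.sq, QuadraticMap.polar_neg_right, QuadraticMap.polar_neg_right, (h.orth i k hik).1,
          QuadraticMap.polar_comm (⇑Q) (T (v i)), (h.orth k i (Ne.symm hik)).2.1]
        simp

theorem disc_aux {x : F} {P R : Prop} (h : IsSquare x ↔ (P ↔ R)) (hx : IsSquare x) : P ↔ R := h.1 hx

theorem isSquare_sq_mul {c x : F} (hc : c ≠ 0) : IsSquare (c ^ 2 * x) ↔ IsSquare x :=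
  isSquare_mul_left_iff (t := c) hc

/-- The membership criterion for the commutator subgroup. -/
theorem Frame.mem_iff [Finite V] (h : Frame Q T a v) (h2 : (2 : F) ≠ 0) (hB : (BQ).Nondegenerate) (ha : a ≠ 0)
    (hd : finrank F V = 2 * d) (hd0 : 1 ≤ d) {g : orthGroup Q} (hg : ∀ x, (g : V ≃ₗ[F] V) x = T x) :
    g ∈ commutator (orthGroup Q) ↔ IsSquare ((2 : F) ^ d) := by
  obtain ⟨b, hb⟩ := h.exists_basis h2 ha hd
  set L := (List.finRange d).flatMap fun j => [v j + T (v j), v j] with hL
  have hu : ∀ j, Q (v j + T (v j)) = 2 * a := fun j => by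
    rw [QuadraticMap.map_add Q, (h.val j).1, (h.val j).2, h.self]; ring
  have hL0 : ∀ x ∈ L, Q x ≠ 0 := by
    intro x hx
    obtain ⟨j, -, hj⟩ := List.mem_flatMap.1 hx
    rcases List.mem_cons.1 hj with rfl | hj
    · rw [hu]; exact mul_ne_zero h2 ha
    · rw [List.mem_singleton] at hj; rw [hj, (h.val j).1]; exact ha
  have key : ∀ l : List (Fin d), (l.flatMap fun j => [v j + T (v j), v j]).length = 2 * l.length ∧
      ((l.flatMap fun j => [v j + T (v j), v j]).map fun x => Q x).prod = (a ^ l.length) ^ 2 * 2 ^ l.length := by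
    intro l
    induction l with
    | nil => simp
    | cons j l ih =>
      simp only [List.flatMap_cons, List.map_append, List.prod_append, List.length_append, List.length_cons,
        List.length_nil, List.map_cons, List.map_nil, List.prod_cons, List.prod_nil, ih.1, ih.2, hu, (h.val j).1]
      exact ⟨by ring, by ring⟩
  have hgL : g = (L.map (reflection Q)).prod := by
    refine orth_ext fun x => ?_
    rw [hg]
    refine LinearMap.congr_fun (b.ext (f₁ := T)
      (f₂ := (((L.map (reflection Q)).prod : orthGroup Q) : V ≃ₗ[F] V).toLinearMap) fun s => ?_) x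
    rw [LinearEquiv.coe_coe, hb]
    rcases s with j | j
    · exact (h.prod_apply h2 ha _ (List.nodup_finRange d) j (List.mem_finRange j) _ (Or.inl rfl)).symm
    · exact (h.prod_apply h2 ha _ (List.nodup_finRange d) j (List.mem_finRange j) _ (Or.inr rfl)).symm
  rw [hgL, SpinorList.mem_iff Q h2 hB (by omega) L hL0, hL, (key _).1, (key _).2, List.length_finRange,
    isSquare_sq_mul (pow_ne_zero _ ha)]
  exact and_iff_right (even_two_mul d)

/-- The type of the space. -/
theorem Frame.plus_iff_even (h : Frame Q T a v) (hF : Fintype.card F = q) (hq : Odd q) (hB : (BQ).Nondegenerate)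
    (ha : a ≠ 0) (hd : finrank F V = 2 * d) : Plus Q (⊤ : Submodule F V) ↔ IsSquare ((-1 : F) ^ d) := by
  have h2 := two_ne_zero_of_odd hF hq
  obtain ⟨b, hb⟩ := h.exists_basis h2 ha hd
  let e : Fin d ⊕ Fin d ≃ Fin (2 * d) := finSumFinEquiv.trans (finCongr (two_mul d).symm)
  let b' := (b.reindex e).map (LinearEquiv.ofTop (⊤ : Submodule F V) rfl).symm
  have hb' : ∀ j, (b' j : V) = b (e.symm j) := fun j => by simp [b']
  refine (disc_aux (InvolOmega.disc_iff hF hq (nd_top hB) (by rw [finrank_top, hd]) b' (fun i j hij => ?_)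
    fun i => ?_) ?_)
  · rw [hb', hb', hb, hb, h.polar, if_neg (e.symm.injective.ne hij)]
  · rw [hb', hb]
    rcases e.symm i with j | j
    · rw [Sum.elim_inl, (h.val j).1]; exact ha
    · rw [Sum.elim_inr, (h.val j).2]; exact ha
  · refine ⟨a ^ d, ?_⟩
    have hall : ∀ s, Q (b s) = a := by
      rintro (j | j)
      · rw [hb, Sum.elim_inl, (h.val j).1]
      · rw [hb, Sum.elim_inr, (h.val j).2]
    simp only [hb', hall, Finset.prod_const, Finset.card_univ, Fintype.card_fin]
    rw [← pow_add, two_mul]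

/-- Totally singular invariant subspaces of even dimension. -/
theorem Frame.exists_sing (h : Frame Q T (1 : F) v) (hF : Fintype.card F = q) (hq : Odd q)
    (hT : ∀ x, T (T x) = -x) (hd : finrank F V = 2 * d) {k : ℕ} (hk : 2 * k ≤ d) :
    ∃ W : Submodule F V, finrank F W = 2 * k ∧ Sing Q W ∧ ∀ w ∈ W, T w ∈ W := by
  have h2 := two_ne_zero_of_odd hF hq
  obtain ⟨x, y, hxy⟩ := exists_sum_sq hF hq (-1)
  obtain ⟨b, hb⟩ := h.exists_basis h2 one_ne_zero hd
  let i₁ : Fin k → Fin d := fun j => ⟨2 * j, by omega⟩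
  let i₂ : Fin k → Fin d := fun j => ⟨2 * j + 1, by omega⟩
  let w : Fin k → V := fun j => v (i₁ j) + x • v (i₂ j) + y • T (v (i₂ j))
  let f : Fin k ⊕ Fin k → V := Sum.elim w fun j => T (w j)
  have hTw : ∀ j, T (w j) = T (v (i₁ j)) + x • T (v (i₂ j)) - y • v (i₂ j) := fun j => by
    simp [w, map_add, map_smul, h.sq, sub_eq_add_neg]
  have hel : ∀ s, Sum.elim v (fun j => T (v j)) s = b s := fun s => (hb s).symm
  have hp : ∀ j l, QuadraticMap.polar Q (v j) (v l) = (if j = l then 2 else 0) ∧
      QuadraticMap.polar Q (v j) (T (v l)) = 0 ∧ QuadraticMap.polar Q (T (v j)) (v l) = 0 ∧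
      QuadraticMap.polar Q (T (v j)) (T (v l)) = if j = l then 2 else 0 := by
    intro j l
    have h11 := h.polar (Sum.inl j) (Sum.inl l)
    have h12 := h.polar (Sum.inl j) (Sum.inr l)
    have h21 := h.polar (Sum.inr j) (Sum.inl l)
    have h22 := h.polar (Sum.inr j) (Sum.inr l)
    simp_all
  have hpol : ∀ s s', QuadraticMap.polar Q (f s) (f s') = 0 := by
    intro s s'
    rcases s with j | j <;> rcases s' with l | l <;>
      simp only [f, Sum.elim_inl, Sum.elim_inr, hTw] <;>
      simp only [w, sub_eq_add_neg, QuadraticMap.polar_add_left, QuadraticMap.polar_add_right,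
        QuadraticMap.polar_smul_left, QuadraticMap.polar_smul_right, QuadraticMap.polar_neg_left,
        QuadraticMap.polar_neg_right, hp, i₁, i₂, Fin.ext_iff, smul_eq_mul] <;>
      rcases eq_or_ne (j : ℕ) (l : ℕ) with hjl | hjl <;>
      simp [hjl, show ∀ a b : ℕ, 2 * a ≠ 2 * b + 1 from fun a b => by omega,
        show ∀ a b : ℕ, 2 * a + 1 ≠ 2 * b from fun a b => by omega] <;>
      first | ring1 | linear_combination 2 * hxy | linear_combination (-2 : F) * hxy
  refine ⟨Submodule.span F (Set.range f), ?_, fun z hz => ?_, fun z hz => ?_⟩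
  · have hli : LinearIndependent F f := by
      refine Fintype.linearIndependent_iff.2 fun g hg => ?_
      have hb0 : ∀ s, b.repr (∑ t, g t • f t) s = 0 := fun s => by rw [hg, map_zero, Finsupp.zero_apply]
      have hr : ∀ j l, b.repr (v j) (Sum.inl l) = (if j = l then (1 : F) else 0) ∧ b.repr (v j) (Sum.inr l) = 0 ∧
          b.repr (T (v j)) (Sum.inl l) = 0 ∧ b.repr (T (v j)) (Sum.inr l) = if j = l then (1 : F) else 0 := by
        intro j l
        rw [show v j = b (Sum.inl j) from (hb _).symm ▸ rfl, show T (b (Sum.inl j)) = b (Sum.inr j) by rw [hb, hb]; rfl]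
        simp [Finsupp.single_apply]
      rintro (j | j)
      · have := hb0 (Sum.inl (i₁ j))
        simp [map_sum, Fintype.sum_sum_type, f, hTw, w, hr, i₁, i₂, Fin.ext_iff, Finsupp.finset_sum_apply,
          show ∀ a b : ℕ, 2 * a ≠ 2 * b + 1 from fun a b => by omega,
          show ∀ a b : ℕ, 2 * a + 1 ≠ 2 * b from fun a b => by omega] at this
        simpa [Fin.val_inj] using this
      · have := hb0 (Sum.inr (i₁ j))
        simp [map_sum, Fintype.sum_sum_type, f, hTw, w, hr, i₁, i₂, Fin.ext_iff, Finsupp.finset_sum_apply,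
          show ∀ a b : ℕ, 2 * a ≠ 2 * b + 1 from fun a b => by omega,
          show ∀ a b : ℕ, 2 * a + 1 ≠ 2 * b from fun a b => by omega] at this
        simpa [Fin.val_inj] using this
    rw [finrank_span_eq_card hli]; simp [two_mul]
  · obtain ⟨c, rfl⟩ := (Submodule.mem_span_range_iff_exists_fun F).1 hz
    have h4 : QuadraticMap.polar Q (∑ s, c s • f s) (∑ s, c s • f s) = 0 := by
      rw [← QuadraticMap.polarBilin_apply_apply]
      simp only [map_sum, map_smul, LinearMap.sum_apply, LinearMap.smul_apply, QuadraticMap.polarBilin_apply_apply,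
        hpol, smul_zero, Finset.sum_const_zero]
    rw [QuadraticMap.polar_self, two_nsmul, ← two_mul] at h4
    exact (mul_eq_zero.1 h4).resolve_left h2
  · induction hz using Submodule.span_induction with
    | mem z hz =>
      obtain ⟨s | s, rfl⟩ := hz
      · exact Submodule.subset_span ⟨Sum.inr s, rfl⟩
      · show T (T (w s)) ∈ _
        rw [hT]
        exact Submodule.neg_mem _ (Submodule.subset_span ⟨Sum.inl s, rfl⟩)
    | zero => simp
    | add z z' _ _ h1 h3 => rw [map_add]; exact Submodule.add_mem _ h1 h3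
    | smul c z _ h1 => rw [map_smul]; exact Submodule.smul_mem _ _ h1

/-- Invariant subspaces have even dimension. -/
theorem even_finrank (hns : ¬ IsSquare (-1 : F)) {T : Module.End F V} (hT : ∀ x, T (T x) = -x)
    {W : Submodule F V} (hW : ∀ w ∈ W, T w ∈ W) : Even (finrank F W) := by
  by_contra hodd
  have h1 : (T.restrict hW) * (T.restrict hW) = (-1 : F) • (1 : Module.End F W) :=
    LinearMap.ext fun x => Subtype.ext (by simp [hT])
  have h3 := congrArg LinearMap.det h1
  rw [map_mul, LinearMap.det_smul, map_one, mul_one, (Nat.not_even_iff_odd.1 hodd).neg_one_pow] at h3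
  exact hns ⟨_, h3.symm⟩

/-- An isometry with square `-1` in a space of matching discriminant. -/
theorem exists_T (hF : Fintype.card F = q) (hq : Odd q) (hB : (BQ).Nondegenerate) {d : ℕ} (hd0 : 1 ≤ d)
    (hd : finrank F V = 2 * d) (ht : Plus Q (⊤ : Submodule F V) ↔ IsSquare ((-1 : F) ^ d)) :
    ∃ (T : Module.End F V) (v : Fin d → V) (a : F), a ≠ 0 ∧ (∀ x, T (T x) = -x) ∧ (∀ x, Q (T x) = Q x) ∧
      Frame Q T a v := by
  classical
  have h2 := two_ne_zero_of_odd hF hq
  obtain ⟨n, hn⟩ : ∃ n, finrank F V = n + 1 := ⟨2 * d - 1, by omega⟩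
  obtain ⟨b, h1, h3, h4⟩ := exists_orth_basis h2 (B := BQ)
    ⟨fun x y => by simp only [QuadraticMap.polarBilin_apply_apply, QuadraticMap.polar_comm]⟩ hB hn
  have hQ : ∀ i, Q (b i) = (2 : F)⁻¹ * QuadraticMap.polar Q (b i) (b i) := fun i => by
    rw [QuadraticMap.polar_self, two_nsmul, ← two_mul, ← mul_assoc, inv_mul_cancel₀ h2, one_mul]
  simp only [QuadraticMap.polarBilin_apply_apply] at h1 h3 h4
  have hQ1 : ∀ i, i ≠ Fin.last n → Q (b i) = 2⁻¹ := fun i hi => by rw [hQ, h3 i hi, mul_one]
  have hQ0 : ∀ i, Q (b i) ≠ 0 := fun i => by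
    by_cases hi : i = Fin.last n
    · rw [hQ, hi]; exact mul_ne_zero (inv_ne_zero h2) h4
    · rw [hQ1 i hi]; exact inv_ne_zero h2
  -- the last value is a square times `2⁻¹`
  obtain ⟨s, hs0, hs⟩ : ∃ s : F, s ≠ 0 ∧ Q (b (Fin.last n)) = 2⁻¹ * s ^ 2 := by
    have hN : finrank F (⊤ : Submodule F V) = 2 * d := by rw [finrank_top, hd]
    let e : Fin (n + 1) ≃ Fin (2 * d) := finCongr (by omega)
    let b' := (b.reindex e).map (LinearEquiv.ofTop (⊤ : Submodule F V) rfl).symm
    have hb' : ∀ j, (b' j : V) = b (e.symm j) := fun j => by simp [b']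
    have h5 := (InvolOmega.disc_iff hF hq (nd_top hB) hN b'
      (fun i j hij => by rw [hb', hb']; exact h1 _ _ (e.symm.injective.ne hij))
      fun i => by rw [hb']; exact hQ0 _).2 ht
    simp only [hb'] at h5
    rw [Equiv.prod_comp e.symm (fun i => Q (b i)), Fin.prod_univ_castSucc] at h5
    simp only [fun i : Fin n => hQ1 i.castSucc (Fin.castSucc_lt_last i).ne, Finset.prod_const, Finset.card_univ,
      Fintype.card_fin] at h5
    obtain ⟨c, hc⟩ := h5
    obtain ⟨k, rfl⟩ : ∃ k, n = 2 * k + 1 := ⟨d - 1, by omega⟩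
    refine ⟨(2 : F) ^ (k + 1) * c, mul_ne_zero (pow_ne_zero _ h2) fun hc0 => ?_, ?_⟩
    · rw [hc0, mul_zero] at hc
      rcases mul_eq_zero.1 hc with h' | h'
      · exact inv_ne_zero h2 ((pow_eq_zero_iff (by omega)).1 h')
      · exact hQ0 _ h'
    · generalize Q (b (Fin.last (2 * k + 1))) = x at hc ⊢
      rw [mul_pow, show c ^ 2 = (2 : F)⁻¹ ^ (2 * k + 1) * x by rw [hc]; ring, inv_pow, ← pow_mul]
      field_simp
      ring
  let e : Fin d ⊕ Fin d ≃ Fin (n + 1) := finSumFinEquiv.trans (finCongr (by omega))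
  let u : Fin (n + 1) → Fˣ := fun i => if i = Fin.last n then (Units.mk0 s hs0)⁻¹ else 1
  let c := (b.unitsSMul u).reindex e.symm
  have hc : ∀ t, c t = (u (e t) : F) • b (e t) := fun t => by
    simp [c, Basis.unitsSMul_apply, Units.smul_def]
  have hcQ : ∀ t, Q (c t) = 2⁻¹ := fun t => by
    rw [hc, QuadraticMap.map_smul, smul_eq_mul]
    by_cases hi : e t = Fin.last n
    · simp only [u, hi, hs, if_true, Units.val_inv_eq_inv_val, Units.val_mk0]
      field_simp
    · simp [u, hi, hQ1 _ hi]
  have hco : ∀ t t', t ≠ t' → QuadraticMap.polar Q (c t) (c t') = 0 := fun t t' h => by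
    rw [hc, hc, QuadraticMap.polar_smul_left, QuadraticMap.polar_smul_right, h1 _ _ (e.injective.ne h), smul_zero,
      smul_zero]
  let img : Fin d ⊕ Fin d → V := Sum.elim (fun j => c (Sum.inr j)) (fun j => -c (Sum.inl j))
  let T : Module.End F V := c.constr F img
  have hTc : ∀ t, T (c t) = img t := fun t => c.constr_basis F img t
  have hTT : ∀ x, T (T x) = -x := by
    intro x
    refine LinearMap.congr_fun (c.ext (f₁ := T * T) (f₂ := -1) fun t => ?_) x
    rcases t with j | j <;> simp [Module.End.mul_apply, hTc, img]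
  have hTQ : ∀ x, Q (T x) = Q x := by
    have hbil : (BQ).compl₁₂ T T = BQ := LinearMap.ext_basis c c fun t t' => by
      rw [LinearMap.compl₁₂_apply, QuadraticMap.polarBilin_apply_apply, QuadraticMap.polarBilin_apply_apply, hTc, hTc]
      have hself : ∀ t, QuadraticMap.polar Q (c t) (c t) = 1 := fun t => by
        rw [QuadraticMap.polar_self, hcQ, two_nsmul, ← two_mul, mul_inv_cancel₀ h2]
      rcases t with j | j <;> rcases t' with l | l <;>
        simp only [img, Sum.elim_inl, Sum.elim_inr, QuadraticMap.polar_neg_left, QuadraticMap.polar_neg_right,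
          neg_neg] <;>
        rcases eq_or_ne j l with rfl | hjl <;>
        simp_all [hco]
    intro x
    have h5 := LinearMap.congr_fun (LinearMap.congr_fun hbil x) x
    rw [LinearMap.compl₁₂_apply, QuadraticMap.polarBilin_apply_apply, QuadraticMap.polarBilin_apply_apply,
      QuadraticMap.polar_self, QuadraticMap.polar_self, two_nsmul, two_nsmul, ← two_mul, ← two_mul] at h5
    exact mul_left_cancel₀ h2 h5
  refine ⟨T, fun j => c (Sum.inl j), 2⁻¹, inv_ne_zero h2, hTT, hTQ,
    fun j => ⟨hcQ _, by rw [hTc]; exact hcQ _⟩, fun j => by rw [hTc]; exact hco _ _ (by simp),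
    fun j k hjk => ⟨hco _ _ (by simpa), by rw [hTc]; exact hco _ _ (by simp), by rw [hTc, hTc]; exact hco _ _ (by simpa)⟩,
    fun j => hTT _⟩

end Cfsg.Agent.Linear.InvolMinusOne
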