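import Cfsg.Agent.Forms.OrthBridge
import Cfsg.Agent.Forms.Spinor
import Mathlib

/-!
# The spinor norm of a product of reflections
-/

set_option autoImplicit false
set_option linter.unusedSectionVars false

namespace Cfsg.Agent.Linear.SpinorList

open Cfsg.Agent.Forms
open Module (finrank)

variable {F : Type*} [Field F] [Fintype F]

theorem isSquare_mul_iff' (h2 : (2 : F) ≠ 0) {a b : F} (ha : a ≠ 0) (hb : b ≠ 0) :
    IsSquare (a * b) ↔ (IsSquare a ↔ IsSquare b) := by
  classical
  have hF : ringChar F ≠ 2 := fun h => h2 (by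
    haveI := ringChar.charP F
    have := CharP.cast_eq_zero F (ringChar F)
    rw [h] at this
    exact_mod_cast this)
  rw [← quadraticChar_one_iff_isSquare (mul_ne_zero ha hb), ← quadraticChar_one_iff_isSquare ha,
    ← quadraticChar_one_iff_isSquare hb, map_mul]
  rcases quadraticChar_dichotomy ha with e | e <;> rcases quadraticChar_dichotomy hb with e' | e' <;>
    rw [e, e'] <;> norm_num

theorem isSquare_neg_one_pow_iff {q : ℕ} (hF : Fintype.card F = q) (hq : Odd q) (i : ℕ) :
    IsSquare ((-1 : F) ^ i) ↔ q ^ i % 4 = 1 := by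
  have hq2 : q % 2 = 1 := Nat.odd_iff.1 hq
  rw [Nat.pow_mod]
  rcases Nat.even_or_odd i with hi | hi
  · rw [hi.neg_one_pow]
    refine iff_of_true IsSquare.one ?_
    obtain ⟨j, rfl⟩ := hi
    rw [← two_mul, pow_mul, Nat.pow_mod]
    rcases (show q % 4 = 1 ∨ q % 4 = 3 by omega) with h | h <;> rw [h] <;> norm_num
  · rw [hi.neg_one_pow, FiniteField.isSquare_neg_one_iff, hF]
    obtain ⟨j, rfl⟩ := hi
    rw [pow_succ, pow_mul, Nat.mul_mod, Nat.pow_mod]
    rcases (show q % 4 = 1 ∨ q % 4 = 3 by omega) with h | h <;> rw [h] <;> norm_num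

section Space

variable {V : Type*} [AddCommGroup V] [Module F V] [FiniteDimensional F V] [Finite V] (Q : QuadraticForm F V)

theorem orthDet_prod (L : List V) (hL : ∀ v ∈ L, Q v ≠ 0) :
    orthDet Q (L.map (reflection Q)).prod = (-1) ^ L.length := by
  induction L with
  | nil => simp
  | cons v L ih =>
    rw [List.map_cons, List.prod_cons, map_mul, ih fun u hu => hL u (List.mem_cons_of_mem _ hu), List.length_cons,
      pow_succ']
    congr 1
    exact Units.ext (orthDet_reflection Q (hL v List.mem_cons_self))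

theorem spinor_prod (h2 : (2 : F) ≠ 0) (hQ : (QuadraticMap.polarBilin Q).Nondegenerate) (L : List V)
    (hL : ∀ v ∈ L, Q v ≠ 0) :
    spinor Q h2 (L.map (reflection Q)).prod = 1 ↔ IsSquare (L.map fun v => Q v).prod := by
  induction L with
  | nil => simp
  | cons v L ih =>
    have hv := hL v List.mem_cons_self
    have hL' : ∀ u ∈ L, Q u ≠ 0 := fun u hu => hL u (List.mem_cons_of_mem _ hu)
    have hne : (L.map fun v => Q v).prod ≠ 0 := by
      rw [Ne, List.prod_eq_zero_iff, List.mem_map]
      rintro ⟨u, hu, h0⟩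
      exact hL' u hu h0
    rw [List.map_cons, List.prod_cons, map_mul, List.map_cons, List.prod_cons, isSquare_mul_iff' h2 hv hne,
      ← ih hL']
    obtain ⟨h1, h1'⟩ := spinor_reflection h2 hQ hv
    by_cases hs : IsSquare (Q v)
    · rw [h1 hs, one_mul]; simp [hs]
    · rw [h1' hs]
      rcases Int.units_eq_one_or (spinor Q h2 (L.map (reflection Q)).prod) with e | e <;> rw [e] <;> simp [hs]

theorem mem_iff (h2 : (2 : F) ≠ 0) (hQ : (QuadraticMap.polarBilin Q).Nondegenerate) (hn : 2 ≤ finrank F V)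
    (L : List V) (hL : ∀ v ∈ L, Q v ≠ 0) :
    (L.map (reflection Q)).prod ∈ commutator (orthGroup Q) ↔ Even L.length ∧ IsSquare (L.map fun v => Q v).prod := by
  rw [mem_commutator_iff h2 hQ hn, orthDet_prod Q L hL, spinor_prod Q h2 hQ L hL]
  refine and_congr_left' ⟨fun h => ?_, fun h => h.neg_one_pow⟩
  by_contra hodd
  rw [(Nat.not_even_iff_odd.1 hodd).neg_one_pow] at h
  have h' := congrArg Units.val h
  rw [Units.val_neg, Units.val_one] at h'
  exact h2 (by linear_combination -h')

/-- A product of reflections in pairwise orthogonal vectors. -/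
theorem prod_apply (L : List V) (hp : L.Pairwise fun u v => QuadraticMap.polar Q u v = 0) (x : V) :
    ((L.map (reflection Q)).prod : V ≃ₗ[F] V) x =
      x - (L.map fun u => ((Q u)⁻¹ * QuadraticMap.polar Q u x) • u).sum := by
  induction L with
  | nil => simp
  | cons u L ih =>
    obtain ⟨h1, h2⟩ := List.pairwise_cons.1 hp
    rw [List.map_cons, List.prod_cons, orth_mul_apply, ih h2, Forms.reflection_apply, List.map_cons, List.sum_cons]
    have hz : QuadraticMap.polar Q u (L.map fun v => ((Q v)⁻¹ * QuadraticMap.polar Q v x) • v).sum = 0 := by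
      rw [← QuadraticMap.polarBilin_apply_apply, map_list_sum, List.map_map]
      refine List.sum_eq_zero fun a ha => ?_
      obtain ⟨v, hv, rfl⟩ := List.mem_map.1 ha
      simp [h1 v hv]
    rw [QuadraticMap.polar_sub_right, hz, sub_zero]
    abel

end Space

section Matrices

variable {ι : Type} [Fintype ι] [DecidableEq ι] (Q : QuadraticForm F (ι → F))

theorem matrix_prod_mulVec (L : List (ι → F)) (x : ι → F) :
    (L.map fun v => Cfsg.reflectionMatrix ⇑Q v).prod.mulVec x =
      ((L.map (reflection Q)).prod : (ι → F) ≃ₗ[F] (ι → F)) x := by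
  induction L generalizing x with
  | nil => simp
  | cons v L ih =>
    rw [List.map_cons, List.prod_cons, List.map_cons, List.prod_cons, orth_mul_apply, ← Matrix.mulVec_mulVec, ih,
      reflectionMatrix_mulVec, Forms.reflection_apply]

/-- An isometry given as a matrix, equal to a product of reflections. -/
theorem exists_omega_iff (Qf : (ι → F) → F) (hQf : ⇑Q = Qf) (h2 : (2 : F) ≠ 0)
    (hQ : (QuadraticMap.polarBilin Q).Nondegenerate) (hn : 2 ≤ Fintype.card ι) (L : List (ι → F))
    (hL : ∀ v ∈ L, Q v ≠ 0) (M : Matrix ι ι F)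
    (hM : ∀ x, M.mulVec x = ((L.map (reflection Q)).prod : (ι → F) ≃ₗ[F] (ι → F)) x) :
    (∃ g : ↥(Cfsg.isometryGroup F Qf), g ∈ Cfsg.Omega F Qf ∧
      ((g : Matrix.GeneralLinearGroup ι F) : Matrix ι ι F) = M) ↔
      Even L.length ∧ IsSquare (L.map fun v => Q v).prod := by
  subst hQf
  rw [← mem_iff Q h2 hQ (by rw [Module.finrank_pi]; exact hn) L hL]
  constructor
  · rintro ⟨g, hg, hgM⟩
    have e : isometryEquiv Q g = (L.map (reflection Q)).prod := orth_ext fun x => by
      rw [isometryEquiv_apply, hgM, hM]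
    exact e ▸ (mem_omega_iff Q g).1 hg
  · intro h
    refine ⟨(isometryEquiv Q).symm (L.map (reflection Q)).prod, ?_, matrix_ext_mulVec fun x => ?_⟩
    · rw [mem_omega_iff, MulEquiv.apply_symm_apply]; exact h
    · rw [← isometryEquiv_apply, MulEquiv.apply_symm_apply, hM]

theorem omega_criterion (h2 : (2 : F) ≠ 0) (hQ : (QuadraticMap.polarBilin Q).Nondegenerate)
    (hn : 2 ≤ Fintype.card ι) (g : ↥(Cfsg.isometryGroup F ⇑Q)) (L : List (ι → F)) (hL : ∀ v ∈ L, Q v ≠ 0)
    (hg : ((g : Matrix.GeneralLinearGroup ι F) : Matrix ι ι F) =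
      (L.map fun v => Cfsg.reflectionMatrix ⇑Q v).prod) :
    g ∈ Cfsg.Omega F ⇑Q ↔ Even L.length ∧ IsSquare (L.map fun v => Q v).prod := by
  rw [← exists_omega_iff Q _ rfl h2 hQ hn L hL _ (matrix_prod_mulVec Q L)]
  refine ⟨fun h => ⟨g, h, hg⟩, fun ⟨g', h, hg'⟩ => ?_⟩
  rwa [show g = g' from Subtype.ext (Units.ext (hg.trans hg'.symm))]

/-- Negation of some hyperbolic pairs. -/
theorem pairs_iff (Qf : (ι → F) → F) (hQf : ⇑Q = Qf) {q : ℕ} (hF : Fintype.card F = q) (hq : Odd q)
    (hQ : (QuadraticMap.polarBilin Q).Nondegenerate) {k : ℕ} (hk : 1 ≤ k) (l r : Fin k → ι)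
    (hl : Function.Injective l) (hr : Function.Injective r) (hlr : ∀ a b, l a ≠ r b)
    (hpl : ∀ j x, QuadraticMap.polar Q (Pi.single (l j) 1) x = x (r j))
    (hpr : ∀ j x, QuadraticMap.polar Q (Pi.single (r j) 1) x = x (l j))
    (hql : ∀ j, Q (Pi.single (l j) 1) = 0) (hqr : ∀ j, Q (Pi.single (r j) 1) = 0)
    (d : ι → F) (hdl : ∀ j, d (l j) = -1) (hdr : ∀ j, d (r j) = -1)
    (hd : ∀ i, (∀ j, i ≠ l j) → (∀ j, i ≠ r j) → d i = 1) :
    (∃ g : ↥(Cfsg.isometryGroup F Qf), g ∈ Cfsg.Omega F Qf ∧
      ((g : Matrix.GeneralLinearGroup ι F) : Matrix ι ι F) = Matrix.diagonal d) ↔ q ^ k % 4 = 1 := by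
  have h2 : (2 : F) ≠ 0 := by
    intro h
    haveI : CharP F 2 := CharTwo.of_one_ne_zero_of_two_eq_zero one_ne_zero h
    obtain ⟨n, -, hn⟩ := FiniteField.card F 2
    rw [hF] at hn
    rw [hn, Nat.odd_iff, Nat.pow_mod] at hq
    norm_num at hq
  let u : F → Fin k → ι → F := fun s j => Pi.single (l j) 1 + s • Pi.single (r j) 1
  have hpu : ∀ s j x, QuadraticMap.polar Q (u s j) x = x (r j) + s * x (l j) := fun s j x => by
    simp only [u, QuadraticMap.polar_add_left, QuadraticMap.polar_smul_left, hpl, hpr, smul_eq_mul]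
  have hQu : ∀ s j, Q (u s j) = s := fun s j => by
    simp only [u, QuadraticMap.map_add Q, QuadraticMap.map_smul, hql, hqr, hpl,
      smul_eq_mul, Pi.smul_apply, Pi.single_eq_same]
    ring
  have hul : ∀ t j j', u t j' (l j) = if j = j' then 1 else 0 := fun t j j' => by
    simp [u, Pi.single_apply, hlr, hl.eq_iff]
  have hur : ∀ t j j', u t j' (r j) = if j = j' then t else 0 := fun t j j' => by
    simp [u, Pi.single_apply, fun a b => (hlr a b).symm, hr.eq_iff]
  let L := List.ofFn (u 1) ++ List.ofFn (u (-1))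
  have hL : ∀ v ∈ L, Q v ≠ 0 := by
    intro v hv
    rcases List.mem_append.1 hv with h | h <;> obtain ⟨j, rfl⟩ := List.mem_ofFn.1 h <;> rw [hQu] <;> simp
  have hpw : L.Pairwise fun a b => QuadraticMap.polar Q a b = 0 := by
    refine List.pairwise_append.2 ⟨List.pairwise_ofFn.2 fun i j hij => ?_, List.pairwise_ofFn.2 fun i j hij => ?_,
      fun a ha b hb => ?_⟩
    · simp [hpu, hul, hur, hij.ne]
    · simp [hpu, hul, hur, hij.ne]
    · obtain ⟨i, rfl⟩ := List.mem_ofFn.1 ha
      obtain ⟨j, rfl⟩ := List.mem_ofFn.1 hb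
      rw [hpu, hul, hur]
      split_ifs <;> ring
  rw [exists_omega_iff Q Qf hQf h2 hQ (by
      refine le_of_eq_of_le ?_ (Fintype.card_le_of_injective (Sum.elim (fun _ : Unit => l ⟨0, hk⟩)
        (fun _ : Unit => r ⟨0, hk⟩)) ?_)
      · simp
      · rintro (a | a) (b | b) h <;> simp_all [fun a b => (hlr a b).symm]) L hL]
  · have hlen : L.length = k + k := by simp [L]
    have hprod : (L.map fun v => Q v).prod = (-1 : F) ^ k := by
      simp [L, List.map_ofFn, Function.comp_def, hQu, List.prod_ofFn]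
    rw [hlen, hprod, isSquare_neg_one_pow_iff hF hq]
    exact and_iff_right (Even.add_self k)
  · intro x
    rw [prod_apply Q L hpw]
    funext i
    simp only [L, List.map_append, List.sum_append, List.map_ofFn, List.sum_ofFn, Function.comp_def, hQu, hpu,
      Matrix.mulVec_diagonal, Pi.sub_apply, Pi.add_apply, Finset.sum_apply, Pi.smul_apply, smul_eq_mul]
    by_cases h1 : ∃ j, i = l j
    · obtain ⟨j, rfl⟩ := h1
      rw [hdl, Finset.sum_eq_single j (fun b _ hb => by simp [hul, Ne.symm hb]) (by simp),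
        Finset.sum_eq_single j (fun b _ hb => by simp [hul, Ne.symm hb]) (by simp), hul, hul, if_pos rfl]
      field_simp
      ring
    by_cases h1' : ∃ j, i = r j
    · obtain ⟨j, rfl⟩ := h1'
      rw [hdr, Finset.sum_eq_single j (fun b _ hb => by simp [hur, Ne.symm hb]) (by simp),
        Finset.sum_eq_single j (fun b _ hb => by simp [hur, Ne.symm hb]) (by simp), hur, hur, if_pos rfl, if_pos rfl]
      field_simp
      ring
    push Not at h1 h1'
    have h0 : ∀ t j, u t j i = 0 := fun t j => by simp [u, h1 j, h1' j]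
    simp [hd i h1 h1', h0]

/-- When `-1` lies in `Ω`. -/
theorem neg_one_iff {n : ℕ} (h2 : (2 : F) ≠ 0) (hn : 2 ≤ n) (he : Even n) (Q : QuadraticForm F (Fin n → F))
    (hQ : (QuadraticMap.polarBilin Q).Nondegenerate) :
    (∃ g : ↥(Cfsg.isometryGroup F ⇑Q), g ∈ Cfsg.Omega F ⇑Q ∧
      ((g : Matrix.GeneralLinearGroup (Fin n) F) : Matrix (Fin n) (Fin n) F) = -1) ↔
      IsSquare (Matrix.of (fun i j : Fin n => QuadraticMap.polar ⇑Q (Pi.single i 1) (Pi.single j 1))).det := by
  classical
  haveI : Invertible (2 : F) := invertibleOfNonzero h2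
  set B := QuadraticMap.polarBilin Q with hBdef
  obtain ⟨v, hv⟩ := LinearMap.BilinForm.exists_orthogonal_basis (B := B)
    (show LinearMap.IsSymm B from ⟨fun x y => QuadraticMap.polar_comm _ x y⟩)
  let b := v.reindex (finCongr (Module.finrank_fin_fun F))
  have hb : ∀ i j, i ≠ j → QuadraticMap.polar Q (b i) (b j) = 0 := fun i j hij => by
    simp only [b, Module.Basis.reindex_apply]
    exact hv fun h => hij ((finCongr _).symm.injective h)
  have hne : ∀ i, Q (b i) ≠ 0 := fun i h0 => b.ne_zero i (hQ.1 _ fun y => by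
    have : B (b i) = 0 := b.ext fun j => by
      rcases eq_or_ne i j with rfl | hij
      · rw [hBdef, QuadraticMap.polarBilin_apply_apply, polar_self_two_mul, h0, mul_zero]; rfl
      · exact hb i j hij
    rw [this]; rfl)
  let L := List.ofFn b
  have hL : ∀ x ∈ L, Q x ≠ 0 := fun x hx => by obtain ⟨i, rfl⟩ := List.mem_ofFn.1 hx; exact hne i
  have hpw : L.Pairwise fun x y => QuadraticMap.polar Q x y = 0 := List.pairwise_ofFn.2 fun i j hij => hb i j hij.ne
  have hM : ∀ x, (-1 : Matrix (Fin n) (Fin n) F).mulVec x =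
      ((L.map (reflection Q)).prod : (Fin n → F) ≃ₗ[F] (Fin n → F)) x := by
    intro x
    have hneg : (-(LinearMap.id : (Fin n → F) →ₗ[F] (Fin n → F))) =
        ((L.map (reflection Q)).prod : (Fin n → F) ≃ₗ[F] (Fin n → F)).toLinearMap := b.ext fun i => by
      rw [LinearEquiv.coe_coe, prod_apply Q L hpw, List.map_ofFn, List.sum_ofFn,
        Finset.sum_eq_single i (fun j _ hj => by simp [hb j i hj]) (by simp)]
      simp only [Function.comp_apply, polar_self_two_mul, LinearMap.neg_apply, LinearMap.id_apply]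
      rw [show (Q (b i))⁻¹ * (2 * Q (b i)) = 2 by field_simp [hne i], two_smul]
      abel
    rw [Matrix.neg_mulVec, Matrix.one_mulVec]
    exact LinearMap.congr_fun hneg x
  rw [exists_omega_iff Q _ rfl h2 hQ (by rw [Fintype.card_fin]; exact hn) L hL _ hM]
  set G := Matrix.of (fun i j : Fin n => QuadraticMap.polar ⇑Q (Pi.single i 1) (Pi.single j 1))
  let P : Matrix (Fin n) (Fin n) F := Matrix.of fun k i => b i k
  have hP : P.transpose * G * P = Matrix.diagonal fun i => 2 * Q (b i) := by
    ext i j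
    have e : QuadraticMap.polar Q (b i) (b j) =
        ∑ l, (∑ k, b i k * G k l) * b j l := by
      have hx : ∀ x : Fin n → F, x = ∑ k, x k • (Pi.single k (1 : F) : Fin n → F) := fun x => by
        funext k; simp [Pi.single_apply]
      rw [← QuadraticMap.polarBilin_apply_apply]
      conv_lhs => rw [hx (b i), hx (b j)]
      simp only [map_sum, LinearMap.sum_apply, map_smul, LinearMap.smul_apply, smul_eq_mul, Finset.sum_mul,
        Finset.mul_sum]
      exact Finset.sum_congr rfl fun l _ => Finset.sum_congr rfl fun k _ => by simp [G]; ring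
    rw [Matrix.mul_apply]
    simp only [Matrix.mul_apply, Matrix.transpose_apply, P, Matrix.of_apply]
    rw [← e, Matrix.diagonal_apply]
    split_ifs with h
    · subst h; exact polar_self_two_mul Q _
    · exact hb i j h
  have hdet := congrArg Matrix.det hP
  rw [Matrix.det_mul, Matrix.det_mul, Matrix.det_transpose, Matrix.det_diagonal, Finset.prod_mul_distrib,
    Finset.prod_const, Finset.card_univ, Fintype.card_fin] at hdet
  have hlen : L.length = n := List.length_ofFn
  have hprod : (L.map fun x => Q x).prod = ∏ i, Q (b i) := by simp [L, List.map_ofFn, List.prod_ofFn]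
  rw [hlen, hprod, and_iff_right he]
  have hpne : ∏ i, Q (b i) ≠ 0 := Finset.prod_ne_zero_iff.2 fun i _ => hne i
  have h2n : (2 : F) ^ n ≠ 0 := pow_ne_zero _ h2
  have hP0 : P.det ≠ 0 := fun h0 => by
    rw [h0, zero_mul, zero_mul] at hdet
    exact mul_ne_zero h2n hpne hdet.symm
  have hG0 : G.det ≠ 0 := fun h0 => by
    rw [h0, mul_zero, zero_mul] at hdet
    exact mul_ne_zero h2n hpne hdet.symm
  have hsq2 : IsSquare ((2 : F) ^ n) := he.isSquare_pow 2
  have h1 := isSquare_mul_iff' h2 h2n hpne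
  have h3 := isSquare_mul_iff' h2 (mul_ne_zero hP0 hP0) hG0
  have hPP : IsSquare (P.det * P.det) := ⟨_, rfl⟩
  rw [show P.det * G.det * P.det = P.det * P.det * G.det by ring] at hdet
  rw [hdet, h1] at h3
  simp only [hsq2, hPP, true_iff] at h3
  exact h3

end Matrices

end Cfsg.Agent.Linear.SpinorList
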