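import Cfsg.Agent.Linear.OrthSpaces
import Cfsg.Agent.Linear.OmegaElem
import Cfsg.Agent.Linear.SpinorList
import Cfsg.Agent.Forms.Discr
import Cfsg.Agent.Forms.DiscrModels

/-!
# Involutions of `Ω` in odd characteristic
-/

set_option autoImplicit false
set_option linter.unusedSectionVars false

namespace Cfsg.Agent.Linear.InvolOmega

open Module Cfsg.Agent.Forms Cfsg.Agent.Linear.OrthSpaces

variable {F : Type*} [Field F] [Fintype F] {V : Type*} [AddCommGroup V] [Module F V] [FiniteDimensional F V]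
  {Q : QuadraticForm F V} {q : ℕ}

local notation "BQ" => QuadraticMap.polarBilin Q

theorem exists_orth_list (h2 : (2 : F) ≠ 0) {N : Submodule F V} (hN : Nd Q N) {k : ℕ} (hk : finrank F N = k) :
    ∃ b : Basis (Fin k) F N, (∀ i j, i ≠ j → QuadraticMap.polar Q (b i : V) (b j) = 0) ∧ ∀ i, Q (b i : V) ≠ 0 := by
  rcases k with - | k
  · haveI : Subsingleton N := Module.finrank_zero_iff.1 hk
    exact ⟨Basis.empty N, fun i => i.elim0, fun i => i.elim0⟩
  have hS : LinearMap.BilinForm.IsSymm (QuadraticMap.polarBilin (Q.comp N.subtype)) :=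
    ⟨fun x y => by simp only [QuadraticMap.polarBilin_apply_apply, QuadraticMap.polar_comm]⟩
  obtain ⟨b, h1, h3, h4⟩ := exists_orth_basis h2 hS (res_nondeg hN) hk
  refine ⟨b, fun i j hij => by rw [← polar_res N (b i) (b j)]; exact h1 i j hij, fun i hi => ?_⟩
  have hii : QuadraticMap.polarBilin (Q.comp N.subtype) (b i) (b i) = 0 := by
    rw [polar_res, QuadraticMap.polar_self, hi, smul_zero]
  by_cases hl : i = Fin.last k
  · exact h4 (hl ▸ hii)
  · exact one_ne_zero ((h3 i hl).symm.trans hii)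

theorem gram_congr {U W : Type*} [AddCommGroup U] [Module F U] [AddCommGroup W] [Module F W]
    {Q₁ : QuadraticForm F U} {Q₂ : QuadraticForm F W} (e : U ≃ₗ[F] W) (he : ∀ x, Q₂ (e x) = Q₁ x)
    {ι : Type*} [Fintype ι] [DecidableEq ι] (b : Basis ι F W) :
    (Matrix.of fun i j : ι => QuadraticMap.polar (⇑Q₂) (b i) (b j)).det =
      (Matrix.of fun i j : ι => QuadraticMap.polar (⇑Q₁) ((b.map e.symm) i) ((b.map e.symm) j)).det := by
  congr 1
  ext i j
  simp only [Matrix.of_apply, Basis.map_apply, QuadraticMap.polar, ← he, map_add, LinearEquiv.apply_symm_apply]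

/-- The square class of the discriminant and the type. -/
theorem disc_iff (hF : Fintype.card F = q) (hq : Odd q) {N : Submodule F V} (hN : Nd Q N) {w : ℕ}
    (hw : finrank F N = 2 * w) (b : Basis (Fin (2 * w)) F N)
    (hb : ∀ i j, i ≠ j → QuadraticMap.polar Q (b i : V) (b j) = 0) (hb0 : ∀ i, Q (b i : V) ≠ 0) :
    IsSquare (∏ i, Q (b i : V)) ↔ (Plus Q N ↔ IsSquare ((-1 : F) ^ w)) := by
  classical
  have h2 := two_ne_zero_of_odd hF hq
  have hgram : (Matrix.of fun i j : Fin (2 * w) => QuadraticMap.polar (⇑(Q.comp N.subtype)) (b i) (b j)).det =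
      ((2 : F) ^ w) ^ 2 * ∏ i, Q (b i : V) := by
    have hd : (Matrix.of fun i j : Fin (2 * w) => QuadraticMap.polar (⇑(Q.comp N.subtype)) (b i) (b j)) =
        Matrix.diagonal fun i => 2 * Q (b i : V) := by
      ext i j
      rw [Matrix.of_apply, ← QuadraticMap.polarBilin_apply_apply, polar_res]
      rcases eq_or_ne i j with rfl | hij
      · rw [Matrix.diagonal_apply_eq, QuadraticMap.polar_self, two_nsmul]; exact (two_mul _).symm
      · rw [Matrix.diagonal_apply_ne _ hij, hb i j hij]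
    rw [hd, Matrix.det_diagonal, Finset.prod_mul_distrib, Finset.prod_const, Finset.card_univ, Fintype.card_fin,
      ← pow_mul, mul_comm w 2]
  rw [← isSquare_mul_left_iff (t := (2 : F) ^ w) (pow_ne_zero _ h2), ← hgram]
  by_cases hp : Plus Q N
  · obtain ⟨e, he⟩ := (plus_iff hN hw).1 hp
    rw [gram_congr e he b]
    have h3 := isSquare_gram_plus hF hq (b.map e.symm)
    rw [← coe_qPlus] at h3
    rw [h3, isSquare_neg_one_pow_even_iff hF hq]
    simp [hp]
  · obtain ⟨hw1, a, c, hac, e, he⟩ := (not_plus_iff hN hw).1 hp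
    rw [gram_congr e he b]
    have h3 := isSquare_gram_minus hF hq a c hac (b.map e.symm)
    rw [← coe_qMinus] at h3
    rw [h3, isSquare_neg_one_pow_even_iff hF hq, show w - 1 + 1 = w by omega]
    simp [hp]

/-- Membership in the commutator subgroup of the isometry negating `N`. -/
theorem mem_iff [Finite V] (hF : Fintype.card F = q) (hq : Odd q) (hQ : (BQ).Nondegenerate) (hn : 2 ≤ finrank F V)
    {N : Submodule F V} (hN : Nd Q N) {g : orthGroup Q}
    (hg1 : ∀ v ∈ N, (g : V ≃ₗ[F] V) v = -v) (hg2 : ∀ v ∈ perp BQ N, (g : V ≃ₗ[F] V) v = v) :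
    g ∈ commutator (orthGroup Q) ↔
      ∃ w, finrank F N = 2 * w ∧ (Plus Q N ↔ IsSquare ((-1 : F) ^ w)) := by
  classical
  have h2 := two_ne_zero_of_odd hF hq
  obtain ⟨b, hb, hb0⟩ := exists_orth_list h2 hN (k := finrank F N) rfl
  set L := List.ofFn fun i => (b i : V) with hL
  have hL0 : ∀ v ∈ L, Q v ≠ 0 := by
    intro v hv
    obtain ⟨i, rfl⟩ := List.mem_ofFn.1 hv
    exact hb0 i
  have hp : L.Pairwise fun u v => QuadraticMap.polar Q u v = 0 :=
    List.pairwise_ofFn.2 fun i j hij => hb i j hij.ne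
  have hgL : g = (L.map (reflection Q)).prod := by
    refine orth_ext fun x => ?_
    obtain ⟨u, hu, y, hy, rfl⟩ := Submodule.mem_sup.1
      (show x ∈ N ⊔ perp BQ N from (nd_isCompl hQ hN).sup_eq_top ▸ Submodule.mem_top)
    rw [map_add, hg1 u hu, hg2 y hy, SpinorList.prod_apply Q L hp]
    have hsum : (L.map fun z => ((Q z)⁻¹ * QuadraticMap.polar Q z (u + y)) • z).sum = (2 : F) • u := by
      rw [hL, List.map_ofFn, List.sum_ofFn]
      obtain ⟨c, hc⟩ : ∃ c : Fin (finrank F N) → F, u = ∑ j, c j • (b j : V) :=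
        ⟨fun j => b.repr ⟨u, hu⟩ j, by
          have := congrArg Subtype.val (b.sum_repr ⟨u, hu⟩)
          rw [Submodule.coe_sum] at this
          exact this.symm⟩
      subst hc
      rw [Finset.smul_sum]
      refine Finset.sum_congr rfl fun i _ => ?_
      have h1 : QuadraticMap.polar Q (b i : V) ((∑ j, c j • (b j : V)) + y) = 2 * Q (b i : V) * c i := by
        rw [QuadraticMap.polar_add_right, mem_perp_iff.1 hy _ (b i).2, add_zero,
          ← QuadraticMap.polarBilin_apply_apply, map_sum, Finset.sum_eq_single i]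
        · simp [QuadraticMap.polar_self]; ring
        · intro j _ hji
          simp [hb i j (Ne.symm hji)]
        · simp
      simp only [Function.comp_apply, h1, smul_smul]
      congr 1
      field_simp [hb0 i]
    rw [hsum, two_smul]
    abel
  rw [hgL, SpinorList.mem_iff Q h2 hQ hn L hL0, hL, List.length_ofFn, List.map_ofFn, List.prod_ofFn]
  have hprod : ∀ {w : ℕ} (h : finrank F N = 2 * w),
      ∏ i, Q ((b.reindex (finCongr h)) i : V) = ∏ i, Q (b i : V) := fun h =>
    Fintype.prod_equiv (finCongr h).symm _ _ fun i => by rw [Basis.reindex_apply]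
  have hdisc : ∀ {w : ℕ} (h : finrank F N = 2 * w),
      IsSquare (∏ i, Q (b i : V)) ↔ (Plus Q N ↔ IsSquare ((-1 : F) ^ w)) := fun h => by
    rw [← hprod h]
    refine disc_iff hF hq hN h _ (fun i j hij => ?_) fun i => by rw [Basis.reindex_apply]; exact hb0 _
    rw [Basis.reindex_apply, Basis.reindex_apply]
    exact hb _ _ ((finCongr h).symm.injective.ne hij)
  constructor
  · rintro ⟨⟨w, hw⟩, hsq⟩
    have h : finrank F N = 2 * w := by omega
    exact ⟨w, h, (hdisc h).1 (by simpa using hsq)⟩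
  · rintro ⟨w, hw, hiff⟩
    exact ⟨⟨w, by omega⟩, by simpa using (hdisc hw).2 hiff⟩

/-- The eigenspaces of an isometric involution. -/
theorem spaces (h2 : (2 : F) ≠ 0) (hQ : (BQ).Nondegenerate) {T : Module.End F V} (hT : T ^ 2 = 1)
    (hTQ : ∀ v, Q (T v) = Q v) :
    Nd Q (LinearMap.ker (T + 1)) ∧ LinearMap.ker (T - 1) = perp BQ (LinearMap.ker (T + 1)) ∧
      LinearMap.ker (T + 1) ⊔ LinearMap.ker (T - 1) = ⊤ := by
  have hTT : ∀ v, T (T v) = v := fun v => by rw [← Module.End.mul_apply, ← pow_two, hT, Module.End.one_apply]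
  have hpol : ∀ x y, QuadraticMap.polar Q (T x) (T y) = QuadraticMap.polar Q x y := fun x y => by
    simp only [QuadraticMap.polar, ← map_add, hTQ]
  have horth : ∀ u ∈ LinearMap.ker (T + 1), ∀ v ∈ LinearMap.ker (T - 1), QuadraticMap.polar Q u v = 0 := by
    intro u hu v hv
    have h1 := hpol u v
    rw [eq_neg_of_add_eq_zero_left (show T u + u = 0 from hu), show T v = v from sub_eq_zero.1 hv,
      QuadraticMap.polar_neg_left] at h1
    have : (2 : F) * QuadraticMap.polar Q u v = 0 := by linear_combination -h1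
    exact (mul_eq_zero.1 this).resolve_left h2
  have hsup : LinearMap.ker (T + 1) ⊔ LinearMap.ker (T - 1) = ⊤ := eq_top_iff.2 fun v _ => by
    have hv : v = (2 : F)⁻¹ • (v - T v) + (2 : F)⁻¹ • (v + T v) := by
      rw [← smul_add, show v - T v + (v + T v) = (2 : F) • v by rw [two_smul]; abel, smul_smul,
        inv_mul_cancel₀ h2, one_smul]
    rw [hv]
    refine Submodule.add_mem_sup (Submodule.smul_mem _ _ ?_) (Submodule.smul_mem _ _ ?_)
    · simp [hTT]
    · simp [hTT, add_comm]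
  have hN : Nd Q (LinearMap.ker (T + 1)) := fun u hu h => hQ.1 u fun x => by
    obtain ⟨a, ha, b, hb, rfl⟩ := Submodule.mem_sup.1 (hsup ▸ Submodule.mem_top : x ∈ LinearMap.ker (T + 1) ⊔ _)
    show QuadraticMap.polar Q u (a + b) = 0
    rw [QuadraticMap.polar_add_right, h a ha, horth u hu b hb, add_zero]
  refine ⟨hN, le_antisymm (fun v hv => mem_perp_iff.2 fun u hu => horth u hu v hv) (fun v hv => ?_), hsup⟩
  obtain ⟨a, ha, b, hb, rfl⟩ := Submodule.mem_sup.1 (hsup ▸ Submodule.mem_top : v ∈ LinearMap.ker (T + 1) ⊔ _)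
  have ha0 : a = 0 := hN a ha fun x hx => by
    have h1 := mem_perp_iff.1 hv x hx
    rw [QuadraticMap.polar_add_right, horth x hx b hb, add_zero, QuadraticMap.polar_comm] at h1
    exact h1
  rw [ha0, zero_add]
  exact hb

section Matrices

variable {ι : Type} [Fintype ι] [DecidableEq ι] {Qm : QuadraticForm F (ι → F)}

local notation "BM" => QuadraticMap.polarBilin Qm

/-- The negated space of an involution of `Ω`. -/
theorem type_of_mem (hF : Fintype.card F = q) (hq : Odd q) (hQ : (BM).Nondegenerate) (hn : 2 ≤ Fintype.card ι)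
    {x : GL ι F} (hx : x ∈ Cfsg.Geo.omegaGL ⇑Qm) (hx2 : (Matrix.toLin' (x : Matrix ι ι F)) ^ 2 = 1) :
    ∃ w, finrank F (LinearMap.ker (Matrix.toLin' (x : Matrix ι ι F) + 1)) = 2 * w ∧
      (Plus Qm (LinearMap.ker (Matrix.toLin' (x : Matrix ι ι F) + 1)) ↔ IsSquare ((-1 : F) ^ w)) := by
  classical
  obtain ⟨hN, hP, -⟩ := spaces (two_ne_zero_of_odd hF hq) hQ hx2 (OmegaElem.preserves hx)
  rw [GeomClasses.omegaGL_eq_map] at hx
  obtain ⟨g, hg, rfl⟩ := Subgroup.mem_map.1 hx
  have hgv : ∀ v, Matrix.toLin' (GeomClasses.orthToGL Qm g : Matrix ι ι F) v = (g : (ι → F) ≃ₗ[F] (ι → F)) v := fun v => by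
    rw [Matrix.toLin'_apply, GeomClasses.orthToGL_mulVec]
  refine (mem_iff hF hq hQ (by rw [Module.finrank_pi]; exact hn) hN (g := g) ?_ ?_).1 hg
  · intro v hv
    rw [← hgv]
    exact eq_neg_of_add_eq_zero_left hv
  · intro v hv
    rw [← hP] at hv
    rw [← hgv]
    exact sub_eq_zero.1 hv

/-- The involution of `Ω` negating a given subspace. -/
theorem exists_invol (hF : Fintype.card F = q) (hq : Odd q) (hQ : (BM).Nondegenerate) (hn : 2 ≤ Fintype.card ι)
    {N : Submodule F (ι → F)} (hN : Nd Qm N) {w : ℕ} (hw : finrank F N = 2 * w)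
    (ht : Plus Qm N ↔ IsSquare ((-1 : F) ^ w)) :
    ∃ x : GL ι F, x ∈ Cfsg.Geo.omegaGL ⇑Qm ∧ (x : Matrix ι ι F) * (x : Matrix ι ι F) = 1 ∧
      (∀ v ∈ N, Matrix.toLin' (x : Matrix ι ι F) v = -v) ∧
      (∀ v ∈ perp BM N, Matrix.toLin' (x : Matrix ι ι F) v = v) := by
  classical
  let e := Submodule.prodEquivOfIsCompl N _ (nd_isCompl hQ hN)
  let f : (ι → F) ≃ₗ[F] (ι → F) := (e.symm.trans ((LinearEquiv.neg F).prodCongr (LinearEquiv.refl F _))).trans e
  have hf : ∀ (u : N) (v : perp BM N), f ((u : ι → F) + v) = -(u : ι → F) + v := fun u v => by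
    show e ((-(e.symm (e (u, v))).1, (e.symm (e (u, v))).2)) = _
    rw [e.symm_apply_apply]
    rfl
  have hfQ : ∀ v, Qm (f v) = Qm v := fun v => by
    obtain ⟨⟨a, b⟩, rfl⟩ := e.surjective v
    show Qm (f ((a : ι → F) + b)) = Qm ((a : ι → F) + b)
    rw [hf, Q_add_of_perp (N.neg_mem a.2) b.2, Q_add_of_perp a.2 b.2, QuadraticMap.map_neg]
  let g : orthGroup Qm := ⟨f, fun u v => by simp [QuadraticMap.polar, ← map_add, hfQ], hfQ⟩
  have hfg : ∀ v, Matrix.toLin' (GeomClasses.orthToGL Qm g : Matrix ι ι F) v = f v := fun v => by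
    rw [Matrix.toLin'_apply, GeomClasses.orthToGL_mulVec]
  have h1 : ∀ v ∈ N, f v = -v := fun v hv => by simpa using hf ⟨v, hv⟩ 0
  have h2 : ∀ v ∈ perp BM N, f v = v := fun v hv => by simpa using hf 0 ⟨v, hv⟩
  refine ⟨GeomClasses.orthToGL Qm g, ?_, ?_, fun v hv => by rw [hfg, h1 v hv], fun v hv => by rw [hfg, h2 v hv]⟩
  · rw [GeomClasses.omegaGL_eq_map]
    exact Subgroup.mem_map_of_mem _ ((mem_iff hF hq hQ (by rw [Module.finrank_pi]; exact hn) hN h1 h2).2 ⟨w, hw, ht⟩)
  · refine Matrix.toLin'.injective (LinearMap.ext fun v => ?_)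
    rw [Matrix.toLin'_mul, LinearMap.comp_apply, hfg, hfg, Matrix.toLin'_one, LinearMap.id_apply]
    obtain ⟨⟨a, b⟩, rfl⟩ := e.surjective v
    show f (f ((a : ι → F) + b)) = (a : ι → F) + b
    have h3 := hf a b
    rw [h3]
    have h4 := hf (-a) b
    simpa using h4

end Matrices

end Cfsg.Agent.Linear.InvolOmega
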