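import Cfsg.Agent.Linear.OrthFree

/-!
# Nondegenerate invariant subspaces of free isometries of odd prime order
-/

set_option autoImplicit false
set_option linter.unusedSectionVars false

namespace Cfsg.Agent.Linear.OrthFreeSub

open Polynomial Module Cfsg.Agent.Forms Cfsg.Agent.Linear.SpPrimeClasses Cfsg.Agent.Linear.CycloFactors
  Cfsg.Agent.Linear.OrthSpaces Cfsg.Agent.Linear.OrthFree

variable {F : Type*} [Field F] [Fintype F] {V : Type*} [AddCommGroup V] [Module F V] [FiniteDimensional F V]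
  {Q : QuadraticForm F V} {q r i : ℕ} {S : Finset F[X]}

local notation "BQ" => QuadraticMap.polarBilin Q

theorem plus_res (W : Submodule F V) (U : Submodule F W) :
    Plus (Q.comp W.subtype) U ↔ Plus Q (U.map W.subtype) := by
  constructor
  · rintro ⟨A, hAU, hA, hAd⟩
    refine ⟨A.map W.subtype, Submodule.map_mono hAU, by rintro _ ⟨x, hx, rfl⟩; exact hA x hx, ?_⟩
    rw [Submodule.finrank_map_subtype_eq, Submodule.finrank_map_subtype_eq, hAd]
  · rintro ⟨A, hAU, hA, hAd⟩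
    have hAW : A ≤ W := hAU.trans (Submodule.map_subtype_le _ _)
    refine ⟨A.comap W.subtype, fun x hx => ?_, fun x hx => hA _ hx, ?_⟩
    · obtain ⟨y, hy, hyx⟩ := hAU hx
      rwa [← W.injective_subtype hyx]
    · rw [(Submodule.comapSubtypeEquivOfLe hAW).finrank_eq, hAd, Submodule.finrank_map_subtype_eq]

theorem plus_top_res (W : Submodule F V) : Plus (Q.comp W.subtype) (⊤ : Submodule F W) ↔ Plus Q W := by
  rw [plus_res, Submodule.map_subtype_top]

theorem nd_res (W : Submodule F V) {U : Submodule F W} :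
    Nd (Q.comp W.subtype) U ↔ Nd Q (U.map W.subtype) := by
  constructor
  · rintro h _ ⟨x, hx, rfl⟩ hz
    rw [h x hx fun y hy => (polar_res W x y).trans (hz _ ⟨y, hy, rfl⟩), map_zero]
  · intro h x hx hz
    refine W.injective_subtype ((h _ ⟨x, hx, rfl⟩ ?_).trans (map_zero W.subtype).symm)
    rintro _ ⟨y, hy, rfl⟩
    exact (polar_res W x y).symm.trans (hz y hy)

/-- An isometry of order `r` of an orthogonal sum. -/
theorem glue (hB : (BQ).Nondegenerate) {U : Submodule F V} (hU : Nd Q U) {r : ℕ}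
    {T₁ : Module.End F U} {T₂ : Module.End F (perp BQ U)} (h₁r : T₁ ^ r = 1) (h₂r : T₂ ^ r = 1)
    (h₁ : ∀ x : U, Q (T₁ x : V) = Q (x : V)) (h₂ : ∀ x : perp BQ U, Q (T₂ x : V) = Q (x : V)) :
    ∃ G : Module.End F V, G ^ r = 1 ∧ (∀ v, Q (G v) = Q v) ∧ G.charpoly = T₁.charpoly * T₂.charpoly ∧
      ∀ u ∈ U, G u ∈ U := by
  have hc : IsCompl U (perp BQ U) := nd_isCompl hB hU
  let e := Submodule.prodEquivOfIsCompl U _ hc
  let G : Module.End F V := e.conj (T₁.prodMap T₂)
  have hG : ∀ (x : U) (y : perp BQ U), G ((x : V) + y) = (T₁ x : V) + T₂ y := fun x y => by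
    show e ((T₁.prodMap T₂) (e.symm ((x : V) + y))) = _
    rw [show (x : V) + y = e (x, y) from rfl, e.symm_apply_apply]; rfl
  refine ⟨G, ?_, fun v => ?_, ?_, fun u hu => ?_⟩
  · have hp : ∀ k : ℕ, (T₁.prodMap T₂) ^ k = (T₁ ^ k).prodMap (T₂ ^ k) := by
      intro k
      induction k with
      | zero => rfl
      | succ k ih => rw [pow_succ, ih, pow_succ, pow_succ]; rfl
    show (e.conjAlgEquiv F (T₁.prodMap T₂)) ^ r = 1
    rw [← map_pow, hp, h₁r, h₂r, show ((1 : Module.End F U).prodMap (1 : Module.End F (perp BQ U))) = 1 from rfl,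
      map_one]
  · obtain ⟨⟨x, y⟩, rfl⟩ := e.surjective v
    show Q (G ((x : V) + y)) = Q ((x : V) + y)
    rw [hG, Q_add_of_perp (Subtype.prop _) (T₂ y).2, Q_add_of_perp x.2 y.2, h₁, h₂]
  · show (e.conj (T₁.prodMap T₂)).charpoly = _
    rw [e.charpoly_conj, LinearMap.charpoly_prodMap]
  · have := hG ⟨u, hu⟩ 0
    rw [Submodule.coe_zero, add_zero, map_zero, Submodule.coe_zero, add_zero] at this
    rw [this]
    exact Subtype.prop _

theorem exists_sub_top (h : Ctx F q r i S) (hB : (BQ).Nondegenerate) {T : Module.End F V} (hT : T ^ r = 1)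
    (hTQ : ∀ v, Q (T v) = Q v) (hfree : ∀ v, T v = v → v = 0) {J s : ℕ} (hd : finrank F V = cc i * J) (hs : s ≤ J) :
    ∃ U : Submodule F V, (∀ u ∈ U, T u ∈ U) ∧ Nd Q U ∧ finrank F U = cc i * s ∧
      (Plus Q U ↔ (Odd i ∨ Even s)) := by
  classical
  obtain ⟨L, J', hL, hh, hTc, hLJ, hd', htype⟩ := free_type_top h hB hT hTQ hfree
  obtain rfl : J' = J := Nat.eq_of_mul_eq_mul_left (cc_pos h.hi0) (hd'.symm.trans hd)
  have htake : ∀ (M : Multiset F[X]) (n : ℕ), n ≤ Multiset.card M → ∃ A, A ≤ M ∧ Multiset.card A = n := by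
    intro M n
    induction M using Quotient.inductionOn with
    | h l => exact fun hn => ⟨↑(l.take n), (List.take_sublist n l).subperm, by simpa using hn⟩
  obtain ⟨L₁, L₂, hLeq, hh₁, hh₂, hc₁⟩ : ∃ L₁ L₂ : Multiset F[X], L = L₁ + L₂ ∧ L₁.map hat = L₁ ∧
      L₂.map hat = L₂ ∧ i * Multiset.card L₁ = cc i * s := by
    by_cases hie : Even i
    · obtain ⟨A, hA, hAc⟩ := htake L s (by
        rw [cc, if_pos hie] at hLJ
        exact (Nat.eq_of_mul_eq_mul_left h.hi0 hLJ) ▸ hs)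
      obtain ⟨B, rfl⟩ := le_iff_exists_add.1 hA
      have hid : ∀ M : Multiset F[X], (∀ P ∈ M, P ∈ S) → M.map hat = M := fun M hM => by
        conv_rhs => rw [← Multiset.map_id M]
        exact Multiset.map_congr rfl fun P hP => h.hS.self (Nat.not_odd_iff_even.2 hie) P (hM P hP)
      exact ⟨A, B, rfl, hid A fun P hP => hL P (by simp [hP]), hid B fun P hP => hL P (by simp [hP]),
        by rw [hAc, cc, if_pos hie]⟩
    · obtain ⟨H, O, hHO, -, hOo⟩ := TSCrit.split h.hS L hL hh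
      rw [hOo (Nat.not_even_iff_odd.1 hie), add_zero] at hHO
      subst hHO
      obtain ⟨A, hA, hAc⟩ := htake H s (by
        rw [Multiset.card_add, Multiset.card_map, cc, if_neg hie, mul_comm 2 i, mul_assoc] at hLJ
        have := Nat.eq_of_mul_eq_mul_left h.hi0 hLJ
        omega)
      obtain ⟨B, rfl⟩ := le_iff_exists_add.1 hA
      have hinv : ∀ M : Multiset F[X], (∀ P ∈ M, P ∈ S) → (M + M.map hat).map hat = M + M.map hat := fun M hM => by
        rw [Multiset.map_add, Multiset.map_map, add_comm]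
        congr 1
        conv_rhs => rw [← Multiset.map_id M]
        exact Multiset.map_congr rfl fun P hP => h.hS.hat_hat P (hM P hP)
      refine ⟨A + A.map hat, B + B.map hat, by rw [Multiset.map_add]; abel, hinv A fun P hP => hL P (by simp [hP]),
        hinv B fun P hP => hL P (by simp [hP]), ?_⟩
      rw [Multiset.card_add, Multiset.card_map, hAc, cc, if_neg hie]
      ring
  have hL₁ : ∀ P ∈ L₁, P ∈ S := fun P hP => hL P (by simp [hLeq, hP])
  have hL₂ : ∀ P ∈ L₂, P ∈ S := fun P hP => hL P (by simp [hLeq, hP])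
  obtain ⟨s', rfl⟩ := Nat.exists_eq_add_of_le hs
  have hc₂ : i * Multiset.card L₂ = cc i * s' := by
    rw [hLeq, Multiset.card_add, mul_add, mul_add] at hLJ
    omega
  obtain ⟨u, hu⟩ := (cc_even i).mul_right s
  obtain ⟨u', hu'⟩ := (cc_even i).mul_right s'
  rw [mul_add] at hd
  have hzero : ∀ x, cc i * x = 0 → x = 0 := fun x hx => (Nat.mul_eq_zero.1 hx).resolve_left (cc_pos h.hi0).ne'
  have hpar : Odd i ∨ ((Even (s + s')) ↔ (Even s ↔ Even s')) := Or.inr Nat.even_add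
  obtain ⟨U, -, hUn, hUd, hUt⟩ := exists_even hB (nd_top hB) (Odd i ∨ Even s) (u := u)
    (fun h0 => Or.inr (hzero s (by omega) ▸ Even.zero)) (by
      rw [finrank_top, hd]
      rcases Nat.eq_zero_or_pos u' with h0 | h0
      · refine Or.inr ⟨by omega, ?_⟩
        rw [htype, hzero s' (by omega), add_zero]
      · exact Or.inl (by omega))
  obtain ⟨hYn, hYd, hYs⟩ := nd_split hB hUn (nd_top hB) le_top
  rw [top_inf_eq] at hYn hYd hYs
  rw [finrank_top, hd] at hYd
  have hYt : Plus Q (perp BQ U) ↔ (Odd i ∨ Even s') := by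
    have hps := plus_sup hB hUn hYn le_rfl ⟨u, by omega⟩ ⟨u', by omega⟩
    rw [hYs, htype, hUt] at hps
    rw [Nat.even_add] at hps
    by_cases hio : Odd i
    · simp [hio] at hps ⊢; exact hps
    · simp only [hio, false_or] at hps ⊢; tauto
  obtain ⟨T₁, h₁r, h₁Q, -, h₁c⟩ := exists_elem (Q := Q.comp U.subtype) h (res_nondeg hUn) hL₁ hh₁ hc₁
    (Or.inr ⟨by omega, by rw [plus_top_res, hUt]⟩)
  obtain ⟨T₂, h₂r, h₂Q, -, h₂c⟩ := exists_elem (Q := Q.comp (perp BQ U).subtype) h (res_nondeg hYn) hL₂ hh₂ hc₂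
    (Or.inr ⟨by omega, by rw [plus_top_res, hYt]⟩)
  rw [show finrank F U - cc i * s = 0 by omega, pow_zero, one_mul] at h₁c
  rw [show finrank F (perp BQ U) - cc i * s' = 0 by omega, pow_zero, one_mul] at h₂c
  obtain ⟨G, hGr, hGQ, hGc, hGU⟩ := glue hB hUn h₁r h₂r h₁Q h₂Q
  obtain ⟨g, hgQ, hg⟩ := exists_conj h hB hGr hT hGQ hTQ (by
    rw [hGc, h₁c, h₂c, hTc, hLeq, Multiset.prod_add])
  refine ⟨U.map g.toLinearMap, ?_, (map_isom hgQ).1 hUn, by rw [LinearEquiv.finrank_map_eq]; omega, ?_⟩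
  · rintro _ ⟨x, hx, rfl⟩
    exact ⟨G x, hGU x hx, hg x⟩
  · rw [← hUt]
    refine ⟨fun hp => ?_, plus_map hgQ⟩
    have h1 := plus_map (g := g.symm) (fun v => by rw [← hgQ (g.symm v), g.apply_symm_apply]) hp
    rwa [← Submodule.map_comp, LinearEquiv.comp_coe, LinearEquiv.self_trans_symm, LinearEquiv.refl_toLinearMap,
      Submodule.map_id] at h1

/-- Free invariant nondegenerate subspaces of every admissible dimension. -/
theorem exists_sub (h : Ctx F q r i S) {T : Module.End F V} (hT : T ^ r = 1)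
    (hTQ : ∀ v, Q (T v) = Q v) {R : Submodule F V} (hR : ∀ w ∈ R, T w ∈ R) (hRn : Nd Q R)
    (hfree : R ⊓ LinearMap.ker (T - 1) = ⊥) {J s : ℕ} (hd : finrank F R = cc i * J) (hs : s ≤ J) :
    ∃ U ≤ R, (∀ u ∈ U, T u ∈ U) ∧ Nd Q U ∧ finrank F U = cc i * s ∧ (Plus Q U ↔ (Odd i ∨ Even s)) := by
  obtain ⟨U, hUi, hUn, hUd, hUt⟩ := exists_sub_top (Q := Q.comp R.subtype) h (res_nondeg hRn)
    (T := T.restrict hR) (by rw [TSDerange.restrict_pow_eq hR (z := 1) (by rw [hT, one_smul]), one_smul])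
    (fun w => hTQ (w : V)) (fun w hw => Subtype.ext (by
      have hm : (w : V) ∈ R ⊓ LinearMap.ker (T - 1) := ⟨w.2, sub_eq_zero.2 (congrArg Subtype.val hw)⟩
      rwa [hfree, Submodule.mem_bot] at hm)) hd hs
  refine ⟨U.map R.subtype, Submodule.map_subtype_le _ _, ?_, (nd_res R).1 hUn, ?_, (plus_res R U).symm.trans hUt⟩
  · rintro _ ⟨x, hx, rfl⟩
    exact ⟨_, hUi x hx, rfl⟩
  · rw [Submodule.finrank_map_subtype_eq, hUd]

end Cfsg.Agent.Linear.OrthFreeSub
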