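import Cfsg.Agent.Linear.UnipSkew
import Cfsg.Agent.Linear.OrthFreeSub

/-!
# Hyperbolic subspaces invariant under an involution, characteristic two
-/

set_option autoImplicit false
set_option linter.unusedSectionVars false

namespace Cfsg.Agent.Linear.InvolTwoNd

open Module Cfsg.Agent.Forms Cfsg.Agent.Linear.OrthSpaces

variable {F : Type*} [Field F] [Fintype F] {V : Type*} [AddCommGroup V] [Module F V] [FiniteDimensional F V]
  {Q : QuadraticForm F V}

local notation "BQ" => QuadraticMap.polarBilin Q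

/-- `1 + L` is an isometry and `L² = 0`. -/
structure Inv2 (Q : QuadraticForm F V) (L : Module.End F V) : Prop where
  sq : ∀ v, L (L v) = 0
  iso : ∀ v, Q (v + L v) = Q v

theorem Inv2.norm {L : Module.End F V} (h : Inv2 Q L) (v : V) :
    Q (L v) + QuadraticMap.polar Q v (L v) = 0 := by
  have h1 := h.iso v
  rw [QuadraticMap.map_add Q] at h1
  linear_combination h1

theorem Inv2.pair {L : Module.End F V} (h : Inv2 Q L) (u v : V) :
    QuadraticMap.polar Q (L u) v + QuadraticMap.polar Q u (L v) + QuadraticMap.polar Q (L u) (L v) = 0 := by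
  have h1 : QuadraticMap.polar Q (u + L u) (v + L v) = QuadraticMap.polar Q u v := by
    simp only [QuadraticMap.polar]
    rw [show u + L u + (v + L v) = u + v + L (u + v) by rw [map_add]; abel, h.iso, h.iso, h.iso]
  simp only [QuadraticMap.polar_add_left, QuadraticMap.polar_add_right] at h1
  linear_combination h1

theorem Inv2.polar_LL {L : Module.End F V} (h : Inv2 Q L) (u v : V) : QuadraticMap.polar Q (L u) (L v) = 0 := by
  have h1 := h.pair u (L v)
  rw [h.sq] at h1
  simpa [QuadraticMap.polar] using h1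

theorem Inv2.adj {L : Module.End F V} (h : Inv2 Q L) (u v : V) :
    QuadraticMap.polar Q (L u) v = -QuadraticMap.polar Q u (L v) := by
  have h1 := h.pair u v
  rw [h.polar_LL, add_zero] at h1
  exact eq_neg_of_add_eq_zero_left h1

theorem Inv2.injective {L : Module.End F V} (h : Inv2 Q L) : Function.Injective ⇑(1 + L) := by
  intro u v huv
  have h1 := congrArg ⇑(1 - L) huv
  simpa [h.sq] using h1

theorem Inv2.perp_inv {L : Module.End F V} (h : Inv2 Q L) {B : Submodule F V} (hB : ∀ b ∈ B, L b ∈ B) :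
    ∀ v ∈ perp BQ B, L v ∈ perp BQ B := fun v hv => mem_perp_iff.2 fun b hb => by
  have h1 := h.adj b v
  rw [mem_perp_iff.1 hv _ (hB b hb)] at h1
  linear_combination h1

/-- A nondegenerate space with `L` of even rank. -/
structure Good (Q : QuadraticForm F V) (L : Module.End F V) (X : Submodule F V) : Prop where
  nd : Nd Q X
  inv : ∀ x ∈ X, L x ∈ X
  even : Even (finrank F (X.map L))

theorem rank_split' (hB : (BQ).Nondegenerate) {L : Module.End F V} {B X : Submodule F V} (hBn : Nd Q B)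
    (hBX : B ≤ X) (hXn : Nd Q X) (hBi : ∀ b ∈ B, L b ∈ B) (hYi : ∀ x ∈ X ⊓ perp BQ B, L x ∈ X ⊓ perp BQ B) :
    finrank F (B.map L) + finrank F ((X ⊓ perp BQ B).map L) = finrank F (X.map L) := by
  conv_rhs => rw [← (nd_split hB hBn hXn hBX).2.2, Submodule.map_sup]
  have h1 := Submodule.finrank_sup_add_finrank_inf_eq (B.map L) ((X ⊓ perp BQ B).map L)
  have hb : B.map L ⊓ (X ⊓ perp BQ B).map L = ⊥ := le_bot_iff.1 (inf_bot hB hBn inf_le_right ▸ inf_le_inf
    (by rintro _ ⟨x, hx, rfl⟩; exact hBi x hx) (by rintro _ ⟨x, hx, rfl⟩; exact hYi x hx))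
  rw [hb, finrank_bot, add_zero] at h1
  exact h1.symm

theorem Inv2.exists_plane {L : Module.End F V} (h : Inv2 Q L) (h2 : (2 : F) = 0) {X : Submodule F V}
    (hXi : ∀ x ∈ X, L x ∈ X) (hne : ∃ x ∈ X, QuadraticMap.polar Q x (L x) ≠ 0) :
    ∃ P ≤ X, Nd Q P ∧ finrank F P = 2 ∧ (∀ p ∈ P, L p ∈ P) ∧ finrank F (P.map L) = 1 := by
  obtain ⟨x, hx, hb⟩ := hne
  have hself : ∀ v, QuadraticMap.polar Q v v = 0 := fun v => by
    rw [QuadraticMap.polar_self, two_nsmul, ← two_mul, h2, zero_mul]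
  have hLx : L x ≠ 0 := fun e => hb (by rw [e]; simp [QuadraticMap.polar])
  have hnd : Nd Q (Submodule.span F (Set.range ![x, L x])) := by
    intro z hz hzz
    obtain ⟨c, rfl⟩ := (Submodule.mem_span_range_iff_exists_fun F).1 hz
    have h1 := hzz (L x) (Submodule.subset_span ⟨1, rfl⟩)
    have h3 := hzz x (Submodule.subset_span ⟨0, rfl⟩)
    simp only [Fin.sum_univ_two, Matrix.cons_val_zero, Matrix.cons_val_one, QuadraticMap.polar_add_left,
      QuadraticMap.polar_smul_left, hself, smul_zero, add_zero, zero_add, smul_eq_mul, mul_zero] at h1 h3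
    rw [QuadraticMap.polar_comm (⇑Q) (L x) x] at h3
    simp [Fin.sum_univ_two, (mul_eq_zero.1 h1).resolve_right hb, (mul_eq_zero.1 h3).resolve_right hb]
  have hli : LinearIndependent F ![x, L x] := LinearIndependent.pair_iff.2 fun s t hst => by
    have h1 : QuadraticMap.polar Q (s • x + t • L x) (L x) = 0 := by rw [hst]; simp [QuadraticMap.polar]
    rw [QuadraticMap.polar_add_left, QuadraticMap.polar_smul_left, QuadraticMap.polar_smul_left, hself, smul_zero,
      add_zero, smul_eq_mul] at h1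
    have hs := (mul_eq_zero.1 h1).resolve_right hb
    rw [hs, zero_smul, zero_add] at hst
    exact ⟨hs, (smul_eq_zero.1 hst).resolve_right hLx⟩
  refine ⟨_, Submodule.span_le.2 ?_, hnd, by rw [finrank_span_eq_card hli]; simp, ?_, ?_⟩
  · rintro _ ⟨i, rfl⟩
    fin_cases i
    exacts [hx, hXi x hx]
  · intro p hp
    obtain ⟨c, rfl⟩ := (Submodule.mem_span_range_iff_exists_fun F).1 hp
    simp only [Fin.sum_univ_two, Matrix.cons_val_zero, Matrix.cons_val_one, map_add, map_smul, h.sq, smul_zero,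
      add_zero]
    exact Submodule.smul_mem _ _ (Submodule.subset_span ⟨1, rfl⟩)
  · rw [Submodule.map_span, ← Set.range_comp]
    have hr : Submodule.span F (Set.range (⇑L ∘ ![x, L x])) = F ∙ L x := by
      refine le_antisymm (Submodule.span_le.2 ?_) ((Submodule.span_singleton_le_iff_mem _ _).2
        (Submodule.subset_span ⟨0, rfl⟩))
      rintro _ ⟨i, rfl⟩
      fin_cases i
      · exact Submodule.mem_span_singleton_self _
      · simp [h.sq]
    rw [hr, finrank_span_singleton hLx]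

theorem Inv2.exists_four {L : Module.End F V} (h : Inv2 Q L) (h2 : (2 : F) = 0) {X : Submodule F V}
    (hXn : Nd Q X) (hXi : ∀ x ∈ X, L x ∈ X) (halt : ∀ x ∈ X, QuadraticMap.polar Q x (L x) = 0)
    (hne : X.map L ≠ ⊥) :
    ∃ B ≤ X, Nd Q B ∧ finrank F B = 4 ∧ (∀ p ∈ B, L p ∈ B) ∧ finrank F (B.map L) = 2 ∧ Plus Q B := by
  have hself : ∀ v, QuadraticMap.polar Q v v = 0 := fun v => by
    rw [QuadraticMap.polar_self, two_nsmul, ← two_mul, h2, zero_mul]
  have hneg : ∀ a : F, -a = a := fun a => by linear_combination (-a) * h2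
  obtain ⟨_, ⟨x, hx, rfl⟩, hLx⟩ := (X.map L).ne_bot_iff.1 hne
  obtain ⟨y₀, hy₀, hy0⟩ : ∃ y ∈ X, QuadraticMap.polar Q (L x) y ≠ 0 := by
    by_contra hcon
    push Not at hcon
    exact hLx (hXn _ (hXi x hx) hcon)
  set y := (QuadraticMap.polar Q (L x) y₀)⁻¹ • y₀ with hy
  have hyX : y ∈ X := X.smul_mem _ hy₀
  have h1 : QuadraticMap.polar Q (L x) y = 1 := by
    rw [hy, QuadraticMap.polar_smul_right, smul_eq_mul, inv_mul_cancel₀ hy0]
  have h3 : QuadraticMap.polar Q x (L y) = 1 := by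
    have := h.adj x y
    rw [h1] at this
    rw [← hneg (QuadraticMap.polar Q x (L y)), ← this]
  have hxx : QuadraticMap.polar Q x (L x) = 0 := halt x hx
  have hyy : QuadraticMap.polar Q y (L y) = 0 := halt y hyX
  have hQL : ∀ v ∈ X, Q (L v) = 0 := fun v hv => by have := h.norm v; rwa [halt v hv, add_zero] at this
  let f : Fin 4 → V := ![x, L x, y, L y]
  have hnd : ∀ c : Fin 4 → F, (∀ t, QuadraticMap.polar Q (∑ i, c i • f i) (f t) = 0) → c = 0 := by
    intro c hc
    have e : ∀ z, QuadraticMap.polar Q (∑ i, c i • f i) z = c 0 * QuadraticMap.polar Q x z +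
        c 1 * QuadraticMap.polar Q (L x) z + c 2 * QuadraticMap.polar Q y z + c 3 * QuadraticMap.polar Q (L y) z :=
      fun z => by simp [Fin.sum_univ_four, f, QuadraticMap.polar_add_left, QuadraticMap.polar_smul_left]
    have a1 := hc 1
    have a3 := hc 3
    rw [e] at a1 a3
    simp only [f, Matrix.cons_val] at a1 a3
    rw [hxx, hself, h.polar_LL, QuadraticMap.polar_comm (⇑Q) y (L x), h1] at a1
    rw [h.polar_LL, h3, hyy, hself] at a3
    simp only [mul_zero, mul_one, add_zero, zero_add] at a1 a3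
    have a0 := hc 0
    have a2 := hc 2
    rw [e] at a0 a2
    simp only [f, Matrix.cons_val, a1, a3, zero_mul, zero_add, add_zero] at a0 a2
    rw [QuadraticMap.polar_comm (⇑Q) (L x) x, hxx, QuadraticMap.polar_comm (⇑Q) (L y) x, h3, mul_zero, zero_add,
      mul_one] at a0
    rw [h1, QuadraticMap.polar_comm (⇑Q) (L y) y, hyy, mul_zero, add_zero, mul_one] at a2
    funext i
    fin_cases i <;> assumption
  have hli : LinearIndependent F f := Fintype.linearIndependent_iff.2 fun c hc i =>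
    congrFun (hnd c fun t => by rw [hc]; simp [QuadraticMap.polar]) i
  have hfL : ∀ i, L (f i) ∈ Submodule.span F (Set.range ![L x, L y]) := by
    intro i
    fin_cases i
    · exact Submodule.subset_span ⟨0, rfl⟩
    · simp [f, h.sq]
    · exact Submodule.subset_span ⟨1, rfl⟩
    · simp [f, h.sq]
  have hmap : (Submodule.span F (Set.range f)).map L = Submodule.span F (Set.range ![L x, L y]) := by
    refine le_antisymm ?_ (Submodule.span_le.2 ?_)
    · rw [Submodule.map_span, Submodule.span_le]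
      rintro _ ⟨_, ⟨i, rfl⟩, rfl⟩
      exact hfL i
    · rintro _ ⟨i, rfl⟩
      fin_cases i
      · exact ⟨x, Submodule.subset_span ⟨0, rfl⟩, rfl⟩
      · exact ⟨y, Submodule.subset_span ⟨2, rfl⟩, rfl⟩
  have hli2 : LinearIndependent F ![L x, L y] := by
    have := hli.comp ![1, 3] (by intro a b; fin_cases a <;> fin_cases b <;> simp)
    convert this using 1
    funext i
    fin_cases i <;> rfl
  have hr : finrank F ((Submodule.span F (Set.range f)).map L) = 2 := by
    rw [hmap, finrank_span_eq_card hli2]; simp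
  have hle : Submodule.span F (Set.range ![L x, L y]) ≤ Submodule.span F (Set.range f) := Submodule.span_le.2 (by
    rintro _ ⟨i, rfl⟩
    fin_cases i
    exacts [Submodule.subset_span ⟨1, rfl⟩, Submodule.subset_span ⟨3, rfl⟩])
  refine ⟨Submodule.span F (Set.range f), Submodule.span_le.2 ?_, fun z hz hzz => ?_,
    by rw [finrank_span_eq_card hli]; simp, fun p hp => ?_, hr, ?_⟩
  · rintro _ ⟨i, rfl⟩
    fin_cases i
    exacts [hx, hXi x hx, hyX, hXi y hyX]
  · obtain ⟨c, rfl⟩ := (Submodule.mem_span_range_iff_exists_fun F).1 hz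
    rw [hnd c fun t => hzz _ (Submodule.subset_span ⟨t, rfl⟩)]
    simp
  · exact hle (hmap ▸ Submodule.mem_map_of_mem hp)
  · refine ⟨Submodule.span F (Set.range ![L x, L y]), hle, fun z hz => ?_, by
      rw [finrank_span_eq_card hli2, finrank_span_eq_card hli]; simp⟩
    obtain ⟨c, rfl⟩ := (Submodule.mem_span_range_iff_exists_fun F).1 hz
    simp [Fin.sum_univ_two, QuadraticMap.map_add Q, QuadraticMap.map_smul, QuadraticMap.polar_smul_left,
      QuadraticMap.polar_smul_right, hQL x hx, hQL y hyX, h.polar_LL]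

theorem Inv2.exists_nonalt {L : Module.End F V} (h : Inv2 Q L) {X : Submodule F V} (hXn : Nd Q X)
    (hXi : ∀ x ∈ X, L x ∈ X) (hodd : Odd (finrank F (X.map L))) :
    ∃ x ∈ X, QuadraticMap.polar Q x (L x) ≠ 0 := by
  by_contra hcon
  push Not at hcon
  have hS : UnipSkew.Skew (Q.comp X.subtype) (L.restrict hXi) :=
    ⟨fun v => Subtype.ext (h.sq v),
      fun v => (polar_res X (L.restrict hXi v) v).trans (by
        show QuadraticMap.polar Q (L (v : V)) (v : V) = 0
        rw [QuadraticMap.polar_comm]; exact hcon _ v.2),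
      fun v => by
        show Q (L (v : V)) = 0
        have := h.norm (v : V)
        rwa [hcon _ v.2, add_zero] at this⟩
  have h1 := hS.even_rank (nd_top (res_nondeg hXn)) fun w _ => trivial
  rw [Submodule.map_top] at h1
  have h3 : (LinearMap.range (L.restrict hXi)).map X.subtype = X.map L := by
    rw [← LinearMap.range_comp]
    refine le_antisymm ?_ ?_
    · rintro _ ⟨v, rfl⟩; exact ⟨_, v.2, rfl⟩
    · rintro _ ⟨v, hv, rfl⟩; exact ⟨⟨v, hv⟩, rfl⟩
  rw [← Submodule.finrank_map_subtype_eq, h3] at h1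
  exact Nat.not_even_iff_odd.2 hodd h1

/-- An invariant hyperbolic subspace of dimension `2w`. -/
def Has (Q : QuadraticForm F V) (L : Module.End F V) (X : Submodule F V) (w : ℕ) : Prop :=
  ∃ W ≤ X, Nd Q W ∧ finrank F W = 2 * w ∧ Plus Q W ∧ ∀ x ∈ W, L x ∈ W

/-- Adding an invariant block. -/
theorem glue_has (hB : (BQ).Nondegenerate) {L : Module.End F V} {B X W : Submodule F V} (hBn : Nd Q B)
    (hBi : ∀ b ∈ B, L b ∈ B) (hBX : B ≤ X) (hWn : Nd Q W) (hWi : ∀ b ∈ W, L b ∈ W) (hW : W ≤ X ⊓ perp BQ B)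
    {b u : ℕ} (hb : finrank F B = 2 * b) (hu : finrank F W = 2 * u) (ht : Plus Q B ↔ Plus Q W) :
    Has Q L X (b + u) := by
  have hperp : W ≤ perp BQ B := hW.trans inf_le_right
  refine ⟨B ⊔ W, sup_le hBX (hW.trans inf_le_left), nd_sup hBn hWn hperp, by rw [finrank_sup hB hBn hperp]; omega,
    (plus_sup hB hBn hWn hperp ⟨b, by omega⟩ ⟨u, by omega⟩).2 ht, fun x hx => ?_⟩
  obtain ⟨a, ha, c, hc, rfl⟩ := Submodule.mem_sup.1 hx
  rw [map_add]
  exact Submodule.add_mem_sup (hBi a ha) (hWi c hc)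

/-- The main existence statement. -/
theorem Inv2.exists_plus (hB : (BQ).Nondegenerate) {L : Module.End F V} (h : Inv2 Q L) (h2 : (2 : F) = 0) :
    ∀ (d : ℕ) (X : Submodule F V), Good Q L X → finrank F X = 2 * d → ∀ w, w < d →
      (Even w ∨ (Plus Q X ↔ Odd d)) → Has Q L X w := by
  intro d
  induction d using Nat.strong_induction_on with
  | _ d ih =>
  intro X hX hd w hw hcond
  have hbot : Has Q L X 0 := ⟨⊥, bot_le, nd_bot, by rw [finrank_bot], plus_bot, fun x hx => by
    rw [(Submodule.mem_bot F).1 hx, map_zero]; exact Submodule.zero_mem _⟩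
  by_cases hL0 : X.map L = ⊥
  · rcases Nat.eq_zero_or_pos w with rfl | hw0
    · exact hbot
    obtain ⟨W, hWX, hWn, hWd, hWt⟩ := exists_even hB hX.nd True (u := w) (fun h0 => trivial) (Or.inl (by omega))
    refine ⟨W, hWX, hWn, hWd, hWt.2 trivial, fun x hx => ?_⟩
    have hz : L x ∈ X.map L := ⟨x, hWX hx, rfl⟩
    rw [hL0, Submodule.mem_bot] at hz
    rw [hz]; exact W.zero_mem
  rcases Nat.eq_zero_or_pos w with rfl | hw0
  · exact hbot
  by_cases halt : ∀ x ∈ X, QuadraticMap.polar Q x (L x) = 0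
  · obtain ⟨B, hBX, hBn, hBd, hBi, hBr, hBp⟩ := h.exists_four h2 hX.nd hX.inv halt hL0
    obtain ⟨hYn, hYd, hYs⟩ := nd_split hB hBn hX.nd hBX
    have hYi : ∀ x ∈ X ⊓ perp BQ B, L x ∈ X ⊓ perp BQ B := fun x hx => ⟨hX.inv x hx.1, h.perp_inv hBi x hx.2⟩
    have hr := rank_split' hB hBn hBX hX.nd hBi hYi
    have hY : Good Q L (X ⊓ perp BQ B) := ⟨hYn, hYi, by obtain ⟨a, ha⟩ := hX.even; exact ⟨a - 1, by omega⟩⟩
    have hps := plus_sup hB hBn hYn inf_le_right ⟨2, by omega⟩ ⟨d - 2, by omega⟩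
    rw [hYs] at hps
    have hPY : Plus Q X ↔ Plus Q (X ⊓ perp BQ B) := hps.trans ⟨fun e => e.1 hBp, fun e => iff_of_true hBp e⟩
    have hd2 : Odd d ↔ Odd (d - 2) := by simp only [Nat.odd_iff]; omega
    rcases Nat.lt_or_ge w 2 with hw2 | hw2
    · obtain rfl : w = 1 := by omega
      have hc := hcond.resolve_left (by norm_num)
      rcases Nat.lt_or_ge (d - 2) 2 with hd' | hd'
      · rcases (show d = 2 ∨ d = 3 by omega) with rfl | rfl
        · have hY0 : X ⊓ perp BQ B = ⊥ := Submodule.finrank_eq_zero.1 (by omega)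
          rw [hY0] at hPY
          exact absurd (hc.1 (hPY.2 plus_bot)) (by decide)
        · exact ⟨_, inf_le_left, hYn, by omega, hPY.1 (hc.2 (by decide)), hYi⟩
      · obtain ⟨W, h1, h3⟩ := ih (d - 2) (by omega) _ hY (by omega) 1 (by omega)
          (Or.inr (by rw [← hPY, ← hd2]; exact hc))
        exact ⟨W, h1.trans inf_le_left, h3⟩
    · obtain ⟨u, rfl⟩ : ∃ u, w = 2 + u := ⟨w - 2, by omega⟩
      obtain ⟨W, h1, h3, h4, h5, h6⟩ := ih (d - 2) (by omega) _ hY (by omega) u (by omega)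
        (hcond.imp (fun e => by rw [Nat.even_iff] at e ⊢; omega) fun e => by rw [← hPY, ← hd2]; exact e)
      exact glue_has hB hBn hBi hBX h3 h6 h1 hBd h4 (iff_of_true hBp h5)
  push Not at halt
  obtain ⟨P, hPX, hPn, hPd, hPi, hPr⟩ := h.exists_plane h2 hX.inv halt
  obtain ⟨hYn, hYd, hYs⟩ := nd_split hB hPn hX.nd hPX
  set Y := X ⊓ perp BQ P with hYdef
  have hYi : ∀ x ∈ Y, L x ∈ Y := fun x hx => ⟨hX.inv x hx.1, h.perp_inv hPi x hx.2⟩
  have hr := rank_split' hB hPn hPX hX.nd hPi hYi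
  obtain ⟨P', hP'Y, hP'n, hP'd, hP'i, hP'r⟩ := h.exists_plane h2 hYi (h.exists_nonalt hYn hYi (by
    rw [Nat.odd_iff]; obtain ⟨a, ha⟩ := hX.even; rw [← hYdef] at hr; omega))
  obtain ⟨hZn, hZd, hZs⟩ := nd_split hB hP'n hYn hP'Y
  set Z := Y ⊓ perp BQ P' with hZdef
  have hZi : ∀ x ∈ Z, L x ∈ Z := fun x hx => ⟨hYi x hx.1, h.perp_inv hP'i x hx.2⟩
  have hr' := rank_split' hB hP'n hP'Y hYn hP'i hZi
  have hZ : Good Q L Z := ⟨hZn, hZi, by
    obtain ⟨a, ha⟩ := hX.even; rw [← hYdef] at hr; rw [← hZdef] at hr'; exact ⟨a - 1, by omega⟩⟩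
  have hP'X : P' ≤ X := hP'Y.trans inf_le_left
  have hZX : Z ≤ X := inf_le_left.trans inf_le_left
  have hZP : Z ≤ X ⊓ perp BQ P := inf_le_left
  have hZP' : Z ≤ X ⊓ perp BQ P' := le_inf hZX inf_le_right
  have hUperp : P' ≤ perp BQ P := hP'Y.trans inf_le_right
  have hUn : Nd Q (P ⊔ P') := nd_sup hPn hP'n hUperp
  have hUd : finrank F ↥(P ⊔ P') = 2 * 2 := by rw [finrank_sup hB hPn hUperp]; omega
  have hUX : P ⊔ P' ≤ X := sup_le hPX hP'X
  have hUi : ∀ x ∈ P ⊔ P', L x ∈ P ⊔ P' := fun x hx => by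
    obtain ⟨a, ha, c, hc, rfl⟩ := Submodule.mem_sup.1 hx
    rw [map_add]
    exact Submodule.add_mem_sup (hPi a ha) (hP'i c hc)
  have hUZ : Z ≤ X ⊓ perp BQ (P ⊔ P') := le_inf hZX fun z hz => mem_perp_iff.2 fun y hy => by
    obtain ⟨a, ha, c, hc, rfl⟩ := Submodule.mem_sup.1 hy
    rw [QuadraticMap.polar_add_left, mem_perp_iff.1 hz.1.2 a ha, mem_perp_iff.1 hz.2 c hc, add_zero]
  have hUt := plus_sup hB hPn hP'n hUperp ⟨1, by omega⟩ ⟨1, by omega⟩
  have hps := plus_sup hB hUn hZn (hUZ.trans inf_le_right) ⟨2, by omega⟩ ⟨d - 2, by omega⟩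
  rw [sup_assoc, hZs, hYs] at hps
  have hd2 : Odd d ↔ Odd (d - 2) := by simp only [Nat.odd_iff]; omega
  by_cases hUp : Plus Q (P ⊔ P')
  · have hPZ : Plus Q X ↔ Plus Q Z := hps.trans ⟨fun e => e.1 hUp, fun e => iff_of_true hUp e⟩
    rcases Nat.lt_or_ge w 2 with hw2 | hw2
    · obtain rfl : w = 1 := by omega
      have hc := hcond.resolve_left (by norm_num)
      rcases Nat.lt_or_ge (d - 2) 2 with hd' | hd'
      · rcases (show d = 2 ∨ d = 3 by omega) with rfl | rfl
        · have hZ0 : Z = ⊥ := Submodule.finrank_eq_zero.1 (by omega)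
          rw [hZ0] at hPZ
          exact absurd (hc.1 (hPZ.2 plus_bot)) (by decide)
        · exact ⟨_, hZX, hZn, by omega, hPZ.1 (hc.2 (by decide)), hZi⟩
      · obtain ⟨W, h1, h3⟩ := ih (d - 2) (by omega) _ hZ (by omega) 1 (by omega)
          (Or.inr (by rw [← hPZ, ← hd2]; exact hc))
        exact ⟨W, h1.trans hZX, h3⟩
    · obtain ⟨u, rfl⟩ : ∃ u, w = 2 + u := ⟨w - 2, by omega⟩
      obtain ⟨W, h1, h3, h4, h5, h6⟩ := ih (d - 2) (by omega) _ hZ (by omega) u (by omega)
        (hcond.imp (fun e => by rw [Nat.even_iff] at e ⊢; omega) fun e => by rw [← hPZ, ← hd2]; exact e)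
      exact glue_has hB hUn hUi hUX h3 h6 (h1.trans hUZ) hUd h4 (iff_of_true hUp h5)
  · have hPZ : Plus Q X ↔ ¬ Plus Q Z := hps.trans ⟨fun e hz => hUp (e.2 hz), fun e => iff_of_false hUp e⟩
    obtain ⟨A, A', hA, hA', hAZ, hA'Z, hAn, hA'n, hAd, hA'd, hAi, hA'i, hAp, hA'p⟩ :
        ∃ A A' : Submodule F V, A ≤ X ∧ A' ≤ X ∧ Z ≤ X ⊓ perp BQ A ∧ Z ≤ X ⊓ perp BQ A' ∧ Nd Q A ∧ Nd Q A' ∧
          finrank F A = 2 * 1 ∧ finrank F A' = 2 * 1 ∧ (∀ a ∈ A, L a ∈ A) ∧ (∀ a ∈ A', L a ∈ A') ∧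
          Plus Q A ∧ ¬ Plus Q A' := by
      by_cases hp : Plus Q P
      · exact ⟨P, P', hPX, hP'X, hZP, hZP', hPn, hP'n, hPd, hP'd, hPi, hP'i, hp,
          fun hp' => hUp (hUt.2 (iff_of_true hp hp'))⟩
      · refine ⟨P', P, hP'X, hPX, hZP', hZP, hP'n, hPn, hP'd, hPd, hP'i, hPi, ?_, hp⟩
        by_contra hp'
        exact hUp (hUt.2 (iff_of_false hp hp'))
    have recZ : ∀ u, u < d - 2 → (Even u ∨ (Plus Q Z ↔ Odd (d - 2))) → Has Q L Z u :=
      fun u hu hc => ih (d - 2) (by omega) _ hZ (by omega) u hu hc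
    have viaA : ∀ u, u < d - 2 → (Even u ∨ (Plus Q Z ↔ Odd (d - 2))) → Has Q L X (1 + u) := fun u hu hc => by
      obtain ⟨W, h1, h3, h4, h5, h6⟩ := recZ u hu hc
      exact glue_has hB hAn hAi hA h3 h6 (h1.trans hAZ) hAd h4 (iff_of_true hAp h5)
    rcases Nat.even_or_odd w with hwe | hwo
    · rw [Nat.even_iff] at hwe
      rcases Nat.lt_or_ge w (d - 2) with hlt | hge
      · obtain ⟨W, h1, h3⟩ := recZ w hlt (Or.inl (Nat.even_iff.2 hwe))
        exact ⟨W, h1.trans hZX, h3⟩
      rcases Nat.lt_or_ge w (d - 1) with hlt | hge'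
      · obtain rfl : w = d - 2 := by omega
        by_cases hZp : Plus Q Z
        · exact ⟨Z, hZX, hZn, by omega, hZp, hZi⟩
        · rw [show d - 2 = 1 + (d - 3) by omega]
          exact viaA (d - 3) (by omega) (Or.inr (iff_of_false hZp (by rw [Nat.odd_iff]; omega)))
      · obtain rfl : w = d - 1 := by omega
        rw [show d - 1 = 1 + (d - 2) by omega]
        by_cases hZp : Plus Q Z
        · exact glue_has hB hAn hAi hA hZn hZi hAZ hAd (by omega) (iff_of_true hAp hZp)
        · exact glue_has hB hA'n hA'i hA' hZn hZi hA'Z hA'd (by omega) (iff_of_false hA'p hZp)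
    · have hc := hcond.resolve_left (Nat.not_even_iff_odd.2 hwo)
      rw [Nat.odd_iff] at hwo
      rcases Nat.lt_or_ge w (d - 1) with hlt | hge
      · rw [show w = 1 + (w - 1) by omega]
        exact viaA (w - 1) (by omega) (Or.inl (by rw [Nat.even_iff]; omega))
      · have hd0 : ¬ Odd d := by rw [Nat.odd_iff]; omega
        have hZp : Plus Q Z := by
          by_contra hz
          exact hd0 (hc.1 (hPZ.2 hz))
        rw [show w = 1 + (d - 2) by omega]
        exact glue_has hB hAn hAi hA hZn hZi hAZ hAd (by omega) (iff_of_true hAp hZp)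

end Cfsg.Agent.Linear.InvolTwoNd
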