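import Cfsg.Agent.Linear.IsoAlternating
import Mathlib.Algebra.QuadraticAlgebra.Basic
import Mathlib.Data.List.GetD
import Mathlib.FieldTheory.Finite.GaloisField

/-! # `PSL_2(9) ≅ A_6` -/

set_option maxRecDepth 10000
set_option maxHeartbeats 4000000

namespace Cfsg.Agent.Linear

open Matrix

instance fact_no_sqrt_two_mod_three : Fact (∀ r : ZMod 3, r ^ 2 ≠ 2 + 0 * r) := ⟨by decide⟩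

/-- A model of the field with 9 elements. -/
abbrev F9 : Type := QuadraticAlgebra (ZMod 3) 2 0

instance fintype_F9 : Fintype F9 := Fintype.ofEquiv _ (QuadraticAlgebra.equivProd 2 0).symm

lemma card_F9 : Fintype.card F9 = 9 := by
  rw [Fintype.card_congr (QuadraticAlgebra.equivProd 2 0), Fintype.card_prod, ZMod.card]

/-- Six conjugate sets of 20 elements of order 3 in `SL_2(9)`. -/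
def a6List : List (List (Matrix (Fin 2) (Fin 2) F9)) :=
  [[!![⟨0, 1⟩, ⟨0, 1⟩; ⟨2, 0⟩, ⟨2, 2⟩], !![⟨0, 1⟩, ⟨0, 2⟩; ⟨1, 0⟩, ⟨2, 2⟩], !![⟨0, 2⟩, ⟨0, 1⟩; ⟨1, 0⟩, ⟨2, 1⟩], !![⟨0, 2⟩, ⟨0, 2⟩; ⟨2, 0⟩, ⟨2, 1⟩], !![⟨1, 0⟩, ⟨0, 0⟩; ⟨0, 1⟩, ⟨1, 0⟩], !![⟨1, 0⟩, ⟨0, 0⟩; ⟨0, 2⟩, ⟨1, 0⟩], !![⟨1, 0⟩, ⟨1, 0⟩; ⟨0, 0⟩, ⟨1, 0⟩], !![⟨1, 0⟩, ⟨2, 0⟩; ⟨0, 0⟩, ⟨1, 0⟩], !![⟨1, 1⟩, ⟨0, 1⟩; ⟨0, 2⟩, ⟨1, 2⟩], !![⟨1, 1⟩, ⟨0, 2⟩; ⟨0, 1⟩, ⟨1, 2⟩], !![⟨1, 1⟩, ⟨1, 0⟩; ⟨1, 0⟩, ⟨1, 2⟩], !![⟨1, 1⟩, ⟨2, 0⟩; ⟨2, 0⟩, ⟨1, 2⟩], !![⟨1, 2⟩, ⟨0, 1⟩; ⟨0, 2⟩, ⟨1, 1⟩], !![⟨1, 2⟩, ⟨0, 2⟩; ⟨0, 1⟩, ⟨1, 1⟩], !![⟨1, 2⟩, ⟨1, 0⟩; ⟨1, 0⟩, ⟨1, 1⟩], !![⟨1, 2⟩, ⟨2, 0⟩; ⟨2, 0⟩, ⟨1, 1⟩], !![⟨2, 1⟩, ⟨0, 1⟩; ⟨1, 0⟩, ⟨0, 2⟩], !![⟨2, 1⟩, ⟨0, 2⟩; ⟨2,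 0⟩, ⟨0, 2⟩], !![⟨2, 2⟩, ⟨0, 1⟩; ⟨2, 0⟩, ⟨0, 1⟩], !![⟨2, 2⟩, ⟨0, 2⟩; ⟨1, 0⟩, ⟨0, 1⟩]],
   [!![⟨0, 0⟩, ⟨0, 1⟩; ⟨0, 1⟩, ⟨2, 0⟩], !![⟨0, 0⟩, ⟨1, 0⟩; ⟨2, 0⟩, ⟨2, 0⟩], !![⟨0, 0⟩, ⟨2, 0⟩; ⟨1, 0⟩, ⟨2, 0⟩], !![⟨0, 1⟩, ⟨0, 1⟩; ⟨2, 0⟩, ⟨2, 2⟩], !![⟨0, 1⟩, ⟨2, 0⟩; ⟨0, 1⟩, ⟨2, 2⟩], !![⟨0, 2⟩, ⟨0, 1⟩; ⟨1, 0⟩, ⟨2, 1⟩], !![⟨0, 2⟩, ⟨1, 0⟩; ⟨0, 1⟩, ⟨2, 1⟩], !![⟨1, 0⟩, ⟨0, 0⟩; ⟨1, 0⟩, ⟨1, 0⟩], !![⟨1, 0⟩, ⟨0, 0⟩; ⟨2, 0⟩, ⟨1, 0⟩], !![⟨1, 0⟩, ⟨1, 0⟩; ⟨0, 0⟩, ⟨1, 0⟩], !![⟨1, 0⟩, ⟨2, 0⟩; ⟨0, 0⟩, ⟨1, 0⟩], !![⟨1, 1⟩, ⟨2, 0⟩; ⟨2, 0⟩, ⟨1, 2⟩], !![⟨1, 2⟩, ⟨1, 0⟩; ⟨1, 0⟩, ⟨1, 1⟩], !![⟨2, 0⟩, ⟨0, 2⟩; ⟨0, 2⟩, ⟨0, 0⟩], !![⟨2, 0⟩, ⟨1, 0⟩; ⟨2, 0⟩, ⟨0, 0⟩], !![⟨2, 0⟩, ⟨2, 0⟩; ⟨1, 0⟩, ⟨0, 0⟩], !![⟨2, 1⟩, ⟨0, 2⟩; ⟨2, 0⟩, ⟨0,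 2⟩], !![⟨2, 1⟩, ⟨2, 0⟩; ⟨0, 2⟩, ⟨0, 2⟩], !![⟨2, 2⟩, ⟨0, 2⟩; ⟨1, 0⟩, ⟨0, 1⟩], !![⟨2, 2⟩, ⟨1, 0⟩; ⟨0, 2⟩, ⟨0, 1⟩]],
   [!![⟨0, 0⟩, ⟨0, 2⟩; ⟨0, 2⟩, ⟨2, 0⟩], !![⟨0, 0⟩, ⟨1, 0⟩; ⟨2, 0⟩, ⟨2, 0⟩], !![⟨0, 0⟩, ⟨2, 0⟩; ⟨1, 0⟩, ⟨2, 0⟩], !![⟨0, 1⟩, ⟨0, 2⟩; ⟨1, 0⟩, ⟨2, 2⟩], !![⟨0, 1⟩, ⟨1, 0⟩; ⟨0, 2⟩, ⟨2, 2⟩], !![⟨0, 2⟩, ⟨0, 2⟩; ⟨2, 0⟩, ⟨2, 1⟩], !![⟨0, 2⟩, ⟨2, 0⟩; ⟨0, 2⟩, ⟨2, 1⟩], !![⟨1, 0⟩, ⟨0, 0⟩; ⟨1, 0⟩, ⟨1, 0⟩], !![⟨1, 0⟩, ⟨0, 0⟩; ⟨2, 0⟩, ⟨1, 0⟩], !![⟨1, 0⟩, ⟨1, 0⟩; ⟨0, 0⟩, ⟨1, 0⟩], !![⟨1, 0⟩, ⟨2, 0⟩; ⟨0, 0⟩, ⟨1, 0⟩], !![⟨1, 1⟩, ⟨1, 0⟩; ⟨1, 0⟩, ⟨1, 2⟩], !![⟨1, 2⟩, ⟨2, 0⟩; ⟨2, 0⟩, ⟨1, 1⟩], !![⟨2, 0⟩, ⟨0, 1⟩; ⟨0, 1⟩, ⟨0, 0⟩], !![⟨2, 0⟩, ⟨1, 0⟩; ⟨2, 0⟩, ⟨0, 0⟩], !![⟨2, 0⟩, ⟨2, 0⟩; ⟨1, 0⟩, ⟨0, 0⟩],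 !![⟨2, 1⟩, ⟨0, 1⟩; ⟨1, 0⟩, ⟨0, 2⟩], !![⟨2, 1⟩, ⟨1, 0⟩; ⟨0, 1⟩, ⟨0, 2⟩], !![⟨2, 2⟩, ⟨0, 1⟩; ⟨2, 0⟩, ⟨0, 1⟩], !![⟨2, 2⟩, ⟨2, 0⟩; ⟨0, 1⟩, ⟨0, 1⟩]],
   [!![⟨0, 0⟩, ⟨0, 1⟩; ⟨0, 1⟩, ⟨2, 0⟩], !![⟨0, 0⟩, ⟨0, 2⟩; ⟨0, 2⟩, ⟨2, 0⟩], !![⟨0, 0⟩, ⟨1, 0⟩; ⟨2, 0⟩, ⟨2, 0⟩], !![⟨0, 1⟩, ⟨0, 1⟩; ⟨2, 0⟩, ⟨2, 2⟩], !![⟨0, 1⟩, ⟨1, 0⟩; ⟨0, 2⟩, ⟨2, 2⟩], !![⟨0, 2⟩, ⟨0, 2⟩; ⟨2, 0⟩, ⟨2, 1⟩], !![⟨0, 2⟩, ⟨1, 0⟩; ⟨0, 1⟩, ⟨2, 1⟩], !![⟨1, 0⟩, ⟨0, 0⟩; ⟨0, 1⟩, ⟨1, 0⟩], !![⟨1, 0⟩, ⟨0, 0⟩; ⟨0, 2⟩, ⟨1, 0⟩], !![⟨1, 0⟩, ⟨0, 1⟩; ⟨0, 0⟩, ⟨1, 0⟩], !![⟨1, 0⟩, ⟨0, 2⟩; ⟨0, 0⟩, ⟨1, 0⟩], !![⟨1, 1⟩, ⟨0, 1⟩; ⟨0, 2⟩, ⟨1, 2⟩], !![⟨1, 2⟩, ⟨0, 2⟩; ⟨0, 1⟩, ⟨1, 1⟩], !![⟨2, 0⟩, ⟨0, 1⟩; ⟨0, 1⟩, ⟨0, 0⟩], !![⟨2, 0⟩, ⟨0, 2⟩; ⟨0, 2⟩, ⟨0, 0⟩], !![⟨2,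 0⟩, ⟨2, 0⟩; ⟨1, 0⟩, ⟨0, 0⟩], !![⟨2, 1⟩, ⟨0, 1⟩; ⟨1, 0⟩, ⟨0, 2⟩], !![⟨2, 1⟩, ⟨2, 0⟩; ⟨0, 2⟩, ⟨0, 2⟩], !![⟨2, 2⟩, ⟨0, 2⟩; ⟨1, 0⟩, ⟨0, 1⟩], !![⟨2, 2⟩, ⟨2, 0⟩; ⟨0, 1⟩, ⟨0, 1⟩]],
   [!![⟨0, 0⟩, ⟨0, 1⟩; ⟨0, 1⟩, ⟨2, 0⟩], !![⟨0, 0⟩, ⟨0, 2⟩; ⟨0, 2⟩, ⟨2, 0⟩], !![⟨0, 0⟩, ⟨2, 0⟩; ⟨1, 0⟩, ⟨2, 0⟩], !![⟨0, 1⟩, ⟨0, 2⟩; ⟨1, 0⟩, ⟨2, 2⟩], !![⟨0, 1⟩, ⟨2, 0⟩; ⟨0, 1⟩, ⟨2, 2⟩], !![⟨0, 2⟩, ⟨0, 1⟩; ⟨1, 0⟩, ⟨2, 1⟩], !![⟨0, 2⟩, ⟨2, 0⟩; ⟨0, 2⟩, ⟨2, 1⟩], !![⟨1, 0⟩, ⟨0, 0⟩; ⟨0, 1⟩, ⟨1, 0⟩], !![⟨1, 0⟩, ⟨0, 0⟩; ⟨0, 2⟩, ⟨1, 0⟩], !![⟨1, 0⟩, ⟨0, 1⟩; ⟨0, 0⟩, ⟨1, 0⟩], !![⟨1, 0⟩, ⟨0, 2⟩; ⟨0, 0⟩, ⟨1, 0⟩], !![⟨1, 1⟩, ⟨0, 2⟩; ⟨0, 1⟩, ⟨1, 2⟩], !![⟨1, 2⟩, ⟨0, 1⟩; ⟨0, 2⟩, ⟨1, 1⟩], !![⟨2, 0⟩, ⟨0, 1⟩; ⟨0, 1⟩, ⟨0, 0⟩], !![⟨2, 0⟩, ⟨0,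 2⟩; ⟨0, 2⟩, ⟨0, 0⟩], !![⟨2, 0⟩, ⟨1, 0⟩; ⟨2, 0⟩, ⟨0, 0⟩], !![⟨2, 1⟩, ⟨0, 2⟩; ⟨2, 0⟩, ⟨0, 2⟩], !![⟨2, 1⟩, ⟨1, 0⟩; ⟨0, 1⟩, ⟨0, 2⟩], !![⟨2, 2⟩, ⟨0, 1⟩; ⟨2, 0⟩, ⟨0, 1⟩], !![⟨2, 2⟩, ⟨1, 0⟩; ⟨0, 2⟩, ⟨0, 1⟩]],
   [!![⟨0, 1⟩, ⟨1, 0⟩; ⟨0, 2⟩, ⟨2, 2⟩], !![⟨0, 1⟩, ⟨2, 0⟩; ⟨0, 1⟩, ⟨2, 2⟩], !![⟨0, 2⟩, ⟨1, 0⟩; ⟨0, 1⟩, ⟨2, 1⟩], !![⟨0, 2⟩, ⟨2, 0⟩; ⟨0, 2⟩, ⟨2, 1⟩], !![⟨1, 0⟩, ⟨0, 0⟩; ⟨1, 0⟩, ⟨1, 0⟩], !![⟨1, 0⟩, ⟨0, 0⟩; ⟨2, 0⟩, ⟨1, 0⟩], !![⟨1, 0⟩, ⟨0, 1⟩; ⟨0, 0⟩, ⟨1, 0⟩], !![⟨1, 0⟩, ⟨0, 2⟩; ⟨0, 0⟩, ⟨1, 0⟩], !![⟨1, 1⟩, ⟨0, 1⟩; ⟨0, 2⟩, ⟨1, 2⟩], !![⟨1, 1⟩, ⟨0, 2⟩; ⟨0, 1⟩, ⟨1, 2⟩], !![⟨1, 1⟩, ⟨1, 0⟩; ⟨1, 0⟩, ⟨1, 2⟩], !![⟨1, 1⟩, ⟨2, 0⟩; ⟨2, 0⟩, ⟨1, 2⟩], !![⟨1, 2⟩, ⟨0, 1⟩; ⟨0, 2⟩, ⟨1, 1⟩], !![⟨1, 2⟩, ⟨0, 2⟩; ⟨0,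 1⟩, ⟨1, 1⟩], !![⟨1, 2⟩, ⟨1, 0⟩; ⟨1, 0⟩, ⟨1, 1⟩], !![⟨1, 2⟩, ⟨2, 0⟩; ⟨2, 0⟩, ⟨1, 1⟩], !![⟨2, 1⟩, ⟨1, 0⟩; ⟨0, 1⟩, ⟨0, 2⟩], !![⟨2, 1⟩, ⟨2, 0⟩; ⟨0, 2⟩, ⟨0, 2⟩], !![⟨2, 2⟩, ⟨1, 0⟩; ⟨0, 2⟩, ⟨0, 1⟩], !![⟨2, 2⟩, ⟨2, 0⟩; ⟨0, 1⟩, ⟨0, 1⟩]]]

/-- The index table of the action of the four generators. -/
def a6Cert : List (List (ℕ × List ℕ)) :=
  [[(0, [17, 10, 14, 18, 9, 12, 6, 7, 5, 13, 16, 0, 8, 4, 19, 3, 1, 11, 15, 2]),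
    (1, [4, 14, 7, 16, 6, 12, 0, 15, 1, 9, 10, 3, 18, 19, 8, 2, 11, 13, 5, 17]),
    (2, [6, 14, 7, 11, 0, 18, 4, 15, 1, 9, 10, 16, 5, 17, 8, 2, 3, 19, 12, 13]),
    (4, [4, 6, 15, 16, 1, 18, 0, 11, 12, 9, 10, 8, 7, 17, 19, 2, 3, 14, 5, 13]),
    (5, [1, 3, 4, 10, 2, 14, 0, 9, 12, 6, 7, 13, 8, 16, 18, 5, 11, 19, 15, 17]),
    (3, [1, 6, 0, 4, 15, 2, 9, 10, 8, 12, 16, 3, 11, 7, 18, 5, 19, 14, 17, 13])],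
   [(1, [1, 5, 2, 3, 0, 13, 9, 10, 17, 4, 12, 8, 19, 6, 7, 11, 18, 14, 16, 15]),
    (2, [13, 5, 3, 1, 17, 2, 19, 11, 12, 9, 10, 8, 7, 0, 18, 16, 14, 4, 15, 6]),
    (0, [5, 3, 1, 2, 8, 0, 12, 10, 15, 6, 7, 14, 11, 4, 18, 16, 19, 9, 17, 13]),
    (3, [13, 8, 5, 2, 11, 3, 19, 0, 14, 9, 10, 17, 6, 7, 1, 16, 18, 4, 15, 12]),
    (4, [13, 8, 3, 5, 17, 2, 12, 0, 14, 9, 10, 4, 19, 7, 1, 18, 15, 11, 16, 6]),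
    (5, [8, 16, 19, 12, 10, 15, 6, 7, 17, 1, 14, 5, 18, 2, 4, 11, 9, 0, 3, 13])],
   [(3, [0, 5, 3, 1, 7, 8, 2, 15, 9, 12, 4, 17, 11, 10, 6, 19, 13, 18, 16, 14]),
    (1, [5, 14, 10, 0, 11, 3, 19, 7, 8, 1, 15, 17, 6, 16, 9, 2, 18, 4, 13, 12]),
    (2, [3, 14, 10, 5, 17, 0, 12, 7, 8, 1, 15, 4, 19, 18, 9, 2, 13, 11, 16, 6]),
    (4, [5, 3, 15, 0, 17, 1, 19, 7, 8, 12, 11, 9, 10, 18, 16, 2, 13, 4, 14, 6]),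
    (0, [2, 1, 7, 3, 11, 0, 15, 4, 5, 12, 9, 13, 8, 18, 17, 6, 19, 10, 16, 14]),
    (5, [16, 11, 18, 15, 4, 5, 12, 9, 6, 13, 0, 17, 8, 7, 2, 19, 10, 1, 14, 3])],
   [(0, [8, 17, 12, 19, 4, 5, 14, 11, 16, 1, 6, 15, 18, 3, 10, 7, 0, 9, 2, 13]),
    (5, [6, 2, 1, 8, 3, 12, 0, 4, 5, 14, 11, 15, 10, 7, 18, 17, 9, 19, 13, 16]),
    (1, [13, 6, 4, 16, 1, 18, 2, 7, 8, 12, 11, 9, 10, 0, 19, 17, 3, 14, 5, 15]),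
    (3, [9, 14, 6, 11, 2, 18, 4, 7, 8, 13, 1, 16, 5, 0, 10, 17, 3, 19, 12, 15]),
    (4, [9, 14, 4, 16, 6, 12, 2, 7, 8, 13, 1, 3, 18, 0, 10, 19, 11, 15, 5, 17]),
    (2, [1, 6, 4, 2, 7, 8, 13, 0, 16, 3, 9, 12, 18, 5, 11, 10, 14, 19, 17, 15])]]

/-- Target set index. -/
def a6Sigma (s a : ℕ) : ℕ := ((a6Cert.getD s []).getD a (0, [])).1

/-- Target element index. -/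
def a6Pi (s a k : ℕ) : ℕ := ((a6Cert.getD s []).getD a (0, [])).2.getD k 0

lemma a6_shape : a6List.length = 6 ∧ ∀ a : Fin 6, (a6List.getD a []).length = 20 := by
  decide +kernel

lemma a6_cert0 : ∀ a : Fin 6, a6Sigma 0 a < 6 ∧ ∀ k : Fin 20, a6Pi 0 a k < 20 ∧
    Matrix.transvection 0 1 (⟨1, 0⟩ : F9) * (a6List.getD a []).getD k 1 =
      (a6List.getD (a6Sigma 0 a) []).getD (a6Pi 0 a k) 1 * Matrix.transvection 0 1 ⟨1, 0⟩ := by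
  decide +kernel

lemma a6_cert1 : ∀ a : Fin 6, a6Sigma 1 a < 6 ∧ ∀ k : Fin 20, a6Pi 1 a k < 20 ∧
    Matrix.transvection 0 1 (⟨0, 1⟩ : F9) * (a6List.getD a []).getD k 1 =
      (a6List.getD (a6Sigma 1 a) []).getD (a6Pi 1 a k) 1 * Matrix.transvection 0 1 ⟨0, 1⟩ := by
  decide +kernel

lemma a6_cert2 : ∀ a : Fin 6, a6Sigma 2 a < 6 ∧ ∀ k : Fin 20, a6Pi 2 a k < 20 ∧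
    Matrix.transvection 1 0 (⟨1, 0⟩ : F9) * (a6List.getD a []).getD k 1 =
      (a6List.getD (a6Sigma 2 a) []).getD (a6Pi 2 a k) 1 * Matrix.transvection 1 0 ⟨1, 0⟩ := by
  decide +kernel

lemma a6_cert3 : ∀ a : Fin 6, a6Sigma 3 a < 6 ∧ ∀ k : Fin 20, a6Pi 3 a k < 20 ∧
    Matrix.transvection 1 0 (⟨0, 1⟩ : F9) * (a6List.getD a []).getD k 1 =
      (a6List.getD (a6Sigma 3 a) []).getD (a6Pi 3 a k) 1 * Matrix.transvection 1 0 ⟨0, 1⟩ := by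
  decide +kernel

lemma a6_gen (i j : Fin 2) (h : i ≠ j) (c : F9) (hc : c = ⟨1, 0⟩ ∨ c = ⟨0, 1⟩) :
    ∀ x ∈ a6List, ∃ y ∈ a6List, ∀ M ∈ x, ∃ N ∈ y,
      (SpecialLinearGroup.transvection h c).1 * M = N * (SpecialLinearGroup.transvection h c).1 := by
  change ∀ x ∈ a6List, ∃ y ∈ a6List, ∀ M ∈ x, ∃ N ∈ y,
    Matrix.transvection i j c * M = N * Matrix.transvection i j c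
  fin_cases i <;> fin_cases j <;> first | contradiction | skip
  · rcases hc with rfl | rfl
    · exact exists_image_of_cert _ _ a6_shape.1 a6_shape.2 _ _ a6_cert0
    · exact exists_image_of_cert _ _ a6_shape.1 a6_shape.2 _ _ a6_cert1
  · rcases hc with rfl | rfl
    · exact exists_image_of_cert _ _ a6_shape.1 a6_shape.2 _ _ a6_cert2
    · exact exists_image_of_cert _ _ a6_shape.1 a6_shape.2 _ _ a6_cert3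

/-- A numeric code for matrices over `F9`. -/
def a6Code (M : Matrix (Fin 2) (Fin 2) F9) : ℕ :=
  let c : F9 → ℕ := fun x => 3 * x.re.val + x.im.val
  ((c (M 0 0) * 9 + c (M 0 1)) * 9 + c (M 1 0)) * 9 + c (M 1 1)

/-- The codes of the six sets. -/
def a6Codes : List (List ℕ) :=
  [[872, 926, 1573, 1681, 2199, 2208, 2433, 2676, 3020, 3092, 3191, 3461, 3748, 3820, 3919, 4189, 5213, 5321, 5968, 6022],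
   [96, 303, 519, 872, 1232, 1573, 1717, 2217, 2244, 2433, 2676, 3461, 3919, 4554, 4671, 4887, 5321, 5609, 6022, 6094],
   [186, 303, 519, 926, 998, 1681, 1969, 2217, 2244, 2433, 2676, 3191, 4189, 4464, 4671, 4887, 5213, 5357, 5968, 6328],
   [96, 186, 303, 872, 998, 1681, 1717, 2199, 2208, 2271, 2352, 3020, 3820, 4464, 4554, 4887, 5213, 5609, 6022, 6328],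
   [96, 186, 519, 926, 1232, 1573, 1969, 2199, 2208, 2271, 2352, 3092, 3748, 4464, 4554, 4671, 5321, 5357, 5968, 6094],
   [998, 1232, 1717, 1969, 2217, 2244, 2271, 2352, 3020, 3092, 3191, 3461, 3748, 3820, 3919, 4189, 5357, 5609, 6094, 6328]]

lemma a6_codes_eq : a6List.map (fun x => x.map a6Code) = a6Codes := by decide +kernel

lemma a6_codes_nodup : a6Codes.Nodup ∧ (∀ o ∈ a6Codes, o.Nodup ∧ o.length = 20) ∧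
    ∀ o ∈ a6Codes, ∀ o' ∈ a6Codes, o ≠ o' → ∃ m ∈ o, m ∉ o' := by decide +kernel

lemma a6_card : ∀ x ∈ a6List, x.toFinset.card = 20 := by
  intro x hx
  have h : x.map a6Code ∈ a6Codes := by rw [← a6_codes_eq]; exact List.mem_map_of_mem hx
  obtain ⟨hn, hl⟩ := a6_codes_nodup.2.1 _ h
  rw [List.toFinset_card_of_nodup hn.of_map, ← List.length_map (f := a6Code), hl]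

lemma a6_pts_card : (ptsOf a6List).card = 6 := by
  have hlen : a6List.length = 6 := a6_shape.1
  have hn : (a6List.map fun x => x.map a6Code).Nodup := a6_codes_eq ▸ a6_codes_nodup.1
  rw [ptsOf, List.toFinset_card_of_nodup, List.length_map, hlen]
  refine hn.of_map.map_on fun x hx y hy he => ?_
  by_contra hne
  have hx' : x.map a6Code ∈ a6Codes := by rw [← a6_codes_eq]; exact List.mem_map_of_mem hx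
  have hy' : y.map a6Code ∈ a6Codes := by rw [← a6_codes_eq]; exact List.mem_map_of_mem hy
  have hne' : x.map a6Code ≠ y.map a6Code := fun h => hne (List.inj_on_of_nodup_map hn hx hy h)
  obtain ⟨m, hm, hm'⟩ := a6_codes_nodup.2.2 _ hx' _ hy' hne'
  obtain ⟨M, hM, rfl⟩ := List.mem_map.1 hm
  have : M ∈ y.toFinset := he ▸ List.mem_toFinset.2 hM
  exact hm' (List.mem_map_of_mem (List.mem_toFinset.1 this))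

lemma F9_induction (P : F9 → Prop) (h0 : P 0) (h1 : P ⟨1, 0⟩) (hw : P ⟨0, 1⟩)
    (hadd : ∀ a b, P a → P b → P (a + b)) (c : F9) : P c := by
  have hc : c = ⟨c.re, 0⟩ + ⟨0, c.im⟩ := by ext <;> simp
  rw [hc]
  have key : ∀ r : ZMod 3, r = 0 ∨ r = 1 ∨ r = 1 + 1 := by decide
  apply hadd
  · rcases key c.re with h | h | h <;> rw [h]
    · exact h0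
    · exact h1
    · exact hadd _ _ h1 h1
  · rcases key c.im with h | h | h <;> rw [h]
    · exact h0
    · exact hw
    · exact hadd _ _ hw hw

lemma a6_moved0 : ∀ k : Fin 20,
    Matrix.transvection 0 1 (⟨0, 1⟩ : F9) * (a6List.getD 0 []).getD 0 1
      ≠ (a6List.getD 0 []).getD k 1 * Matrix.transvection 0 1 ⟨0, 1⟩ := by decide +kernel

lemma a6_moved : ∃ x ∈ a6List, ∃ M ∈ x, ∀ N ∈ x,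
    (SpecialLinearGroup.transvection (zero_ne_one : (0 : Fin 2) ≠ 1) (⟨0, 1⟩ : F9)).1 * M
      ≠ N * (SpecialLinearGroup.transvection (zero_ne_one : (0 : Fin 2) ≠ 1) (⟨0, 1⟩ : F9)).1 := by
  have h0 : (0 : ℕ) < a6List.length := by rw [a6_shape.1]; norm_num
  have h1 : (0 : ℕ) < (a6List.getD 0 []).length := by
    have := a6_shape.2 0
    rw [Fin.val_zero] at this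
    omega
  refine ⟨a6List.getD 0 [], ?_, (a6List.getD 0 []).getD 0 1, ?_, fun N hN => ?_⟩
  · rw [List.getD_eq_getElem _ _ h0]
    exact List.getElem_mem _
  · rw [List.getD_eq_getElem _ _ h1]
    exact List.getElem_mem _
  · obtain ⟨k, hk, rfl⟩ := List.mem_iff_getElem.1 hN
    have hl := a6_shape.2 0
    rw [Fin.val_zero] at hl
    have := a6_moved0 ⟨k, hl ▸ hk⟩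
    rw [List.getD_eq_getElem _ _ hk] at this
    exact this

theorem PSL2_nine_iso {F : Type*} [Field F] [Fintype F] (hF : Fintype.card F = 9) :
    Nonempty (ProjectiveSpecialLinearGroup (Fin 2) F ≃* alternatingGroup (Fin 6)) := by
  have : IsSimpleGroup (ProjectiveSpecialLinearGroup (Fin 2) F9) :=
    Matrix.ProjectiveSpecialLinearGroup.rank_two_simple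
      (by rw [Nat.card_eq_fintype_card, card_F9]; norm_num)
  have hinv : ∀ (i j : Fin 2) (h : i ≠ j) (c : F9), ∀ x ∈ ptsOf a6List,
      conjAct (SpecialLinearGroup.transvection h c) x ∈ ptsOf a6List := by
    intro i j h c
    refine F9_induction
      (fun c => ∀ x ∈ ptsOf a6List,
        conjAct (SpecialLinearGroup.transvection h c) x ∈ ptsOf a6List) ?_ ?_ ?_ ?_ c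
    · intro x hx
      rw [SpecialLinearGroup.transvection_coeff_zero, conjAct_one]
      exact hx
    · exact conjAct_mem_ptsOf a6_card (a6_gen i j h _ (Or.inl rfl))
    · exact conjAct_mem_ptsOf a6_card (a6_gen i j h _ (Or.inr rfl))
    · intro a b ha hb x hx
      rw [SpecialLinearGroup.transvection_add, conjAct_mul]
      exact ha _ (hb x hx)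
  let f := permHom conjAct conjAct_one conjAct_mul (ptsOf a6List)
    (invariant_of_transvection conjAct conjAct_mul _ hinv)
  have hneg : f (-1) = 1 := Equiv.ext fun x => Subtype.ext (conjAct_neg_one _)
  have hne : f ≠ 1 := permHom_ne_one _
    (g := SpecialLinearGroup.transvection zero_ne_one (⟨0, 1⟩ : F9)) a6_moved
  have hc : Nat.card (ProjectiveSpecialLinearGroup (Fin 2) F9) = 360 := by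
    have h := card_PSL_two (F := F9)
    rw [card_F9, show Nat.gcd 2 (9 - 1) = 2 from rfl] at h
    omega
  obtain ⟨e⟩ := PSL_iso_alternating_of_perm f (center_SL2_le_iff f hneg) hne
    a6_pts_card (by norm_num) (by rw [hc]; rfl)
  exact ⟨(pslCongr (FiniteField.ringEquivOfCardEq (hF.trans card_F9.symm))).trans e⟩

end Cfsg.Agent.Linear
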