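import Cfsg.Agent.Linear.NdDerange
import Cfsg.Prelude.Def_GeometricClasses

/-!
# The frozen predicates on nondegenerate subspaces
-/

set_option autoImplicit false
set_option linter.unusedSectionVars false

namespace Cfsg.Agent.Linear.NdBridge

open Cfsg.Agent.Linear.OrthSpaces

variable {F : Type*} [Field F] [Fintype F] {ι : Type} [Fintype ι] [DecidableEq ι] {Q : QuadraticForm F (ι → F)}
  {W : Submodule F (ι → F)}

theorem nd_iff : Cfsg.Geo.IsNondegenerateOn (QuadraticMap.polar ⇑Q) W ↔ Nd Q W := by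
  constructor
  · intro h w hw hz
    by_contra hw0
    obtain ⟨-, x, hx, hne⟩ := h w hw hw0
    exact hne (hz x hx)
  · intro h w hw hw0
    have hne : ¬ ∀ x ∈ W, QuadraticMap.polar Q w x = 0 := fun hz => hw0 (h w hw hz)
    push Not at hne
    obtain ⟨x, hx, hne⟩ := hne
    exact ⟨⟨x, hx, by rwa [QuadraticMap.polar_comm]⟩, x, hx, hne⟩

theorem plus_on_iff : Cfsg.Geo.IsPlusTypeOn ⇑Q W ↔ Plus Q W := Iff.rfl

theorem typed_plus {m : ℕ} : (Module.finrank F W = m ∧ Cfsg.Geo.IsNondegenerateOn (QuadraticMap.polar ⇑Q) W ∧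
    Cfsg.Geo.IsPlusTypeOn ⇑Q W) ↔ NdDerange.Typed Q m True W := by
  rw [NdDerange.Typed, nd_iff, plus_on_iff, iff_true]

theorem typed_minus {m : ℕ} : (Module.finrank F W = m ∧ Cfsg.Geo.IsNondegenerateOn (QuadraticMap.polar ⇑Q) W ∧
    ¬ Cfsg.Geo.IsPlusTypeOn ⇑Q W) ↔ NdDerange.Typed Q m False W := by
  rw [NdDerange.Typed, nd_iff, plus_on_iff, iff_false]

theorem typed_inline {m : ℕ} : (Module.finrank F W = m ∧
    (∀ u ∈ W, u ≠ 0 → ∃ v ∈ W, QuadraticMap.polar (⇑Q) u v ≠ 0) ∧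
      ∃ U : Submodule F (ι → F), U ≤ W ∧ 2 * Module.finrank F U = m ∧ ∀ u ∈ U, Q u = 0) ↔
    NdDerange.Typed Q m True W := by
  rw [NdDerange.Typed, iff_true]
  constructor
  · rintro ⟨hd, hn, U, hU, hUd, hUs⟩
    refine ⟨hd, fun w hw hz => ?_, U, hU, hUs, by rw [hd]; exact hUd⟩
    by_contra hw0
    obtain ⟨v, hv, hne⟩ := hn w hw hw0
    exact hne (hz v hv)
  · rintro ⟨hd, hn, U, hU, hUs, hUd⟩
    refine ⟨hd, fun w hw hw0 => ?_, U, hU, by rw [hUd, hd], hUs⟩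
    by_contra hcon
    push Not at hcon
    exact hw0 (hn w hw hcon)

theorem typed_iso {m : ℕ} {W₀ : Submodule F (ι → F)} :
    (Module.finrank F W = m ∧ Cfsg.Geo.IsNondegenerateOn (QuadraticMap.polar ⇑Q) W ∧
      Cfsg.Geo.AreIsometricFor (⇑Q) W W₀) ↔ (Module.finrank F W = m ∧ Nd Q W ∧ Iso Q W W₀) := by
  rw [nd_iff]
  exact Iff.rfl

end Cfsg.Agent.Linear.NdBridge
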