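import Cfsg.Agent.Linear.OrthSingDerange
import Cfsg.Agent.Linear.OrthFreeSub

/-!
# Elements of odd prime order and nondegenerate subspaces of even dimension
-/

set_option autoImplicit false
set_option linter.unusedSectionVars false

namespace Cfsg.Agent.Linear.NdDerange

open Polynomial Module Cfsg.Agent.Forms Cfsg.Agent.Linear.SpPrimeClasses Cfsg.Agent.Linear.CycloFactors
  Cfsg.Agent.Linear.OrthSpaces Cfsg.Agent.Linear.OrthFree Cfsg.Agent.Linear.OrthSingDerange

variable {F : Type*} [Field F] [Fintype F] {V : Type*} [AddCommGroup V] [Module F V] [FiniteDimensional F V]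
  {Q : QuadraticForm F V} {q r i : ℕ} {S : Finset F[X]}

local notation "BQ" => QuadraticMap.polarBilin Q

/-- A fixed part of dimension `m - cc i * s` and a free part of dimension `cc i * s` give the type `η`. -/
def Fit (Q : QuadraticForm F V) (i : ℕ) (η : Prop) (m f J s : ℕ) : Prop :=
  cc i * s ≤ m ∧ (m - cc i * s = 0 → (η ↔ (Odd i ∨ Even s))) ∧
    (m - cc i * s < f ∨ (m - cc i * s = f ∧ (FixPlus Q i J ↔ (η ↔ (Odd i ∨ Even s)))))

/-- The nondegenerate `m`-spaces of type `η`. -/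
def Typed (Q : QuadraticForm F V) (m : ℕ) (η : Prop) (W : Submodule F V) : Prop :=
  finrank F W = m ∧ Nd Q W ∧ (Plus Q W ↔ η)

theorem exists_invariant (h : Ctx F q r i S) (hB : (BQ).Nondegenerate) {T : Module.End F V} (hT : T ^ r = 1)
    (hTQ : ∀ v, Q (T v) = Q v) {m : ℕ} (hme : Even m) {η : Prop}
    (H : ∀ J, finrank F (LinearMap.ker (T - 1)) + cc i * J = finrank F V → Adm Q i J →
      ∃ s, s ≤ J ∧ Fit Q i η m (finrank F (LinearMap.ker (T - 1))) J s) :
    ∃ W : Submodule F V, Typed Q m η W ∧ ∀ w ∈ W, T w ∈ W := by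
  obtain ⟨R, hR, L, J, hRn, hKn, hRf, hRp, hsup, hdim, -, -, -, -, hRd, hRt, -⟩ := structure_of h hB hT hTQ
  have hadm : Adm Q i J := by
    rcases Nat.eq_zero_or_pos (finrank F (LinearMap.ker (T - 1))) with h0 | h0
    · refine Or.inr ⟨by omega, ?_⟩
      rwa [show R = ⊤ from Submodule.eq_top_of_finrank_eq (by omega)] at hRt
    · left; omega
  obtain ⟨s, hs, hsm, hzero, hfit⟩ := H J hdim hadm
  obtain ⟨u, hu⟩ := (cc_even i).mul_right s
  obtain ⟨m', hm'⟩ := hme
  obtain ⟨U, hUR, hUi, hUn, hUd, hUt⟩ := OrthFreeSub.exists_sub h hT hTQ hR hRn hRf hRd hs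
  obtain ⟨A, hAK, hAn, hAd, hAt⟩ := exists_even hB hKn (η ↔ (Odd i ∨ Even s)) (u := m' - u)
    (fun h0 => hzero (by omega)) (hfit.imp (fun h' => by omega) fun h' => ⟨by omega,
      (fix_type h hB hT hTQ rfl hdim ⟨m' - u, by omega⟩).trans h'.2⟩)
  have hperp : U ≤ perp BQ A := fun x hx => mem_perp_iff.2 fun y hy => mem_perp_iff.1 (hRp (hUR hx)) y (hAK hy)
  refine ⟨A ⊔ U, ⟨by rw [finrank_sup hB hAn hperp]; omega, nd_sup hAn hUn hperp, ?_⟩, fun w hw => ?_⟩
  · have hps := plus_sup hB hAn hUn hperp ⟨m' - u, by omega⟩ ⟨u, by omega⟩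
    rw [hps, hAt, hUt]
    by_cases hO : (Odd i ∨ Even s) <;> by_cases hη : η <;> simp only [hO, hη, iff_true, iff_false, not_false_eq_true,
      not_true]
  · obtain ⟨x, hx, y, hy, rfl⟩ := Submodule.mem_sup.1 hw
    rw [map_add, show T x = x from sub_eq_zero.1 (hAK hx)]
    exact Submodule.add_mem_sup hx (hUi y hy)

theorem fit_of_invariant (h : Ctx F q r i S) (hB : (BQ).Nondegenerate) {T : Module.End F V} (hT : T ^ r = 1)
    (hTQ : ∀ v, Q (T v) = Q v) {m : ℕ} (hme : Even m) {η : Prop} {W : Submodule F V} (hW : Typed Q m η W)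
    (hWi : ∀ w ∈ W, T w ∈ W) {J : ℕ} (hJ : finrank F (LinearMap.ker (T - 1)) + cc i * J = finrank F V) :
    ∃ s, s ≤ J ∧ Fit Q i η m (finrank F (LinearMap.ker (T - 1))) J s := by
  obtain ⟨hWd, hWn, hWt⟩ := hW
  obtain ⟨R', -, hR'i, hR'n, hR'f, hR'p, hR's, hR'd⟩ := split_fixed h hB hT hTQ hWi hWn
  obtain ⟨L, s, -, -, -, -, hsd, hst⟩ := free_type h hT hTQ hR'i hR'n hR'f
  have hK := nd_fixed h hT hTQ hWi hWn
  obtain ⟨u, hu⟩ := (cc_even i).mul_right s
  obtain ⟨m', hm'⟩ := hme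
  have hps := plus_sup hB hK hR'n hR'p ⟨m' - u, by omega⟩ ⟨u, by omega⟩
  rw [hR's, hWt, hst] at hps
  have hle := Submodule.finrank_mono (inf_le_right : W ⊓ LinearMap.ker (T - 1) ≤ _)
  have hdisj := Submodule.finrank_sup_add_finrank_inf_eq R' (LinearMap.ker (T - 1))
  rw [hR'f, finrank_bot] at hdisj
  have hle' := Submodule.finrank_le (R' ⊔ LinearMap.ker (T - 1))
  refine ⟨s, Nat.le_of_mul_le_mul_left (by omega) (cc_pos h.hi0), by omega, fun h0 => ?_, ?_⟩
  · have hb : W ⊓ LinearMap.ker (T - 1) = ⊥ := Submodule.finrank_eq_zero.1 (by omega)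
    rw [hb] at hps
    exact hps.trans ⟨fun h' => h'.1 plus_bot, fun h' => iff_of_true plus_bot h'⟩
  · rcases hle.lt_or_eq with hlt | heq
    · exact Or.inl (by omega)
    · refine Or.inr ⟨by omega, ?_⟩
      have hKK := Submodule.eq_of_le_of_finrank_eq inf_le_right heq
      rw [hKK] at hps
      rw [← fix_type h hB hT hTQ rfl hJ ⟨m' - u, by omega⟩]
      by_cases hO : (Odd i ∨ Even s) <;> by_cases hP : Plus Q (LinearMap.ker (T - 1)) <;>
        simp only [hO, hP, iff_true, iff_false, not_false_eq_true, not_true] at hps <;>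
        simp only [hO, hP, hps, iff_true, iff_false, not_false_eq_true, not_true]

theorem not_fit_zero (h : Ctx F q r i S) (hB : (BQ).Nondegenerate) {m : ℕ} (hme : Even m) {η : Prop}
    (hdvd : r ∣ Nat.card {W : Submodule F V // Typed Q m η W}) {T : Module.End F V} (hT : T ^ r = 1)
    (hTQ : ∀ v, Q (T v) = Q v) {J : ℕ} (hJ : finrank F (LinearMap.ker (T - 1)) + cc i * J = finrank F V)
    (hmax : ¬ Adm Q i (J + 1)) : ¬ Fit Q i η m (finrank F (LinearMap.ker (T - 1))) J 0 := by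
  rintro ⟨-, hzero, hfit⟩
  rw [mul_zero, Nat.sub_zero] at hzero hfit
  obtain ⟨m', hm'⟩ := hme
  obtain ⟨R, hR, L, J', hRn, hKn, -, hRp, -, hdim, -, -, -, -, hRd, hRt, -⟩ := structure_of h hB hT hTQ
  obtain rfl : J' = J := Nat.eq_of_mul_eq_mul_left (cc_pos h.hi0) (by omega)
  obtain ⟨A, hAK, hAn, hAd, hAt⟩ := exists_even hB hKn η (u := m')
    (fun h0 => (hzero (by omega)).2 (Or.inr Even.zero)) (hfit.imp (fun h' => by omega) fun h' => ⟨by omega, by
      have h2 := h'.2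
      rw [← fix_type h hB hT hTQ rfl hdim ⟨m', by omega⟩] at h2
      simp only [Even.zero, or_true, iff_true] at h2
      exact h2⟩)
  refine OrthOrbit.not_dvd_card h hB (P := Typed Q m η) (W₀ := A) ⟨by omega, hAn, hAt⟩
    (fun W hW => iso_of_type hAn hW.2.1 (by rw [hW.1]; omega) ⟨m', by omega⟩ (hAt.trans hW.2.2.symm))
    (fun g hg => ⟨by rw [LinearEquiv.finrank_map_eq]; omega, (map_isom hg).1 hAn, ?_⟩) hRn hRd hRt hmax
    (fun x hx => mem_perp_iff.2 fun y hy => by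
      rw [QuadraticMap.polar_comm]; exact mem_perp_iff.1 (hRp hy) x (hAK hx)) hdvd
  rw [← hAt]
  refine ⟨fun hp => ?_, plus_map hg⟩
  have h1 := plus_map (g := g.symm) (fun v => by rw [← hg (g.symm v), g.apply_symm_apply]) hp
  rwa [← Submodule.map_comp, LinearEquiv.comp_coe, LinearEquiv.self_trans_symm, LinearEquiv.refl_toLinearMap,
    Submodule.map_id] at h1

theorem derange_iff (h : Ctx F q r i S) (hB : (BQ).Nondegenerate) (ht : 1 ≤ S.card) {m : ℕ} (hme : Even m)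
    {η : Prop} (hW : ∃ W, Typed Q m η W) :
    (∀ T : Module.End F V, T ^ r = 1 → (∀ v, Q (T v) = Q v) → T ≠ 1 →
      ∃ W : Submodule F V, Typed Q m η W ∧ ∀ w ∈ W, T w ∈ W) ↔
    ∀ J, Adm Q i J → ∃ s, s ≤ J ∧ Fit Q i η m (finrank F V - cc i * J) J s := by
  constructor
  · intro H J hJ
    obtain ⟨L, hL, hh, hLc⟩ := exists_repl h ht J
    obtain ⟨T, hT, hTQ, hker, -⟩ := exists_elem h hB hL hh hLc hJ
    have hle : cc i * J ≤ finrank F V := by rcases hJ with hJ | hJ <;> omega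
    obtain ⟨W, hWt, hWi⟩ : ∃ W, Typed Q m η W ∧ ∀ w ∈ W, T w ∈ W := by
      by_cases h1 : T = 1
      · obtain ⟨W, hW⟩ := hW
        exact ⟨W, hW, fun w hw => by rwa [h1]⟩
      · exact H T hT hTQ h1
    rw [← hker]
    exact fit_of_invariant h hB hT hTQ hme hWt hWi (by omega)
  · intro H T hT hTQ _
    refine exists_invariant h hB hT hTQ hme fun J hJ hadm => ?_
    rw [show finrank F (LinearMap.ker (T - 1)) = finrank F V - cc i * J by omega]
    exact H J hadm

theorem not_fit_max (h : Ctx F q r i S) (hB : (BQ).Nondegenerate) (ht : 1 ≤ S.card) {m : ℕ} (hme : Even m)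
    {η : Prop} (hdvd : r ∣ Nat.card {W : Submodule F V // Typed Q m η W}) {J : ℕ} (hJ : Adm Q i J)
    (hmax : ¬ Adm Q i (J + 1)) : ¬ Fit Q i η m (finrank F V - cc i * J) J 0 := by
  obtain ⟨L, hL, hh, hLc⟩ := exists_repl h ht J
  obtain ⟨T, hT, hTQ, hker, -⟩ := exists_elem h hB hL hh hLc hJ
  have hle : cc i * J ≤ finrank F V := by rcases hJ with hJ | hJ <;> omega
  rw [← hker]
  exact not_fit_zero h hB hme hdvd hT hTQ (by omega) hmax

end Cfsg.Agent.Linear.NdDerange
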