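import Cfsg.Agent.Linear.OrthDerangeBase

/-!
# Elements of odd prime order of orthogonal groups in even dimension and totally singular subspaces
-/

set_option autoImplicit false
set_option linter.unusedSectionVars false

namespace Cfsg.Agent.Linear.OrthDerangeEven

open Polynomial Module Cfsg.Agent.Forms Cfsg.Agent.Linear.OrthSpaces Cfsg.Agent.Linear.OrthFree
  Cfsg.Agent.Linear.OrthSingDerange Cfsg.Agent.Linear.OrthDerangeBase

variable {F : Type*} [Field F] [Fintype F] {V : Type*} [AddCommGroup V] [Module F V] [FiniteDimensional F V]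
  {Q : QuadraticForm F V} {q r i : ℕ} {S : Finset F[X]}

theorem fix_same (J J' : ℕ) (h : J % 2 = J' % 2) : FixPlus Q i J ↔ FixPlus Q i J' := by
  simp only [FixPlus, Nat.even_iff, h]

theorem fix_flip (hi : Even i) (J J' : ℕ) (h : J % 2 ≠ J' % 2) : FixPlus Q i J ↔ ¬ FixPlus Q i J' := by
  have hn : ¬ Odd i := Nat.not_odd_iff_even.2 hi
  have h' : (J % 2 = 0) ↔ ¬ (J' % 2 = 0) := by omega
  simp only [FixPlus, hn, false_or, Nat.even_iff, h']
  tauto

theorem fix_odd (hi : Odd i) (J : ℕ) : FixPlus Q i J ↔ Plus Q (⊤ : Submodule F V) := by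
  simp only [FixPlus, hi, true_or, iff_true]

/-- The largest free part, with the dimension and type of the fixed space. -/
theorem exists_max (h : Ctx F q r i S) {d : ℕ} (hn : finrank F V = 2 * d) (hd : 0 < d) :
    ∃ J, Adm Q i J ∧ ¬ Adm Q i (J + 1) ∧ (∀ J', Adm Q i J' → J' ≤ J) ∧
      ((J = 2 * d / cc i ∧ (0 < 2 * d % cc i ∨ FixPlus Q i J)) ∨
        (J + 1 = 2 * d / cc i ∧ 2 * d % cc i = 0 ∧ ¬ FixPlus Q i (J + 1))) := by
  have hc0 := cc_pos h.hi0
  have hnc := Nat.mod_add_div (2 * d) (cc i)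
  have hlt := Nat.mod_lt (2 * d) hc0
  have hle : ∀ J', Adm Q i J' → J' ≤ 2 * d / cc i := fun J' hJ' =>
    (Nat.le_div_iff_mul_le hc0).2 (by rw [mul_comm]; rcases hJ' with h' | h' <;> omega)
  by_cases hk : 0 < 2 * d % cc i ∨ FixPlus Q i (2 * d / cc i)
  · refine ⟨_, ?_, fun h' => absurd (hle _ h') (by omega), hle, Or.inl ⟨rfl, hk⟩⟩
    rcases Nat.eq_zero_or_pos (2 * d % cc i) with h0 | h0
    · exact Or.inr ⟨by omega, hk.resolve_left (by omega)⟩
    · exact Or.inl (by omega)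
  · push Not at hk
    have hN : ¬ Adm Q i (2 * d / cc i) := fun h' => h'.elim (fun h1 => by omega) fun h1 => hk.2 h1.2
    obtain ⟨J, hJ⟩ : ∃ J, 2 * d / cc i = J + 1 := Nat.exists_eq_succ_of_ne_zero fun h0 => by
      rw [h0, mul_zero] at hnc; omega
    rw [hJ] at hk hN hle hnc
    rw [Nat.mul_succ] at hnc
    refine ⟨J, Or.inl (by omega), hN, fun J' hJ' => ?_, Or.inr ⟨hJ.symm, by omega, hk.2⟩⟩
    rcases (hle J' hJ').lt_or_eq with h' | rfl
    · omega
    · exact absurd hJ' hN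

/-- The right hand side of the criterion. -/
def Crit (Q : QuadraticForm F V) (i t d m : ℕ) : Prop :=
  i ≤ m ∧
    ((Odd i ∧ ((Plus Q (⊤ : Submodule F V) ∧ 2 * (m % i) ≤ 2 * d % cc i) ∨
        (¬ Plus Q (⊤ : Submodule F V) ∧ (2 * d % cc i = 0 ∨ 2 * (m % i) < 2 * d % cc i)))) ∨
      (Even i ∧ t + 2 * (m / i) ≤ 2 * d / i ∧
        ((2 * (m % i) ≤ i ∧ 2 * d % cc i = 0 ∧ ¬ FixPlus Q i (2 * d / i) ∧ t + 2 * (m / i) < 2 * d / i) ∨
          (2 * (m % i) ≤ 2 * d % cc i ∧ FixPlus Q i (2 * d / i)) ∨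
          (2 * (m % i) < 2 * d % cc i ∧ ¬ FixPlus Q i (2 * d / i)))))

theorem crit_of (h : Ctx F q r i S) (hB : (QuadraticMap.polarBilin Q).Nondegenerate) (ht : 1 ≤ S.card) {d m : ℕ}
    (hn : finrank F V = 2 * d) (hmd : m < d)
    (hdvd : r ∣ Nat.card {W : Submodule F V // finrank F W = m ∧ Sing Q W})
    (H : ∀ T : Module.End F V, T ^ r = 1 → (∀ v, Q (T v) = Q v) → T ≠ 1 →
      ∃ W : Submodule F V, finrank F W = m ∧ Sing Q W ∧ ∀ w ∈ W, T w ∈ W) : Crit Q i S.card d m := by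
  have hc0 := cc_pos h.hi0
  obtain ⟨J, hJ, hJmax, -, hJcase⟩ := exists_max (Q := Q) h hn (by omega)
  obtain ⟨W₀, -, hW₀, hW₀d⟩ := exists_sing (nd_top hB) (e := m) (Or.inl (by rw [finrank_top, hn]; omega))
  obtain ⟨-, -, ⟨e, him, hmod, -, hwit⟩, he2⟩ := necessity h hB ht ⟨W₀, hW₀d, hW₀⟩ hdvd H hJ hJmax
  have hl : Wit (m % i) (finrank F V - cc i * J) (FixPlus Q i J) := by
    have h1 : m % i ≤ e := hmod ▸ Nat.mod_le e i
    rcases hwit with h' | ⟨h', hp⟩
    · exact Or.inl (by omega)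
    · rcases h1.lt_or_eq with h1 | h1
      · exact Or.inl (by omega)
      · exact Or.inr ⟨by omega, hp⟩
  rw [hn] at hl
  have hnc := Nat.mod_add_div (2 * d) (cc i)
  have hml := Nat.mod_lt m h.hi0
  have hf : (J = 2 * d / cc i ∧ 2 * d - cc i * J = 2 * d % cc i) ∨
      (J + 1 = 2 * d / cc i ∧ 2 * d - cc i * J = cc i) := by
    rcases hJcase with ⟨rfl, -⟩ | ⟨h1, h2, -⟩
    · exact Or.inl ⟨rfl, by omega⟩
    · rw [← h1, Nat.mul_succ] at hnc
      exact Or.inr ⟨h1, by omega⟩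
  refine ⟨him, ?_⟩
  rcases Nat.even_or_odd i with hie | hio
  swap
  · left
    refine ⟨hio, ?_⟩
    rw [Wit, fix_odd hio] at hl
    rcases hJcase with ⟨hJe, hk⟩ | ⟨hJe, hk, hP⟩
    · rcases hf with ⟨-, hf⟩ | ⟨h', -⟩
      · rw [hf] at hl
        rw [fix_odd hio] at hk
        by_cases hp : Plus Q (⊤ : Submodule F V)
        · exact Or.inl ⟨hp, by rcases hl with h' | h' <;> omega⟩
        · exact Or.inr ⟨hp, Or.inr (hl.resolve_right fun h' => hp h'.2)⟩
      · omega
    · rw [fix_odd hio] at hP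
      exact Or.inr ⟨hP, Or.inl hk⟩
  right
  have hcc : cc i = i := if_pos hie
  rw [hcc] at hl hf hnc hJcase
  rw [hcc]
  have hni := Nat.mod_lt (2 * d) h.hi0
  have hmi := Nat.mod_add_div m i
  have key : ∀ o, 1 ≤ o → o ≤ S.card → o ≤ J → 2 * m + i * o < 2 * d ∨ (2 * m + i * o = 2 * d ∧ FixPlus Q i o) := by
    intro o ho1 hot hoJ
    have hJ2 : i * J ≤ 2 * d := by rw [Adm, hcc, hn] at hJ; rcases hJ with h2 | h2 <;> omega
    have hio : i * o ≤ i * J := Nat.mul_le_mul_left i hoJ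
    have hA : Adm Q i o := by
      rw [Adm, hcc, hn]
      rcases hoJ.lt_or_eq with h' | rfl
      · have := Nat.mul_lt_mul_of_pos_left h' h.hi0
        rcases hf with ⟨-, hf⟩ | ⟨-, hf⟩ <;> exact Or.inl (by omega)
      · rw [Adm, hcc, hn] at hJ; exact hJ
    have := he2 hie o ho1 hot hA
    rw [Wit, hn] at this
    rcases this with h' | ⟨h', hp⟩
    · exact Or.inl (by omega)
    · exact Or.inr ⟨by omega, hp⟩
  rcases le_or_gt J S.card with hle | hgt
  · rcases Nat.eq_zero_or_pos J with h0 | h0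
    · subst h0
      rcases hf with ⟨h1, -⟩ | ⟨h1, -⟩
      · have : 0 < 2 * d / i := Nat.div_pos (by omega) h.hi0
        omega
      · rw [← h1] at hnc; omega
    · have := key J h0 hle le_rfl
      rcases hf with ⟨-, hf⟩ | ⟨-, hf⟩ <;> omega
  · have hkey := key S.card ht le_rfl hgt.le
    have hlt : i * (S.card + 2 * (m / i)) < i * (2 * d / i + 1) := by
      rw [mul_add, mul_add, mul_one, ← mul_assoc, mul_comm i 2, mul_assoc]
      rcases hkey with h' | ⟨h', -⟩ <;> omega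
    have hcnt : S.card + 2 * (m / i) ≤ 2 * d / i := Nat.lt_succ_iff.1 (Nat.lt_of_mul_lt_mul_left hlt)
    refine ⟨hie, hcnt, ?_⟩
    rw [Wit] at hl
    rcases hJcase with ⟨hJe, hk⟩ | ⟨hJe, hk, hP⟩
    · rcases hf with ⟨-, hf⟩ | ⟨h', -⟩
      · rw [hf, hJe] at hl
        by_cases hp : FixPlus Q i (2 * d / i)
        · exact Or.inr (Or.inl ⟨by rcases hl with h' | h' <;> omega, hp⟩)
        · exact Or.inr (Or.inr ⟨hl.resolve_right fun h' => hp h'.2, hp⟩)
      · omega
    · rcases hf with ⟨h', -⟩ | ⟨-, hf⟩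
      · omega
      rw [hf] at hl
      rw [hJe] at hP
      refine Or.inl ⟨by rcases hl with h' | h' <;> omega, hk, hP, lt_of_le_of_ne hcnt fun heq => ?_⟩
      have h1 : i * (S.card + 2 * (m / i)) = i * (2 * d / i) := by rw [heq]
      rw [mul_add, ← mul_assoc, mul_comm i 2, mul_assoc] at h1
      rcases hkey with h' | ⟨-, hp⟩
      · omega
      · exact hP ((fix_same _ _ (by omega)).1 hp)

theorem of_crit (h : Ctx F q r i S) (hB : (QuadraticMap.polarBilin Q).Nondegenerate) {d m : ℕ}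
    (hn : finrank F V = 2 * d) (hmd : m < d) (hcrit : Crit Q i S.card d m) {T : Module.End F V} (hT : T ^ r = 1)
    (hTQ : ∀ v, Q (T v) = Q v) :
    ∃ W : Submodule F V, finrank F W = m ∧ Sing Q W ∧ ∀ w ∈ W, T w ∈ W := by
  have hc0 := cc_pos h.hi0
  obtain ⟨Jm, hJm, -, hJle, hJcase⟩ := exists_max (Q := Q) h hn (by omega)
  have hJm2 : cc i * Jm ≤ 2 * d := by rw [Adm, hn] at hJm; rcases hJm with h2 | h2 <;> omega
  obtain ⟨him, hcrit⟩ := hcrit
  have hml := Nat.mod_lt m h.hi0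
  have hnc := Nat.mod_add_div (2 * d) (cc i)
  have hkl := Nat.mod_lt (2 * d) hc0
  have hf : (Jm = 2 * d / cc i ∧ 2 * d - cc i * Jm = 2 * d % cc i) ∨
      (Jm + 1 = 2 * d / cc i ∧ 2 * d - cc i * Jm = cc i) := by
    rcases hJcase with ⟨rfl, -⟩ | ⟨h1, h2, -⟩
    · exact Or.inl ⟨rfl, by omega⟩
    · rw [← h1, Nat.mul_succ] at hnc
      exact Or.inr ⟨h1, by omega⟩
  have hwit0 : Wit (m % i) (2 * d - cc i * Jm) (FixPlus Q i Jm) := by
    rcases hJcase with ⟨hJe, hk⟩ | ⟨hJe, hk, hP⟩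
    · rcases hf with ⟨-, hf⟩ | ⟨h', -⟩
      · rw [hf]
        rcases hcrit with ⟨hio, hc⟩ | ⟨hie, -, hc⟩
        · rw [Wit, fix_odd hio]
          rw [fix_odd hio] at hk
          rcases hc with ⟨hp, hle⟩ | ⟨hp, hc⟩
          · exact hle.lt_or_eq.imp id fun h' => ⟨h', hp⟩
          · exact Or.inl (hc.resolve_left fun h' => hp (hk.resolve_left (by omega)))
        · have hcc : cc i = i := if_pos hie
          rw [hcc] at hJe hk hc ⊢
          rw [← hJe] at hc
          rcases hc with ⟨-, h0, hP, -⟩ | ⟨hle, hp⟩ | ⟨hlt, -⟩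
          · exact absurd (hk.resolve_left (by omega)) hP
          · exact hle.lt_or_eq.imp id fun h' => ⟨h', hp⟩
          · exact Or.inl hlt
      · omega
    · rcases hf with ⟨h', -⟩ | ⟨-, hf⟩
      · omega
      rw [hf]
      rcases hcrit with ⟨hio, -⟩ | ⟨hie, -, hc⟩
      · exact Or.inl (by rw [cc, if_neg (Nat.not_even_iff_odd.2 hio)]; omega)
      · have hcc : cc i = i := if_pos hie
        rw [hcc] at hJe hk hc ⊢
        rw [← hJe] at hc
        have hle : 2 * (m % i) ≤ i := by rcases hc with h' | h' | h' <;> omega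
        exact hle.lt_or_eq.imp id fun h' => ⟨h', (fix_flip hie _ _ (by omega)).2 hP⟩
  refine exists_invariant h hB hT hTQ fun f J o hh hfd hJ hadm hot hodd => ?_
  rw [hn] at hfd
  obtain ⟨j, e, hj, hme, hje⟩ := exists_split (m := m) (i := i) (hh := hh)
  refine ⟨j, e, hj, hme, ?_⟩
  rcases hje with ⟨-, rfl⟩ | ⟨rfl, hjlt⟩
  · rcases (hJle J hadm).lt_or_eq with h' | rfl
    · left
      have h1 : cc i * (J + 1) ≤ cc i * Jm := Nat.mul_le_mul_left _ h'
      rw [Nat.mul_succ] at h1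
      rcases hwit0 with h2 | ⟨h2, -⟩ <;> omega
    · rwa [show f = 2 * d - cc i * J by omega]
  · rw [mul_add, ← mul_assoc, mul_comm i 2, mul_assoc] at hJ
    suffices 2 * m + i * o < 2 * d ∨ (2 * m + i * o = 2 * d ∧ FixPlus Q i J) by
      rcases this with h' | ⟨h', hp⟩
      · exact Or.inl (by omega)
      · exact Or.inr ⟨by omega, hp⟩
    rcases hcrit with ⟨hio, -⟩ | ⟨hie, hcnt, hc⟩
    · left
      rw [hodd hio, mul_zero]
      omega
    have hcc : cc i = i := if_pos hie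
    rw [hcc] at hc hkl hnc hJ
    have hJo : J = 2 * j + o := Nat.eq_of_mul_eq_mul_left h.hi0 (by
      rw [mul_add, ← mul_assoc, mul_comm i 2, mul_assoc]; omega)
    have hio' : i * o ≤ i * S.card := Nat.mul_le_mul_left i hot
    have hio'' : o < S.card → i * o + i ≤ i * S.card := fun h' => by
      have := Nat.mul_le_mul_left i (Nat.succ_le_of_lt h')
      rwa [Nat.mul_succ] at this
    have hmi := Nat.mod_add_div m i
    rcases hcnt.lt_or_eq with hs | hs
    · have h1 : i * (S.card + 2 * (m / i) + 1) ≤ i * (2 * d / i) := Nat.mul_le_mul_left i hs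
      rw [mul_add, mul_add, mul_one, ← mul_assoc, mul_comm i 2, mul_assoc] at h1
      by_cases hlt : 2 * m + i * o < 2 * d
      · exact Or.inl hlt
      have hoS : o = S.card := by
        by_contra hne
        have := hio'' (lt_of_le_of_ne hot hne)
        rcases hc with h' | h' | h' <;> omega
      subst hoS
      rcases hc with ⟨hle, h0, hP, -⟩ | ⟨hle, -⟩ | ⟨hle, -⟩
      · refine Or.inr ⟨by omega, (fix_flip hie _ _ ?_).2 hP⟩
        have h2 : 2 * d / i = S.card + 2 * (m / i) + 1 := Nat.eq_of_mul_eq_mul_left h.hi0 (by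
          rw [mul_add, mul_add, mul_one, ← mul_assoc, mul_comm i 2, mul_assoc]; omega)
        omega
      · omega
      · omega
    · have h1 : i * (S.card + 2 * (m / i)) = i * (2 * d / i) := by rw [hs]
      rw [mul_add, ← mul_assoc, mul_comm i 2, mul_assoc] at h1
      rcases hc with ⟨-, -, -, h'⟩ | ⟨hle, hp⟩ | ⟨hle, -⟩
      · omega
      · by_cases hlt : 2 * m + i * o < 2 * d
        · exact Or.inl hlt
        · have hoS : o = S.card := by
            by_contra hne
            have := hio'' (lt_of_le_of_ne hot hne)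
            omega
          subst hoS
          exact Or.inr ⟨by omega, (fix_same _ _ (by omega)).1 hp⟩
      · exact Or.inl (by omega)

end Cfsg.Agent.Linear.OrthDerangeEven
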