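import Cfsg.Agent.Linear.NdDerange
import Cfsg.Agent.Linear.OrthDerangeEven

/-!
# Elements of odd prime order of even-dimensional orthogonal groups and nondegenerate subspaces
-/

set_option autoImplicit false
set_option linter.unusedSectionVars false

namespace Cfsg.Agent.Linear.NdDerangeEven

open Polynomial Module Cfsg.Agent.Forms Cfsg.Agent.Linear.OrthSpaces Cfsg.Agent.Linear.OrthFree
  Cfsg.Agent.Linear.OrthSingDerange Cfsg.Agent.Linear.NdDerange

variable {F : Type*} [Field F] [Fintype F] {V : Type*} [AddCommGroup V] [Module F V] [FiniteDimensional F V]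
  {Q : QuadraticForm F V} {q r i : ℕ} {S : Finset F[X]}

/-- The type of the free part of dimension `cc i * s`. -/
def FreePlus (i s : ℕ) : Prop := Odd i ∨ Even s

/-- The right hand side of the criterion. -/
def Crit (Q : QuadraticForm F V) (i d m : ℕ) (η : Prop) : Prop :=
  cc i ≤ m ∧
    ((2 * d % cc i = 0 ∧ ¬ FixPlus Q i (2 * d / cc i)) ∨ (0 < m % cc i ∧ m % cc i < 2 * d % cc i) ∨
      (0 < m % cc i ∧ m % cc i = 2 * d % cc i ∧ (FixPlus Q i (2 * d / cc i) ↔ (η ↔ FreePlus i (m / cc i)))) ∨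
      (m % cc i = 0 ∧ (η ↔ FreePlus i (m / cc i))))

theorem flip_free (hi : Even i) (s : ℕ) : FreePlus i (s + 1) ↔ ¬ FreePlus i s := by
  simp only [FreePlus, Nat.not_odd_iff_even.2 hi, false_or, Nat.even_add_one]

theorem crit_iff (h : Ctx F q r i S) (hB : (QuadraticMap.polarBilin Q).Nondegenerate) (ht : 1 ≤ S.card) {d m : ℕ}
    {η : Prop} (hn : finrank F V = 2 * d) (hme : Even m) (hm : 2 ≤ m) (hmn : m < 2 * d)
    (hdvd : r ∣ Nat.card {W : Submodule F V // Typed Q m η W}) :
    (∀ T : Module.End F V, T ^ r = 1 → (∀ v, Q (T v) = Q v) → T ≠ 1 →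
      ∃ W : Submodule F V, Typed Q m η W ∧ ∀ w ∈ W, T w ∈ W) ↔ Crit Q i d m η := by
  obtain ⟨m', hm'⟩ := hme
  obtain ⟨W₀, -, hW₀, hW₀d, hW₀t⟩ := exists_even hB (nd_top hB) η (u := m') (fun h0 => by omega)
    (Or.inl (by rw [finrank_top, hn]; omega))
  rw [derange_iff h hB ht ⟨m', hm'⟩ ⟨W₀, by omega, hW₀, hW₀t⟩, hn]
  obtain ⟨Jm, hJm, hJmax, hJle, hJcase⟩ := OrthDerangeEven.exists_max (Q := Q) h hn (by omega)
  have h0 := not_fit_max h hB ht ⟨m', hm'⟩ hdvd hJm hJmax
  rw [hn] at h0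
  have hc0 := cc_pos h.hi0
  have hnc := Nat.mod_add_div (2 * d) (cc i)
  have hnl := Nat.mod_lt (2 * d) hc0
  have hmc := Nat.mod_add_div m (cc i)
  have hml := Nat.mod_lt m hc0
  have hJm2 : cc i * Jm ≤ 2 * d := by rcases hJm with h2 | h2 <;> omega
  -- the dimension of the smallest fixed space
  obtain ⟨f₀, hf₀, hcases⟩ : ∃ f₀, 2 * d - cc i * Jm = f₀ ∧
      ((Jm = 2 * d / cc i ∧ f₀ = 2 * d % cc i ∧ (0 < f₀ ∨ FixPlus Q i Jm)) ∨
        (Jm + 1 = 2 * d / cc i ∧ f₀ = cc i ∧ 2 * d % cc i = 0 ∧ ¬ FixPlus Q i (2 * d / cc i))) := by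
    rcases hJcase with ⟨rfl, hk⟩ | ⟨h1, h2, h3⟩
    · exact ⟨_, rfl, Or.inl ⟨rfl, by omega, hk.imp (fun h' => by omega) id⟩⟩
    · refine ⟨_, rfl, Or.inr ⟨h1, ?_, h2, h1 ▸ h3⟩⟩
      have hh := congrArg (cc i * ·) h1
      simp only [Nat.mul_succ] at hh
      omega
  rw [hf₀] at h0
  have hzero_free : ∀ J, FixPlus Q i J → (η ↔ FreePlus i (m / cc i)) → m % cc i = 0 →
      (m - cc i * (m / cc i) < 0 ∨ (m - cc i * (m / cc i) = 0 ∧ (FixPlus Q i J ↔ (η ↔ FreePlus i (m / cc i))))) :=
    fun J hP hO hl => Or.inr ⟨by omega, iff_of_true hP hO⟩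
  constructor
  · intro H
    obtain ⟨s, -, hsm, hz, hfit⟩ := H Jm hJm
    rw [hf₀] at hfit
    change (m - cc i * s = 0 → (η ↔ FreePlus i s)) at hz
    change (m - cc i * s < f₀ ∨ (m - cc i * s = f₀ ∧ (FixPlus Q i Jm ↔ (η ↔ FreePlus i s)))) at hfit
    have hs0 : s ≠ 0 := by rintro rfl; exact h0 ⟨hsm, hz, hfit⟩
    have hcs : cc i ≤ cc i * s := Nat.le_mul_of_pos_right _ (Nat.pos_of_ne_zero hs0)
    refine ⟨by omega, ?_⟩
    rcases hcases with ⟨hJe, hfe, -⟩ | ⟨-, -, hk, hP⟩
    swap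
    · exact Or.inl ⟨hk, hP⟩
    have hsle : s ≤ m / cc i := (Nat.le_div_iff_mul_le hc0).2 (by rw [mul_comm]; exact hsm)
    have hseq : s = m / cc i := by
      rcases hsle.lt_or_eq with h' | h'
      · have : cc i * (s + 1) ≤ cc i * (m / cc i) := Nat.mul_le_mul_left _ h'
        rw [Nat.mul_succ] at this
        rcases hfit with h'' | h'' <;> omega
      · exact h'
    subst hseq
    rcases Nat.eq_zero_or_pos (m % cc i) with hl | hl
    · exact Or.inr (Or.inr (Or.inr ⟨hl, hz (by omega)⟩))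
    · rcases hfit with h' | ⟨h', hP⟩
      · exact Or.inr (Or.inl ⟨hl, by omega⟩)
      · exact Or.inr (Or.inr (Or.inl ⟨hl, by omega, hJe ▸ hP⟩))
  · rintro ⟨-, hcrit⟩ J hJ
    have hJle' := hJle J hJ
    have hcJ : cc i * J ≤ cc i * Jm := Nat.mul_le_mul_left _ hJle'
    rcases lt_or_ge J (m / cc i) with hlt | hge
    · have h1 : cc i * (J + 1) ≤ cc i * (m / cc i) := Nat.mul_le_mul_left _ hlt
      rw [Nat.mul_succ] at h1
      exact ⟨J, le_rfl, by omega, fun h' => by omega, Or.inl (by omega)⟩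
    have hstrict : J < Jm → cc i * J + cc i ≤ cc i * Jm := fun h' => by
      have := Nat.mul_le_mul_left (cc i) (Nat.succ_le_of_lt h')
      rwa [Nat.mul_succ] at this
    rcases Nat.eq_zero_or_pos (m % cc i) with hl | hl
    · by_cases hη : η ↔ FreePlus i (m / cc i)
      · refine ⟨_, hge, by omega, fun _ => hη, ?_⟩
        rcases Nat.eq_zero_or_pos (2 * d - cc i * J) with hf | hf
        · rw [hf]
          refine hzero_free J ?_ hη hl
          rcases hJ with h' | h'
          · omega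
          · exact h'.2
        · exact Or.inl (by omega)
      · obtain ⟨hk, hP⟩ : 2 * d % cc i = 0 ∧ ¬ FixPlus Q i (2 * d / cc i) := by
          rcases hcrit with h' | h' | h' | h'
          · exact h'
          · omega
          · omega
          · exact absurd h'.2 hη
        obtain ⟨hJe, hfe⟩ : Jm + 1 = 2 * d / cc i ∧ f₀ = cc i := by
          rcases hcases with ⟨h1, h2, h3⟩ | ⟨h1, h2, -⟩
          · exact absurd (h1 ▸ h3.resolve_left (by omega)) hP
          · exact ⟨h1, h2⟩
        obtain ⟨μ, hμ⟩ : ∃ μ, m / cc i = μ + 1 :=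
          Nat.exists_eq_succ_of_ne_zero fun e => by rw [e, mul_zero] at hmc; omega
        rw [hμ] at hη hge hmc
        rw [Nat.mul_succ] at hmc
        refine ⟨μ, by omega, by omega, fun h' => by omega, ?_⟩
        rcases hJle'.lt_or_eq with h' | rfl
        · have := hstrict h'
          exact Or.inl (by omega)
        · refine Or.inr ⟨by omega, ?_⟩
          rcases Nat.even_or_odd i with hie | hio
          · rw [flip_free hie] at hη
            refine iff_of_true ((OrthDerangeEven.fix_flip hie _ _ (by omega)).2 hP) ?_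
            show η ↔ FreePlus i μ
            by_cases hO : FreePlus i μ <;> simp only [hO, not_true, not_false_eq_true, iff_true, iff_false,
              not_not] at hη ⊢ <;> exact hη
          · rw [OrthDerangeEven.fix_odd hio] at hP ⊢
            simp only [FreePlus, hio, true_or, iff_true] at hη
            refine iff_of_false hP ?_
            simp only [hio, true_or, iff_true]
            exact hη
    · refine ⟨_, hge, by omega, fun h' => by omega, ?_⟩
      rcases hJle'.lt_or_eq with h' | rfl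
      · have := hstrict h'
        exact Or.inl (by omega)
      rcases hcrit with ⟨hk, hP⟩ | ⟨-, h'⟩ | ⟨-, h', hT⟩ | ⟨h', -⟩
      · rcases hcases with ⟨h1, h2, h3⟩ | ⟨-, h2, -⟩
        · exact absurd (h1 ▸ h3.resolve_left (by omega)) hP
        · exact Or.inl (by omega)
      · rcases hcases with ⟨h1, h2, -⟩ | ⟨-, h2, -⟩ <;> exact Or.inl (by omega)
      · rcases hcases with ⟨h1, h2, -⟩ | ⟨-, h2, -⟩
        · exact Or.inr ⟨by omega, h1 ▸ hT⟩
        · exact Or.inl (by omega)
      · omega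

/-- When the largest free part misses one block, `r` divides the count only if `cc i ≤ m`. -/
theorem le_of_gap (h : Ctx F q r i S) (hB : (QuadraticMap.polarBilin Q).Nondegenerate) (ht : 1 ≤ S.card) {d m : ℕ}
    {η : Prop} (hn : finrank F V = 2 * d) (hme : Even m) (hm : 2 ≤ m) (hmn : m < 2 * d)
    (hdvd : r ∣ Nat.card {W : Submodule F V // Typed Q m η W})
    (hk : 2 * d % cc i = 0) (hP : ¬ FixPlus Q i (2 * d / cc i)) : cc i ≤ m := by
  obtain ⟨Jm, hJm, hJmax, -, hJcase⟩ := OrthDerangeEven.exists_max (Q := Q) h hn (by omega)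
  have h0 := not_fit_max h hB ht hme hdvd hJm hJmax
  rw [hn] at h0
  rcases hJcase with ⟨rfl, hk'⟩ | ⟨h1, -, -⟩
  · exact absurd (hk'.resolve_left (by omega)) hP
  · have hh := congrArg (cc i * ·) h1
    simp only [Nat.mul_succ] at hh
    have hnc := Nat.mod_add_div (2 * d) (cc i)
    by_contra hlt
    exact h0 ⟨by omega, fun h' => by omega, Or.inl (by omega)⟩

end Cfsg.Agent.Linear.NdDerangeEven
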