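import Cfsg.Agent.Linear.OrthSpaces
import Cfsg.Agent.Linear.InvolOmega
import Cfsg.Agent.Linear.OrthFree

/-!
# Involutions fix a nondegenerate subspace of every isometry type
-/

set_option autoImplicit false
set_option linter.unusedSectionVars false

namespace Cfsg.Agent.Linear.NdInvol

open Module Cfsg.Agent.Forms Cfsg.Agent.Linear.OrthSpaces

variable {F : Type*} [Field F] [Fintype F] {V : Type*} [AddCommGroup V] [Module F V] [FiniteDimensional F V]
  {Q : QuadraticForm F V} {q : ℕ}

local notation "BQ" => QuadraticMap.polarBilin Q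

theorem exists_value (hF : Fintype.card F = q) (hq : Odd q) {X : Submodule F V} (hX : Nd Q X)
    (hd : 2 ≤ finrank F X) {c : F} : ∃ v ∈ X, Q v = c := by
  obtain ⟨k, hk⟩ : ∃ k, finrank F X = k + 2 := ⟨finrank F X - 2, by omega⟩
  obtain ⟨b, hb, hb0⟩ := InvolOmega.exists_orth_list (two_ne_zero_of_odd hF hq) hX hk
  set a := Q (b 0 : V) with ha
  set a' := Q (b 1 : V) with ha'
  obtain ⟨x, y, hxy⟩ := FiniteField.exists_root_sum_quadratic (R := F) (f := Polynomial.C a * Polynomial.X ^ 2)
    (g := Polynomial.C a' * Polynomial.X ^ 2 - Polynomial.C c) (Polynomial.degree_C_mul_X_pow 2 (hb0 0))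
    (by
      rw [Polynomial.degree_sub_eq_left_of_degree_lt] <;>
        rw [Polynomial.degree_C_mul_X_pow 2 (show a' ≠ 0 from hb0 1)]
      · rfl
      · exact lt_of_le_of_lt Polynomial.degree_C_le (by decide))
    (by rw [hF]; exact Nat.odd_iff.1 hq)
  refine ⟨x • (b 0 : V) + y • (b 1 : V), X.add_mem (X.smul_mem _ (b 0).2) (X.smul_mem _ (b 1).2), ?_⟩
  rw [QuadraticMap.map_add Q, QuadraticMap.map_smul, QuadraticMap.map_smul, QuadraticMap.polar_smul_left,
    QuadraticMap.polar_smul_right, hb 0 1 (by simp), smul_eq_mul, smul_eq_mul, ← ha, ← ha']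
  simp only [smul_zero, add_zero]
  simp only [Polynomial.eval_mul, Polynomial.eval_C, Polynomial.eval_pow, Polynomial.eval_X,
    Polynomial.eval_sub] at hxy
  linear_combination hxy

/-- Orthogonal families with prescribed values. -/
theorem exists_family (hB : (BQ).Nondegenerate) (hF : Fintype.card F = q) (hq : Odd q) :
    ∀ (k : ℕ) (X : Submodule F V), Nd Q X → k < finrank F X → ∀ c : Fin k → F, (∀ i, c i ≠ 0) →
      ∃ v : Fin k → V, (∀ i, v i ∈ X ∧ Q (v i) = c i) ∧ ∀ i j, i ≠ j → QuadraticMap.polar Q (v i) (v j) = 0 := by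
  have h2 := two_ne_zero_of_odd hF hq
  intro k
  induction k with
  | zero => exact fun X _ _ _ _ => ⟨Fin.elim0, fun i => i.elim0, fun i => i.elim0⟩
  | succ k ih =>
    intro X hX hk c hc
    obtain ⟨v, hvX, hv⟩ := exists_value hF hq hX (by omega) (c := c 0)
    have hv0 : v ≠ 0 := fun h => hc 0 (by rw [← hv, h, map_zero])
    have hln : Nd Q (F ∙ v) := fun w hw h => by
      obtain ⟨s, rfl⟩ := Submodule.mem_span_singleton.1 hw
      have h1 := h v (Submodule.mem_span_singleton_self v)
      rw [QuadraticMap.polar_smul_left, QuadraticMap.polar_self, hv, smul_eq_mul, two_nsmul, ← two_mul] at h1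
      rw [(mul_eq_zero.1 h1).resolve_right (mul_ne_zero h2 (hc 0)), zero_smul]
    obtain ⟨hRn, hRd, -⟩ := nd_split hB hln hX ((Submodule.span_singleton_le_iff_mem _ _).2 hvX)
    rw [finrank_span_singleton hv0] at hRd
    obtain ⟨u, hu, huo⟩ := ih _ hRn (by omega) (fun i => c i.succ) fun i => hc _
    have hperp : ∀ i, QuadraticMap.polar Q v (u i) = 0 := fun i =>
      mem_perp_iff.1 (hu i).1.2 v (Submodule.mem_span_singleton_self v)
    refine ⟨Fin.cons v u, Fin.cases ⟨hvX, hv⟩ fun i => ⟨(hu i).1.1, (hu i).2⟩, fun i j hij => ?_⟩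
    cases i using Fin.cases with
    | zero =>
      cases j using Fin.cases with
      | zero => exact absurd rfl hij
      | succ j => simpa using hperp j
    | succ i =>
      cases j using Fin.cases with
      | zero => rw [Fin.cons_zero, Fin.cons_succ, QuadraticMap.polar_comm]; exact hperp i
      | succ j => simpa using huo i j fun h => hij (by rw [h])

theorem Q_sum {k : ℕ} (v : Fin k → V) (hv : ∀ i j, i ≠ j → QuadraticMap.polar Q (v i) (v j) = 0) (a : Fin k → F) :
    Q (∑ i, a i • v i) = ∑ i, a i * a i * Q (v i) := by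
  classical
  induction (Finset.univ : Finset (Fin k)) using Finset.induction with
  | empty => simp
  | insert i s hi ih =>
    rw [Finset.sum_insert hi, Finset.sum_insert hi, QuadraticMap.map_add Q, ih, QuadraticMap.map_smul, smul_eq_mul,
      ← QuadraticMap.polarBilin_apply_apply, map_sum]
    refine add_eq_left.2 (Finset.sum_eq_zero fun j hj => ?_)
    have hij : i ≠ j := fun h => hi (h ▸ hj)
    simp [hv i j hij]

/-- An involution fixes a copy of every nondegenerate subspace of dimension at least two. -/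
theorem exists_copy (hB : (BQ).Nondegenerate) (hF : Fintype.card F = q) (hq : Odd q) {T : Module.End F V}
    (hT : T ^ 2 = 1) (hTQ : ∀ v, Q (T v) = Q v) {W' : Submodule F V} (hW' : Nd Q W') (hm : 2 ≤ finrank F W') :
    ∃ (W : Submodule F V) (g : V ≃ₗ[F] V), (∀ v, Q (g v) = Q v) ∧ W'.map g.toLinearMap = W ∧
      ∀ w ∈ W, T w ∈ W := by
  classical
  have h2 := two_ne_zero_of_odd hF hq
  obtain ⟨hN, hP, hsup⟩ := InvolOmega.spaces h2 hB hT hTQ
  have hK : Nd Q (LinearMap.ker (T - 1)) := by
    have := (nd_split hB hN (nd_top hB) le_top).1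
    rwa [top_inf_eq, ← hP] at this
  have hdim := finrank_sup hB hN hP.le
  rw [hsup, finrank_top] at hdim
  rcases Nat.eq_zero_or_pos (finrank F (LinearMap.ker (T + 1))) with hN0 | hN0
  · refine ⟨W', LinearEquiv.refl F V, fun v => rfl, by simp, fun w hw => ?_⟩
    have hw' : w ∈ LinearMap.ker (T - 1) := by
      rw [Submodule.finrank_eq_zero.1 hN0, bot_sup_eq] at hsup
      rw [hsup]; trivial
    rwa [show T w = w from sub_eq_zero.1 hw']
  rcases Nat.eq_zero_or_pos (finrank F (LinearMap.ker (T - 1))) with hK0 | hK0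
  · refine ⟨W', LinearEquiv.refl F V, fun v => rfl, by simp, fun w hw => ?_⟩
    have hw' : w ∈ LinearMap.ker (T + 1) := by
      rw [Submodule.finrank_eq_zero.1 hK0, sup_bot_eq] at hsup
      rw [hsup]; trivial
    rw [show T w = -w from eq_neg_of_add_eq_zero_left hw']
    exact W'.neg_mem hw
  obtain ⟨hLn, hLd, -⟩ := nd_split hB hW' (nd_top hB) le_top
  rw [top_inf_eq] at hLn hLd
  rw [finrank_top] at hLd
  obtain ⟨k₁, k₂, hk, hk₁, hk₂⟩ : ∃ k₁ k₂, finrank F (perp BQ W') = k₁ + k₂ ∧
      k₁ < finrank F (LinearMap.ker (T + 1)) ∧ k₂ < finrank F (LinearMap.ker (T - 1)) :=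
    ⟨min (finrank F (perp BQ W')) (finrank F (LinearMap.ker (T + 1)) - 1),
      finrank F (perp BQ W') - min (finrank F (perp BQ W')) (finrank F (LinearMap.ker (T + 1)) - 1),
      by omega, by omega, by omega⟩
  obtain ⟨b, hb, hb0⟩ := InvolOmega.exists_orth_list h2 hLn hk
  obtain ⟨v₁, hv₁, hv₁o⟩ := exists_family hB hF hq k₁ _ hN hk₁ (fun i => Q (b (Fin.castAdd k₂ i) : V))
    fun i => hb0 _
  obtain ⟨v₂, hv₂, hv₂o⟩ := exists_family hB hF hq k₂ _ hK hk₂ (fun i => Q (b (Fin.natAdd k₁ i) : V))
    fun i => hb0 _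
  let v := Fin.addCases (motive := fun _ => V) v₁ v₂
  have hvQ : ∀ i, Q (v i) = Q (b i : V) := Fin.addCases (fun i => by simp [v, (hv₁ i).2])
    (fun i => by simp [v, (hv₂ i).2])
  have hvT : ∀ i, T (v i) = -v i ∨ T (v i) = v i := Fin.addCases
    (fun i => Or.inl (by simp only [v, Fin.addCases_left]; exact eq_neg_of_add_eq_zero_left (hv₁ i).1))
    (fun i => Or.inr (by simp only [v, Fin.addCases_right]; exact sub_eq_zero.1 (hv₂ i).1))
  have hcross : ∀ i j, QuadraticMap.polar Q (v₁ i) (v₂ j) = 0 := fun i j =>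
    mem_perp_iff.1 (hP ▸ (hv₂ j).1) _ (hv₁ i).1
  have hvo : ∀ i j, i ≠ j → QuadraticMap.polar Q (v i) (v j) = 0 := by
    intro i j hij
    cases i using Fin.addCases with
    | left i =>
      cases j using Fin.addCases with
      | left j => simp only [v, Fin.addCases_left]; exact hv₁o i j fun h => hij (by rw [h])
      | right j => simp only [v, Fin.addCases_left, Fin.addCases_right]; exact hcross i j
    | right i =>
      cases j using Fin.addCases with
      | left j =>
        simp only [v, Fin.addCases_left, Fin.addCases_right]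
        rw [QuadraticMap.polar_comm]; exact hcross j i
      | right j => simp only [v, Fin.addCases_right]; exact hv₂o i j fun h => hij (by rw [h])
  let f : perp BQ W' →ₗ[F] V := b.constr F v
  have hfQ : ∀ x, Q (f x) = Q (x : V) := fun x => by
    conv_rhs => rw [← b.sum_repr x, Submodule.coe_sum]
    rw [show f x = ∑ i, b.repr x i • v i from b.constr_apply_fintype F v x, Q_sum v hvo]
    simp only [SetLike.val_smul]
    rw [Q_sum (fun i => (b i : V)) hb]
    simp only [hvQ]
  have hfi : Function.Injective f := by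
    rw [← LinearMap.ker_eq_bot, eq_bot_iff]
    intro x hx
    rw [Submodule.mem_bot]
    refine Subtype.ext (hLn (x : V) x.2 fun y hy => ?_)
    have hpol : QuadraticMap.polar Q (x : V) y = QuadraticMap.polar Q (f x) (f ⟨y, hy⟩) := by
      simp only [QuadraticMap.polar, ← map_add, hfQ, Submodule.coe_add]
    rw [hpol, show f x = 0 from hx]
    simp [QuadraticMap.polar]
  have hiso : Iso Q (perp BQ W') (LinearMap.range f) :=
    ⟨LinearEquiv.ofInjective f hfi, fun x => hfQ x⟩
  obtain ⟨g, hg, hgL⟩ := exists_map_eq hB hiso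
  refine ⟨W'.map g.toLinearMap, g, hg, rfl, ?_⟩
  have hinj := OrthFree.injective_of_pow (by norm_num : 0 < 2) hT
  have hLi : ∀ w ∈ LinearMap.range f, T w ∈ LinearMap.range f := by
    rintro _ ⟨x, rfl⟩
    rw [← b.sum_repr x, map_sum, map_sum]
    refine Submodule.sum_mem _ fun i _ => ?_
    rw [map_smul, map_smul, show f (b i) = v i from b.constr_basis F v i]
    refine Submodule.smul_mem _ _ ?_
    have hvi : v i ∈ LinearMap.range f := ⟨b i, b.constr_basis F v i⟩
    rcases hvT i with h | h <;> rw [h]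
    exacts [Submodule.neg_mem _ hvi, hvi]
  have heq : W'.map g.toLinearMap = perp BQ (LinearMap.range f) := by
    refine Submodule.eq_of_le_of_finrank_eq ?_ ?_
    · rintro _ ⟨w, hw, rfl⟩
      refine mem_perp_iff.2 fun y hy => ?_
      rw [← hgL] at hy
      obtain ⟨x, hx, rfl⟩ := hy
      have h1 : QuadraticMap.polar Q x w = 0 := by
        rw [QuadraticMap.polar_comm]; exact mem_perp_iff.1 hx w hw
      rw [← h1]
      simp [QuadraticMap.polar, ← map_add, hg]
    · have hLfn : Nd Q (LinearMap.range f) := hgL ▸ (map_isom hg).1 hLn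
      have h1 := finrank_sup hB hLfn (le_refl (perp BQ (LinearMap.range f)))
      rw [(nd_isCompl hB hLfn).sup_eq_top, finrank_top, LinearMap.finrank_range_of_inj hfi] at h1
      rw [LinearEquiv.finrank_map_eq]
      omega
  rw [heq]
  exact OrthFree.perp_invariant hTQ hinj hLi

end Cfsg.Agent.Linear.NdInvol
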