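import Cfsg.Agent.Linear.OrthDerangeBase

/-!
# Elements of prime order of `Ω_{2d+1}(q)` and totally singular subspaces
-/

set_option autoImplicit false
set_option linter.unusedSectionVars false

namespace Cfsg.Agent.Linear.OrthDerangeOdd

open Polynomial Module Cfsg.Agent.Forms Cfsg.Agent.Linear.OrthSpaces Cfsg.Agent.Linear.OrthFree
  Cfsg.Agent.Linear.OrthSingDerange Cfsg.Agent.Linear.OrthDerangeBase

variable {F : Type*} [Field F] [Fintype F]

theorem adm_iff {V : Type*} [AddCommGroup V] [Module F V] [FiniteDimensional F V] {Q : QuadraticForm F V}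
    {i d : ℕ} (hn : finrank F V = 2 * d + 1) (J : ℕ) : Adm Q i J ↔ cc i * J < 2 * d + 1 := by
  rw [Adm, hn]
  refine ⟨fun h => h.elim id fun h' => ?_, Or.inl⟩
  obtain ⟨u, hu⟩ := (cc_even i).mul_right J
  have := h'.1
  omega

theorem wit_iff {e f : ℕ} {ε : Prop} (hf : f % 2 = 1) : Wit e f ε ↔ 2 * e < f :=
  ⟨fun h => h.elim id fun h' => by omega, Or.inl⟩

/-- The criterion for odd `r`. -/
theorem odd_r {V : Type*} [AddCommGroup V] [Module F V] [FiniteDimensional F V] {Q : QuadraticForm F V}
    {q r i : ℕ} {S : Finset F[X]} (h : Ctx F q r i S) (hB : (QuadraticMap.polarBilin Q).Nondegenerate)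
    (ht : 1 ≤ S.card) {d m : ℕ} (hn : finrank F V = 2 * d + 1) (hmd : m ≤ d)
    (hdvd : r ∣ Nat.card {W : Submodule F V // finrank F W = m ∧ Sing Q W}) :
    (∀ T : Module.End F V, T ^ r = 1 → (∀ v, Q (T v) = Q v) → T ≠ 1 →
      ∃ W : Submodule F V, finrank F W = m ∧ Sing Q W ∧ ∀ w ∈ W, T w ∈ W) ↔
    (i ≤ m ∧ 2 * (m % i) < (2 * d + 1) % cc i ∧ (Odd i ∨ S.card + 2 * (m / i) ≤ (2 * d + 1) / i)) := by
  have hc0 := cc_pos h.hi0
  set n := 2 * d + 1 with hn'
  have hnc := Nat.mod_add_div n (cc i)
  have hfo : ∀ J, cc i * J ≤ n → (n - cc i * J) % 2 = 1 := fun J hJ => by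
    obtain ⟨u, hu⟩ := (cc_even i).mul_right J
    omega
  constructor
  · intro H
    obtain ⟨W₀, -, hW₀, hW₀d⟩ := exists_sing (nd_top hB) (e := m) (Or.inl (by rw [finrank_top, hn]; omega))
    obtain ⟨-, -, ⟨e, him, hmod, hem, hwit⟩, he2⟩ := necessity h hB ht ⟨W₀, hW₀d, hW₀⟩ hdvd H
      (J := n / cc i) ((adm_iff hn _).2 (by
        have := hfo (n / cc i) (by omega)
        omega)) (fun h' => by
          have h1 := (adm_iff hn _).1 h'
          rw [Nat.mul_succ] at h1
          have := Nat.mod_lt n hc0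
          omega)
    rw [hn, wit_iff (hfo _ (by omega))] at hwit
    have h1 : m % i ≤ e := hmod ▸ Nat.mod_le e i
    have hl : 2 * (m % i) < n % cc i := by omega
    refine ⟨him, hl, ?_⟩
    rcases Nat.even_or_odd i with hie | hio
    swap
    · exact Or.inl hio
    right
    have hcc : cc i = i := if_pos hie
    rw [hcc] at hl hnc
    have hfo' : ∀ o, i * o < n → (n - i * o) % 2 = 1 := fun o ho => by
      have := hfo o (by rw [hcc]; omega); rwa [hcc] at this
    have hmi := Nat.mod_add_div m i
    have hni : 0 < n / i := Nat.div_pos (by omega) h.hi0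
    have key : ∀ o, 1 ≤ o → o ≤ S.card → i * o < n → 2 * m + i * o < n := by
      intro o ho1 hot hlt
      have := he2 hie o ho1 hot ((adm_iff hn _).2 (by rwa [hcc]))
      rw [hn, wit_iff (hfo' o hlt)] at this
      omega
    rcases le_or_gt (n / i) S.card with hle | hgt
    · have := key (n / i) hni hle (by omega)
      have := Nat.mod_lt n h.hi0
      omega
    · have h2 : i * S.card ≤ i * (n / i) := Nat.mul_le_mul_left i hgt.le
      have h3 := key S.card ht le_rfl (by omega)
      rw [Nat.le_div_iff_mul_le h.hi0, add_mul, mul_assoc, mul_comm S.card i, mul_comm (m / i) i]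
      omega
  · rintro ⟨him, hl, hor⟩ T hT hTQ -
    refine exists_invariant h hB hT hTQ fun f J o hh hf hJ hadm hot hodd => ?_
    rw [hn] at hf
    obtain ⟨j, e, hj, hme, hje⟩ := exists_split (m := m) (i := i) (hh := hh)
    refine ⟨j, e, hj, hme, Or.inl ?_⟩
    have hlt := (adm_iff hn _).1 hadm
    rcases hje with ⟨-, rfl⟩ | ⟨rfl, -⟩
    · have h1 : cc i * J ≤ cc i * (n / cc i) :=
        Nat.mul_le_mul_left _ ((Nat.le_div_iff_mul_le hc0).2 (by rw [mul_comm]; omega))
      omega
    · rw [mul_add, ← mul_assoc, mul_comm i 2, mul_assoc] at hJ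
      suffices 2 * m + i * o < n by omega
      rcases Nat.even_or_odd i with hie | hio
      swap
      · rw [hodd hio, mul_zero]; omega
      have hor' := hor.resolve_left (Nat.not_odd_iff_even.2 hie)
      rw [show cc i = i from if_pos hie] at hl
      have h1 : i * o ≤ i * S.card := Nat.mul_le_mul_left i hot
      have h2 : i * (S.card + 2 * (m / i)) ≤ i * (n / i) := Nat.mul_le_mul_left i hor'
      rw [mul_add, ← mul_assoc, mul_comm i 2, mul_assoc] at h2
      have := Nat.mod_add_div n i
      have := Nat.mod_add_div m i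
      omega

/-- The criterion for `r = 2`. -/
theorem two {ι : Type} [Fintype ι] [DecidableEq ι] {Q : QuadraticForm F (ι → F)} {q d m : ℕ}
    (hF : Fintype.card F = q) (hq : Odd q) (hQ : (QuadraticMap.polarBilin Q).Nondegenerate)
    (hn : Fintype.card ι = 2 * d + 1) (hd : 1 ≤ d) (hmd : m ≤ d) :
    (∀ x : GL ι F, x ∈ Cfsg.Geo.omegaGL ⇑Q → orderOf x = 2 →
      ∃ W : Submodule F (ι → F), finrank F W = m ∧ Sing Q W ∧
        ∀ w ∈ W, Matrix.toLin' (x : Matrix ι ι F) w ∈ W) ↔ (m < d ∨ q % 4 = 1) := by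
  have h2 := two_ne_zero_of_odd hF hq
  have hV : finrank F (ι → F) = 2 * d + 1 := by rw [Module.finrank_pi, hn]
  have hsq : IsSquare (-1 : F) ↔ q % 4 = 1 := by
    rw [FiniteField.isSquare_neg_one_iff, hF]
    have := Nat.odd_iff.1 hq
    omega
  constructor
  · intro H
    by_contra hcon
    push Not at hcon
    obtain ⟨N, -, hN, hNd, hNp⟩ := exists_even hQ (nd_top hQ) False (u := 1) (fun h' => absurd h' one_ne_zero)
      (Or.inl (by rw [finrank_top, hV]; omega))
    obtain ⟨x, hx, hxx, hxN, hxP⟩ := InvolOmega.exists_invol hF hq hQ (by omega) hN hNd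
      (iff_of_false (fun h' => hNp.1 h') (by rw [pow_one, hsq]; exact hcon.2))
    have hx1 : x ≠ 1 := by
      intro h1
      obtain ⟨v, hv, hv0⟩ := N.ne_bot_iff.1 (fun h' => by rw [h', finrank_bot] at hNd; omega)
      have h' := hxN v hv
      rw [h1, Units.val_one, Matrix.toLin'_one, LinearMap.id_apply] at h'
      have h3 : (2 : F) • v = 0 := by rw [two_smul]; exact eq_neg_iff_add_eq_zero.1 h'
      exact hv0 ((smul_eq_zero.1 h3).resolve_left h2)
    have hx2 : orderOf x = 2 :=
      orderOf_eq_prime (by rw [pow_two]; exact Units.ext hxx) hx1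
    obtain ⟨W, hWd, hWs, hWi⟩ := H x hx hx2
    set T := Matrix.toLin' (x : Matrix ι ι F) with hT
    have hT2 : T ^ 2 = 1 := toLin_pow (hx2 ▸ pow_orderOf_eq_one x)
    obtain ⟨hN', hP, hsup⟩ := InvolOmega.spaces h2 hQ hT2 (OmegaElem.preserves hx)
    have hNN : LinearMap.ker (T + 1) = N := by
      refine (Submodule.eq_of_le_of_finrank_le (fun v hv => ?_) ?_).symm
      · show T v + v = 0
        rw [hxN v hv, neg_add_cancel]
      · have h3 : perp (QuadraticMap.polarBilin Q) N ≤ LinearMap.ker (T - 1) := fun v hv => by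
          show T v - v = 0
          rw [hxP v hv, sub_self]
        have h4 := Submodule.finrank_mono h3
        have h5 := finrank_sup hQ hN (le_refl (perp (QuadraticMap.polarBilin Q) N))
        rw [(nd_isCompl hQ hN).sup_eq_top, finrank_top] at h5
        have h6 := finrank_sup hQ hN' hP.le
        rw [hsup, finrank_top] at h6
        omega
    have h6 := finrank_sup hQ hN' hP.le
    rw [hsup, finrank_top, hV, hNN, hNd] at h6
    obtain ⟨e₁, e₂, he, h₁, h₂⟩ := sum_parts hQ h2 hT2 (OmegaElem.preserves hx) hWs hWi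
    rw [hNN, hNd] at h₁
    have he1 : e₁ = 0 := by
      rcases h₁ with h' | ⟨-, h'⟩
      · omega
      · exact absurd h' (fun h'' => hNp.1 h'')
    omega
  · intro hor x hx hx2
    set T := Matrix.toLin' (x : Matrix ι ι F) with hT
    have hT2 : T ^ 2 = 1 := toLin_pow (hx2 ▸ pow_orderOf_eq_one x)
    obtain ⟨hN, hP, hsup⟩ := InvolOmega.spaces h2 hQ hT2 (OmegaElem.preserves hx)
    obtain ⟨w, hw, htype⟩ := InvolOmega.type_of_mem hF hq hQ (by omega) hx hT2
    rw [← hT] at hw htype
    have h6 := finrank_sup hQ hN hP.le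
    rw [hsup, finrank_top, hV, hw] at h6
    rcases le_or_gt (m + w) d with hle | hgt
    · exact exists_sum hQ h2 hT2 (OmegaElem.preserves hx) (m := m) (e₁ := 0) (e₂ := m) (zero_add m).symm
        (by
          rcases Nat.eq_zero_or_pos w with h0 | h0
          · refine Or.inr ⟨by omega, ?_⟩
            rw [Submodule.finrank_eq_zero.1 (hw.trans (by omega))]
            exact plus_bot
          · exact Or.inl (by omega)) (Or.inl (by omega))
    · refine exists_sum hQ h2 hT2 (OmegaElem.preserves hx) (m := m) (e₁ := m + w - d) (e₂ := d - w) (by omega) ?_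
        (Or.inl (by omega))
      rcases hor with hlt | h4
      · exact Or.inl (by omega)
      · by_cases hmd' : m < d
        · exact Or.inl (by omega)
        · exact Or.inr ⟨by omega, htype.2 ((hsq.2 h4).pow w)⟩

end Cfsg.Agent.Linear.OrthDerangeOdd
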