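import Cfsg.Agent.Linear.NdDerange
import Cfsg.Agent.Linear.NdInvol
import Cfsg.Agent.Linear.OrthDerangeOdd

/-!
# Elements of prime order of `Ω_{2d+1}(q)` and nondegenerate subspaces of even dimension
-/

set_option autoImplicit false
set_option linter.unusedSectionVars false

namespace Cfsg.Agent.Linear.NdDerangeOdd

open Polynomial Module Cfsg.Agent.Forms Cfsg.Agent.Linear.OrthSpaces Cfsg.Agent.Linear.OrthFree
  Cfsg.Agent.Linear.OrthSingDerange Cfsg.Agent.Linear.NdDerange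

variable {F : Type*} [Field F] [Fintype F]

theorem fix_free {V : Type*} [AddCommGroup V] [Module F V] [FiniteDimensional F V] {Q : QuadraticForm F V}
    {i d m f J s : ℕ} {η : Prop} (hn : finrank F V = 2 * d + 1) (hme : m % 2 = 0) (hf : f = finrank F V - cc i * J)
    (hJ : cc i * J ≤ finrank F V) :
    Fit Q i η m f J s ↔ cc i * s ≤ m ∧ (m - cc i * s = 0 → (η ↔ (Odd i ∨ Even s))) ∧ m - cc i * s < f := by
  obtain ⟨u, hu⟩ := (cc_even i).mul_right J
  obtain ⟨v, hv⟩ := (cc_even i).mul_right s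
  rw [Fit]
  refine and_congr_right fun _ => and_congr_right fun _ => ⟨fun h => h.resolve_right ?_, Or.inl⟩
  rintro ⟨h, -⟩
  omega

/-- The criterion for odd `r ≠ p`. -/
theorem odd_r {V : Type*} [AddCommGroup V] [Module F V] [FiniteDimensional F V] {Q : QuadraticForm F V}
    {q r i : ℕ} {S : Finset F[X]} (h : Ctx F q r i S) (hB : (QuadraticMap.polarBilin Q).Nondegenerate)
    (ht : 1 ≤ S.card) {d m : ℕ} {η : Prop} (hn : finrank F V = 2 * d + 1) (hme : Even m) (hm : 2 ≤ m)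
    (hmn : m ≤ 2 * d) (hdvd : r ∣ Nat.card {W : Submodule F V // Typed Q m η W}) :
    (∀ T : Module.End F V, T ^ r = 1 → (∀ v, Q (T v) = Q v) → T ≠ 1 →
      ∃ W : Submodule F V, Typed Q m η W ∧ ∀ w ∈ W, T w ∈ W) ↔
    (cc i ≤ m ∧ m % cc i < (2 * d + 1) % cc i ∧ (m % cc i = 0 → (η ↔ (Odd i ∨ Even (m / cc i))))) := by
  obtain ⟨m', hm'⟩ := hme
  obtain ⟨W₀, -, hW₀, hW₀d, hW₀t⟩ := exists_even hB (nd_top hB) η (u := m') (fun h0 => by omega)
    (Or.inl (by rw [finrank_top, hn]; omega))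
  rw [derange_iff h hB ht ⟨m', hm'⟩ ⟨W₀, by omega, hW₀, hW₀t⟩]
  have hc0 := cc_pos h.hi0
  obtain ⟨cw, hcw⟩ := cc_even i
  have hnc := Nat.mod_add_div (2 * d + 1) (cc i)
  have hnl := Nat.mod_lt (2 * d + 1) hc0
  have hmc := Nat.mod_add_div m (cc i)
  have hml := Nat.mod_lt m hc0
  have hM : cc i * ((2 * d + 1) / cc i) < 2 * d + 1 := by
    obtain ⟨u, hu⟩ := (cc_even i).mul_right ((2 * d + 1) / cc i)
    omega
  have hadm := fun J => OrthDerangeOdd.adm_iff (Q := Q) (i := i) hn J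
  have hmax : ¬ Adm Q i ((2 * d + 1) / cc i + 1) := fun h' => by
    have h1 := (hadm _).1 h'
    rw [Nat.mul_succ] at h1
    omega
  constructor
  · intro H
    have h0 := not_fit_max h hB ht ⟨m', hm'⟩ hdvd ((hadm _).2 hM) hmax
    obtain ⟨s, -, hfit⟩ := H _ ((hadm _).2 hM)
    rw [fix_free hn (by omega) rfl (by omega)] at h0 hfit
    rw [hn] at h0 hfit
    obtain ⟨hsm, hz, hlt⟩ := hfit
    have hs0 : s ≠ 0 := by rintro rfl; exact h0 ⟨hsm, hz, hlt⟩
    have hcs : cc i ≤ cc i * s := Nat.le_mul_of_pos_right _ (by omega)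
    have hsle : s ≤ m / cc i := (Nat.le_div_iff_mul_le hc0).2 (by rw [mul_comm]; exact hsm)
    have hseq : s = m / cc i := by
      rcases hsle.lt_or_eq with h' | h'
      · have : cc i * (s + 1) ≤ cc i * (m / cc i) := Nat.mul_le_mul_left _ h'
        rw [Nat.mul_succ] at this
        omega
      · exact h'
    subst hseq
    exact ⟨by omega, by omega, fun he => hz (by omega)⟩
  · rintro ⟨hcm, hlt, hz⟩ J hJ
    have hJ' := (hadm J).1 hJ
    rcases le_or_gt (m / cc i) J with hle | hgt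
    · refine ⟨_, hle, (fix_free hn (by omega) rfl (by omega)).2 ⟨by omega, fun h0 => hz (by omega), ?_⟩⟩
      have h1 : cc i * J ≤ cc i * ((2 * d + 1) / cc i) :=
        Nat.mul_le_mul_left _ ((Nat.le_div_iff_mul_le hc0).2 (by rw [mul_comm]; omega))
      omega
    · have h1 : cc i * (J + 1) ≤ cc i * (m / cc i) := Nat.mul_le_mul_left _ hgt
      rw [Nat.mul_succ] at h1
      exact ⟨J, le_rfl, (fix_free hn (by omega) rfl (by omega)).2 ⟨by omega, fun h0 => by omega, by omega⟩⟩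

/-- The case `r = 2`. -/
theorem two {ι : Type} [Fintype ι] [DecidableEq ι] {Q : QuadraticForm F (ι → F)} {q d m : ℕ} {η : Prop}
    (hF : Fintype.card F = q) (hq : Odd q) (hQ : (QuadraticMap.polarBilin Q).Nondegenerate)
    (hn : Fintype.card ι = 2 * d + 1) (hme : Even m) (hm : 2 ≤ m) (hmn : m ≤ 2 * d) {x : GL ι F}
    (hx : x ∈ Cfsg.Geo.omegaGL ⇑Q) (hx2 : orderOf x = 2) :
    ∃ W : Submodule F (ι → F), Typed Q m η W ∧ ∀ w ∈ W, Matrix.toLin' (x : Matrix ι ι F) w ∈ W := by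
  obtain ⟨m', hm'⟩ := hme
  obtain ⟨W', -, hW', hW'd, hW't⟩ := exists_even hQ (nd_top hQ) η (u := m') (fun h0 => by omega)
    (Or.inl (by rw [finrank_top, Module.finrank_pi, hn]; omega))
  obtain ⟨W, g, hg, hgW, hWi⟩ := NdInvol.exists_copy hQ hF hq
    (OrthDerangeBase.toLin_pow (hx2 ▸ pow_orderOf_eq_one x)) (OmegaElem.preserves hx) hW' (by omega)
  refine ⟨W, ⟨by rw [← hgW, LinearEquiv.finrank_map_eq]; omega, hgW ▸ (map_isom hg).1 hW', ?_⟩, hWi⟩
  rw [← hW't, ← hgW]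
  refine ⟨fun hp => ?_, plus_map hg⟩
  have h1 := plus_map (g := g.symm) (fun v => by rw [← hg (g.symm v), g.apply_symm_apply]) hp
  rwa [← Submodule.map_comp, LinearEquiv.comp_coe, LinearEquiv.self_trans_symm, LinearEquiv.refl_toLinearMap,
    Submodule.map_id] at h1

/-- Elements of order `r` of the group and isometries of order `r`. -/
theorem bridge {ι : Type} [Fintype ι] [DecidableEq ι] {Q : QuadraticForm F (ι → F)} {d r : ℕ}
    {P : Submodule F (ι → F) → Prop} (hQ : (QuadraticMap.polarBilin Q).Nondegenerate)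
    (hn : Fintype.card ι = 2 * d + 1) (hd : 2 ≤ d) (hr : r.Prime) (hr2 : r ≠ 2) :
    (∀ x : GL ι F, x ∈ Cfsg.Geo.omegaGL ⇑Q → orderOf x = r →
      ∃ W : Submodule F (ι → F), P W ∧ ∀ w ∈ W, Matrix.toLin' (x : Matrix ι ι F) w ∈ W) ↔
    (∀ T : Module.End F (ι → F), T ^ r = 1 → (∀ v, Q (T v) = Q v) → T ≠ 1 →
      ∃ W : Submodule F (ι → F), P W ∧ ∀ w ∈ W, T w ∈ W) := by
  haveI := Fact.mk hr
  constructor
  · intro H T hT hTQ hT1
    obtain ⟨x, hx, hxT, hxr⟩ := OmegaElem.exists_of_odd hQ (by omega) (hr.odd_of_ne_two hr2) hT hTQ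
    obtain ⟨W, h1, h3⟩ := H x hx (orderOf_eq_prime hxr fun h1 => hT1 (by
      rw [← hxT, h1, Units.val_one, Matrix.toLin'_one]; rfl))
    exact ⟨W, h1, fun w hw => hxT ▸ h3 w hw⟩
  · intro H x hx hxr
    exact H _ (OrthDerangeBase.toLin_pow (hxr ▸ pow_orderOf_eq_one x)) (OmegaElem.preserves hx) fun h1 => by
      rw [OrthDerangeBase.toLin_inj h1, orderOf_one] at hxr
      exact hr.one_lt.ne hxr

end Cfsg.Agent.Linear.NdDerangeOdd
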