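import Cfsg.Agent.Linear.OrthDerangeBase
import Cfsg.Agent.Linear.InvolMinusOne

/-!
# Elements of projective order two and totally singular subspaces
-/

set_option autoImplicit false
set_option linter.unusedSectionVars false

namespace Cfsg.Agent.Linear.OrthDerangeTwo

open Module Cfsg.Agent.Forms Cfsg.Agent.Linear.OrthSpaces Cfsg.Agent.Linear.OrthDerangeBase

variable {F : Type*} [Field F] [Fintype F]

theorem exists_sub {V : Type*} [AddCommGroup V] [Module F V] [FiniteDimensional F V] (U : Submodule F V) {m : ℕ}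
    (hm : m ≤ finrank F U) : ∃ W ≤ U, finrank F W = m := by
  let b := Module.finBasis F U
  have hv : LinearIndependent F (U.subtype ∘ (b ∘ Fin.castLE hm)) :=
    (b.linearIndependent.comp _ (Fin.castLE_injective hm)).map' U.subtype (Submodule.ker_subtype U)
  refine ⟨Submodule.span F (Set.range (U.subtype ∘ (b ∘ Fin.castLE hm))), Submodule.span_le.2 ?_, ?_⟩
  · rintro _ ⟨i, rfl⟩
    exact Subtype.prop _
  · rw [finrank_span_eq_card hv, Fintype.card_fin]

variable {ι : Type} [Fintype ι] [DecidableEq ι] {Q : QuadraticForm F (ι → F)} {q d m : ℕ}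

local notation "BQ" => QuadraticMap.polarBilin Q

/-- The multiplier of an isometry with scalar square. -/
theorem scalar_sq (hQ : (BQ).Nondegenerate) (hd : 1 ≤ d) (hV : finrank F (ι → F) = 2 * d) {x : GL ι F}
    (hx : x ∈ Cfsg.Geo.omegaGL ⇑Q) {r : ℕ} {z : F}
    (hz : ((x ^ r : GL ι F) : Matrix ι ι F) = z • (1 : Matrix ι ι F)) :
    z * z = 1 ∧ (Matrix.toLin' (x : Matrix ι ι F)) ^ r = z • (1 : Module.End F (ι → F)) := by
  have hp : (Matrix.toLin' (x : Matrix ι ι F)) ^ r = z • (1 : Module.End F (ι → F)) := by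
    show (Matrix.toLinAlgEquiv' (x : Matrix ι ι F)) ^ r = _
    rw [← map_pow, ← Units.val_pow_eq_pow_val, hz, map_smul, map_one]
  refine ⟨?_, hp⟩
  obtain ⟨v, hv⟩ : ∃ v, Q v ≠ 0 := by
    by_contra hcon
    push Not at hcon
    have := sing_le (nd_top hQ) le_rfl (fun w _ => hcon w)
    rw [finrank_top, hV] at this
    omega
  have hpres : ∀ k w, Q (((Matrix.toLin' (x : Matrix ι ι F)) ^ k) w) = Q w := by
    intro k
    induction k with
    | zero => exact fun w => rfl
    | succ k ih => intro w; rw [pow_succ', Module.End.mul_apply, OmegaElem.preserves hx, ih]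
  have h := hpres r v
  rw [hp, LinearMap.smul_apply, Module.End.one_apply, QuadraticMap.map_smul, smul_eq_mul] at h
  exact mul_right_cancel₀ hv (by rw [h, one_mul])

/-- A matrix in `Ω` from an isometry in the commutator subgroup. -/
theorem exists_x {T : Module.End F (ι → F)} (f : (ι → F) ≃ₗ[F] (ι → F)) (hf : ∀ v, f v = T v)
    (hTQ : ∀ v, Q (T v) = Q v)
    (hg : ∀ g : orthGroup Q, (∀ v, (g : (ι → F) ≃ₗ[F] (ι → F)) v = T v) → g ∈ commutator (orthGroup Q)) :
    ∃ x : GL ι F, x ∈ Cfsg.Geo.omegaGL ⇑Q ∧ Matrix.toLin' (x : Matrix ι ι F) = T := by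
  have hfQ : ∀ v, Q (f v) = Q v := fun v => by rw [hf, hTQ]
  let g : orthGroup Q := ⟨f, fun u v => by simp [QuadraticMap.polar, ← map_add, hfQ], hfQ⟩
  refine ⟨GeomClasses.orthToGL Q g, ?_, LinearMap.ext fun v => ?_⟩
  · rw [GeomClasses.omegaGL_eq_map]
    exact Subgroup.mem_map_of_mem _ (hg g hf)
  · rw [Matrix.toLin'_apply, GeomClasses.orthToGL_mulVec]
    exact hf v

/-- The fixed-point criterion for involutions. -/
theorem suff_one (hF : Fintype.card F = q) (hq : Odd q) (hQ : (BQ).Nondegenerate) (hn : Fintype.card ι = 2 * d)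
    (hd : 1 ≤ d) (hmd : m < d) {x : GL ι F} (hx : x ∈ Cfsg.Geo.omegaGL ⇑Q)
    (hT2 : (Matrix.toLin' (x : Matrix ι ι F)) ^ 2 = 1)
    (hcond : Plus Q (⊤ : Submodule F (ι → F)) → q % 4 = 1 ∨ m + 2 ≤ d) :
    ∃ W : Submodule F (ι → F), finrank F W = m ∧ Sing Q W ∧ ∀ w ∈ W, Matrix.toLin' (x : Matrix ι ι F) w ∈ W := by
  have h2 := two_ne_zero_of_odd hF hq
  have hV : finrank F (ι → F) = 2 * d := by rw [Module.finrank_pi, hn]
  set T := Matrix.toLin' (x : Matrix ι ι F) with hT
  obtain ⟨hN, hP, hsup⟩ := InvolOmega.spaces h2 hQ hT2 (OmegaElem.preserves hx)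
  have hK : Nd Q (LinearMap.ker (T - 1)) := by
    have := (nd_split hQ hN (nd_top hQ) le_top).1
    rwa [top_inf_eq, ← hP] at this
  obtain ⟨w, hw, htype⟩ := InvolOmega.type_of_mem hF hq hQ (by omega) hx hT2
  rw [← hT] at hw htype
  have hdim := finrank_sup hQ hN hP.le
  rw [hsup, finrank_top, hV, hw] at hdim
  have hps := plus_sup hQ hN hK hP.le ⟨w, by omega⟩ ⟨d - w, by omega⟩
  rw [hsup] at hps
  have hw0 : ¬ Plus Q (LinearMap.ker (T + 1)) → 1 ≤ w := fun h => Nat.one_le_iff_ne_zero.2 fun h0 => h (by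
    rw [Submodule.finrank_eq_zero.1 (hw.trans (by omega))]; exact plus_bot)
  have hk0 : ¬ Plus Q (LinearMap.ker (T - 1)) → w < d := fun h => by
    by_contra h0
    exact h (by rw [Submodule.finrank_eq_zero.1 (show finrank F (LinearMap.ker (T - 1)) = 0 by omega)]; exact plus_bot)
  have hboth : ¬ Plus Q (LinearMap.ker (T + 1)) → ¬ Plus Q (LinearMap.ker (T - 1)) → m + 2 ≤ d := fun hN' hK' =>
    (hcond (hps.2 (iff_of_false hN' hK'))).resolve_left fun h4 => hN' (htype.2
      ((show IsSquare (-1 : F) by rw [FiniteField.isSquare_neg_one_iff, hF]; omega).pow w))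
  have goal : ∀ e₁ e₂, m = e₁ + e₂ → (2 * e₁ < finrank F (LinearMap.ker (T + 1)) ∨
      (2 * e₁ = finrank F (LinearMap.ker (T + 1)) ∧ Plus Q (LinearMap.ker (T + 1)))) →
      (2 * e₂ < finrank F (LinearMap.ker (T - 1)) ∨
      (2 * e₂ = finrank F (LinearMap.ker (T - 1)) ∧ Plus Q (LinearMap.ker (T - 1)))) →
      ∃ W : Submodule F (ι → F), finrank F W = m ∧ Sing Q W ∧ ∀ w ∈ W, T w ∈ W :=
    fun e₁ e₂ he h₁ h₂ => exists_sum hQ h2 hT2 (OmegaElem.preserves hx) he h₁ h₂
  by_cases hN' : Plus Q (LinearMap.ker (T + 1))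
  · refine goal (min m w) (m - min m w) (by omega) ?_ ?_
    · rcases (min_le_right m w).lt_or_eq with h | h
      · exact Or.inl (by omega)
      · exact Or.inr ⟨by omega, hN'⟩
    · by_cases hK' : Plus Q (LinearMap.ker (T - 1))
      · rcases (show m - min m w ≤ d - w by omega).lt_or_eq with h | h
        · exact Or.inl (by omega)
        · exact Or.inr ⟨by omega, hK'⟩
      · have := hk0 hK'
        exact Or.inl (by omega)
  · have := hw0 hN'
    refine goal (min m (w - 1)) (m - min m (w - 1)) (by omega) (Or.inl (by omega)) ?_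
    by_cases hK' : Plus Q (LinearMap.ker (T - 1))
    · rcases (show m - min m (w - 1) ≤ d - w by omega).lt_or_eq with h | h
      · exact Or.inl (by omega)
      · exact Or.inr ⟨by omega, hK'⟩
    · have := hk0 hK'
      have := hboth hN' hK'
      exact Or.inl (by omega)

/-- The fixed-point criterion for square `-1`. -/
theorem suff_neg (hF : Fintype.card F = q) (hq : Odd q) (hQ : (BQ).Nondegenerate) (hn : Fintype.card ι = 2 * d)
    (hd : 1 ≤ d) (hmd : m < d) {x : GL ι F} (hx : x ∈ Cfsg.Geo.omegaGL ⇑Q)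
    (hT2 : ∀ v, Matrix.toLin' (x : Matrix ι ι F) (Matrix.toLin' (x : Matrix ι ι F) v) = -v)
    (hcond : q % 4 = 3 → (Plus Q (⊤ : Submodule F (ι → F)) → Even m ∨ Odd d) ∧
      (¬ Plus Q (⊤ : Submodule F (ι → F)) → Even d ∨ Even m ∨ q % 8 ≠ 7)) :
    ∃ W : Submodule F (ι → F), finrank F W = m ∧ Sing Q W ∧ ∀ w ∈ W, Matrix.toLin' (x : Matrix ι ι F) w ∈ W := by
  have h2 := two_ne_zero_of_odd hF hq
  have hV : finrank F (ι → F) = 2 * d := by rw [Module.finrank_pi, hn]
  set T := Matrix.toLin' (x : Matrix ι ι F) with hT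
  have hTQ : ∀ v, Q (T v) = Q v := OmegaElem.preserves hx
  by_cases hsq : IsSquare (-1 : F)
  · obtain ⟨s, hs⟩ := hsq
    have hs0 : s ≠ 0 := fun h => by rw [h, mul_zero] at hs; exact one_ne_zero (neg_eq_zero.1 hs)
    have hsing : ∀ t : F, t * t = -1 → Sing Q (LinearMap.ker (T - t • 1)) := fun t ht v hv => by
      have hv' : T v = t • v := sub_eq_zero.1 hv
      have h := hTQ v
      rw [hv', QuadraticMap.map_smul, ht, smul_eq_mul] at h
      exact (mul_eq_zero.1 (show (2 : F) * Q v = 0 by linear_combination -h)).resolve_left h2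
    have hsup : LinearMap.ker (T - s • 1) ⊔ LinearMap.ker (T - (-s) • 1) = ⊤ := eq_top_iff.2 fun v _ => by
      have hv : v = (2 : F)⁻¹ • (v - s • T v) + (2 : F)⁻¹ • (v + s • T v) := by
        rw [← smul_add, show v - s • T v + (v + s • T v) = (2 : F) • v by rw [two_smul]; abel, smul_smul,
          inv_mul_cancel₀ h2, one_smul]
      rw [hv]
      refine Submodule.add_mem_sup (Submodule.smul_mem _ _ ?_) (Submodule.smul_mem _ _ ?_)
      · show (T - s • 1) _ = 0
        simp only [LinearMap.sub_apply, LinearMap.smul_apply, Module.End.one_apply, map_sub, map_smul, hT2,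
          smul_sub, smul_smul, ← hs]
        module
      · show (T - (-s) • 1) _ = 0
        simp only [LinearMap.sub_apply, LinearMap.smul_apply, Module.End.one_apply, map_add, map_smul, hT2,
          neg_smul, sub_neg_eq_add, smul_add, smul_smul, ← hs]
        module
    have hle := Submodule.finrank_sup_add_finrank_inf_eq (LinearMap.ker (T - s • 1)) (LinearMap.ker (T - (-s) • 1))
    rw [hsup, finrank_top, hV] at hle
    have hb := sing_le (nd_top hQ) le_top (hsing (-s) (by rw [neg_mul_neg]; exact hs.symm))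
    rw [finrank_top, hV] at hb
    obtain ⟨W, hWU, hWd⟩ := exists_sub (LinearMap.ker (T - s • 1)) (m := m) (by omega)
    refine ⟨W, hWd, fun w hw => hsing s hs.symm w (hWU hw), fun w hw => ?_⟩
    rw [show T w = s • w from sub_eq_zero.1 (hWU hw)]
    exact W.smul_mem _ hw
  · have hq4 : q % 4 = 3 := by
      by_contra h
      exact hsq (by rw [FiniteField.isSquare_neg_one_iff, hF]; exact h)
    obtain ⟨hc1, hc2⟩ := hcond hq4
    obtain ⟨v, hv⟩ := InvolMinusOne.exists_frame hF hq hQ hT2 hTQ hV
    have hplus := hv.plus_iff_even hF hq hQ one_ne_zero hV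
    rcases Nat.even_or_odd m with ⟨k, hk⟩ | hm
    · rw [hk, ← two_mul]
      exact hv.exists_sing hF hq hT2 hV (by omega)
    · exfalso
      rw [GeomClasses.omegaGL_eq_map] at hx
      obtain ⟨g, hg, rfl⟩ := Subgroup.mem_map.1 hx
      have hsq2 := (hv.mem_iff h2 hQ one_ne_zero hV hd (g := g) fun w => by
        rw [hT, Matrix.toLin'_apply, GeomClasses.orthToGL_mulVec]).1 hg
      rcases Nat.even_or_odd d with hde | hdo
      · exact ((hc1 (hplus.2 (by rw [hde.neg_one_pow]; exact IsSquare.one))).elim (Nat.not_even_iff_odd.2 hm)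
          (Nat.not_odd_iff_even.2 hde))
      · have hnp : ¬ Plus Q (⊤ : Submodule F (ι → F)) := fun h => hsq (by
          have := hplus.1 h
          rwa [hdo.neg_one_pow] at this)
        have h8 := ((hc2 hnp).resolve_left (Nat.not_even_iff_odd.2 hdo)).resolve_left (Nat.not_even_iff_odd.2 hm)
        obtain ⟨k, rfl⟩ := hdo
        rw [pow_succ, pow_mul, ← pow_mul, mul_comm 2 k, pow_mul, InvolMinusOne.isSquare_sq_mul (pow_ne_zero _ h2),
          FiniteField.isSquare_two_iff, hF] at hsq2
        omega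

/-- The criterion for `r = 2`. -/
theorem two (hF : Fintype.card F = q) (hq : Odd q) (hQ : (BQ).Nondegenerate) (hn : Fintype.card ι = 2 * d)
    (hd : 2 ≤ d) (hmd : m < d) :
    (∀ x : GL ι F, x ∈ Cfsg.Geo.omegaGL ⇑Q →
      (∃ z : F, ((x ^ 2 : GL ι F) : Matrix ι ι F) = z • (1 : Matrix ι ι F)) →
      (∀ z : F, (x : Matrix ι ι F) ≠ z • (1 : Matrix ι ι F)) →
      ∃ W : Submodule F (ι → F), finrank F W = m ∧ Sing Q W ∧
        ∀ w ∈ W, Matrix.toLin' (x : Matrix ι ι F) w ∈ W) ↔
    ((Plus Q (⊤ : Submodule F (ι → F)) → q % 4 = 1 ∨ (q % 4 = 3 ∧ m + 2 ≤ d ∧ (Even m ∨ Odd d))) ∧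
      (¬ Plus Q (⊤ : Submodule F (ι → F)) → Even d ∨ Even m ∨ q % 8 ≠ 7)) := by
  have h2 := two_ne_zero_of_odd hF hq
  have hV : finrank F (ι → F) = 2 * d := by rw [Module.finrank_pi, hn]
  have hq2 := Nat.odd_iff.1 hq
  constructor
  · intro H
    have minus_one : Odd m → ¬ IsSquare (-1 : F) →
        (Plus Q (⊤ : Submodule F (ι → F)) ↔ IsSquare ((-1 : F) ^ d)) → IsSquare ((2 : F) ^ d) → False := by
      intro hm hns ht h2d
      obtain ⟨T, v, a, ha, hTT, hTQ, hv⟩ := InvolMinusOne.exists_T hF hq hQ (by omega) hV ht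
      let f : (ι → F) ≃ₗ[F] (ι → F) := LinearEquiv.ofLinearMap T (-T)
        (LinearMap.ext fun v => by simp [hTT]) (LinearMap.ext fun v => by simp [hTT])
      obtain ⟨x, hx, hxT⟩ := exists_x (T := T) f (fun v => rfl) hTQ fun g hg =>
        (hv.mem_iff h2 hQ ha hV (by omega) hg).2 h2d
      obtain ⟨W, hWd, -, hWi⟩ := H x hx ⟨-1, Matrix.toLin'.injective (by
          rw [Units.val_pow_eq_pow_val, pow_two, Matrix.toLin'_mul, hxT, map_smul, Matrix.toLin'_one]
          exact LinearMap.ext fun v => by simp [hTT])⟩ fun z hz => by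
        have h := congrArg Matrix.toLin' hz
        rw [hxT, map_smul, Matrix.toLin'_one] at h
        obtain ⟨u, hu⟩ : ∃ u : ι → F, u ≠ 0 := by
          haveI : Nontrivial (ι → F) := Module.nontrivial_of_finrank_pos (R := F) (by omega)
          exact exists_ne 0
        have h1 := hTT u
        rw [h, LinearMap.smul_apply, LinearMap.id_apply, LinearMap.smul_apply, LinearMap.id_apply, smul_smul] at h1
        exact hns ⟨z, (smul_left_injective F hu (show (z * z) • u = (-1 : F) • u by rw [h1, neg_one_smul])).symm⟩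
      have := InvolMinusOne.even_finrank hns hTT (W := W) fun w hw => hxT ▸ hWi w hw
      rw [hWd] at this
      exact Nat.not_even_iff_odd.2 hm this
    refine ⟨fun hp => ?_, fun hnp => ?_⟩
    · by_cases h4 : q % 4 = 1
      · exact Or.inl h4
      have hns : ¬ IsSquare (-1 : F) := by rw [FiniteField.isSquare_neg_one_iff, hF]; omega
      refine Or.inr ⟨by omega, ?_, ?_⟩
      · by_contra hlt
        obtain ⟨N, -, hN, hNd, hNp⟩ := exists_even hQ (nd_top hQ) False (u := 1) (fun h' => absurd h' one_ne_zero)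
          (Or.inl (by rw [finrank_top, hV]; omega))
        obtain ⟨x, hx, hxx, hxN, hxP⟩ := InvolOmega.exists_invol hF hq hQ (by omega) hN hNd
          (iff_of_false (fun h' => hNp.1 h') (by rwa [pow_one]))
        set T := Matrix.toLin' (x : Matrix ι ι F) with hT
        have hT2 : T ^ 2 = 1 := by
          rw [pow_two, hT, Module.End.mul_eq_comp, ← Matrix.toLin'_mul, hxx, Matrix.toLin'_one]; rfl
        have hPd := finrank_sup hQ hN (le_refl (perp BQ N))
        rw [(nd_isCompl hQ hN).sup_eq_top, finrank_top, hV] at hPd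
        obtain ⟨u, huN, hu⟩ := N.ne_bot_iff.1 (fun h' => by rw [h', finrank_bot] at hNd; omega)
        obtain ⟨u', huP, hu'⟩ := (perp BQ N).ne_bot_iff.1 (fun h' => by rw [h', finrank_bot] at hPd; omega)
        obtain ⟨W, hWd, hWs, hWi⟩ := H x hx ⟨1, by rw [Units.val_pow_eq_pow_val, pow_two, hxx, one_smul]⟩ fun z hz => by
          have h := congrArg Matrix.toLin' hz
          rw [← hT, map_smul, Matrix.toLin'_one] at h
          have e1 := hxN u huN
          have e2 := hxP u' huP
          rw [h, LinearMap.smul_apply, LinearMap.id_apply] at e1 e2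
          have z1 : z = -1 := smul_left_injective F hu (show z • u = (-1 : F) • u by rw [e1, neg_one_smul])
          have z2 : z = 1 := smul_left_injective F hu' (show z • u' = (1 : F) • u' by rw [e2, one_smul])
          exact h2 (by linear_combination z1 - z2)
        obtain ⟨hN', hP, hsup⟩ := InvolOmega.spaces h2 hQ hT2 (OmegaElem.preserves hx)
        have hdim := finrank_sup hQ hN' hP.le
        rw [hsup, finrank_top, hV] at hdim
        have hNN : LinearMap.ker (T + 1) = N := by
          refine (Submodule.eq_of_le_of_finrank_le (fun v hv => ?_) ?_).symm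
          · show T v + v = 0
            rw [hxN v hv, neg_add_cancel]
          · have h3 : perp BQ N ≤ LinearMap.ker (T - 1) := fun v hv => by
              show T v - v = 0
              rw [hxP v hv, sub_self]
            have := Submodule.finrank_mono h3
            omega
        have hK : Nd Q (LinearMap.ker (T - 1)) := by
          have := (nd_split hQ hN' (nd_top hQ) le_top).1
          rwa [top_inf_eq, ← hP] at this
        rw [hNN, hNd] at hdim
        have hps := plus_sup hQ hN' hK hP.le ⟨1, by rw [hNN, hNd]⟩ ⟨d - 1, by omega⟩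
        rw [hsup, hNN] at hps
        obtain ⟨e₁, e₂, he, h₁, h₂⟩ := sum_parts hQ h2 hT2 (OmegaElem.preserves hx) hWs hWi
        rw [hNN, hNd] at h₁
        have he1 : e₁ = 0 := by
          rcases h₁ with h' | ⟨-, h'⟩
          · omega
          · exact absurd h' (fun h'' => hNp.1 h'')
        rcases h₂ with h' | ⟨-, h'⟩
        · omega
        · exact hNp.1 ((hps.1 hp).2 h')
      · by_contra hcon
        push Not at hcon
        have hde : Even d := Nat.not_odd_iff_even.1 (by tauto)
        refine minus_one (Nat.not_even_iff_odd.1 hcon.1) hns (iff_of_true hp (by rw [hde.neg_one_pow]; exact IsSquare.one)) ?_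
        obtain ⟨k, rfl⟩ := hde
        exact ⟨2 ^ k, pow_add _ _ _⟩
    · by_contra hcon
      push Not at hcon
      obtain ⟨hde, hme, h8⟩ := hcon
      have hdo : Odd d := Nat.not_even_iff_odd.1 hde
      have hns : ¬ IsSquare (-1 : F) := by rw [FiniteField.isSquare_neg_one_iff, hF]; omega
      refine minus_one (Nat.not_even_iff_odd.1 hme) hns (iff_of_false hnp (by rwa [hdo.neg_one_pow])) ?_
      exact (show IsSquare (2 : F) by rw [FiniteField.isSquare_two_iff, hF]; omega).pow d
  · rintro ⟨hc1, hc2⟩ x hx ⟨z, hz⟩ -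
    obtain ⟨hz2, hT2⟩ := scalar_sq hQ (by omega) hV hx hz
    rcases mul_self_eq_one_iff.1 hz2 with rfl | rfl
    · exact suff_one hF hq hQ hn (by omega) hmd hx (by rw [hT2, one_smul]) fun hp =>
        (hc1 hp).imp id fun h => h.2.1
    · refine suff_neg hF hq hQ hn (by omega) hmd hx (fun v => ?_) fun h4 => ⟨fun hp =>
        ((hc1 hp).resolve_left (by omega)).2.2, hc2⟩
      rw [← Module.End.mul_apply, ← pow_two, hT2, LinearMap.smul_apply, Module.End.one_apply, neg_one_smul]

end Cfsg.Agent.Linear.OrthDerangeTwo
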