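import Cfsg.Agent.Linear.OrthDerangeEven
import Cfsg.Agent.Linear.OrthDerangeTwo

/-!
# Elements of prime order of `PΩ` and totally singular subspaces
-/

set_option autoImplicit false
set_option linter.unusedSectionVars false

namespace Cfsg.Agent.Linear.OrthDerangeProj

open Polynomial Module Cfsg.Agent.Forms Cfsg.Agent.Linear.OrthSpaces Cfsg.Agent.Linear.OrthDerangeBase

variable {F : Type*} [Field F] [Fintype F]

theorem plus_qPlus {w : ℕ} : Plus (qPlus w F) (⊤ : Submodule F (Fin w ⊕ Fin w → F)) :=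
  (plus_iff (nd_top qPlus_nondegenerate) (by
    rw [finrank_top, Module.finrank_pi, Fintype.card_sum, Fintype.card_fin]; omega)).2
    ⟨(LinearEquiv.ofTop ⊤ rfl).symm, fun x => rfl⟩

theorem not_plus_qMinus {k : ℕ} {a b : F} (hab : ∀ x y : F, x ^ 2 + a * x * y + b * y ^ 2 = 0 → x = 0 ∧ y = 0)
    (hQ : (QuadraticMap.polarBilin (qMinus k F a b)).Nondegenerate) :
    ¬ Plus (qMinus k F a b) (⊤ : Submodule F ((Fin k ⊕ Fin k) ⊕ Fin 2 → F)) :=
  (not_plus_iff (nd_top hQ) (w := k + 1) (by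
    rw [finrank_top, Module.finrank_pi, Fintype.card_sum, Fintype.card_sum, Fintype.card_fin, Fintype.card_fin]
    omega)).2
    ⟨Nat.le_add_left 1 k, a, b, hab, (LinearEquiv.ofTop ⊤ rfl).symm, fun x => rfl⟩

variable {ι : Type} [Fintype ι] [DecidableEq ι] {Q : QuadraticForm F (ι → F)}

local notation "BQ" => QuadraticMap.polarBilin Q

/-- Projective elements of odd prime order and isometries of that order. -/
theorem odd_bridge (hQ : (BQ).Nondegenerate) {d : ℕ} (hn : Fintype.card ι = 2 * d) (hd : 3 ≤ d) {r : ℕ}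
    (hr : Odd r) {m : ℕ} :
    (∀ x : GL ι F, x ∈ Cfsg.Geo.omegaGL ⇑Q →
      (∃ z : F, ((x ^ r : GL ι F) : Matrix ι ι F) = z • (1 : Matrix ι ι F)) →
      (∀ z : F, (x : Matrix ι ι F) ≠ z • (1 : Matrix ι ι F)) →
      ∃ W : Submodule F (ι → F), finrank F W = m ∧ Sing Q W ∧
        ∀ w ∈ W, Matrix.toLin' (x : Matrix ι ι F) w ∈ W) ↔
    (∀ T : Module.End F (ι → F), T ^ r = 1 → (∀ v, Q (T v) = Q v) → T ≠ 1 →
      ∃ W : Submodule F (ι → F), finrank F W = m ∧ Sing Q W ∧ ∀ w ∈ W, T w ∈ W) := by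
  have hV : finrank F (ι → F) = 2 * d := by rw [Module.finrank_pi, hn]
  obtain ⟨k, hk⟩ := hr
  constructor
  · intro H T hT hTQ hT1
    obtain ⟨x, hx, hxT, hxr⟩ := OmegaElem.exists_of_odd hQ (by omega) ⟨k, hk⟩ hT hTQ
    obtain ⟨W, h1, h2, h3⟩ := H x hx ⟨1, by rw [hxr, Units.val_one, one_smul]⟩ fun z hz => by
      obtain ⟨v, hv⟩ : ∃ v, Q v ≠ 0 := by
        by_contra hcon
        push Not at hcon
        have := sing_le (nd_top hQ) le_rfl (fun w _ => hcon w)
        rw [finrank_top, hV] at this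
        omega
      have hTz : T = z • 1 := by
        rw [← hxT, hz, map_smul, Matrix.toLin'_one]; rfl
      have hz2 : z * z = 1 := by
        have h := hTQ v
        rw [hTz, LinearMap.smul_apply, Module.End.one_apply, QuadraticMap.map_smul, smul_eq_mul] at h
        exact mul_right_cancel₀ hv (by rw [h, one_mul])
      have hv0 : v ≠ 0 := fun h => hv (by rw [h, map_zero])
      rw [hTz, _root_.smul_pow, one_pow, hk, pow_succ, pow_mul, pow_two, hz2, one_pow, one_mul] at hT
      exact hT1 (hTz.trans hT)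
    exact ⟨W, h1, h2, fun w hw => hxT ▸ h3 w hw⟩
  · intro H x hx ⟨z, hz⟩ hns
    obtain ⟨hz2, hT⟩ := OrthDerangeTwo.scalar_sq hQ (by omega) hV hx hz
    have hz0 : z ≠ 0 := fun h => by rw [h, mul_zero] at hz2; exact zero_ne_one hz2
    have hzr : z ^ r = z := by rw [hk, pow_succ, pow_mul, pow_two, hz2, one_pow, one_mul]
    obtain ⟨W, h1, h2, h3⟩ := H (z • Matrix.toLin' (x : Matrix ι ι F))
      (by rw [_root_.smul_pow, hT, smul_smul, hzr, hz2, one_smul])
      (fun v => by rw [LinearMap.smul_apply, QuadraticMap.map_smul, hz2, one_smul]; exact OmegaElem.preserves hx v)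
      fun h => hns z (Matrix.toLin'.injective (by
        rw [map_smul, Matrix.toLin'_one]
        calc Matrix.toLin' (x : Matrix ι ι F) = (z * z) • Matrix.toLin' (x : Matrix ι ι F) := by rw [hz2, one_smul]
          _ = z • (z • Matrix.toLin' (x : Matrix ι ι F)) := (smul_smul _ _ _).symm
          _ = z • LinearMap.id := by rw [h]; rfl))
    exact ⟨W, h1, h2, OrthDerangeBase.inv_smul' hz0 h3⟩

end Cfsg.Agent.Linear.OrthDerangeProj
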