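import Cfsg.Agent.Linear.UnipMinus
import Cfsg.Agent.Forms.SympBasis

/-!
# Isometries `1 + L` with `L² = 0`, `L` alternating
-/

set_option autoImplicit false
set_option linter.unusedSectionVars false

namespace Cfsg.Agent.Linear.UnipSkew

open Module Cfsg.Agent.Forms Cfsg.Agent.Linear.OrthSpaces

variable {F : Type*} [Field F] [Fintype F] {V : Type*} [AddCommGroup V] [Module F V] [FiniteDimensional F V]
  {Q : QuadraticForm F V}

local notation "BQ" => QuadraticMap.polarBilin Q

/-- An alternating square-zero element of the Lie algebra. -/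
structure Skew (Q : QuadraticForm F V) (L : Module.End F V) : Prop where
  sq : ∀ v, L (L v) = 0
  self : ∀ v, QuadraticMap.polar Q (L v) v = 0
  sing : ∀ v, Q (L v) = 0

theorem Skew.isometry {L : Module.End F V} (h : Skew Q L) (v : V) : Q ((1 + L) v) = Q v := by
  rw [LinearMap.add_apply, Module.End.one_apply, QuadraticMap.map_add Q, h.sing,
    QuadraticMap.polar_comm, h.self, add_zero, add_zero]

theorem Skew.injective {L : Module.End F V} (h : Skew Q L) : Function.Injective ⇑(1 + L) := by
  intro u v huv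
  have h1 := congrArg ⇑(1 - L) huv
  simpa [h.sq] using h1

theorem Skew.pow_char {L : Module.End F V} (h : Skew Q L) {p : ℕ} [Fact p.Prime] [CharP F p] [Nontrivial V] :
    (1 + L) ^ p = 1 := by
  haveI : CharP (Module.End F V) p :=
    charP_of_injective_algebraMap (FaithfulSMul.algebraMap_injective F _) p
  have h2 : L ^ 2 = 0 := LinearMap.ext fun v => by rw [pow_two]; exact h.sq v
  rw [add_pow_char_of_commute (p := p) (h := Commute.one_left L), one_pow,
    show p = 2 + (p - 2) by have := (Fact.out : p.Prime).two_le; omega, pow_add, h2, zero_mul, add_zero]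

/-- The rank of `L` on an invariant nondegenerate subspace is even. -/
theorem even_rank_of_self {L : Module.End F V} (hself : ∀ v, QuadraticMap.polar Q (L v) v = 0) {W : Submodule F V}
    (hWn : Nd Q W) (hW : ∀ w ∈ W, L w ∈ W) : Even (finrank F (W.map L)) := by
  let D : LinearMap.BilinForm F W := (BQ).compl₁₂ (L.comp W.subtype) W.subtype
  have hD : ∀ u v : W, D u v = QuadraticMap.polar Q (L (u : V)) (v : V) := fun u v => rfl
  have hA : D.IsAlt := fun u => by rw [hD]; exact hself _
  obtain ⟨m, k, b, hfam, hrad⟩ := exists_symp_basis_radical D hA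
  let v := fun s => b (Sum.inl s)
  have hli : LinearIndependent F (fun s => L ((v s : W) : V)) := by
    refine Fintype.linearIndependent_iff.2 fun g hg => ?_
    have hz : ∀ x : W, D (∑ s, g s • v s) x = 0 := fun x => by
      rw [hD, Submodule.coe_sum, map_sum]
      simp only [Submodule.coe_smul, map_smul]
      rw [hg]
      simp [QuadraticMap.polar]
    rintro (s | s)
    · have := hz (v (Sum.inr s))
      simpa [map_sum, Fintype.sum_sum_type, v, hfam.lr, hfam.rr] using this
    · have := hz (v (Sum.inl s))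
      have hrl : ∀ i j, D (b (Sum.inl (Sum.inr i))) (b (Sum.inl (Sum.inl j))) = if j = i then -1 else 0 := fun i j => by
        rw [← LinearMap.IsAlt.neg hA, hfam.lr]; split_ifs <;> simp
      simpa [map_sum, Fintype.sum_sum_type, v, hfam.ll, hrl] using this
  have hspan : W.map L = Submodule.span F (Set.range fun s => L ((v s : W) : V)) := by
    refine le_antisymm ?_ (Submodule.span_le.2 ?_)
    · rintro _ ⟨x, hx, rfl⟩
      rw [show x = ((⟨x, hx⟩ : W) : V) from rfl, ← b.sum_repr ⟨x, hx⟩, Submodule.coe_sum, map_sum]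
      refine Submodule.sum_mem _ fun t _ => ?_
      rw [Submodule.coe_smul, map_smul]
      refine Submodule.smul_mem _ _ ?_
      rcases t with s | j
      · exact Submodule.subset_span ⟨s, rfl⟩
      · rw [hWn _ (hW _ (b (Sum.inr j)).2) fun y hy => hrad j ⟨y, hy⟩]
        exact Submodule.zero_mem _
    · rintro _ ⟨s, rfl⟩
      exact ⟨_, (v s).2, rfl⟩
  rw [hspan, finrank_span_eq_card hli, Fintype.card_sum, Fintype.card_fin]
  exact ⟨m, rfl⟩

theorem Skew.even_rank {L : Module.End F V} (h : Skew Q L) {W : Submodule F V} (hWn : Nd Q W)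
    (hW : ∀ w ∈ W, L w ∈ W) : Even (finrank F (W.map L)) :=
  even_rank_of_self h.self hWn hW

theorem Skew.rank_le {L : Module.End F V} (h : Skew Q L) {W : Submodule F V} (hW : ∀ w ∈ W, L w ∈ W) :
    2 * finrank F (W.map L) ≤ finrank F W := by
  have h1 := UnipMinus.two_rank_le L hW
  rw [show (W.map L).map L = ⊥ from (Submodule.eq_bot_iff _).2 (by
    rintro _ ⟨_, ⟨x, -, rfl⟩, rfl⟩; exact h.sq x), finrank_bot] at h1
  omega

theorem Skew.plus_of_half {L : Module.End F V} (h : Skew Q L) {W : Submodule F V} (hW : ∀ w ∈ W, L w ∈ W)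
    (hd : 2 * finrank F (W.map L) = finrank F W) : Plus Q W :=
  ⟨W.map L, by rintro _ ⟨x, hx, rfl⟩; exact hW x hx, by rintro _ ⟨x, -, rfl⟩; exact h.sing x, hd⟩

/-- The invariant nondegenerate subspaces when the rank is about half the dimension. -/
theorem Skew.restrictions {L : Module.End F V} (h : Skew Q L) (hB : (BQ).Nondegenerate) {d k : ℕ}
    (hn : finrank F V = 2 * d) (hk : finrank F (LinearMap.range L) = 2 * k) (hdk : d ≤ 2 * k + 1)
    {W : Submodule F V} (hWn : Nd Q W) (hWi : ∀ w ∈ W, (1 + L) w ∈ W) :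
    (∀ w, finrank F W = 2 * w + 1 → Odd d ∧ Even w) ∧
      (∀ w, finrank F W = 2 * w → (Even w → Plus Q W) ∧
        (Odd w → Odd d ∧ (Plus Q W ↔ Plus Q (⊤ : Submodule F V)))) := by
  have hW : ∀ x ∈ W, L x ∈ W := fun x hx => by
    have := W.sub_mem (hWi x hx) hx
    simpa using this
  have hP : ∀ x ∈ perp BQ W, L x ∈ perp BQ W := fun x hx => by
    have := (perp BQ W).sub_mem (OrthFree.perp_invariant h.isometry h.injective hWi x hx) hx
    simpa using this
  have hc : IsCompl W (perp BQ W) := nd_isCompl hB hWn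
  have hPn : Nd Q (perp BQ W) := by
    have := (nd_split hB hWn (nd_top hB) le_top).1
    rwa [top_inf_eq] at this
  have hs := UnipMinus.rank_split L hc hW hP
  obtain ⟨a, ha⟩ := h.even_rank hWn hW
  obtain ⟨a', ha'⟩ := h.even_rank hPn hP
  have h1 := h.rank_le hW
  have h1' := h.rank_le hP
  have hd := finrank_sup hB hWn (le_refl (perp BQ W))
  rw [hc.sup_eq_top, finrank_top, hn] at hd
  refine ⟨fun w hw => ⟨Nat.odd_iff.2 (by omega), Nat.even_iff.2 (by omega)⟩, fun w hw => ⟨fun hwe => ?_, fun hwo => ?_⟩⟩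
  · rw [Nat.even_iff] at hwe
    exact h.plus_of_half hW (by omega)
  · rw [Nat.odd_iff] at hwo
    refine ⟨Nat.odd_iff.2 (by omega), ?_⟩
    have hps := plus_sup hB hWn hPn le_rfl ⟨w, by omega⟩ ⟨d - w, by omega⟩
    rw [hc.sup_eq_top] at hps
    rw [hps]
    exact ⟨fun hp => iff_of_true hp (h.plus_of_half hP (by omega)), fun hi => hi.2 (h.plus_of_half hP (by omega))⟩

/-- An alternating element of rank `2k`. -/
theorem exists_skew (hB : (BQ).Nondegenerate) {k : ℕ}
    (hfit : 2 * (2 * k) < finrank F V ∨ (2 * (2 * k) = finrank F V ∧ Plus Q (⊤ : Submodule F V))) :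
    ∃ L : Module.End F V, Skew Q L ∧ finrank F (LinearMap.range L) = 2 * k := by
  classical
  obtain ⟨H, -, hHn, hHp, hHd⟩ := exists_hyp (nd_top hB) (u := 2 * k) (by rwa [finrank_top])
  obtain ⟨eX, heX⟩ := (plus_iff hHn hHd).1 hHp
  let σ : Fin k ⊕ Fin k ≃ Fin (2 * k) := finSumFinEquiv.trans (finCongr (two_mul k).symm)
  let A : (Fin (2 * k) → F) →ₗ[F] (Fin (2 * k) → F) :=
    { toFun := fun y l => Sum.elim (fun j => y (σ (Sum.inr j))) (fun j => -y (σ (Sum.inl j))) (σ.symm l)
      map_add' := fun u v => funext fun l => by rcases hl : σ.symm l with j | j <;> simp [hl] <;> ring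
      map_smul' := fun c v => funext fun l => by rcases hl : σ.symm l with j | j <;> simp [hl] }
  have hA : ∀ y, ∑ l, A y l * y l = 0 := fun y => by
    rw [← Equiv.sum_comp σ, Fintype.sum_sum_type]
    simp only [A, LinearMap.coe_mk, AddHom.coe_mk, Equiv.symm_apply_apply, Sum.elim_inl, Sum.elim_inr, neg_mul,
      Finset.sum_neg_distrib]
    rw [← sub_eq_add_neg, sub_eq_zero]
    exact Finset.sum_congr rfl fun j _ => mul_comm _ _
  have hAi : Function.Injective A := by
    rw [← LinearMap.ker_eq_bot, eq_bot_iff]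
    intro y hy
    rw [Submodule.mem_bot]
    funext l
    obtain ⟨(j | j), rfl⟩ := σ.surjective l
    · have := congrFun hy (σ (Sum.inr j))
      simpa [A] using this
    · have := congrFun hy (σ (Sum.inl j))
      simpa [A] using this
  let L0 : Module.End F (Fin (2 * k) ⊕ Fin (2 * k) → F) :=
    { toFun := fun v => Sum.elim (A fun l => v (Sum.inr l)) 0
      map_add' := fun u v => by
        funext x
        rcases x with l | l
        · show A _ l = A _ l + A _ l
          rw [show (fun l => (u + v) (Sum.inr l)) = (fun l => u (Sum.inr l)) + fun l => v (Sum.inr l) from rfl, map_add]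
          rfl
        · simp
      map_smul' := fun c v => by
        funext x
        rcases x with l | l
        · show A _ l = c • A _ l
          rw [show (fun l => (c • v) (Sum.inr l)) = c • fun l => v (Sum.inr l) from rfl, map_smul]
          rfl
        · simp }
  have hL0r : ∀ v l, L0 v (Sum.inr l) = 0 := fun v l => rfl
  have hL0 : ∀ v, L0 (L0 v) = 0 ∧ qPlus (2 * k) F (L0 v) = 0 ∧
      QuadraticMap.polar (qPlus (2 * k) F) (L0 v) v = 0 := fun v => by
    refine ⟨?_, ?_, ?_⟩
    · funext x
      rcases x with l | l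
      · show A (fun l => (0 : F)) l = 0
        rw [show (fun _ : Fin (2 * k) => (0 : F)) = 0 from rfl, map_zero]; rfl
      · rfl
    · simp [Cfsg.quadFormPlus, hL0r]
    · simp only [QuadraticMap.polar, coe_qPlus, Cfsg.quadFormPlus, Pi.add_apply, hL0r, zero_add, mul_zero,
        Finset.sum_const_zero, sub_zero, add_mul, Finset.sum_add_distrib]
      rw [show ∑ l, L0 v (Sum.inl l) * v (Sum.inr l) = 0 from hA (fun l => v (Sum.inr l)), zero_add, sub_self]
  let π : V →ₗ[F] H := H.projectionOnto (perp BQ H) (nd_isCompl hB hHn)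
  let j : (Fin (2 * k) ⊕ Fin (2 * k) → F) →ₗ[F] V := H.subtype ∘ₗ eX.toLinearMap
  let L : Module.End F V := j ∘ₗ L0 ∘ₗ eX.symm.toLinearMap ∘ₗ π
  have hπH : ∀ x : H, π x = x := fun x => Submodule.projectionOnto_apply_left (nd_isCompl hB hHn) x
  have hL : ∀ v, L v = j (L0 (eX.symm (π v))) := fun v => rfl
  refine ⟨L, ⟨fun v => ?_, fun v => ?_, fun v => ?_⟩, ?_⟩
  · rw [hL, hL, show π (j (L0 (eX.symm (π v)))) = eX (L0 (eX.symm (π v))) from hπH _, eX.symm_apply_apply, (hL0 _).1,
      map_zero]
  · have hs : v = (π v : V) + (v - π v) := by abel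
    have hmem : v - π v ∈ perp BQ H := by
      rw [← Submodule.ker_projectionOnto (nd_isCompl hB hHn), LinearMap.mem_ker, map_sub]
      exact sub_eq_zero.2 (hπH (π v)).symm
    rw [hL]
    conv_lhs => arg 3; rw [hs]
    rw [QuadraticMap.polar_add_right, mem_perp_iff.1 hmem (j _) (Subtype.prop _), add_zero]
    obtain ⟨z, hz⟩ := eX.surjective (π v)
    rw [← hz, eX.symm_apply_apply]
    show QuadraticMap.polar Q ((eX (L0 z) : H) : V) ((eX z : H) : V) = 0
    rw [← polar_res]
    have he : ∀ x, (Q.comp H.subtype) (eX x) = qPlus (2 * k) F x := heX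
    have := (hL0 z).2.2
    simp only [QuadraticMap.polarBilin_apply_apply, QuadraticMap.polar, ← map_add, he] at this ⊢
    exact this
  · rw [hL]
    exact (heX _).trans (hL0 _).2.1
  · have hr : LinearMap.range L = (LinearMap.range L0).map j := by
      rw [← LinearMap.range_comp]
      refine le_antisymm ?_ ?_
      · rintro _ ⟨v, rfl⟩; exact ⟨_, rfl⟩
      · rintro _ ⟨z, rfl⟩
        refine ⟨(eX z : H), ?_⟩
        rw [hL, hπH, eX.symm_apply_apply]
        rfl
    rw [hr, ← (Submodule.equivMapOfInjective j (H.injective_subtype.comp eX.injective) _).finrank_eq]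
    let ι₁ : (Fin (2 * k) → F) →ₗ[F] (Fin (2 * k) ⊕ Fin (2 * k) → F) :=
      { toFun := fun f => Sum.elim f 0
        map_add' := fun f g => by funext s; rcases s with s | s <;> simp
        map_smul' := fun c f => by funext s; rcases s with s | s <;> simp }
    have hr0 : LinearMap.range L0 = LinearMap.range ι₁ := by
      refine le_antisymm ?_ ?_
      · rintro _ ⟨v, rfl⟩; exact ⟨_, rfl⟩
      · rintro _ ⟨f, rfl⟩
        obtain ⟨y, hy⟩ := (LinearMap.injective_iff_surjective).1 hAi f
        exact ⟨Sum.elim 0 y, by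
          show Sum.elim (A fun l => y l) 0 = Sum.elim f 0
          rw [hy]⟩
    rw [hr0, LinearMap.finrank_range_of_inj fun f g hfg => funext fun l => congrFun hfg (Sum.inl l), finrank_fin_fun]

end Cfsg.Agent.Linear.UnipSkew
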