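import Cfsg.Agent.Linear.NdTwo
import Cfsg.Agent.Linear.NdBridge
import Cfsg.Agent.Linear.NdDerangeEven
import Cfsg.Agent.Linear.UnipSkew
import Cfsg.Agent.Linear.OrthDerangeProj

/-!
# Tools for even-dimensional orthogonal groups and nondegenerate subspaces
-/

set_option autoImplicit false
set_option linter.unusedSectionVars false

namespace Cfsg.Agent.Linear.NdEvenCases

open Module Cfsg.Agent.Forms Cfsg.Agent.Linear.OrthSpaces

variable {F : Type*} [Field F] [Fintype F] {ι : Type} [Fintype ι] [DecidableEq ι] {Q : QuadraticForm F (ι → F)}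

local notation "BQ" => QuadraticMap.polarBilin Q

theorem exists_aniso (hQ : (BQ).Nondegenerate) {d : ℕ} (hV : finrank F (ι → F) = 2 * d) (hd : 1 ≤ d) :
    ∃ v, Q v ≠ 0 := by
  by_contra hcon
  push Not at hcon
  have := sing_le (nd_top hQ) le_rfl (fun w _ => hcon w)
  rw [finrank_top, hV] at this
  omega

/-- Projective elements of odd prime order and isometries of that order. -/
theorem odd_bridge (hQ : (BQ).Nondegenerate) {d : ℕ} (hn : Fintype.card ι = 2 * d) (hd : 3 ≤ d) {r : ℕ}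
    (hr : Odd r) {P : Submodule F (ι → F) → Prop} :
    (∀ x : GL ι F, x ∈ Cfsg.Geo.omegaGL ⇑Q →
      (∃ z : F, ((x ^ r : GL ι F) : Matrix ι ι F) = z • (1 : Matrix ι ι F)) →
      (∀ z : F, (x : Matrix ι ι F) ≠ z • (1 : Matrix ι ι F)) →
      ∃ W : Submodule F (ι → F), P W ∧ ∀ w ∈ W, Matrix.toLin' (x : Matrix ι ι F) w ∈ W) ↔
    (∀ T : Module.End F (ι → F), T ^ r = 1 → (∀ v, Q (T v) = Q v) → T ≠ 1 →
      ∃ W : Submodule F (ι → F), P W ∧ ∀ w ∈ W, T w ∈ W) := by
  have hV : finrank F (ι → F) = 2 * d := by rw [Module.finrank_pi, hn]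
  obtain ⟨k, hk⟩ := hr
  constructor
  · intro H T hT hTQ hT1
    obtain ⟨x, hx, hxT, hxr⟩ := OmegaElem.exists_of_odd hQ (by omega) ⟨k, hk⟩ hT hTQ
    obtain ⟨W, h1, h3⟩ := H x hx ⟨1, by rw [hxr, Units.val_one, one_smul]⟩ fun z hz => by
      obtain ⟨v, hv⟩ := exists_aniso hQ hV (by omega)
      have hTz : T = z • 1 := by
        rw [← hxT, hz, map_smul, Matrix.toLin'_one]; rfl
      have hz2 : z * z = 1 := by
        have h := hTQ v
        rw [hTz, LinearMap.smul_apply, Module.End.one_apply, QuadraticMap.map_smul, smul_eq_mul] at h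
        exact mul_right_cancel₀ hv (by rw [h, one_mul])
      rw [hTz, _root_.smul_pow, one_pow, hk, pow_succ, pow_mul, pow_two, hz2, one_pow, one_mul] at hT
      exact hT1 (hTz.trans hT)
    exact ⟨W, h1, fun w hw => hxT ▸ h3 w hw⟩
  · intro H x hx ⟨z, hz⟩ hns
    obtain ⟨hz2, hT⟩ := OrthDerangeTwo.scalar_sq hQ (by omega) hV hx hz
    have hz0 : z ≠ 0 := fun h => by rw [h, mul_zero] at hz2; exact zero_ne_one hz2
    have hzr : z ^ r = z := by rw [hk, pow_succ, pow_mul, pow_two, hz2, one_pow, one_mul]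
    obtain ⟨W, h1, h3⟩ := H (z • Matrix.toLin' (x : Matrix ι ι F))
      (by rw [_root_.smul_pow, hT, smul_smul, hzr, hz2, one_smul])
      (fun v => by rw [LinearMap.smul_apply, QuadraticMap.map_smul, hz2, one_smul]; exact OmegaElem.preserves hx v)
      fun h => hns z (Matrix.toLin'.injective (by
        rw [map_smul, Matrix.toLin'_one]
        calc Matrix.toLin' (x : Matrix ι ι F) = (z * z) • Matrix.toLin' (x : Matrix ι ι F) := by rw [hz2, one_smul]
          _ = z • (z • Matrix.toLin' (x : Matrix ι ι F)) := (smul_smul _ _ _).symm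
          _ = z • LinearMap.id := by rw [h]; rfl))
    exact ⟨W, h1, OrthDerangeBase.inv_smul' hz0 h3⟩

/-- An element of `Ω` of order `p` of the shape `1 + L`. -/
theorem exists_unip {p : ℕ} [Fact p.Prime] [CharP F p] (hQ : (BQ).Nondegenerate) {d k : ℕ}
    (hn : Fintype.card ι = 2 * d) (hd : 4 ≤ d) (hk : 1 ≤ k) {L : Module.End F (ι → F)}
    (hL : UnipSkew.Skew Q L) (hrk : finrank F (LinearMap.range L) = 2 * k) :
    ∃ x : GL ι F, x ∈ Cfsg.Geo.omegaGL ⇑Q ∧
      (∃ z : F, ((x ^ p : GL ι F) : Matrix ι ι F) = z • (1 : Matrix ι ι F)) ∧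
      (∀ z : F, (x : Matrix ι ι F) ≠ z • (1 : Matrix ι ι F)) ∧ Matrix.toLin' (x : Matrix ι ι F) = 1 + L := by
  have hV : finrank F (ι → F) = 2 * d := by rw [Module.finrank_pi, hn]
  haveI : Nontrivial (ι → F) := Module.nontrivial_of_finrank_pos (R := F) (by omega)
  have hLp : (1 + L) ^ p = 1 := hL.pow_char
  obtain ⟨x, hx, hxT⟩ : ∃ x : GL ι F, x ∈ Cfsg.Geo.omegaGL ⇑Q ∧ Matrix.toLin' (x : Matrix ι ι F) = 1 + L := by
    rcases Nat.Prime.eq_two_or_odd' (Fact.out : p.Prime) with rfl | hpodd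
    · let f : (ι → F) ≃ₗ[F] (ι → F) := LinearEquiv.ofLinearMap (1 + L) (1 - L)
        (LinearMap.ext fun v => by simp [hL.sq]) (LinearMap.ext fun v => by simp [hL.sq])
      refine OrthDerangeTwo.exists_x (T := 1 + L) f (fun v => rfl) hL.isometry fun g hg => ?_
      have hgen : Subgroup.closure (reflectionSet Q) = ⊤ := OmegaElem.generated Q hQ (by omega)
      rw [mem_commutator_iff_even hQ hgen (by omega)]
      have : isomNil g = L := LinearMap.ext fun v => by rw [isomNil_apply, hg]; simp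
      rw [this, hrk]
      exact even_two_mul k
    · obtain ⟨x, hx, hxT, -⟩ := OmegaElem.exists_of_odd hQ (by omega) hpodd hLp hL.isometry
      exact ⟨x, hx, hxT⟩
  refine ⟨x, hx, ⟨1, ?_⟩, fun z hz => ?_, hxT⟩
  · rw [one_smul, Units.val_pow_eq_pow_val]
    refine Matrix.toLin'.injective ?_
    rw [Matrix.toLin'_pow, hxT, hLp, Matrix.toLin'_one]; rfl
  · have hLz : L = (z - 1) • (1 : Module.End F (ι → F)) := by
      have h := congrArg Matrix.toLin' hz
      rw [hxT, map_smul, Matrix.toLin'_one] at h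
      refine LinearMap.ext fun v => ?_
      have h' := LinearMap.congr_fun h v
      rw [LinearMap.add_apply, Module.End.one_apply, LinearMap.smul_apply, LinearMap.id_apply] at h'
      rw [LinearMap.smul_apply, Module.End.one_apply, sub_smul, one_smul]
      exact eq_sub_of_add_eq' h'
    obtain ⟨v, hv⟩ := exists_aniso hQ hV (by omega)
    have h0 := hL.sing v
    rw [hLz, LinearMap.smul_apply, Module.End.one_apply, QuadraticMap.map_smul, smul_eq_mul] at h0
    have hzz := (mul_eq_zero.1 h0).resolve_right hv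
    rw [hLz, show z - 1 = 0 from mul_self_eq_zero.1 hzz, zero_smul, LinearMap.range_zero, finrank_bot] at hrk
    omega

/-- In the hyperbolic space some element of order `p` fixes no elliptic subspace. -/
theorem plus_derange {p : ℕ} [Fact p.Prime] [CharP F p] (hQ : (BQ).Nondegenerate) {d : ℕ}
    (hn : Fintype.card ι = 2 * d) (hd : 4 ≤ d) (hplus : Plus Q (⊤ : Submodule F (ι → F))) :
    ∃ x : GL ι F, x ∈ Cfsg.Geo.omegaGL ⇑Q ∧
      (∃ z : F, ((x ^ p : GL ι F) : Matrix ι ι F) = z • (1 : Matrix ι ι F)) ∧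
      (∀ z : F, (x : Matrix ι ι F) ≠ z • (1 : Matrix ι ι F)) ∧
      ∀ W : Submodule F (ι → F), Nd Q W → (∀ w ∈ W, Matrix.toLin' (x : Matrix ι ι F) w ∈ W) →
        (∀ w, finrank F W = 2 * w + 1 → Odd d ∧ Even w) ∧
          ∀ w, finrank F W = 2 * w → Plus Q W ∧ (Odd w → Odd d) := by
  have hV : finrank F (ι → F) = 2 * d := by rw [Module.finrank_pi, hn]
  obtain ⟨L, hL, hrk⟩ := UnipSkew.exists_skew hQ (k := d / 2) (by
    rcases (show 2 * (2 * (d / 2)) ≤ finrank F (ι → F) by omega).lt_or_eq with h | h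
    · exact Or.inl h
    · exact Or.inr ⟨h, hplus⟩)
  obtain ⟨x, hx, hz, hns, hxT⟩ := exists_unip (p := p) hQ hn hd (by omega) hL hrk
  refine ⟨x, hx, hz, hns, fun W hWn hWi => ?_⟩
  obtain ⟨h1, h3⟩ := hL.restrictions hQ hV hrk (by omega) hWn fun w hw => hxT ▸ hWi w hw
  refine ⟨h1, fun w hw => ⟨?_, fun hwo => ((h3 w hw).2 hwo).1⟩⟩
  rcases Nat.even_or_odd w with hwe | hwo
  · exact (h3 w hw).1 hwe
  · exact ((h3 w hw).2 hwo).2.2 hplus

theorem quarter_iff {q : ℕ} (hF : Fintype.card F = q) (hq : Odd q) (d : ℕ) :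
    NdTwo.Quarter Q d ↔ ((Plus Q (⊤ : Submodule F (ι → F)) ↔ (Even d ∨ q % 4 = 1)) ∧
      (Even d ∨ q % 8 = 1 ∨ q % 8 = 7)) := by
  have h2 := two_ne_zero_of_odd hF hq
  have hq2 := Nat.odd_iff.1 hq
  have hneg : IsSquare ((-1 : F) ^ d) ↔ (Even d ∨ q % 4 = 1) := by
    rcases Nat.even_or_odd d with hd | hd
    · exact iff_of_true (by rw [hd.neg_one_pow]; exact IsSquare.one) (Or.inl hd)
    · rw [hd.neg_one_pow, FiniteField.isSquare_neg_one_iff, hF, or_iff_right (Nat.not_even_iff_odd.2 hd)]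
      omega
  have htwo : IsSquare ((2 : F) ^ d) ↔ (Even d ∨ q % 8 = 1 ∨ q % 8 = 7) := by
    rcases Nat.even_or_odd d with hd | hd
    · obtain ⟨j, rfl⟩ := hd
      exact iff_of_true ⟨2 ^ j, pow_add _ _ _⟩ (Or.inl ⟨j, rfl⟩)
    · rw [or_iff_right (Nat.not_even_iff_odd.2 hd)]
      obtain ⟨j, rfl⟩ := hd
      rw [pow_succ, mul_comm 2 j, pow_mul, InvolMinusOne.isSquare_sq_mul (pow_ne_zero _ h2),
        FiniteField.isSquare_two_iff, hF]
      omega
  rw [NdTwo.Quarter, hneg, htwo]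

theorem half_iff {q : ℕ} (hF : Fintype.card F = q) (hq : Odd q) (w : ℕ) :
    IsSquare ((-1 : F) ^ w) ↔ (Even w ∨ q % 4 = 1) := by
  have hq2 := Nat.odd_iff.1 hq
  rcases Nat.even_or_odd w with hd | hd
  · exact iff_of_true (by rw [hd.neg_one_pow]; exact IsSquare.one) (Or.inl hd)
  · rw [hd.neg_one_pow, FiniteField.isSquare_neg_one_iff, hF, or_iff_right (Nat.not_even_iff_odd.2 hd)]
    omega

end Cfsg.Agent.Linear.NdEvenCases
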