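import Cfsg.Agent.Linear.UnipClassElem

/-!
# Elements of order `p` fixing no nondegenerate subspace of given odd dimension and class
-/

set_option autoImplicit false
set_option linter.unusedSectionVars false

namespace Cfsg.Agent.Linear.NdOddClass

open Module Cfsg.Agent.Forms Cfsg.Agent.Linear.OrthSpaces Cfsg.Agent.Linear.UnipClass

variable {F : Type*} [Field F] [Fintype F] {V : Type*} [AddCommGroup V] [Module F V] [FiniteDimensional F V]
  {Q : QuadraticForm F V} {q : ℕ}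

local notation "BQ" => QuadraticMap.polarBilin Q

theorem perp_iso (hB : (BQ).Nondegenerate) {W W₀ : Submodule F V} (hW₀ : Nd Q W₀) (h : Iso Q W W₀) :
    Iso Q (perp BQ W) (perp BQ W₀) := by
  obtain ⟨g, hg, hgW⟩ := exists_map_eq hB h
  have hpol : ∀ a b, QuadraticMap.polar Q (g a) (g b) = QuadraticMap.polar Q a b := fun a b => by
    simp only [QuadraticMap.polar, ← map_add, hg]
  have hmap : (perp BQ W).map g.toLinearMap = perp BQ W₀ := by
    refine le_antisymm ?_ fun v hv => ⟨g.symm v, mem_perp_iff.2 fun w hw => ?_, g.apply_symm_apply v⟩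
    · rintro _ ⟨v, hv, rfl⟩
      refine mem_perp_iff.2 fun u hu => ?_
      rw [← hgW] at hu
      obtain ⟨w, hw, rfl⟩ := hu
      simp only [LinearEquiv.coe_coe, hpol]
      exact mem_perp_iff.1 hv w hw
    · rw [← hpol, g.apply_symm_apply]
      exact mem_perp_iff.1 hv _ (hgW ▸ Submodule.mem_map_of_mem hw)
  exact ⟨(g.submoduleMap (perp BQ W)).trans (LinearEquiv.ofEq _ _ hmap), fun w => hg w⟩

theorem exists_line_split (hB : (BQ).Nondegenerate) (h2 : (2 : F) ≠ 0) {X : Submodule F V} (hX : Nd Q X) {a : ℕ}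
    (hd : finrank F X = 2 * a + 1) :
    ∃ (H : Submodule F V) (v : V), H ≤ X ∧ v ∈ X ∧ Nd Q H ∧ Plus Q H ∧ finrank F H = 2 * a ∧
      (∀ x ∈ H, QuadraticMap.polar Q v x = 0) ∧ Q v ≠ 0 := by
  obtain ⟨H, hHX, hHn, hHp, hHd⟩ := exists_hyp hX (u := a) (Or.inl (by omega))
  obtain ⟨hRn, hRd, -⟩ := nd_split hB hHn hX hHX
  obtain ⟨v, hv, hv0⟩ : ∃ v ∈ X ⊓ perp BQ H, Q v ≠ 0 := by
    by_contra hcon
    push Not at hcon
    have := sing_le hRn le_rfl hcon
    omega
  exact ⟨H, v, hHX, hv.1, hHn, hHp, hHd, fun x hx => by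
    rw [QuadraticMap.polar_comm]; exact mem_perp_iff.1 hv.2 x hx, hv0⟩

theorem exists_nonsquare (hF : Fintype.card F = q) (hq : Odd q) : ∃ ν : F, ν ≠ 0 ∧ ¬ IsSquare ν := by
  obtain ⟨ν, hν⟩ := FiniteField.exists_nonsquare (F := F) (fun h => two_ne_zero_of_odd hF hq (by
    haveI := ringChar.of_eq h
    exact CharP.cast_eq_zero F 2))
  exact ⟨ν, fun e => hν (e ▸ IsSquare.zero), hν⟩

/-- The derangement of order `p`. -/
theorem p_derange {p : ℕ} [Fact p.Prime] [CharP F p] (hF : Fintype.card F = q) (hq : Odd q)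
    (hB : (BQ).Nondegenerate) {d m : ℕ} (hn : finrank F V = 2 * d) (hd : 4 ≤ d) (hm : Odd m) (hmd : m < d)
    {W₀ : Submodule F V} (hW₀d : finrank F W₀ = m) (hW₀ : Nd Q W₀) :
    ¬ ∀ T : Module.End F V, T ^ p = 1 → (∀ v, Q (T v) = Q v) → T ≠ 1 →
      ∃ W : Submodule F V, (finrank F W = m ∧ Nd Q W ∧ Iso Q W W₀) ∧ ∀ w ∈ W, T w ∈ W := by
  have h2 := two_ne_zero_of_odd hF hq
  have hp2 : p ≠ 2 := fun h => h2 (by subst h; exact_mod_cast CharP.cast_eq_zero F 2)
  haveI : Nontrivial V := Module.nontrivial_of_finrank_pos (R := F) (by omega)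
  obtain ⟨w, hw⟩ := hm
  intro H
  have expo_ne : ∀ L : Module.End F V, Skew3 Q L → 1 ≤ finrank F (LinearMap.range L) → expo L ≠ 1 := by
    intro L hL hr h1
    have : L = 0 := LinearMap.ext fun v => by
      have hmem := hL.inv_of_expo (W := F ∙ v) (fun x hx => by rwa [h1]) v (Submodule.mem_span_singleton_self v)
      obtain ⟨c, hc⟩ := Submodule.mem_span_singleton.1 hmem
      have h3 := hL.cube v
      rw [← hc, map_smul, ← hc, map_smul, map_smul, ← hc, smul_smul, smul_smul] at h3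
      by_cases hv : v = 0
      · simp [hv]
      · have hc0 : c = 0 := by
          have := (smul_eq_zero.1 h3).resolve_right hv
          rcases mul_eq_zero.1 this with h' | h'
          · rcases mul_eq_zero.1 h' with h'' | h'' <;> exact h''
          · exact h'
        rw [← hc, hc0, zero_smul, LinearMap.zero_apply]
    rw [this, LinearMap.range_zero, finrank_bot] at hr
    omega
  by_cases hsk : (Plus Q (⊤ : Submodule F V) ∧ Even d) ∨ (Odd d ∧ Odd w)
  · obtain ⟨L, hL, hrk⟩ := UnipSkew.exists_skew hB (k := d / 2) (by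
      rcases hsk with ⟨hp, hde⟩ | ⟨hdo, -⟩
      · exact Or.inr ⟨by rw [Nat.even_iff] at hde; omega, hp⟩
      · exact Or.inl (by rw [Nat.odd_iff] at hdo; omega))
    have hL1 : (1 + L) ≠ 1 := fun h => by
      have : L = 0 := add_eq_left.1 h
      rw [this, LinearMap.range_zero, finrank_bot] at hrk
      omega
    obtain ⟨W, ⟨hWd, hWn, -⟩, hWi⟩ := H (1 + L) hL.pow_char hL.isometry hL1
    obtain ⟨hdo, hwe⟩ := (hL.restrictions hB hn hrk (by omega) hWn hWi).1 w (by omega)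
    rcases hsk with ⟨-, hde⟩ | ⟨-, hwo⟩
    · exact Nat.not_odd_iff_even.2 hde hdo
    · exact Nat.not_odd_iff_even.2 hwe hwo
  rcases Nat.even_or_odd d with hde | hdo
  · obtain ⟨k, hk⟩ : ∃ k, d = 2 * k + 2 := by
      obtain ⟨t, ht⟩ := hde
      exact ⟨t - 1, by omega⟩
    obtain ⟨hPn, hPd, -⟩ := nd_split hB hW₀ (nd_top hB) le_top
    rw [top_inf_eq] at hPn hPd
    rw [finrank_top, hn, hW₀d] at hPd
    obtain ⟨H₀, u₀, hH₀, hu₀, hH₀n, hH₀p, hH₀d, hu₀p, hQu₀⟩ := exists_line_split hB h2 hW₀ (a := w) (by omega)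
    obtain ⟨H₁, u₁, hH₁, hu₁, hH₁n, hH₁p, hH₁d, hu₁p, hQu₁⟩ :=
      exists_line_split hB h2 hPn (a := d - w - 1) (by omega)
    obtain ⟨ν, hν0, hν⟩ := exists_nonsquare hF hq
    obtain ⟨lam, hlam0, hlam⟩ : ∃ lam : F, lam ≠ 0 ∧
        ∀ c, (Even w → lam * (c * c) ≠ Q u₀) ∧ (Odd w → lam * (c * c) ≠ Q u₁) := by
      have key : ∀ a : F, a ≠ 0 → ∀ c : F, ν * a * (c * c) ≠ a := fun a ha c e => hν (by
        have h1 : ν * (c * c) = 1 := mul_left_cancel₀ ha (by linear_combination e)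
        have hc : c ≠ 0 := fun h => by rw [h] at h1; simp at h1
        exact ⟨c⁻¹, by field_simp; linear_combination h1⟩)
      rcases Nat.even_or_odd w with hwe | hwo
      · exact ⟨ν * Q u₀, mul_ne_zero hν0 hQu₀, fun c => ⟨fun _ => key _ hQu₀ c,
          fun h => absurd hwe (Nat.not_even_iff_odd.2 h)⟩⟩
      · exact ⟨ν * Q u₁, mul_ne_zero hν0 hQu₁, fun c => ⟨fun h => absurd h (Nat.not_even_iff_odd.2 hwo),
          fun _ => key _ hQu₁ c⟩⟩
    obtain ⟨L, u, hL, hLu, hQu, hrk, hrk2, hker⟩ := UnipClassElem.exists_one hB hF hq (k := k) (by omega) hlam0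
    obtain ⟨W, ⟨hWd, hWn, hiso⟩, hWi⟩ := H (expo L) (hL.pow_char hp2) (hL.isometry h2)
      (expo_ne L hL (by omega))
    have hWL := hL.inv_of_expo hWi
    obtain ⟨a, a', e, e', ha, ha', he, he', hs, hse, hb, hb', hae, ha'e⟩ :=
      hL.ranks h2 hB hWn hWL (w := w) hn (by omega)
    rw [Nat.even_iff] at hde hae ha'e
    rcases Nat.even_or_odd w with hwe | hwo
    · have hwe' := Nat.even_iff.1 hwe
      obtain ⟨Hh, v, hHW, hvW, hHn, hHp, hHd, hvp, hv0, c, hc⟩ :=
        hL.line_value h2 hB hLu hker hWn hWL (a := w) (by omega) (by omega) (by omega)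
      obtain ⟨c', hc'⟩ := line_class hB hW₀ hiso hH₀ hu₀ hH₀n hH₀p hHW hvW hHn hHp hH₀d hHd (by omega)
        hu₀p hvp hQu₀
      have hc'0 : c' ≠ 0 := fun h => hv0 (by rw [hc', h]; ring)
      refine (hlam (c * c'⁻¹)).1 hwe ?_
      rw [hc, hQu] at hc'
      field_simp
      linear_combination hc'
    · have hwo' := Nat.odd_iff.1 hwo
      have hPW : Nd Q (perp BQ W) := by
        have := (nd_split hB hWn (nd_top hB) le_top).1
        rwa [top_inf_eq] at this
      have hPWd := finrank_sup hB hWn (le_refl (perp BQ W))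
      rw [(nd_isCompl hB hWn).sup_eq_top, finrank_top, hn, hWd] at hPWd
      obtain ⟨Hh, v, hHW, hvW, hHn, hHp, hHd, hvp, hv0, c, hc⟩ :=
        hL.line_value h2 hB hLu hker hPW (hL.perp_inv hWL) (a := d - w - 1) (by omega) (by omega) (by omega)
      obtain ⟨c', hc'⟩ := line_class hB hPn (perp_iso hB hW₀ hiso) hH₁ hu₁ hH₁n hH₁p hHW hvW hHn hHp hH₁d hHd
        (by omega) hu₁p hvp hQu₁
      have hc'0 : c' ≠ 0 := fun h => hv0 (by rw [hc', h]; ring)
      refine (hlam (c * c'⁻¹)).2 hwo ?_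
      rw [hc, hQu] at hc'
      field_simp
      linear_combination hc'
  · have hwe : Even w := Nat.not_odd_iff_even.1 fun h => hsk (Or.inr ⟨hdo, h⟩)
    obtain ⟨k, hk⟩ : ∃ k, d = 2 * k + 3 := by
      obtain ⟨t, ht⟩ := hdo
      exact ⟨t - 1, by omega⟩
    obtain ⟨L, hL, hrk, hrk2⟩ := UnipClassElem.exists_two hB hF hq (k := k) (by omega)
    obtain ⟨W, ⟨hWd, hWn, -⟩, hWi⟩ := H (expo L) (hL.pow_char hp2) (hL.isometry h2)
      (expo_ne L hL (by omega))
    obtain ⟨a, a', e, e', -, -, -, -, hs, hse, hb, hb', hae, ha'e⟩ :=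
      hL.ranks h2 hB hWn (hL.inv_of_expo hWi) (w := w) hn (by omega)
    rw [Nat.even_iff] at hwe hae ha'e
    rw [Nat.odd_iff] at hdo
    omega

end Cfsg.Agent.Linear.NdOddClass
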