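import Cfsg.Agent.Linear.NdDerange
import Cfsg.Agent.Linear.NdInvol
import Cfsg.Agent.Linear.OrthDerangeEven

/-!
# Elements of odd prime order `r ≠ p` and nondegenerate subspaces of odd dimension
-/

set_option autoImplicit false
set_option linter.unusedSectionVars false

namespace Cfsg.Agent.Linear.NdOddR

open Polynomial Module Cfsg.Agent.Forms Cfsg.Agent.Linear.SpPrimeClasses Cfsg.Agent.Linear.CycloFactors
  Cfsg.Agent.Linear.OrthSpaces Cfsg.Agent.Linear.OrthFree Cfsg.Agent.Linear.OrthSingDerange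

variable {F : Type*} [Field F] [Fintype F] {V : Type*} [AddCommGroup V] [Module F V] [FiniteDimensional F V]
  {Q : QuadraticForm F V} {q r i : ℕ} {S : Finset F[X]}

local notation "BQ" => QuadraticMap.polarBilin Q

theorem iso_symm {W W' : Submodule F V} (h : Iso Q W W') : Iso Q W' W := by
  obtain ⟨e, he⟩ := h
  exact ⟨e.symm, fun w => by rw [← he (e.symm w), e.apply_symm_apply]⟩

theorem iso_trans {W W' W'' : Submodule F V} (h : Iso Q W W') (h' : Iso Q W' W'') : Iso Q W W'' := by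
  obtain ⟨e, he⟩ := h
  obtain ⟨e', he'⟩ := h'
  exact ⟨e.trans e', fun w => (he' (e w)).trans (he w)⟩

theorem iso_map {W : Submodule F V} {g : V ≃ₗ[F] V} (hg : ∀ v, Q (g v) = Q v) : Iso Q W (W.map g.toLinearMap) :=
  ⟨g.submoduleMap W, fun w => hg w⟩

/-- Orthogonal sums of isometric spaces are isometric. -/
theorem iso_sup (hB : (BQ).Nondegenerate) {U A U' A' : Submodule F V} (hU : Nd Q U) (hU' : Nd Q U')
    (hA : A ≤ perp BQ U) (hA' : A' ≤ perp BQ U') (h₁ : Iso Q U U') (h₂ : Iso Q A A') :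
    Iso Q (U ⊔ A) (U' ⊔ A') := by
  obtain ⟨e₁, he₁⟩ := h₁
  obtain ⟨e₂, he₂⟩ := h₂
  have key : ∀ {U A : Submodule F V}, Nd Q U → A ≤ perp BQ U →
      ∃ φ : (U × A) ≃ₗ[F] ↥(U ⊔ A), ∀ x, (φ x : V) = (x.1 : V) + x.2 := by
    intro U A hU hA
    let ψ : (U × A) →ₗ[F] V := U.subtype.coprod A.subtype
    have hψ : Function.Injective ψ := by
      rw [← LinearMap.ker_eq_bot, eq_bot_iff]
      rintro ⟨u, a⟩ h
      rw [LinearMap.mem_ker] at h
      have hu : (u : V) ∈ U ⊓ A := ⟨u.2, by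
        rw [show (u : V) = -(a : V) from eq_neg_of_add_eq_zero_left h]; exact A.neg_mem a.2⟩
      rw [inf_bot hB hU hA, Submodule.mem_bot] at hu
      have ha : (a : V) = 0 := by
        have h' : (u : V) + a = 0 := h
        rwa [hu, zero_add] at h'
      rw [Submodule.mem_bot]
      exact Prod.ext (Subtype.ext hu) (Subtype.ext ha)
    refine ⟨(LinearEquiv.ofInjective ψ hψ).trans (LinearEquiv.ofEq _ _ (by
      rw [LinearMap.range_coprod, Submodule.range_subtype, Submodule.range_subtype])), fun x => rfl⟩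
  obtain ⟨φ, hφ⟩ := key hU hA
  obtain ⟨φ', hφ'⟩ := key hU' hA'
  refine ⟨φ.symm.trans ((e₁.prodCongr e₂).trans φ'), fun w => ?_⟩
  obtain ⟨⟨u, a⟩, rfl⟩ := φ.surjective w
  simp only [LinearEquiv.trans_apply, LinearEquiv.symm_apply_apply]
  show Q ((φ' (e₁ u, e₂ a) : V)) = Q ((φ (u, a) : V))
  rw [hφ', hφ, Q_add_of_perp (e₁ u).2 (hA' (e₂ a).2), Q_add_of_perp u.2 (hA a.2), he₁, he₂]

/-- A nondegenerate space of larger dimension contains a copy of a nondegenerate space. -/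
theorem exists_embed (hB : (BQ).Nondegenerate) (hF : Fintype.card F = q) (hq : Odd q) {X A : Submodule F V}
    (hX : Nd Q X) (hA : Nd Q A) (hlt : finrank F A < finrank F X) :
    ∃ A' ≤ X, Nd Q A' ∧ Iso Q A A' := by
  have h2 := two_ne_zero_of_odd hF hq
  obtain ⟨b, hb, hb0⟩ := InvolOmega.exists_orth_list h2 hA (k := finrank F A) rfl
  obtain ⟨v, hv, hvo⟩ := NdInvol.exists_family hB hF hq _ X hX hlt (fun i => Q (b i : V)) hb0
  let f : A →ₗ[F] V := b.constr F v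
  have hfQ : ∀ x, Q (f x) = Q (x : V) := fun x => by
    conv_rhs => rw [← b.sum_repr x, Submodule.coe_sum]
    rw [show f x = ∑ i, b.repr x i • v i from b.constr_apply_fintype F v x, NdInvol.Q_sum v hvo]
    simp only [SetLike.val_smul]
    rw [NdInvol.Q_sum (fun i => (b i : V)) hb]
    simp only [(hv _).2]
  have hpol : ∀ x y, QuadraticMap.polar Q (f x) (f y) = QuadraticMap.polar Q (x : V) y := fun x y => by
    simp only [QuadraticMap.polar, ← map_add, hfQ, Submodule.coe_add]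
  have hfi : Function.Injective f := by
    rw [← LinearMap.ker_eq_bot, eq_bot_iff]
    intro x hx
    rw [Submodule.mem_bot]
    refine Subtype.ext (hA (x : V) x.2 fun y hy => ?_)
    rw [← hpol x ⟨y, hy⟩, show f x = 0 from hx]
    simp [QuadraticMap.polar]
  refine ⟨LinearMap.range f, ?_, ?_, LinearEquiv.ofInjective f hfi, fun w => hfQ w⟩
  · rintro _ ⟨x, rfl⟩
    rw [show f x = ∑ i, b.repr x i • v i from b.constr_apply_fintype F v x]
    exact X.sum_mem fun i _ => X.smul_mem _ (hv i).1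
  · rintro _ ⟨x, rfl⟩ hz
    have : (x : V) = 0 := hA x x.2 fun y hy => by
      rw [← hpol x ⟨y, hy⟩]
      exact hz _ ⟨_, rfl⟩
    rw [show x = 0 from Subtype.ext this, map_zero]

/-- The criterion. -/
theorem crit_iff (h : Ctx F q r i S) (hB : (BQ).Nondegenerate) (hq : Odd q) (ht : 1 ≤ S.card) {d m : ℕ}
    (hn : finrank F V = 2 * d) (hm : Odd m) (hmd : m < 2 * d) {W₀ : Submodule F V} (hW₀d : finrank F W₀ = m)
    (hW₀ : Nd Q W₀)
    (hdvd : r ∣ Nat.card {W : Submodule F V // finrank F W = m ∧ Nd Q W ∧ Iso Q W W₀}) :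
    ((∀ T : Module.End F V, T ^ r = 1 → (∀ v, Q (T v) = Q v) → T ≠ 1 →
      ∃ W : Submodule F V, (finrank F W = m ∧ Nd Q W ∧ Iso Q W W₀) ∧ ∀ w ∈ W, T w ∈ W) ↔
      cc i ≤ m ∧ (m % cc i < 2 * d % cc i ∨ (2 * d % cc i = 0 ∧ ¬ FixPlus Q i (2 * d / cc i)))) ∧
    (2 * d % cc i = 0 → ¬ FixPlus Q i (2 * d / cc i) → cc i ≤ m) := by
  have hm2 := Nat.odd_iff.1 hm
  have hc0 := cc_pos h.hi0
  have hnc := Nat.mod_add_div (2 * d) (cc i)
  have hnl := Nat.mod_lt (2 * d) hc0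
  have hmc := Nat.mod_add_div m (cc i)
  have hml := Nat.mod_lt m hc0
  obtain ⟨Jm, hJm, hJmax, hJle, hJcase⟩ := OrthDerangeEven.exists_max (Q := Q) h hn (by omega)
  have hJm2 : cc i * Jm ≤ 2 * d := by rcases hJm with h2 | h2 <;> omega
  obtain ⟨f₀, hf₀, hcases⟩ : ∃ f₀, 2 * d - cc i * Jm = f₀ ∧
      ((f₀ = 2 * d % cc i ∧ (0 < f₀ ∨ FixPlus Q i (2 * d / cc i))) ∨
        (f₀ = cc i ∧ 2 * d % cc i = 0 ∧ ¬ FixPlus Q i (2 * d / cc i))) := by
    rcases hJcase with ⟨rfl, hk⟩ | ⟨h1, h2, h3⟩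
    · exact ⟨_, rfl, Or.inl ⟨by omega, hk.imp (fun h' => by omega) id⟩⟩
    · refine ⟨_, rfl, Or.inr ⟨?_, h2, h1 ▸ h3⟩⟩
      have hh := congrArg (cc i * ·) h1
      simp only [Nat.mul_succ] at hh
      omega
  -- the centralised case
  have hbig : f₀ ≤ m := by
    by_contra hlt
    obtain ⟨L, hL, hh, hLc⟩ := exists_repl h ht Jm
    obtain ⟨T, hT, hTQ, hker, -⟩ := exists_elem h hB hL hh hLc hJm
    obtain ⟨R, hR, LR, JR, hRn, hKn, -, hRp, -, hdim, -, -, -, -, hRd, hRt, -⟩ := structure_of h hB hT hTQ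
    obtain rfl : JR = Jm := Nat.eq_of_mul_eq_mul_left hc0 (by omega)
    obtain ⟨A, hAK, hAn, hAi⟩ := exists_embed hB h.hq hq hKn hW₀ (by omega)
    refine OrthOrbit.not_dvd_card h hB (P := fun W => finrank F W = m ∧ Nd Q W ∧ Iso Q W W₀) (W₀ := A)
      ⟨by obtain ⟨e, -⟩ := hAi; rw [← e.finrank_eq, hW₀d], hAn, iso_symm hAi⟩
      (fun W hW => iso_trans (iso_symm hAi) (iso_symm hW.2.2))
      (fun g hg => ⟨by obtain ⟨e, -⟩ := hAi; rw [LinearEquiv.finrank_map_eq, ← e.finrank_eq, hW₀d],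
        (map_isom hg).1 hAn, iso_trans (iso_symm (iso_map hg)) (iso_symm hAi)⟩) hRn hRd hRt hJmax
      (fun x hx => mem_perp_iff.2 fun y hy => by
        rw [QuadraticMap.polar_comm]; exact mem_perp_iff.1 (hRp hy) x (hAK hx)) hdvd
  refine ⟨?_, fun hk hP => ?_⟩
  swap
  · rcases hcases with ⟨h1, h2⟩ | ⟨h1, -, -⟩
    · exact absurd (h2.resolve_left (by omega)) hP
    · omega
  constructor
  · intro H
    obtain ⟨L, hL, hh, hLc⟩ := exists_repl h ht Jm
    obtain ⟨T, hT, hTQ, hker, -⟩ := exists_elem h hB hL hh hLc hJm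
    obtain ⟨W, ⟨hWd, hWn, -⟩, hWi⟩ : ∃ W : Submodule F V, (finrank F W = m ∧ Nd Q W ∧ Iso Q W W₀) ∧
        ∀ w ∈ W, T w ∈ W := by
      by_cases h1 : T = 1
      · exact ⟨W₀, ⟨hW₀d, hW₀, LinearEquiv.refl F W₀, fun w => rfl⟩, fun w hw => by rwa [h1]⟩
      · exact H T hT hTQ h1
    obtain ⟨R', -, hR'i, hR'n, hR'f, -, -, hR'd⟩ := split_fixed h hB hT hTQ hWi hWn
    obtain ⟨L', s, -, -, -, -, hsd, -⟩ := free_type h hT hTQ hR'i hR'n hR'f
    obtain ⟨u, hu⟩ := (cc_even i).mul_right s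
    obtain ⟨u', hu'⟩ := (cc_even i).mul_right Jm
    have hle := Submodule.finrank_mono (inf_le_right : W ⊓ LinearMap.ker (T - 1) ≤ _)
    rw [hker, hn] at hle
    have hsle : s ≤ m / cc i := (Nat.le_div_iff_mul_le hc0).2 (by rw [mul_comm]; omega)
    have hs0 : s ≠ 0 := fun e => by rw [e, mul_zero] at hsd; omega
    have hcs : cc i ≤ cc i * s := Nat.le_mul_of_pos_right _ (Nat.pos_of_ne_zero hs0)
    refine ⟨by omega, ?_⟩
    rcases hcases with ⟨hfe, -⟩ | ⟨-, hk, hP⟩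
    swap
    · exact Or.inr ⟨hk, hP⟩
    left
    have hle' : cc i * s ≤ cc i * (m / cc i) := Nat.mul_le_mul_left _ hsle
    omega
  · rintro ⟨hcm, hcrit⟩ T hT hTQ -
    obtain ⟨R, hR, L, J, hRn, hKn, hRf, hRp, hsup, hdim, -, -, -, -, hRd, hRt, -⟩ := structure_of h hB hT hTQ
    have hadm : Adm Q i J := by
      rcases Nat.eq_zero_or_pos (finrank F (LinearMap.ker (T - 1))) with h0 | h0
      · refine Or.inr ⟨by omega, ?_⟩
        rwa [show R = ⊤ from Submodule.eq_top_of_finrank_eq (by omega)] at hRt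
      · left; omega
    have hcJ : cc i * J ≤ cc i * Jm := Nat.mul_le_mul_left _ (hJle J hadm)
    obtain ⟨s, hs, hsm, hsf⟩ : ∃ s, s ≤ J ∧ cc i * s < m ∧ m - cc i * s < finrank F (LinearMap.ker (T - 1)) := by
      rcases lt_or_ge J (m / cc i) with hlt | hge
      · have h1 : cc i * (J + 1) ≤ cc i * (m / cc i) := Nat.mul_le_mul_left _ hlt
        rw [Nat.mul_succ] at h1
        exact ⟨J, le_rfl, by omega, by omega⟩
      · obtain ⟨u, hu⟩ := (cc_even i).mul_right (m / cc i)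
        refine ⟨_, hge, by omega, ?_⟩
        rcases hcases with ⟨hfe, hk⟩ | ⟨hfe, -, -⟩
        · rcases hcrit with h' | ⟨hk0, hP⟩
          · omega
          · exact absurd (hk.resolve_left (by omega)) hP
        · omega
    obtain ⟨U, hUR, hUi, hUn, hUd, hUt⟩ := OrthFreeSub.exists_sub h hT hTQ hR hRn hRf hRd hs
    obtain ⟨u, hu⟩ := (cc_even i).mul_right s
    obtain ⟨U₀, hU₀, hU₀n, hU₀d, hU₀t⟩ := exists_even hB hW₀ (Odd i ∨ Even s) (u := u) (fun h0 => Or.inr (by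
      have : s = 0 := (Nat.mul_eq_zero.1 (show cc i * s = 0 by omega)).resolve_left hc0.ne'
      rw [this]; exact Even.zero)) (Or.inl (by omega))
    obtain ⟨hA₀n, hA₀d, hA₀s⟩ := nd_split hB hU₀n hW₀ hU₀
    obtain ⟨A, hAK, hAn, hAi⟩ := exists_embed hB h.hq hq hKn hA₀n (by omega)
    have hperp : A ≤ perp BQ U := fun x hx => mem_perp_iff.2 fun y hy => by
      rw [QuadraticMap.polar_comm]; exact mem_perp_iff.1 (hRp (hUR hy)) x (hAK hx)
    have hiso : Iso Q (U₀ ⊔ (W₀ ⊓ perp BQ U₀)) (U ⊔ A) := iso_sup hB hU₀n hUn inf_le_right hperp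
      (iso_of_type hU₀n hUn (by omega) ⟨u, by omega⟩ (hU₀t.trans hUt.symm)) hAi
    rw [hA₀s] at hiso
    refine ⟨U ⊔ A, ⟨by obtain ⟨e, -⟩ := hiso; rw [← e.finrank_eq, hW₀d], nd_sup hUn hAn hperp, iso_symm hiso⟩,
      fun w hw => ?_⟩
    obtain ⟨x, hx, y, hy, rfl⟩ := Submodule.mem_sup.1 hw
    rw [map_add, show T y = y from sub_eq_zero.1 (hAK hy)]
    exact Submodule.add_mem_sup (hUi x hx) hy

end Cfsg.Agent.Linear.NdOddR
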