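import Cfsg.Agent.Linear.OrthDerangeTwo
import Cfsg.Agent.Linear.NdDerange
import Cfsg.Agent.Linear.NdInvol

/-!
# Elements of projective order two and nondegenerate subspaces, odd characteristic
-/

set_option autoImplicit false
set_option linter.unusedSectionVars false

namespace Cfsg.Agent.Linear.NdTwo

open Module Cfsg.Agent.Forms Cfsg.Agent.Linear.OrthSpaces Cfsg.Agent.Linear.NdDerange

variable {F : Type*} [Field F] [Fintype F] {V : Type*} [AddCommGroup V] [Module F V] [FiniteDimensional F V]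
  {Q : QuadraticForm F V} {q d : ℕ}

local notation "BQ" => QuadraticMap.polarBilin Q

theorem plus_map_iff {W : Submodule F V} {g : V ≃ₗ[F] V} (hg : ∀ v, Q (g v) = Q v) :
    Plus Q (W.map g.toLinearMap) ↔ Plus Q W := by
  refine ⟨fun hp => ?_, plus_map hg⟩
  have h1 := plus_map (g := g.symm) (fun v => by rw [← hg (g.symm v), g.apply_symm_apply]) hp
  rwa [← Submodule.map_comp, LinearEquiv.comp_coe, LinearEquiv.self_trans_symm, LinearEquiv.refl_toLinearMap,
    Submodule.map_id] at h1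

/-- The type of an invariant subspace of an isometry with square `-1`. -/
theorem plus_iff_half (hF : Fintype.card F = q) (hq : Odd q) {T : Module.End F V} (hT : ∀ v, T (T v) = -v)
    (hTQ : ∀ v, Q (T v) = Q v) {W : Submodule F V} (hW : Nd Q W) (hWi : ∀ w ∈ W, T w ∈ W) {w : ℕ}
    (hw : finrank F W = 2 * w) : Plus Q W ↔ IsSquare ((-1 : F) ^ w) := by
  obtain ⟨v, hv⟩ := InvolMinusOne.exists_frame (Q := Q.comp W.subtype) hF hq (res_nondeg hW) (T := T.restrict hWi)
    (fun x => Subtype.ext (hT x)) (fun x => hTQ x) hw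
  rw [← OrthFreeSub.plus_top_res]
  exact hv.plus_iff_even hF hq (res_nondeg hW) one_ne_zero hw

/-- Nondegenerate invariant subspaces have even dimension. -/
theorem even_dim (hF : Fintype.card F = q) (hq : Odd q) (hB : (BQ).Nondegenerate) {T : Module.End F V}
    (hT : ∀ v, T (T v) = -v) (hTQ : ∀ v, Q (T v) = Q v) {W : Submodule F V} (hW : Nd Q W)
    (hWi : ∀ w ∈ W, T w ∈ W) : Even (finrank F W) := by
  have h2 := two_ne_zero_of_odd hF hq
  by_contra hodd
  obtain ⟨k, hk⟩ := Nat.not_even_iff_odd.1 hodd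
  obtain ⟨v, hvW, hv1, hvo⟩ := InvolMinusOne.exists_family hB hF hq hT hTQ k W hW hWi (by omega)
  let f : Fin k ⊕ Fin k → V := Sum.elim v fun j => T (v j)
  set P := Submodule.span F (Set.range f) with hP
  have hPW : P ≤ W := Submodule.span_le.2 (by rintro _ ⟨j | j, rfl⟩; exacts [hvW j, hWi _ (hvW j)])
  have hpol : ∀ s t, QuadraticMap.polar Q (f s) (f t) = if s = t then 2 else 0 := by
    intro s t
    have h11 : ∀ j l, QuadraticMap.polar Q (v j) (v l) = if j = l then 2 else 0 := fun j l => by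
      rcases eq_or_ne j l with rfl | hjl
      · rw [if_pos rfl, QuadraticMap.polar_self, hv1]; simp
      · rw [if_neg hjl]; exact (hvo j l hjl).1
    have h12 : ∀ j l, QuadraticMap.polar Q (v j) (T (v l)) = 0 := fun j l => by
      rcases eq_or_ne j l with rfl | hjl
      · exact InvolMinusOne.polar_self_T h2 hT hTQ _
      · exact (hvo j l hjl).2
    have h21 : ∀ j l, QuadraticMap.polar Q (T (v j)) (v l) = 0 := fun j l => by
      rw [QuadraticMap.polar_comm]; exact h12 l j
    rcases s with j | j <;> rcases t with l | l <;>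
      simp only [f, Sum.elim_inl, Sum.elim_inr, (InvolMinusOne.polar_T hT hTQ _ _).1, h11, h12, h21,
        Sum.inl.injEq, Sum.inr.injEq, reduceCtorEq, if_false]
  have hPn : Nd Q P := by
    intro x hx hz
    obtain ⟨c, rfl⟩ := (Submodule.mem_span_range_iff_exists_fun F).1 hx
    refine Finset.sum_eq_zero fun t _ => ?_
    have h := hz (f t) (Submodule.subset_span ⟨t, rfl⟩)
    rw [QuadraticMap.polar_comm, ← QuadraticMap.polarBilin_apply_apply, map_sum] at h
    simp only [map_smul, QuadraticMap.polarBilin_apply_apply, hpol, smul_eq_mul, mul_ite, mul_zero,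
      Finset.sum_ite_eq, Finset.mem_univ, if_true] at h
    rw [(mul_eq_zero.1 h).resolve_right h2, zero_smul]
  obtain ⟨hRn, hRd, -⟩ := nd_split hB hPn hW hPW
  have hPd : finrank F P = k + k := by
    rw [hP, finrank_span_eq_card (LinearMap.BilinForm.linearIndependent_of_iIsOrtho (B := BQ) (v := f)
      (LinearMap.BilinForm.iIsOrtho_def.2 fun s t hst => by
        rw [QuadraticMap.polarBilin_apply_apply, hpol, if_neg hst])
      fun s => by rw [QuadraticMap.polarBilin_apply_apply, hpol, if_pos rfl]; exact h2)]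
    simp
  have hRi : ∀ x ∈ W ⊓ perp BQ P, T x ∈ W ⊓ perp BQ P := fun x hx =>
    ⟨hWi x hx.1, OrthFree.perp_invariant hTQ (fun a b e => neg_injective (by rw [← hT a, ← hT b, e])) (fun u hu => by
      obtain ⟨c, rfl⟩ := (Submodule.mem_span_range_iff_exists_fun F).1 hu
      rw [map_sum]
      refine Submodule.sum_mem _ fun t _ => ?_
      rw [map_smul]
      refine Submodule.smul_mem _ _ ?_
      rcases t with j | j
      · exact Submodule.subset_span ⟨Sum.inr j, rfl⟩
      · show T (T (v j)) ∈ P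
        rw [hT]
        exact Submodule.neg_mem _ (Submodule.subset_span ⟨Sum.inl j, rfl⟩)) x hx.2⟩
  obtain ⟨u, huX, hu1, -⟩ := InvolMinusOne.exists_family hB hF hq hT hTQ 0 _ hRn hRi (by omega)
  obtain ⟨x, hxR, hx0⟩ := (W ⊓ perp BQ P).ne_bot_iff.1 fun e => by rw [e, finrank_bot] at hRd; omega
  refine hx0 (hRn x hxR fun y hy => ?_)
  rcases (le_or_gt (finrank F ↥(W ⊓ perp BQ P)) 1) with h1 | h1
  swap
  · omega
  have hTx := hRi x hxR
  have hspan : F ∙ x = W ⊓ perp BQ P :=
    Submodule.eq_of_le_of_finrank_le ((Submodule.span_singleton_le_iff_mem _ _).2 hxR)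
      (by rw [finrank_span_singleton hx0]; exact h1)
  rw [← hspan, Submodule.mem_span_singleton] at hTx hy
  obtain ⟨s, hs⟩ := hTx
  obtain ⟨a, rfl⟩ := hy
  have hs2 : (s * s) • x = -x := by rw [← smul_smul, hs, ← map_smul, hs, hT]
  have hs0 : s ≠ 0 := fun e => hx0 (by
    rw [e, zero_mul, zero_smul] at hs2; exact neg_eq_zero.1 hs2.symm)
  have h := InvolMinusOne.polar_self_T h2 hT hTQ x
  rw [← hs, QuadraticMap.polar_smul_right, smul_eq_mul] at h
  rw [QuadraticMap.polar_smul_right, (mul_eq_zero.1 h).resolve_left hs0, smul_zero]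

/-- Invariant subspaces of every even dimension. -/
theorem exists_half (hF : Fintype.card F = q) (hq : Odd q) (hB : (BQ).Nondegenerate) {T : Module.End F V}
    (hT : ∀ v, T (T v) = -v) (hTQ : ∀ v, Q (T v) = Q v) (hd : finrank F V = 2 * d) {w : ℕ} (hw : w ≤ d) :
    ∃ W : Submodule F V, finrank F W = 2 * w ∧ Nd Q W ∧ ∀ x ∈ W, T x ∈ W := by
  have h2 := two_ne_zero_of_odd hF hq
  obtain ⟨v, hv⟩ := InvolMinusOne.exists_frame hF hq hB hT hTQ hd
  obtain ⟨b, hb⟩ := hv.exists_basis h2 one_ne_zero hd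
  let ι : Fin w ⊕ Fin w → Fin d ⊕ Fin d := Sum.map (Fin.castLE hw) (Fin.castLE hw)
  have hι : Function.Injective ι :=
    Sum.map_injective.2 ⟨Fin.castLE_injective hw, Fin.castLE_injective hw⟩
  have hli : LinearIndependent F (b ∘ ι) := b.linearIndependent.comp _ hι
  refine ⟨Submodule.span F (Set.range (b ∘ ι)), by rw [finrank_span_eq_card hli]; simp [two_mul],
    fun x hx hz => ?_, fun x hx => ?_⟩
  · obtain ⟨c, rfl⟩ := (Submodule.mem_span_range_iff_exists_fun F).1 hx
    refine Finset.sum_eq_zero fun t _ => ?_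
    have h := hz ((b ∘ ι) t) (Submodule.subset_span ⟨t, rfl⟩)
    rw [QuadraticMap.polar_comm, ← QuadraticMap.polarBilin_apply_apply, map_sum] at h
    simp only [map_smul, QuadraticMap.polarBilin_apply_apply, Function.comp_apply, hb, hv.polar, hι.eq_iff,
      smul_eq_mul, mul_one, mul_ite, mul_zero, Finset.sum_ite_eq, Finset.mem_univ, if_true] at h
    rw [(mul_eq_zero.1 h).resolve_right h2, zero_smul]
  · obtain ⟨c, rfl⟩ := (Submodule.mem_span_range_iff_exists_fun F).1 hx
    rw [map_sum]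
    refine Submodule.sum_mem _ fun t _ => ?_
    rw [map_smul]
    refine Submodule.smul_mem _ _ ?_
    rcases t with j | j
    · exact Submodule.subset_span ⟨Sum.inr j, by simp only [Function.comp_apply, ι, Sum.map_inl, Sum.map_inr, hb,
        Sum.elim_inl, Sum.elim_inr]⟩
    · rw [show T ((b ∘ ι) (Sum.inr j)) = -((b ∘ ι) (Sum.inl j)) by
        simp only [Function.comp_apply, ι, Sum.map_inl, Sum.map_inr, hb, Sum.elim_inl, Sum.elim_inr, hT]]
      exact Submodule.neg_mem _ (Submodule.subset_span ⟨Sum.inl j, rfl⟩)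

variable {ι : Type} [Fintype ι] [DecidableEq ι] {Q' : QuadraticForm F (ι → F)}

local notation "BM" => QuadraticMap.polarBilin Q'

/-- The condition for an element of `Ω` with square `-1`. -/
def Quarter (Q' : QuadraticForm F (ι → F)) (d : ℕ) : Prop :=
  (Plus Q' (⊤ : Submodule F (ι → F)) ↔ IsSquare ((-1 : F) ^ d)) ∧ IsSquare ((2 : F) ^ d)

theorem quarter_of (hF : Fintype.card F = q) (hq : Odd q) (hQ : (BM).Nondegenerate)
    (hV : finrank F (ι → F) = 2 * d) (hd : 1 ≤ d) {x : GL ι F} (hx : x ∈ Cfsg.Geo.omegaGL ⇑Q')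
    (hT : ∀ v, Matrix.toLin' (x : Matrix ι ι F) (Matrix.toLin' (x : Matrix ι ι F) v) = -v) :
    Quarter Q' d := by
  have h2 := two_ne_zero_of_odd hF hq
  obtain ⟨v, hv⟩ := InvolMinusOne.exists_frame hF hq hQ hT (OmegaElem.preserves hx) hV
  refine ⟨hv.plus_iff_even hF hq hQ one_ne_zero hV, ?_⟩
  rw [GeomClasses.omegaGL_eq_map] at hx
  obtain ⟨g, hg, rfl⟩ := Subgroup.mem_map.1 hx
  exact (hv.mem_iff h2 hQ one_ne_zero hV hd (g := g) fun w => by
    rw [Matrix.toLin'_apply, GeomClasses.orthToGL_mulVec]).1 hg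

theorem exists_neg (hF : Fintype.card F = q) (hq : Odd q) (hQ : (BM).Nondegenerate)
    (hV : finrank F (ι → F) = 2 * d) (hd : 1 ≤ d) (hquart : Quarter Q' d) :
    ∃ x : GL ι F, x ∈ Cfsg.Geo.omegaGL ⇑Q' ∧
      (∃ z : F, ((x ^ 2 : GL ι F) : Matrix ι ι F) = z • (1 : Matrix ι ι F)) ∧
      (∀ z : F, (x : Matrix ι ι F) ≠ z • (1 : Matrix ι ι F)) ∧
      ∀ v, Matrix.toLin' (x : Matrix ι ι F) (Matrix.toLin' (x : Matrix ι ι F) v) = -v := by
  have h2 := two_ne_zero_of_odd hF hq
  obtain ⟨T, v, a, ha, hTT, hTQ, hv⟩ := InvolMinusOne.exists_T hF hq hQ hd hV hquart.1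
  let f : (ι → F) ≃ₗ[F] (ι → F) := LinearEquiv.ofLinearMap T (-T)
    (LinearMap.ext fun v => by simp [hTT]) (LinearMap.ext fun v => by simp [hTT])
  obtain ⟨x, hx, hxT⟩ := OrthDerangeTwo.exists_x (T := T) f (fun v => rfl) hTQ fun g hg =>
    (hv.mem_iff h2 hQ ha hV hd hg).2 hquart.2
  refine ⟨x, hx, ⟨-1, Matrix.toLin'.injective (by
    rw [Units.val_pow_eq_pow_val, pow_two, Matrix.toLin'_mul, hxT, map_smul, Matrix.toLin'_one]
    exact LinearMap.ext fun v => by simp [hTT])⟩, fun z hz => ?_, fun v => by rw [hxT, hTT]⟩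
  have hT : T = z • LinearMap.id := by rw [← hxT, hz, map_smul, Matrix.toLin'_one]
  have e := (hv.self ⟨0, hd⟩)
  rw [hT, LinearMap.smul_apply, LinearMap.id_apply, QuadraticMap.polar_smul_right, QuadraticMap.polar_self,
    (hv.val _).1, two_nsmul, ← two_mul, smul_eq_mul] at e
  have hz0 : z = 0 := (mul_eq_zero.1 e).resolve_right (mul_ne_zero h2 ha)
  have e2 := (hv.val ⟨0, hd⟩).2
  rw [hT, hz0, zero_smul, LinearMap.zero_apply, map_zero] at e2
  exact ha e2.symm

/-- The criterion for even dimension `2w` and type `η`. -/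
theorem two_even (hF : Fintype.card F = q) (hq : Odd q) (hQ : (BM).Nondegenerate)
    (hn : Fintype.card ι = 2 * d) {w : ℕ} (hw : 1 ≤ w) (hwd : w < d) {η : Prop} :
    (∀ x : GL ι F, x ∈ Cfsg.Geo.omegaGL ⇑Q' →
      (∃ z : F, ((x ^ 2 : GL ι F) : Matrix ι ι F) = z • (1 : Matrix ι ι F)) →
      (∀ z : F, (x : Matrix ι ι F) ≠ z • (1 : Matrix ι ι F)) →
      ∃ W : Submodule F (ι → F), Typed Q' (2 * w) η W ∧ ∀ v ∈ W, Matrix.toLin' (x : Matrix ι ι F) v ∈ W) ↔
    (¬ Quarter Q' d ∨ (η ↔ IsSquare ((-1 : F) ^ w))) := by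
  have hV : finrank F (ι → F) = 2 * d := by rw [Module.finrank_pi, hn]
  constructor
  · intro H
    rcases Classical.em (Quarter Q' d) with hqu | hqu
    · obtain ⟨x, hx, hz, hns, hT⟩ := exists_neg hF hq hQ hV (by omega) hqu
      obtain ⟨W, ⟨hWd, hWn, hWt⟩, hWi⟩ := H x hx hz hns
      exact Or.inr (hWt.symm.trans (plus_iff_half hF hq hT (OmegaElem.preserves hx) hWn hWi hWd))
    · exact Or.inl hqu
  · rintro hor x hx ⟨z, hz⟩ -
    obtain ⟨hz2, hT2⟩ := OrthDerangeTwo.scalar_sq hQ (by omega) hV hx hz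
    rcases mul_self_eq_one_iff.1 hz2 with rfl | rfl
    · obtain ⟨W', -, hW', hW'd, hW't⟩ := exists_even hQ (nd_top hQ) η (u := w) (fun h0 => by omega)
        (Or.inl (by rw [finrank_top, hV]; omega))
      obtain ⟨W, g, hg, hgW, hWi⟩ := NdInvol.exists_copy hQ hF hq (by rw [hT2, one_smul])
        (OmegaElem.preserves hx) hW' (by omega)
      subst hgW
      exact ⟨_, ⟨by rw [LinearEquiv.finrank_map_eq]; omega, (map_isom hg).1 hW',
        (plus_map_iff hg).trans hW't⟩, hWi⟩
    · have hT : ∀ v, Matrix.toLin' (x : Matrix ι ι F) (Matrix.toLin' (x : Matrix ι ι F) v) = -v := fun v => by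
        rw [← Module.End.mul_apply, ← pow_two, hT2, LinearMap.smul_apply, Module.End.one_apply, neg_one_smul]
      obtain ⟨W, hWd, hWn, hWi⟩ := exists_half hF hq hQ hT (OmegaElem.preserves hx) hV hwd.le
      refine ⟨W, ⟨hWd, hWn, ?_⟩, hWi⟩
      rw [plus_iff_half hF hq hT (OmegaElem.preserves hx) hWn hWi hWd]
      exact (hor.resolve_left fun h => h (quarter_of hF hq hQ hV (by omega) hx hT)).symm

/-- The criterion for odd dimension. -/
theorem two_odd (hF : Fintype.card F = q) (hq : Odd q) (hQ : (BM).Nondegenerate)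
    (hn : Fintype.card ι = 2 * d) (hd : 2 ≤ d) {m : ℕ} (hm : Odd m) {W₀ : Submodule F (ι → F)}
    (hW₀d : finrank F W₀ = m) (hW₀ : Nd Q' W₀) :
    (∀ x : GL ι F, x ∈ Cfsg.Geo.omegaGL ⇑Q' →
      (∃ z : F, ((x ^ 2 : GL ι F) : Matrix ι ι F) = z • (1 : Matrix ι ι F)) →
      (∀ z : F, (x : Matrix ι ι F) ≠ z • (1 : Matrix ι ι F)) →
      ∃ W : Submodule F (ι → F), (finrank F W = m ∧ Nd Q' W ∧ Iso Q' W W₀) ∧
        ∀ v ∈ W, Matrix.toLin' (x : Matrix ι ι F) v ∈ W) ↔ ¬ Quarter Q' d := by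
  have hV : finrank F (ι → F) = 2 * d := by rw [Module.finrank_pi, hn]
  have h2 := two_ne_zero_of_odd hF hq
  constructor
  · intro H hqu
    obtain ⟨x, hx, hz, hns, hT⟩ := exists_neg hF hq hQ hV (by omega) hqu
    obtain ⟨W, ⟨hWd, hWn, -⟩, hWi⟩ := H x hx hz hns
    have := even_dim hF hq hQ hT (OmegaElem.preserves hx) hWn hWi
    rw [hWd] at this
    exact Nat.not_even_iff_odd.2 hm this
  · rintro hqu x hx ⟨z, hz⟩ -
    obtain ⟨hz2, hT2⟩ := OrthDerangeTwo.scalar_sq hQ (by omega) hV hx hz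
    rcases mul_self_eq_one_iff.1 hz2 with rfl | rfl
    swap
    · refine absurd (quarter_of hF hq hQ hV (by omega) hx fun v => ?_) hqu
      rw [← Module.End.mul_apply, ← pow_two, hT2, LinearMap.smul_apply, Module.End.one_apply, neg_one_smul]
    rw [one_smul] at hT2
    rcases hm with ⟨_ | k, hk⟩
    · -- a line
      obtain ⟨u, hu, hu0⟩ := W₀.ne_bot_iff.1 fun e => by rw [e, finrank_bot] at hW₀d; omega
      have hspan : F ∙ u = W₀ := Submodule.eq_of_le_of_finrank_le ((Submodule.span_singleton_le_iff_mem _ _).2 hu)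
        (by rw [finrank_span_singleton hu0]; omega)
      obtain ⟨hN, hP, hsup⟩ := InvolOmega.spaces h2 hQ hT2 (OmegaElem.preserves hx)
      have hK : Nd Q' (LinearMap.ker (Matrix.toLin' (x : Matrix ι ι F) - 1)) := by
        have := (nd_split hQ hN (nd_top hQ) le_top).1
        rwa [top_inf_eq, ← hP] at this
      have hdim := finrank_sup hQ hN hP.le
      rw [hsup, finrank_top, hV] at hdim
      obtain ⟨X, hX, hXd, hXT⟩ : ∃ X, Nd Q' X ∧ 2 ≤ finrank F X ∧
          (∀ v ∈ X, ∃ t : F, Matrix.toLin' (x : Matrix ι ι F) v = t • v) := by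
        rcases le_or_gt 2 (finrank F (LinearMap.ker (Matrix.toLin' (x : Matrix ι ι F) + 1))) with h | h
        · exact ⟨_, hN, h, fun v hv => ⟨-1, by rw [neg_one_smul]; exact eq_neg_of_add_eq_zero_left hv⟩⟩
        · exact ⟨_, hK, by omega, fun v hv => ⟨1, by rw [one_smul]; exact sub_eq_zero.1 hv⟩⟩
      have hQu : Q' u ≠ 0 := fun e => hu0 (hW₀ u hu fun y hy => by
        rw [← hspan, Submodule.mem_span_singleton] at hy
        obtain ⟨a, rfl⟩ := hy
        rw [QuadraticMap.polar_smul_right, QuadraticMap.polar_self, e]; simp)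
      obtain ⟨v, hvX, hv⟩ := NdInvol.exists_value hF hq hX hXd (c := Q' u)
      have hv0 : v ≠ 0 := fun e => hQu (by rw [← hv, e, map_zero])
      let e := (LinearEquiv.toSpanNonzeroSingleton F (ι → F) v hv0).symm.trans
        ((LinearEquiv.toSpanNonzeroSingleton F (ι → F) u hu0).trans (LinearEquiv.ofEq _ _ hspan))
      refine ⟨F ∙ v, ⟨by rw [finrank_span_singleton hv0]; omega, fun w hw h => ?_, e, fun w => ?_⟩, fun w hw => ?_⟩
      · obtain ⟨a, rfl⟩ := Submodule.mem_span_singleton.1 hw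
        have h' := h v (Submodule.mem_span_singleton_self v)
        rw [QuadraticMap.polar_smul_left, QuadraticMap.polar_self, hv, smul_eq_mul, two_nsmul, ← two_mul] at h'
        rw [(mul_eq_zero.1 h').resolve_right (mul_ne_zero h2 hQu), zero_smul]
      · obtain ⟨a, rfl⟩ := (LinearEquiv.toSpanNonzeroSingleton F (ι → F) v hv0).surjective w
        simp only [e, LinearEquiv.trans_apply, LinearEquiv.symm_apply_apply]
        simp only [LinearEquiv.toSpanNonzeroSingleton_apply,
          LinearEquiv.coe_ofEq_apply, QuadraticMap.map_smul, hv]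
      · obtain ⟨a, rfl⟩ := Submodule.mem_span_singleton.1 hw
        obtain ⟨t, ht⟩ := hXT v hvX
        rw [map_smul, ht]
        exact Submodule.smul_mem _ _ (Submodule.smul_mem _ _ (Submodule.mem_span_singleton_self v))
    · obtain ⟨W, g, hg, hgW, hWi⟩ := NdInvol.exists_copy hQ hF hq hT2 (OmegaElem.preserves hx) hW₀ (by omega)
      subst hgW
      refine ⟨_, ⟨by rw [LinearEquiv.finrank_map_eq]; exact hW₀d, (map_isom hg).1 hW₀,
        (g.submoduleMap W₀).symm, fun w => ?_⟩, hWi⟩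
      obtain ⟨y, rfl⟩ := (g.submoduleMap W₀).surjective w
      rw [LinearEquiv.symm_apply_apply]
      exact (hg y).symm

end Cfsg.Agent.Linear.NdTwo
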