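import Cfsg.Agent.Linear.InvolTwoNd
import Cfsg.Agent.Linear.NdEvenCases

/-!
# Elements of order two of `Ω` in characteristic two and nondegenerate subspaces
-/

set_option autoImplicit false
set_option linter.unusedSectionVars false

namespace Cfsg.Agent.Linear.NdTwoTwo

open Module Cfsg.Agent.Forms Cfsg.Agent.Linear.OrthSpaces Cfsg.Agent.Linear.InvolTwoNd

variable {F : Type*} [Field F] [Fintype F] [CharP F 2] {ι : Type} [Fintype ι] [DecidableEq ι]
  {Q : QuadraticForm F (ι → F)}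

local notation "BQ" => QuadraticMap.polarBilin Q

theorem omega_inv2 (hQ : (BQ).Nondegenerate) {d : ℕ} (hn : Fintype.card ι = 2 * d) (hd : 3 ≤ d) {x : GL ι F}
    (hx : x ∈ Cfsg.Geo.omegaGL ⇑Q)
    (hz : ∃ z : F, ((x ^ 2 : GL ι F) : Matrix ι ι F) = z • (1 : Matrix ι ι F)) :
    Inv2 Q (Matrix.toLin' (x : Matrix ι ι F) - 1) ∧
      Good Q (Matrix.toLin' (x : Matrix ι ι F) - 1) ⊤ := by
  have hV : finrank F (ι → F) = 2 * d := by rw [Module.finrank_pi, hn]
  have h2 : (2 : F) = 0 := CharTwo.two_eq_zero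
  obtain ⟨z, hz⟩ := hz
  obtain ⟨hz2, hT⟩ := OrthDerangeTwo.scalar_sq hQ (by omega) hV hx hz
  have hz1 : z = 1 := by
    rcases mul_self_eq_one_iff.1 hz2 with h | h
    · exact h
    · rw [h]; linear_combination (-1 : F) * h2
  rw [hz1, one_smul] at hT
  refine ⟨⟨fun v => ?_, fun v => ?_⟩, nd_top hQ, fun v _ => trivial, ?_⟩
  · have e : Matrix.toLin' (x : Matrix ι ι F) (Matrix.toLin' (x : Matrix ι ι F) v) = v := by
      rw [← Module.End.mul_apply, ← pow_two, hT, Module.End.one_apply]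
    simp only [LinearMap.sub_apply, Module.End.one_apply, map_sub, e]
    have : (2 : F) • (v - Matrix.toLin' (x : Matrix ι ι F) v) = 0 := by rw [h2, zero_smul]
    rw [two_smul] at this
    rw [← this]; abel
  · rw [LinearMap.sub_apply, Module.End.one_apply, add_sub_cancel]
    exact OmegaElem.preserves hx v
  · rw [Submodule.map_top]
    have hgen : Subgroup.closure (reflectionSet Q) = ⊤ := OmegaElem.generated Q hQ (by omega)
    rw [GeomClasses.omegaGL_eq_map] at hx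
    obtain ⟨g, hg, rfl⟩ := Subgroup.mem_map.1 hx
    rw [mem_commutator_iff_even hQ hgen (by omega)] at hg
    have : isomNil g = Matrix.toLin' (GeomClasses.orthToGL Q g : Matrix ι ι F) - 1 := LinearMap.ext fun v => by
      rw [isomNil_apply, LinearMap.sub_apply, Module.End.one_apply, Matrix.toLin'_apply,
        GeomClasses.orthToGL_mulVec]
    rwa [← this]

/-- Involutions fix a hyperbolic subspace. -/
theorem exists_plus (hQ : (BQ).Nondegenerate) {d w : ℕ} (hn : Fintype.card ι = 2 * d) (hd : 3 ≤ d) (hw : w < d)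
    (hcond : Even w ∨ (Plus Q (⊤ : Submodule F (ι → F)) ↔ Odd d)) {x : GL ι F}
    (hx : x ∈ Cfsg.Geo.omegaGL ⇑Q)
    (hz : ∃ z : F, ((x ^ 2 : GL ι F) : Matrix ι ι F) = z • (1 : Matrix ι ι F)) :
    ∃ W : Submodule F (ι → F), NdDerange.Typed Q (2 * w) True W ∧
      ∀ v ∈ W, Matrix.toLin' (x : Matrix ι ι F) v ∈ W := by
  obtain ⟨hI, hG⟩ := omega_inv2 hQ hn hd hx hz
  obtain ⟨W, -, hWn, hWd, hWp, hWi⟩ := hI.exists_plus hQ CharTwo.two_eq_zero d ⊤ hG
    (by rw [finrank_top, Module.finrank_pi, hn]) w hw hcond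
  refine ⟨W, ⟨hWd, hWn, iff_true_intro hWp⟩, fun v hv => ?_⟩
  have := W.add_mem (hWi v hv) hv
  simpa using this

/-- Involutions fix an elliptic subspace. -/
theorem exists_minus (hQ : (BQ).Nondegenerate) {d w : ℕ} (hn : Fintype.card ι = 2 * d) (hd : 3 ≤ d) (hw1 : 1 ≤ w)
    (hw : w < d) (hm : ¬ Plus Q (⊤ : Submodule F (ι → F))) (hcond : Even d ∨ Odd w) {x : GL ι F}
    (hx : x ∈ Cfsg.Geo.omegaGL ⇑Q)
    (hz : ∃ z : F, ((x ^ 2 : GL ι F) : Matrix ι ι F) = z • (1 : Matrix ι ι F)) :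
    ∃ W : Submodule F (ι → F), NdDerange.Typed Q (2 * w) False W ∧
      ∀ v ∈ W, Matrix.toLin' (x : Matrix ι ι F) v ∈ W := by
  obtain ⟨hI, hG⟩ := omega_inv2 hQ hn hd hx hz
  have hV : finrank F (ι → F) = 2 * d := by rw [Module.finrank_pi, hn]
  obtain ⟨W, -, hWn, hWd, hWp, hWi⟩ := hI.exists_plus hQ CharTwo.two_eq_zero d ⊤ hG
    (by rw [finrank_top, hV]) (d - w) (by omega) (by
      rcases hcond with h | h
      · exact Or.inr (iff_of_false hm (Nat.not_odd_iff_even.2 h))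
      · rcases Nat.even_or_odd d with hde | hdo
        · exact Or.inr (iff_of_false hm (Nat.not_odd_iff_even.2 hde))
        · left; rw [Nat.odd_iff] at h hdo; rw [Nat.even_iff]; omega)
  obtain ⟨hPn, hPd, hPs⟩ := nd_split hQ hWn (nd_top hQ) le_top
  rw [top_inf_eq] at hPn hPd hPs
  rw [finrank_top, hV] at hPd
  refine ⟨perp BQ W, ⟨by omega, hPn, iff_false_intro fun hp => hm ?_⟩, fun v hv => ?_⟩
  · have hps := plus_sup hQ hWn hPn le_rfl ⟨d - w, by omega⟩ ⟨w, by omega⟩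
    rw [hPs] at hps
    exact hps.2 (iff_of_true hWp hp)
  · have := (perp BQ W).add_mem (hI.perp_inv hWi v hv) hv
    simpa using this

end Cfsg.Agent.Linear.NdTwoTwo
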