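import Cfsg.Agent.Linear.OmegaWitt
import Mathlib

/-!
# The commutator subgroup of an orthogonal sum
-/

set_option autoImplicit false
set_option linter.unusedSectionVars false

namespace Cfsg.Agent.Linear.OmegaSum

open Cfsg.Agent Cfsg.Agent.Forms
open Module (finrank)

variable {F : Type*} [Field F] [Fintype F] {a b : Type} [Fintype a] [Fintype b]
  {Q₁ : QuadraticForm F (a → F)} {Q₂ : QuadraticForm F (b → F)}

variable (Q₁ Q₂) in
/-- The orthogonal sum. -/
def sumForm : QuadraticForm F (a ⊕ b → F) :=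
  Q₁.comp (LinearMap.funLeft F F Sum.inl) + Q₂.comp (LinearMap.funLeft F F Sum.inr)

theorem sumForm_apply (x : a ⊕ b → F) : sumForm Q₁ Q₂ x = Q₁ (x ∘ Sum.inl) + Q₂ (x ∘ Sum.inr) := rfl

theorem coe_sumForm : ⇑(sumForm Q₁ Q₂) = fun v => Q₁ (v ∘ Sum.inl) + Q₂ (v ∘ Sum.inr) := rfl

theorem polar_sumForm (x y : a ⊕ b → F) :
    QuadraticMap.polar (sumForm Q₁ Q₂) x y =
      QuadraticMap.polar Q₁ (x ∘ Sum.inl) (y ∘ Sum.inl) + QuadraticMap.polar Q₂ (x ∘ Sum.inr) (y ∘ Sum.inr) := by
  simp only [QuadraticMap.polar, sumForm_apply]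
  rw [show (x + y) ∘ Sum.inl = x ∘ Sum.inl + y ∘ Sum.inl from rfl,
    show (x + y) ∘ Sum.inr = x ∘ Sum.inr + y ∘ Sum.inr from rfl]
  ring

theorem sumForm_nondeg (h₁ : (QuadraticMap.polarBilin Q₁).Nondegenerate)
    (h₂ : (QuadraticMap.polarBilin Q₂).Nondegenerate) : (QuadraticMap.polarBilin (sumForm Q₁ Q₂)).Nondegenerate := by
  have key : ∀ x, (∀ y, QuadraticMap.polar (sumForm Q₁ Q₂) x y = 0) → x = 0 := by
    intro x hx
    have e1 : x ∘ Sum.inl = 0 := h₁.1 _ fun y => by
      have := hx (Sum.elim y 0)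
      rw [polar_sumForm, Sum.elim_comp_inl, Sum.elim_comp_inr] at this
      simpa [QuadraticMap.polar] using this
    have e2 : x ∘ Sum.inr = 0 := h₂.1 _ fun y => by
      have := hx (Sum.elim 0 y)
      rw [polar_sumForm, Sum.elim_comp_inl, Sum.elim_comp_inr] at this
      simpa [QuadraticMap.polar] using this
    funext i
    cases i with
    | inl i => exact congrFun e1 i
    | inr i => exact congrFun e2 i
  exact ⟨key, fun y hy => key y fun x => (QuadraticMap.polar_comm _ y x).trans (hy x)⟩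

/-- Two isometries side by side. -/
def emb : orthGroup Q₁ × orthGroup Q₂ →* orthGroup (sumForm Q₁ Q₂) where
  toFun p := ⟨((LinearEquiv.sumArrowLequivProdArrow a b F F).trans
      (((p.1 : (a → F) ≃ₗ[F] (a → F)).prodCongr (p.2 : (b → F) ≃ₗ[F] (b → F))).trans
        (LinearEquiv.sumArrowLequivProdArrow a b F F).symm)),
    (orth_mem_iff _ _).2 fun v => congrArg₂ (· + ·) (p.1.2.2 _) (p.2.2.2 _)⟩
  map_one' := orth_ext fun x => by funext i; cases i <;> rfl
  map_mul' p q := orth_ext fun x => by funext i; cases i <;> rfl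

theorem emb_inl (p : orthGroup Q₁ × orthGroup Q₂) (x : a ⊕ b → F) :
    ((emb p : orthGroup _) : (a ⊕ b → F) ≃ₗ[F] (a ⊕ b → F)) x ∘ Sum.inl =
      (p.1 : (a → F) ≃ₗ[F] (a → F)) (x ∘ Sum.inl) := rfl

theorem emb_inr (p : orthGroup Q₁ × orthGroup Q₂) (x : a ⊕ b → F) :
    ((emb p : orthGroup _) : (a ⊕ b → F) ≃ₗ[F] (a ⊕ b → F)) x ∘ Sum.inr =
      (p.2 : (b → F) ≃ₗ[F] (b → F)) (x ∘ Sum.inr) := rfl

theorem emb_apply (p : orthGroup Q₁ × orthGroup Q₂) (x : a ⊕ b → F) :
    ((emb p : orthGroup _) : (a ⊕ b → F) ≃ₗ[F] (a ⊕ b → F)) x =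
      Sum.elim ((p.1 : (a → F) ≃ₗ[F] (a → F)) (x ∘ Sum.inl)) ((p.2 : (b → F) ≃ₗ[F] (b → F)) (x ∘ Sum.inr)) := by
  funext i; cases i <;> rfl

theorem dickson_emb (g : orthGroup Q₁) (h : orthGroup Q₂) :
    dickson (emb (g, h)) = dickson g + dickson h := by
  unfold dickson
  rw [← Nat.cast_add]
  congr 1
  set K := LinearMap.ker (((emb (g, h) : orthGroup _) : (a ⊕ b → F) ≃ₗ[F] (a ⊕ b → F)).toLinearMap - LinearMap.id)
  set K₁ := LinearMap.ker ((g : (a → F) ≃ₗ[F] (a → F)).toLinearMap - LinearMap.id)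
  set K₂ := LinearMap.ker ((h : (b → F) ≃ₗ[F] (b → F)).toLinearMap - LinearMap.id)
  have hK : ∀ x, x ∈ K ↔ (x ∘ Sum.inl) ∈ K₁ ∧ (x ∘ Sum.inr) ∈ K₂ := fun x => by
    rw [mem_fix_iff, mem_fix_iff, mem_fix_iff, emb_apply]
    constructor
    · exact fun e => ⟨congrArg (· ∘ Sum.inl) e, congrArg (· ∘ Sum.inr) e⟩
    · rintro ⟨e1, e2⟩
      rw [e1, e2, Sum.elim_comp_inl_inr]
  let e : K ≃ₗ[F] K₁ × K₂ :=
    { toFun := fun x => (⟨_, ((hK x).1 x.2).1⟩, ⟨_, ((hK x).1 x.2).2⟩)
      map_add' := fun x y => rfl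
      map_smul' := fun c x => rfl
      invFun := fun y => ⟨Sum.elim y.1.1 y.2.1, (hK _).2 ⟨y.1.2, y.2.2⟩⟩
      left_inv := fun x => Subtype.ext (Sum.elim_comp_inl_inr _)
      right_inv := fun y => Prod.ext (Subtype.ext rfl) (Subtype.ext rfl) }
  have hKd : finrank F K = finrank F K₁ + finrank F K₂ := by rw [e.finrank_eq, Module.finrank_prod]
  have l1 := Submodule.finrank_le K₁
  have l2 := Submodule.finrank_le K₂
  rw [Module.finrank_pi] at l1 l2
  rw [hKd, Module.finrank_pi, Module.finrank_pi, Module.finrank_pi, Fintype.card_sum]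
  omega

theorem emb_reflection_left (v : a → F) :
    emb (Q₂ := Q₂) (reflection Q₁ v, 1) = reflection (sumForm Q₁ Q₂) (Sum.elim v 0) := by
  refine orth_ext fun x => ?_
  rw [emb_apply, Forms.reflection_apply, Forms.reflection_apply, sumForm_apply, polar_sumForm, Sum.elim_comp_inl,
    Sum.elim_comp_inr, QuadraticMap.map_zero, add_zero]
  funext i
  cases i <;> simp [QuadraticMap.polar]

theorem emb_reflection_right (v : b → F) :
    emb (Q₁ := Q₁) (1, reflection Q₂ v) = reflection (sumForm Q₁ Q₂) (Sum.elim 0 v) := by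
  refine orth_ext fun x => ?_
  rw [emb_apply, Forms.reflection_apply, Forms.reflection_apply, sumForm_apply, polar_sumForm, Sum.elim_comp_inl,
    Sum.elim_comp_inr, QuadraticMap.map_zero, zero_add]
  funext i
  cases i <;> simp [QuadraticMap.polar]

theorem emb_left_mem_iff (h₁ : (QuadraticMap.polarBilin Q₁).Nondegenerate)
    (h₂ : (QuadraticMap.polarBilin Q₂).Nondegenerate) (hgen : Subgroup.closure (reflectionSet Q₁) = ⊤)
    (hgen' : Subgroup.closure (reflectionSet (sumForm Q₁ Q₂)) = ⊤) (g : orthGroup Q₁) :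
    emb (Q₂ := Q₂) (g, 1) ∈ commutator (orthGroup (sumForm Q₁ Q₂)) ↔ g ∈ commutator (orthGroup Q₁) := by
  classical
  set χ := (emb (Q₁ := Q₁) (Q₂ := Q₂)).comp (MonoidHom.inl (orthGroup Q₁) (orthGroup Q₂))
  have hN := sumForm_nondeg h₁ h₂
  refine ⟨fun hg => ?_, fun hg => ?_⟩
  · have hd : dickson g = 0 := by
      have := congrArg Multiplicative.toAdd (Abelianization.commutator_subset_ker (dicksonHom hN hgen') hg)
      change dickson (emb (g, (1 : orthGroup Q₂))) = 0 at this
      rwa [dickson_emb, dickson_one, add_zero] at this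
    rcases Nat.eq_zero_or_pos (finrank F (a → F)) with ha | ha
    · haveI : Subsingleton (a → F) := Module.finrank_zero_iff.1 ha
      rw [show g = 1 from orth_ext fun x => Subsingleton.elim _ _]
      exact one_mem _
    by_cases h2 : (2 : F) = 0
    · exact ((commutator_index_two_of_gen h2 h₁ hgen ha).2 g).2 hd
    have hdet : orthDet Q₁ g = 1 := by rw [PlusFamilies.det_eq h₁ hgen, if_pos hd]
    by_cases hn : 2 ≤ finrank F (a → F)
    · refine (mem_commutator_iff h2 h₁ hn).2 ⟨hdet, ?_⟩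
      have e : (spinor (sumForm Q₁ Q₂) h2).comp χ = spinor Q₁ h2 := by
        refine MonoidHom.eq_of_eqOn_dense hgen ?_
        rintro _ ⟨v, hv, rfl⟩
        have hQ : sumForm Q₁ Q₂ (Sum.elim v 0) = Q₁ v := by
          rw [sumForm_apply, Sum.elim_comp_inl, Sum.elim_comp_inr, QuadraticMap.map_zero, add_zero]
        show spinor (sumForm Q₁ Q₂) h2 (emb (reflection Q₁ v, 1)) = _
        rw [emb_reflection_left]
        obtain ⟨p1, p2⟩ := spinor_reflection h2 hN (v := Sum.elim v 0) (hQ ▸ hv)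
        obtain ⟨r1, r2⟩ := spinor_reflection h2 h₁ hv
        rw [hQ] at p1 p2
        by_cases hs : IsSquare (Q₁ v)
        · rw [p1 hs, r1 hs]
        · rw [p2 hs, r2 hs]
      rw [← e]
      exact Abelianization.commutator_subset_ker (spinor (sumForm Q₁ Q₂) h2) hg
    · obtain ⟨u, hu⟩ : ∃ u, ∀ x : a → F, ∃ c : F, c • u = x := by
        obtain ⟨u, -, hu⟩ := finrank_eq_one_iff'.1 (show finrank F (a → F) = 1 by omega)
        exact ⟨u, hu⟩
      obtain ⟨c, hc⟩ := hu ((g : (a → F) ≃ₗ[F] (a → F)) u)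
      have hg' : ((g : (a → F) ≃ₗ[F] (a → F)) : (a → F) →ₗ[F] (a → F)) = c • LinearMap.id := by
        refine LinearMap.ext fun x => ?_
        obtain ⟨d, rfl⟩ := hu x
        rw [LinearEquiv.coe_coe, map_smul, LinearMap.smul_apply, LinearMap.id_apply, ← hc, smul_comm]
      have hc1 : c = 1 := by
        have h := congrArg Units.val hdet
        rw [orthDet_val, hg', LinearMap.det_smul, LinearMap.det_id, show finrank F (a → F) = 1 by omega,
          pow_one, mul_one, Units.val_one] at h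
        exact h
      rw [show g = 1 from orth_ext fun x => (LinearMap.congr_fun hg' x).trans (by simp [hc1])]
      exact one_mem _
  · have h : g ∈ (commutator (orthGroup (sumForm Q₁ Q₂))).comap χ := by
      refine (show commutator (orthGroup Q₁) ≤ _ from ?_) hg
      rw [← Subgroup.map_le_iff_le_comap, commutator_def, Subgroup.map_commutator]
      exact Subgroup.commutator_mono le_top le_top
    exact h

theorem emb_diag_mem {Q : QuadraticForm F (a → F)} (h : (QuadraticMap.polarBilin Q).Nondegenerate)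
    (hgen' : Subgroup.closure (reflectionSet (sumForm Q Q)) = ⊤) (g : orthGroup Q) :
    emb (g, g) ∈ commutator (orthGroup (sumForm Q Q)) := by
  classical
  have hN := sumForm_nondeg h h
  rcases Nat.eq_zero_or_pos (finrank F (a → F)) with ha | ha
  · haveI : Subsingleton (a → F) := Module.finrank_zero_iff.1 ha
    rw [show g = 1 from orth_ext fun x => Subsingleton.elim _ _, ← Prod.one_eq_mk, map_one]
    exact one_mem _
  by_cases h2 : (2 : F) = 0
  · refine ((commutator_index_two_of_gen h2 hN hgen' (by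
      rw [Module.finrank_pi, Fintype.card_sum]; rw [Module.finrank_pi] at ha; omega)).2 _).2 ?_
    rw [dickson_emb]
    generalize dickson g = d
    revert d
    decide
  rw [← Abelianization.ker_of, MonoidHom.mem_ker]
  set φ := (Abelianization.of.comp (emb (Q₁ := Q) (Q₂ := Q))).comp ((MonoidHom.id _).prod (MonoidHom.id _))
  have hφ : φ = 1 := by
    refine MonoidHom.eq_of_eqOn_dense (closure_reflectionSet_odd h2 Q h) ?_
    rintro _ ⟨v, hv, rfl⟩
    show Abelianization.of (emb (reflection Q v, reflection Q v)) = 1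
    rw [show (reflection Q v, reflection Q v) = (reflection Q v, (1 : orthGroup Q)) * (1, reflection Q v) by simp,
      map_mul, map_mul, emb_reflection_left, emb_reflection_right,
      hom_reflection_eq hN Abelianization.of (u := Sum.elim v 0) (v := Sum.elim 0 v)
        (by simp [sumForm_apply, hv]) one_ne_zero (by simp [sumForm_apply]),
      ← map_mul, reflection_mul_self, map_one]
  exact DFunLike.congr_fun hφ g

variable [DecidableEq a] [DecidableEq b]

theorem emb_matrix (g₁ : Cfsg.isometryGroup F ⇑Q₁) (g₂ : Cfsg.isometryGroup F ⇑Q₂) :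
    (((isometryEquiv (sumForm Q₁ Q₂)).symm (emb (isometryEquiv Q₁ g₁, isometryEquiv Q₂ g₂)) :
      Matrix.GeneralLinearGroup (a ⊕ b) F) : Matrix (a ⊕ b) (a ⊕ b) F) =
      Matrix.fromBlocks ((g₁ : Matrix.GeneralLinearGroup a F) : Matrix a a F) 0 0
        ((g₂ : Matrix.GeneralLinearGroup b F) : Matrix b b F) := by
  refine matrix_ext_mulVec fun x => ?_
  rw [← isometryEquiv_apply, MulEquiv.apply_symm_apply, emb_apply, Matrix.fromBlocks_mulVec,
    isometryEquiv_apply, isometryEquiv_apply]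
  simp

end Cfsg.Agent.Linear.OmegaSum
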