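import Cfsg.Agent.Forms.OrthBridge
import Cfsg.Agent.Forms.OrthGen
import Mathlib

/-!
# `Ω` in characteristic two
-/

set_option autoImplicit false
set_option linter.unusedSectionVars false

namespace Cfsg.Agent.Linear.OmegaTwo

open Cfsg.Agent.Forms
open Module (finrank)

variable {F : Type*} [Field F] [Fintype F] [CharP F 2] {n : ℕ} (Q : QuadraticForm F (Fin n → F))

theorem omega_iff (hn : 1 ≤ n) (h : Fintype.card F ≠ 2 ∨ n ≠ 4)
    (hQ : (QuadraticMap.polarBilin Q).Nondegenerate) (g : Cfsg.isometryGroup F ⇑Q) :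
    g ∈ Cfsg.Omega F ⇑Q ↔ dickson (isometryEquiv Q g) = 0 := by
  rw [mem_omega_iff]
  exact (commutator_index_two (CharTwo.two_eq_zero) hQ (by
    rw [Nat.card_eq_fintype_card, Module.finrank_fin_fun]; exact h) (by rw [Module.finrank_fin_fun]; omega)).2 _

theorem omega_eq_pairs (hn : 2 ≤ n) (h : Fintype.card F ≠ 2 ∨ n ≠ 4)
    (hQ : (QuadraticMap.polarBilin Q).Nondegenerate) :
    Cfsg.Omega F ⇑Q = Subgroup.closure {g : ↥(Cfsg.isometryGroup F ⇑Q) | ∃ u v : Fin n → F, Q u ≠ 0 ∧ Q v ≠ 0 ∧
      ((g : Matrix.GeneralLinearGroup (Fin n) F) : Matrix (Fin n) (Fin n) F) =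
        Cfsg.reflectionMatrix ⇑Q u * Cfsg.reflectionMatrix ⇑Q v} := by
  classical
  set e := isometryEquiv Q
  set S := {g : ↥(Cfsg.isometryGroup F ⇑Q) | ∃ u v : Fin n → F, Q u ≠ 0 ∧ Q v ≠ 0 ∧
      ((g : Matrix.GeneralLinearGroup (Fin n) F) : Matrix (Fin n) (Fin n) F) =
        Cfsg.reflectionMatrix ⇑Q u * Cfsg.reflectionMatrix ⇑Q v} with hS
  have hmemS : ∀ g, g ∈ S ↔ ∃ u v, Q u ≠ 0 ∧ Q v ≠ 0 ∧ e g = reflection Q u * reflection Q v := by
    intro g
    refine exists_congr fun u => exists_congr fun v => and_congr_right fun hu => and_congr_right fun hv => ?_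
    constructor
    · intro hg
      refine orth_ext fun x => ?_
      rw [isometryEquiv_apply, hg, ← Matrix.mulVec_mulVec, reflectionMatrix_mulVec, reflectionMatrix_mulVec,
        orth_mul_apply, reflection_apply, reflection_apply]
    · intro hg
      refine matrix_ext_mulVec fun x => ?_
      rw [← isometryEquiv_apply, hg, ← Matrix.mulVec_mulVec, reflectionMatrix_mulVec, reflectionMatrix_mulVec,
        orth_mul_apply, reflection_apply, reflection_apply]
  have hexc : Nat.card F ≠ 2 ∨ finrank F (Fin n → F) ≠ 4 := by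
    rw [Nat.card_eq_fintype_card, Module.finrank_fin_fun]; exact h
  have hgen := closure_reflectionSet_two (Q := Q) CharTwo.two_eq_zero hQ hexc
  set D := dicksonHom hQ hgen
  have hOm : ∀ g, g ∈ Cfsg.Omega F ⇑Q ↔ D (e g) = 1 := fun g => by
    rw [omega_iff Q (by omega) h hQ]
    exact ⟨fun h0 => by change Multiplicative.ofAdd (dickson _) = 1; rw [h0]; rfl,
      fun h1 => congrArg Multiplicative.toAdd h1⟩
  have hr : ∀ v, Q v ≠ 0 → D (reflection Q v) = Multiplicative.ofAdd 1 := fun v hv => by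
    change Multiplicative.ofAdd (dickson _) = _
    rw [dickson_reflection hQ hv]
  refine le_antisymm (fun g hg => ?_) ((Subgroup.closure_le _).2 fun g hg => ?_)
  · have : Nontrivial (Fin n → F) := Module.nontrivial_of_finrank_pos (R := F) (by rw [Module.finrank_fin_fun]; omega)
    obtain ⟨w, hw⟩ := exists_nonsingular Q hQ
    set P := (Subgroup.closure S).map e.toMonoidHom with hP
    have hpair : ∀ u v, Q u ≠ 0 → Q v ≠ 0 → reflection Q u * reflection Q v ∈ P := fun u v hu hv =>
      ⟨e.symm (reflection Q u * reflection Q v), Subgroup.subset_closure ((hmemS _).2 ⟨u, v, hu, hv,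
        e.apply_symm_apply _⟩), e.apply_symm_apply _⟩
    have key : ∀ x : orthGroup Q, x ∈ Subgroup.closure (reflectionSet Q) →
        (x ∈ P ∧ D x = 1) ∨ (x * reflection Q w ∈ P ∧ D x = Multiplicative.ofAdd 1) := by
      intro x hx
      induction hx using Subgroup.closure_induction_right with
      | one => exact Or.inl ⟨one_mem _, map_one _⟩
      | mul_right x _ r hr' ih =>
        obtain ⟨v, hv, rfl⟩ := hr'
        rcases ih with ⟨h1, h2⟩ | ⟨h1, h2⟩
        · refine Or.inr ⟨?_, by rw [map_mul, h2, hr v hv, one_mul]⟩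
          rw [mul_assoc]
          exact mul_mem h1 (hpair v w hv hw)
        · refine Or.inl ⟨?_, by rw [map_mul, h2, hr v hv]; decide⟩
          have e1 : x * reflection Q v = (x * reflection Q w) * (reflection Q w * reflection Q v) := by
            rw [mul_assoc x, ← mul_assoc (reflection Q w), reflection_mul_self, one_mul]
          rw [e1]
          exact mul_mem h1 (hpair w v hw hv)
      | mul_inv_cancel x _ r hr' ih =>
        obtain ⟨v, hv, rfl⟩ := hr'
        rw [reflection_inv]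
        rcases ih with ⟨h1, h2⟩ | ⟨h1, h2⟩
        · refine Or.inr ⟨?_, by rw [map_mul, h2, hr v hv, one_mul]⟩
          rw [mul_assoc]
          exact mul_mem h1 (hpair v w hv hw)
        · refine Or.inl ⟨?_, by rw [map_mul, h2, hr v hv]; decide⟩
          have e1 : x * reflection Q v = (x * reflection Q w) * (reflection Q w * reflection Q v) := by
            rw [mul_assoc x, ← mul_assoc (reflection Q w), reflection_mul_self, one_mul]
          rw [e1]
          exact mul_mem h1 (hpair w v hw hv)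
    rcases key (e g) (hgen ▸ Subgroup.mem_top _) with ⟨h1, -⟩ | ⟨-, h2⟩
    · exact (Subgroup.mem_map_iff_mem e.injective).1 h1
    · exact absurd (h2.symm.trans ((hOm g).1 hg)) (by decide)
  · obtain ⟨u, v, hu, hv, he⟩ := (hmemS g).1 hg
    rw [SetLike.mem_coe, hOm, he, map_mul, hr u hu, hr v hv]
    decide

theorem omega_transitive (hn : 1 ≤ n) (h : Fintype.card F ≠ 2 ∨ n ≠ 4)
    (hQ : (QuadraticMap.polarBilin Q).Nondegenerate) (u v : Fin n → F) (hu : Q u ≠ 0) (hv : Q v ≠ 0) :
    ∃ g : ↥(Cfsg.isometryGroup F ⇑Q), g ∈ Cfsg.Omega F ⇑Q ∧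
      (F ∙ ((g : Matrix.GeneralLinearGroup (Fin n) F) : Matrix (Fin n) (Fin n) F).mulVec u) = F ∙ v := by
  classical
  set e := isometryEquiv Q
  obtain ⟨s, hs⟩ := exists_sq_of_two_eq_zero (CharTwo.two_eq_zero (R := F)) (Q u / Q v)
  have hs0 : s ≠ 0 := fun h0 => div_ne_zero hu hv (by rw [← hs, h0, zero_pow two_ne_zero])
  have hQs : Q (s • v) = Q u := by
    rw [QuadraticMap.map_smul, smul_eq_mul, ← pow_two, hs, div_mul_cancel₀ _ hv]
  have hu0 : u ≠ 0 := fun h0 => hu (by rw [h0, QuadraticMap.map_zero])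
  have hv0 : s • v ≠ 0 := fun h0 => hu (by rw [← hQs, h0, QuadraticMap.map_zero])
  have hI := isForm_quadratic Q hQ
  obtain ⟨g0, hg0⟩ := hI.exists_isom_of_sameGram (ι := Fin 1) (v := fun _ => u) (w := fun _ => s • v)
    (linearIndependent_unique_iff.2 hu0) (linearIndependent_unique_iff.2 hv0)
    ⟨fun _ _ => hI.self_eq _ _ hQs, fun _ => hQs⟩
  have hfix : (reflection Q v : (Fin n → F) ≃ₗ[F] (Fin n → F)) (s • v) = s • v := by
    rw [reflection_fix]
    rw [QuadraticMap.polar_smul_right, polar_self_two_mul, CharTwo.two_eq_zero, zero_mul, smul_zero]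
  have hexc : Nat.card F ≠ 2 ∨ finrank F (Fin n → F) ≠ 4 := by
    rw [Nat.card_eq_fintype_card, Module.finrank_fin_fun]; exact h
  have hgen := closure_reflectionSet_two (Q := Q) CharTwo.two_eq_zero hQ hexc
  obtain ⟨g, hg, hd⟩ : ∃ g : orthGroup Q, (g : (Fin n → F) ≃ₗ[F] (Fin n → F)) u = s • v ∧ dickson g = 0 := by
    by_cases hd : dickson g0 = 0
    · exact ⟨g0, hg0 0, hd⟩
    · refine ⟨reflection Q v * g0, by rw [orth_mul_apply, hg0 0, hfix], ?_⟩
      rw [dickson_mul hQ _ (hgen ▸ Subgroup.mem_top _), dickson_reflection hQ hv]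
      revert hd
      generalize dickson g0 = d
      revert d
      decide
  refine ⟨e.symm g, ?_, ?_⟩
  · rw [omega_iff Q hn h hQ, MulEquiv.apply_symm_apply]; exact hd
  · rw [← isometryEquiv_apply, MulEquiv.apply_symm_apply, hg]
    exact Submodule.span_singleton_smul_eq (Ne.isUnit hs0) v

end Cfsg.Agent.Linear.OmegaTwo
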