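import Cfsg.Agent.Linear.PlusFamilies
import Mathlib

/-!
# Witt's theorem inside the commutator subgroup
-/

set_option autoImplicit false
set_option linter.unusedSectionVars false

namespace Cfsg.Agent.Linear.OmegaWitt

open Cfsg.Agent Cfsg.Agent.Forms
open Module (finrank)

variable {F V : Type*} [Field F] [Fintype F] [AddCommGroup V] [Module F V] [FiniteDimensional F V] [Finite V]
  {Q : QuadraticForm F V}

set_option quotPrecheck false in
local notation "BQ" => QuadraticMap.polar ⇑Q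

variable (Q) in
/-- The stabiliser of a subspace. -/
def stab (U : Submodule F V) : Subgroup (orthGroup Q) where
  carrier := {g | U.map ((g : V ≃ₗ[F] V) : V →ₗ[F] V) = U}
  mul_mem' {a b} ha hb := by
    show U.map (((a : V ≃ₗ[F] V) : V →ₗ[F] V).comp ((b : V ≃ₗ[F] V) : V →ₗ[F] V)) = U
    rw [Submodule.map_comp]
    rw [show U.map ((b : V ≃ₗ[F] V) : V →ₗ[F] V) = U from hb]
    exact ha
  one_mem' := Submodule.map_id U
  inv_mem' {a} ha := by
    show U.map ((a : V ≃ₗ[F] V).symm : V →ₗ[F] V) = U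
    conv_lhs => rw [← (show U.map ((a : V ≃ₗ[F] V) : V →ₗ[F] V) = U from ha)]
    rw [← Submodule.map_comp]
    simp

theorem mem_stab {U : Submodule F V} {g : orthGroup Q} :
    g ∈ stab Q U ↔ U.map ((g : V ≃ₗ[F] V) : V →ₗ[F] V) = U := Iff.rfl

theorem mem_stab_of_le {U : Submodule F V} {g : orthGroup Q} (h : ∀ u ∈ U, (g : V ≃ₗ[F] V) u ∈ U) :
    g ∈ stab Q U := by
  refine mem_stab.2 (Submodule.eq_of_le_of_finrank_eq ?_ (LinearEquiv.finrank_map_eq _ _))
  rintro _ ⟨u, hu, rfl⟩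
  exact h u hu

theorem reflection_mem_stab {U : Submodule F V} {v : V} (hv : v ∈ U ∨ ∀ u ∈ U, BQ v u = 0) :
    reflection Q v ∈ stab Q U := mem_stab_of_le fun u hu => by
  rcases hv with hv | hv
  · rw [Forms.reflection_apply]; exact sub_mem hu (U.smul_mem _ hv)
  · rw [Forms.reflection_fix (Q := Q) (hv u hu)]; exact hu

/-- An element carrying `U` to `W` may be taken in the commutator subgroup, given enough in the
stabiliser of `U`. -/
theorem adjust (hQ : (QuadraticMap.polarBilin Q).Nondegenerate)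
    (hgen : Subgroup.closure (reflectionSet Q) = ⊤) (hn : 2 ≤ finrank F V) {U W : Submodule F V}
    (g : orthGroup Q) (hg : U.map ((g : V ≃ₗ[F] V) : V →ₗ[F] V) = W)
    (h1 : dickson g = 0 ∨ ∃ v, Q v ≠ 0 ∧ reflection Q v ∈ stab Q U)
    (hsq : (2 : F) ≠ 0 → ∀ c : F, c ≠ 0 → ∃ a b, Q a ≠ 0 ∧ Q b ≠ 0 ∧ IsSquare (Q a * Q b * c) ∧
      reflection Q a * reflection Q b ∈ stab Q U) :
    ∃ x ∈ commutator (orthGroup Q), U.map ((x : V ≃ₗ[F] V) : V →ₗ[F] V) = W := by
  have key : ∀ s ∈ stab Q U, U.map (((g * s : orthGroup Q) : V ≃ₗ[F] V) : V →ₗ[F] V) = W := by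
    intro s hs
    show U.map (((g : V ≃ₗ[F] V) : V →ₗ[F] V).comp ((s : V ≃ₗ[F] V) : V →ₗ[F] V)) = W
    rw [Submodule.map_comp, mem_stab.1 hs, hg]
  obtain ⟨s, hs, hd⟩ : ∃ s ∈ stab Q U, dickson (g * s) = 0 := by
    rcases h1 with h | ⟨v, hv, hvs⟩
    · exact ⟨1, one_mem _, by rwa [mul_one]⟩
    by_cases h : dickson g = 0
    · exact ⟨1, one_mem _, by rwa [mul_one]⟩
    refine ⟨_, hvs, ?_⟩
    rw [dickson_mul hQ g (reflection_mem_closure Q hv), dickson_reflection hQ hv]
    revert h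
    generalize dickson g = d
    revert d
    decide
  by_cases h2 : (2 : F) = 0
  · exact ⟨g * s, ((commutator_index_two_of_gen h2 hQ hgen (by omega)).2 _).2 hd, key s hs⟩
  have hdet : orthDet Q (g * s) = 1 := by
    rw [PlusFamilies.det_eq hQ hgen, if_pos hd]
  rcases Int.units_eq_one_or (spinor Q h2 (g * s)) with e | e
  · exact ⟨g * s, (mem_commutator_iff h2 hQ hn).2 ⟨hdet, e⟩, key s hs⟩
  obtain ⟨c, hc⟩ := exists_nonsquare_of_two_ne_zero h2
  have hc0 : c ≠ 0 := fun h => hc (h ▸ IsSquare.zero)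
  obtain ⟨a, b, ha, hb, hab, hmem⟩ := hsq h2 c hc0
  have hL : ∀ v ∈ [a, b], Q v ≠ 0 := by simp [ha, hb]
  have hp : ([a, b].map (reflection Q)).prod = reflection Q a * reflection Q b := by simp
  have hsp : spinor Q h2 (reflection Q a * reflection Q b) = -1 := by
    refine (Int.units_eq_one_or _).resolve_left fun h => ?_
    rw [← hp, SpinorList.spinor_prod Q h2 hQ _ hL] at h
    have h' : IsSquare (Q a * Q b) := by simpa using h
    exact hc (((SpinorList.isSquare_mul_iff' h2 (mul_ne_zero ha hb) hc0).1 hab).1 h')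
  refine ⟨g * (s * (reflection Q a * reflection Q b)), (mem_commutator_iff h2 hQ hn).2 ⟨?_, ?_⟩,
    key _ (mul_mem hs hmem)⟩
  · rw [← mul_assoc, map_mul, hdet, ← hp, SpinorList.orthDet_prod Q _ hL]
    simp
  · rw [← mul_assoc, map_mul, e, hsp]
    simp

/-- The product of two reflections inside a hyperbolic plane stabilises a totally singular subspace. -/
theorem exists_pair (hQ : (QuadraticMap.polarBilin Q).Nondegenerate) {U : Submodule F V}
    (hU0 : ∀ u ∈ U, Q u = 0) (hU : U ≠ ⊥) {c : F} (hc : c ≠ 0) :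
    ∃ a b, Q a ≠ 0 ∧ Q b ≠ 0 ∧ IsSquare (Q a * Q b * c) ∧ reflection Q a * reflection Q b ∈ stab Q U := by
  obtain ⟨e, heU, he⟩ := Submodule.exists_mem_ne_zero_of_ne_bot hU
  obtain ⟨w, hw⟩ : ∃ w, BQ e w = 1 := by
    by_contra hno
    refine he (hQ.1 e fun y => ?_)
    by_contra hy
    exact hno ⟨(BQ e y)⁻¹ • y, by rw [QuadraticMap.polar_smul_right, smul_eq_mul]; exact inv_mul_cancel₀ hy⟩
  have hee : BQ e e = 0 := GeomClasses.polar_ts hU0 heU heU
  set f := w - Q w • e with hf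
  have hef : BQ e f = 1 := by
    rw [hf, QuadraticMap.polar_sub_right, QuadraticMap.polar_smul_right, hee, hw, smul_zero, sub_zero]
  have hQf : Q f = 0 := by
    rw [hf, sub_eq_add_neg, QuadraticMap.map_add Q, QuadraticMap.map_neg, QuadraticMap.map_smul, hU0 e heU,
      QuadraticMap.polar_neg_right, QuadraticMap.polar_smul_right, QuadraticMap.polar_comm, hw]
    simp
  have hv : ∀ d : F, Q (e - d • f) = -d := fun d => by
    rw [sub_eq_add_neg, QuadraticMap.map_add Q, QuadraticMap.map_neg, QuadraticMap.map_smul, hU0 e heU, hQf,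
      QuadraticMap.polar_neg_right, QuadraticMap.polar_smul_right, hef]
    simp
  have ha := hv 1
  rw [one_smul] at ha
  refine ⟨e - f, e - c • f, by simp [ha], by simp [hv, hc], ⟨c, by rw [ha, hv]; ring⟩, mem_stab_of_le fun u hu => ?_⟩
  have hu1 : BQ e u = 0 := GeomClasses.polar_ts hU0 heU hu
  have key : ((reflection Q (e - f) * reflection Q (e - c • f) : orthGroup Q) : V ≃ₗ[F] V) u =
      u + ((c - 1) * BQ f u) • e := by
    have hff : BQ f f = 0 := by rw [QuadraticMap.polar_self, hQf, smul_zero]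
    have hfe : BQ f e = 1 := by rw [QuadraticMap.polar_comm]; exact hef
    rw [orth_mul_apply, Forms.reflection_apply Q (e - c • f), hv, Forms.reflection_apply, ha]
    simp only [QuadraticMap.polar_sub_left, QuadraticMap.polar_sub_right, QuadraticMap.polar_smul_left,
      QuadraticMap.polar_smul_right, hu1, hee, hef, hfe, hff, smul_eq_mul]
    match_scalars <;> field_simp <;> ring
  rw [key]
  exact add_mem hu (U.smul_mem _ heU)

theorem exists_anisotropic (X : Submodule F V) (hX : ∀ u ∈ X, (∀ v ∈ X, BQ u v = 0) → u = 0) (h0 : X ≠ ⊥) :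
    ∃ v ∈ X, Q v ≠ 0 := by
  by_contra hno
  push Not at hno
  obtain ⟨u, hu, hu0⟩ := Submodule.exists_mem_ne_zero_of_ne_bot h0
  exact hu0 (hX u hu fun v hv => GeomClasses.polar_ts hno hu hv)

theorem exists_value (h2 : (2 : F) ≠ 0) (X : Submodule F V) (hX : ∀ u ∈ X, (∀ v ∈ X, BQ u v = 0) → u = 0)
    (hd : 2 ≤ finrank F X) (c : F) : ∃ v ∈ X, Q v = c := by
  have hN : (QuadraticMap.polarBilin (Q.comp X.subtype)).Nondegenerate := by
    refine ⟨fun u hu => Subtype.ext (hX u u.2 fun v hv => ?_), fun u hu => Subtype.ext (hX u u.2 fun v hv => ?_)⟩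
    · have := hu ⟨v, hv⟩
      simpa [QuadraticMap.polar] using this
    · have := hu ⟨v, hv⟩
      simpa [QuadraticMap.polar, add_comm, sub_right_comm] using this
  obtain ⟨v, hv⟩ := exists_eq_value h2 (Q.comp X.subtype) hN hd c
  exact ⟨v, v.2, hv⟩

/-- Witt's theorem for non-degenerate subspaces. -/
theorem witt_nondeg (hQ : (QuadraticMap.polarBilin Q).Nondegenerate)
    (hgen : Subgroup.closure (reflectionSet Q) = ⊤) (hn : 3 ≤ finrank F V) {U W : Submodule F V}
    (hU : ∀ u ∈ U, (∀ v ∈ U, BQ u v = 0) → u = 0) (e : U ≃ₗ[F] W) (he : ∀ u : U, Q (e u : V) = Q (u : V)) :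
    ∃ x ∈ commutator (orthGroup Q), U.map ((x : V ≃ₗ[F] V) : V →ₗ[F] V) = W := by
  have hI := isForm_quadratic Q hQ
  obtain ⟨g, hg⟩ := hI.exists_isom_extend U (W.subtype.comp e.toLinearMap)
    (W.injective_subtype.comp e.injective)
    (fun x y => by
      show BQ (e x : V) (e y : V) = BQ (x : V) (y : V)
      simp only [QuadraticMap.polar, ← Submodule.coe_add, ← map_add, he])
    he
  have hgW : U.map ((g : V ≃ₗ[F] V) : V →ₗ[F] V) = W := by
    refine le_antisymm ?_ fun w hw => ⟨(e.symm ⟨w, hw⟩ : V), (e.symm ⟨w, hw⟩).2, ?_⟩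
    · rintro _ ⟨u, hu, rfl⟩
      rw [LinearEquiv.coe_coe, hg ⟨u, hu⟩]
      exact (e ⟨u, hu⟩).2
    · rw [LinearEquiv.coe_coe, hg]; simp
  set P := perp (QuadraticMap.polarBilin Q) U with hP
  have hPn : ∀ u ∈ P, (∀ v ∈ P, BQ u v = 0) → u = 0 := hI.perp_nondeg hU
  have hsum : finrank F P + finrank F U = finrank F V := hI.finrank_perp U
  have hst : ∀ v, v ∈ U ∨ v ∈ P → reflection Q v ∈ stab Q U := fun v hv =>
    reflection_mem_stab (hv.imp_right fun hv u hu => by rw [QuadraticMap.polar_comm]; exact hv u hu)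
  refine adjust hQ hgen (by omega) g hgW (Or.inr ?_) fun h2 c hc => ?_
  · rcases eq_or_ne U ⊥ with h | h
    · obtain ⟨v, hv, hQv⟩ := exists_anisotropic P hPn fun hb => by
        rw [h, finrank_bot, hb, finrank_bot] at hsum; omega
      exact ⟨v, hQv, hst v (Or.inr hv)⟩
    · obtain ⟨v, hv, hQv⟩ := exists_anisotropic U hU h
      exact ⟨v, hQv, hst v (Or.inl hv)⟩
  · obtain ⟨a, b, hab, ha, hb⟩ : ∃ a b, ((a ∈ U ∧ b ∈ U) ∨ (a ∈ P ∧ b ∈ P)) ∧ Q a = 1 ∧ Q b = c := by
      by_cases hd : 2 ≤ finrank F U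
      · obtain ⟨a, ha, ha'⟩ := exists_value h2 U hU hd 1
        obtain ⟨b, hb, hb'⟩ := exists_value h2 U hU hd c
        exact ⟨a, b, Or.inl ⟨ha, hb⟩, ha', hb'⟩
      · obtain ⟨a, ha, ha'⟩ := exists_value h2 P hPn (by omega) 1
        obtain ⟨b, hb, hb'⟩ := exists_value h2 P hPn (by omega) c
        exact ⟨a, b, Or.inr ⟨ha, hb⟩, ha', hb'⟩
    refine ⟨a, b, by simp [ha], by simp [hb, hc], ⟨c, by rw [ha, hb, one_mul]⟩, mul_mem (hst a ?_) (hst b ?_)⟩
    · exact hab.imp And.left And.left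
    · exact hab.imp And.right And.right

theorem exists_map_eq (hQ : (QuadraticMap.polarBilin Q).Nondegenerate) {U W : Submodule F V}
    (hd : finrank F U = finrank F W) (hU0 : ∀ u ∈ U, Q u = 0) (hW0 : ∀ w ∈ W, Q w = 0) :
    ∃ g : orthGroup Q, U.map ((g : V ≃ₗ[F] V) : V →ₗ[F] V) = W := by
  set e := LinearEquiv.ofFinrankEq U W hd
  obtain ⟨g, hg⟩ := (isForm_quadratic Q hQ).exists_isom_extend U (W.subtype.comp e.toLinearMap)
    (W.injective_subtype.comp e.injective)
    (fun x y => by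
      show BQ (e x : V) (e y : V) = BQ (x : V) (y : V)
      rw [GeomClasses.polar_ts hW0 (e x).2 (e y).2, GeomClasses.polar_ts hU0 x.2 y.2])
    (fun x => by
      show Q (e x : V) = Q (x : V)
      rw [hW0 _ (e x).2, hU0 _ x.2])
  refine ⟨g, Submodule.eq_of_le_of_finrank_eq ?_ (by rw [LinearEquiv.finrank_map_eq, hd])⟩
  rintro _ ⟨u, hu, rfl⟩
  rw [LinearEquiv.coe_coe, hg ⟨u, hu⟩]
  exact (e ⟨u, hu⟩).2

/-- Witt's theorem for totally singular subspaces short of half the dimension. -/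
theorem witt_singular (hQ : (QuadraticMap.polarBilin Q).Nondegenerate)
    (hgen : Subgroup.closure (reflectionSet Q) = ⊤) {U W : Submodule F V}
    (hd : finrank F U = finrank F W) (hk : 2 * finrank F U < finrank F V) (hU0 : ∀ u ∈ U, Q u = 0)
    (hW0 : ∀ w ∈ W, Q w = 0) :
    ∃ x ∈ commutator (orthGroup Q), U.map ((x : V ≃ₗ[F] V) : V →ₗ[F] V) = W := by
  rcases eq_or_ne U ⊥ with rfl | hU
  · refine ⟨1, one_mem _, ?_⟩
    rw [finrank_bot] at hd
    rw [Submodule.map_bot, Submodule.finrank_eq_zero.1 hd.symm]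
  have h1 : 1 ≤ finrank F U := Submodule.one_le_finrank_iff.2 hU
  obtain ⟨g, hg⟩ := exists_map_eq hQ hd hU0 hW0
  refine adjust hQ hgen (by omega) g hg (Or.inr ?_) fun _ c hc => exists_pair hQ hU0 hU hc
  by_contra hno
  push Not at hno
  have hI := isForm_quadratic Q hQ
  set P := perp (QuadraticMap.polarBilin Q) U
  have hP0 : ∀ v ∈ P, Q v = 0 := fun v hv => by
    by_contra h
    exact hno v h (reflection_mem_stab (Or.inr fun u hu => by rw [QuadraticMap.polar_comm]; exact hv u hu))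
  have hle : P ≤ perp (QuadraticMap.polarBilin Q) P := fun y hy x hx => GeomClasses.polar_ts hP0 hx hy
  have e1 : finrank F P + finrank F U = finrank F V := hI.finrank_perp U
  have e2 := hI.finrank_perp P
  have e3 := Submodule.finrank_mono hle
  omega

/-- Witt's theorem for maximal totally singular subspaces of the same family. -/
theorem witt_half (hQ : (QuadraticMap.polarBilin Q).Nondegenerate)
    (hgen : Subgroup.closure (reflectionSet Q) = ⊤) {U W : Submodule F V} (hn : 1 ≤ finrank F U)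
    (hU : 2 * finrank F U = finrank F V) (hW : 2 * finrank F W = finrank F V) (hU0 : ∀ u ∈ U, Q u = 0)
    (hW0 : ∀ w ∈ W, Q w = 0) (he : Even (finrank F U - finrank F ↥(U ⊓ W))) :
    ∃ x ∈ commutator (orthGroup Q), U.map ((x : V ≃ₗ[F] V) : V →ₗ[F] V) = W := by
  obtain ⟨g, hg⟩ := exists_map_eq hQ (by omega) hU0 hW0
  refine adjust hQ hgen (by omega) g hg (Or.inl ?_) fun _ c hc => exists_pair hQ hU0 (fun h => by
    rw [h, finrank_bot] at hn; omega) hc
  have h := PlusFamilies.dickson_of_image' hQ hgen hU0 hU (finrank F U - finrank F ↥(U ⊓ W)) g W hg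
    (by have := Submodule.finrank_mono (inf_le_left : U ⊓ W ≤ U); omega)
  rw [h, ZMod.natCast_eq_zero_iff_even]
  exact he

section Coord

variable {ι : Type} [Fintype ι] [DecidableEq ι] {Q' : QuadraticForm F (ι → F)}

/-- From linear automorphisms to matrices. -/
theorem exists_omega {U W : Submodule F (ι → F)}
    (h : ∃ x ∈ commutator (orthGroup Q'), U.map ((x : (ι → F) ≃ₗ[F] (ι → F)) : (ι → F) →ₗ[F] (ι → F)) = W) :
    ∃ g : ↥(Cfsg.isometryGroup F ⇑Q'), g ∈ Cfsg.Omega F ⇑Q' ∧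
      U.map (Matrix.mulVecLin ((g : Matrix.GeneralLinearGroup ι F) : Matrix ι ι F)) = W := by
  obtain ⟨x, hx, hxW⟩ := h
  refine ⟨(isometryEquiv Q').symm x, by rw [Forms.mem_omega_iff, MulEquiv.apply_symm_apply]; exact hx, ?_⟩
  rw [← hxW]
  refine congrArg (fun f => Submodule.map f U) (LinearMap.ext fun v => ?_)
  rw [Matrix.mulVecLin_apply, ← isometryEquiv_apply, MulEquiv.apply_symm_apply]
  rfl

end Coord

end Cfsg.Agent.Linear.OmegaWitt
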