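import Cfsg.Agent.Forms.HermOrder
import Cfsg.Agent.Forms.SympSpectrum

/-!
# Centralisers of fixed-point-free elements of order three in `Sp_2m(q)`, `q ≡ 2 (mod 3)`
-/

set_option autoImplicit false
set_option linter.unusedSectionVars false

namespace Cfsg.Agent.Linear.OrderThreeCent

open Module Polynomial Cfsg.Agent.Forms

variable {F : Type*} [Field F] [Fintype F] {m : ℕ}

theorem eval_ne {q : ℕ} (hF : Fintype.card F = q) (hq : q % 3 = 2) (c : F) : c ^ 2 + c + 1 ≠ 0 := by
  intro h
  have hc3 : c ^ 3 = 1 := by linear_combination (c - 1) * h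
  have h3 : ((3 : ℕ) : F) ≠ 0 := fun h3 => by
    obtain ⟨p, _⟩ := CharP.exists F
    haveI : Fact p.Prime := ⟨CharP.char_is_prime F p⟩
    obtain ⟨n, -, hn⟩ := FiniteField.card F p
    have hp3 : p = 3 := (Nat.prime_dvd_prime_iff_eq Fact.out Nat.prime_three).1 ((CharP.cast_eq_zero_iff F p 3).1 h3)
    rw [hp3, hF] at hn
    have : 3 ∣ q := hn ▸ dvd_pow_self 3 (PNat.ne_zero n)
    omega
  have hc0 : c ≠ 0 := by rintro rfl; simp at h
  have hc1 : c ^ (Fintype.card F - 1) = 1 := FiniteField.pow_card_sub_one_eq_one c hc0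
  rw [hF, show q - 1 = 3 * ((q - 1) / 3) + 1 by omega, pow_succ, pow_mul, hc3, one_pow, one_mul] at hc1
  subst hc1
  exact h3 (by push_cast; linear_combination h)

theorem card_centralizer {q : ℕ} (hF : Fintype.card F = q) (hq : q % 3 = 2) (hm : 1 ≤ m)
    (x : Matrix.symplecticGroup (Fin m) F) (hx3 : x ^ 3 = 1)
    (hfpf : IsUnit ((x : Matrix (Fin m ⊕ Fin m) (Fin m ⊕ Fin m) F) - 1)) :
    (Nat.card ↥(Subgroup.centralizer ({x} : Set ↥(Matrix.symplecticGroup (Fin m) F))) : ℤ) =
      (q : ℤ) ^ (m * (m - 1) / 2) * ∏ i : Fin m, ((q : ℤ) ^ ((i : ℕ) + 1) - (-1) ^ ((i : ℕ) + 1)) := by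
  classical
  let V := Fin m ⊕ Fin m → F
  let e := spEquiv m F
  set J₀ : V ≃ₗ[F] V := (e x).1 with hJ₀
  set J : Module.End F V := (J₀ : Module.End F V) with hJ
  have hJmat : J = Matrix.toLinAlgEquiv' (x : Matrix (Fin m ⊕ Fin m) (Fin m ⊕ Fin m) F) :=
    LinearMap.ext fun v => by rw [hJ, hJ₀]; exact (spEquiv_apply m F x v).trans (Matrix.toLinAlgEquiv'_apply _ v).symm
  have hJ2 : J * J + J + 1 = 0 := by
    have h3 : (x : Matrix (Fin m ⊕ Fin m) (Fin m ⊕ Fin m) F) ^ 3 = 1 := congrArg Subtype.val hx3
    set X := (x : Matrix (Fin m ⊕ Fin m) (Fin m ⊕ Fin m) F)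
    have h1 : (X - 1) * (X * X + X + 1) = (X - 1) * 0 := by
      rw [mul_zero, show (X - 1) * (X * X + X + 1) = X ^ 3 - 1 by noncomm_ring, h3, sub_self]
    have h2 := hfpf.mul_left_cancel h1
    rw [hJmat, ← map_mul, ← map_add, ← map_one (Matrix.toLinAlgEquiv' (R := F) (n := Fin m ⊕ Fin m)), ← map_add, h2,
      map_zero]
  set f : F[X] := X ^ 2 + X + 1 with hf
  have hfdeg : f.natDegree = 2 := by rw [hf]; compute_degree!
  have hfm : f.Monic := by rw [hf]; monicity!
  haveI : Fact (Irreducible f) := ⟨(hfm.irreducible_iff_roots_eq_zero_of_degree_le_three (by omega) (by omega)).2 (by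
    rw [Multiset.eq_zero_iff_forall_notMem]
    intro c hc
    rw [mem_roots hfm.ne_zero, IsRoot, hf] at hc
    simp only [eval_add, eval_pow, eval_X, eval_one] at hc
    exact eval_ne hF hq c hc)⟩
  let K := AdjoinRoot f
  set ω : K := AdjoinRoot.root f with hω
  have hω2 : ω * ω + ω + 1 = 0 := by
    have h : AdjoinRoot.mk f (X ^ 2 + X + 1) = 0 := AdjoinRoot.mk_self
    rw [map_add, map_add, map_pow, AdjoinRoot.mk_X, map_one, pow_two] at h
    exact h
  haveI : Module.Finite F K := (AdjoinRoot.powerBasis hfm.ne_zero).finite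
  haveI : Finite K := Module.finite_of_finite F
  letI : Fintype K := Fintype.ofFinite K
  have hKrank : finrank F K = 2 := by
    rw [(AdjoinRoot.powerBasis hfm.ne_zero).finrank, AdjoinRoot.powerBasis_dim, hfdeg]
  have hK : Fintype.card K = q ^ 2 := by rw [Module.card_eq_pow_finrank (K := F), hKrank, hF]
  have hgen : ∀ P : K → Prop, (∀ a : F, P (algebraMap F K a)) → (∀ c d, P c → P d → P (c + d)) →
      (∀ c, P c → P (ω * c)) → ∀ c, P c := by
    intro P ha hadd hmul c
    obtain ⟨g, rfl⟩ := AdjoinRoot.mk_surjective c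
    induction g using Polynomial.induction_on' with
    | add g h hg hh => rw [map_add]; exact hadd _ _ hg hh
    | monomial n a =>
      induction n with
      | zero => rw [monomial_zero_left, AdjoinRoot.mk_C]; exact ha a
      | succ n ih =>
        rw [← monomial_mul_X, map_mul, AdjoinRoot.mk_X, mul_comm]
        exact hmul _ ih
  have heval : eval₂ (Algebra.ofId F (Module.End F V) : F →+* Module.End F V) J f = 0 := by
    rw [hf, eval₂_add, eval₂_add, eval₂_X_pow, eval₂_X, eval₂_one, pow_two]; exact hJ2
  let φ : K →+* Module.End F V :=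
    { toFun := fun c => Quotient.liftOn' c (fun g => aeval J g) fun g g' hgg => by
        obtain ⟨w, hw⟩ := Ideal.mem_span_singleton.1 (Submodule.quotientRel_def _ |>.1 hgg)
        refine sub_eq_zero.1 ?_
        rw [← map_sub, hw, map_mul, show aeval J f = 0 from heval, zero_mul]
      map_one' := map_one (aeval J)
      map_mul' := fun c d => by
        induction c using Quotient.inductionOn' with
        | h g => induction d using Quotient.inductionOn' with
          | h g' => exact map_mul (aeval J) g g'
      map_zero' := map_zero (aeval J)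
      map_add' := fun c d => by
        induction c using Quotient.inductionOn' with
        | h g => induction d using Quotient.inductionOn' with
          | h g' => exact map_add (aeval J) g g' }
  have hφω : φ ω = J := aeval_X J
  have hφC : ∀ a : F, φ (algebraMap F K a) = algebraMap F (Module.End F V) a := fun a => aeval_C J a
  letI : Module K V := Module.compHom V φ
  have hωV : ∀ v : V, ω • v = J v := fun v => by show φ ω v = _; rw [hφω]
  haveI : IsScalarTower F K V := ⟨fun a c v => by
    show φ (a • c) v = a • φ c v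
    rw [Algebra.smul_def, map_mul, hφC]; rfl⟩
  haveI : Module.Finite K V := Module.Finite.of_restrictScalars_finite F K V
  have hdim : finrank K V = m := by
    have := Module.finrank_mul_finrank F K V
    rw [hKrank, finrank_fintype_fun_eq_card, Fintype.card_sum, Fintype.card_fin] at this
    omega
  -- the conjugation of `K`
  let σ : K →+* K := (FiniteField.frobeniusAlgHom F K : K →ₐ[F] K)
  have hσq : ∀ c : K, σ c = c ^ q := fun c => by show (FiniteField.frobeniusAlgHom F K) c = _; simp [hF]
  have hσF : ∀ a : F, σ (algebraMap F K a) = algebraMap F K a := fun a => (FiniteField.frobeniusAlgHom F K).commutes a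
  have hω3 : ω ^ 3 = 1 := by linear_combination (ω - 1) * hω2
  have hσω : σ ω = -1 - ω := by
    rw [hσq, show q = 3 * (q / 3) + 2 by omega, pow_add, pow_mul, hω3, one_pow, one_mul]
    linear_combination hω2
  have hσ2 : ∀ c, σ (σ c) = c := fun c => by rw [hσq, hσq, ← pow_mul, ← pow_two, ← hK, FiniteField.pow_card]
  have hind : ∀ a b : F, algebraMap F K a + algebraMap F K b * ω = 0 → a = 0 ∧ b = 0 := by
    intro a b h
    have h' : AdjoinRoot.mk f (C a + C b * X) = 0 := by
      rw [map_add, map_mul, AdjoinRoot.mk_C, AdjoinRoot.mk_C, AdjoinRoot.mk_X]; exact h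
    rw [AdjoinRoot.mk_eq_zero] at h'
    have hz : C a + C b * X = 0 := eq_zero_of_dvd_of_natDegree_lt h' (lt_of_le_of_lt
      (show (C a + C b * X).natDegree ≤ 1 by compute_degree) (by omega))
    exact ⟨by simpa using congrArg (coeff · 0) hz, by simpa using congrArg (coeff · 1) hz⟩
  have hσne : σ ≠ RingHom.id K := fun h => by
    have h1 : -1 - ω = ω := hσω.symm.trans (by rw [h]; rfl)
    have h2 := hind (-1) (-2) (by rw [map_neg, map_neg, map_one, map_ofNat]; linear_combination h1)
    exact neg_ne_zero.2 one_ne_zero h2.1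
  have hBJ : ∀ u v : V, sympB m F (J u) (J v) = sympB m F u v := fun u v => (e x).2.1 u v
  have hBJ' : ∀ u v : V, sympB m F (J u) v = - sympB m F u v - sympB m F u (J v) := fun u v => by
    have hv : v = - (J (J v)) - J v := by
      have := LinearMap.congr_fun hJ2 v
      simp only [LinearMap.add_apply, Module.End.mul_apply, Module.End.one_apply, LinearMap.zero_apply] at this
      linear_combination (norm := module) this
    conv_lhs => rw [hv]
    simp only [map_sub, map_neg, hBJ]
    ring
  let hfun : V → V → K := fun u v =>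
    algebraMap F K (sympB m F u (J v)) + (1 + ω) * algebraMap F K (sympB m F u v)
  have haddr : ∀ u v v', hfun u (v + v') = hfun u v + hfun u v' := fun u v v' => by
    simp only [hfun, map_add]; ring
  have haddl : ∀ u u' v, hfun (u + u') v = hfun u v + hfun u' v := fun u u' v => by
    simp only [hfun, map_add, LinearMap.add_apply]; ring
  have hsmulr : ∀ (c : K) u v, hfun u (c • v) = c * hfun u v := by
    refine hgen _ (fun a u v => ?_) (fun c d hc hd u v => ?_) (fun c hc u v => ?_)
    · rw [algebraMap_smul]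
      simp only [hfun, map_smul, smul_eq_mul, map_mul]
      ring
    · rw [add_smul, haddr, hc, hd, add_mul]
    · rw [mul_smul, mul_assoc, ← hc, hωV]
      simp only [hfun]
      have hJJ : J (J (c • v)) = -(c • v) - J (c • v) := by
        have := LinearMap.congr_fun hJ2 (c • v)
        simp only [LinearMap.add_apply, Module.End.mul_apply, Module.End.one_apply, LinearMap.zero_apply] at this
        linear_combination (norm := module) this
      rw [hJJ, map_sub, map_neg, map_sub, map_neg]
      linear_combination -(algebraMap F K (sympB m F u (c • v))) * hω2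
  have hsmull : ∀ (c : K) u v, hfun (c • u) v = σ c * hfun u v := by
    refine hgen _ (fun a u v => ?_) (fun c d hc hd u v => ?_) (fun c hc u v => ?_)
    · rw [algebraMap_smul, hσF]
      simp only [hfun, map_smul, LinearMap.smul_apply, smul_eq_mul, map_mul]
      ring
    · rw [add_smul, haddl, hc, hd, map_add, add_mul]
    · rw [mul_smul, map_mul σ, mul_assoc, ← hc, hωV, hσω]
      simp only [hfun]
      rw [hBJ, hBJ' (c • u) v, map_sub, map_neg]
      linear_combination (algebraMap F K (sympB m F (c • u) v)) * hω2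
  let H : V →ₛₗ[σ] V →ₗ[K] K := LinearMap.mk₂'ₛₗ σ (RingHom.id K) hfun haddl hsmull haddr hsmulr
  have hHsymm : H.IsSymm := ⟨fun u v => by
    show σ (hfun u v) = hfun v u
    simp only [hfun, map_add, map_mul, map_one, hσF, hσω]
    have hA : (sympB m F).IsAlt := sympB_isAlt
    have e1 : sympB m F v (J u) = sympB m F u v + sympB m F u (J v) := by
      rw [← hA.neg_eq (J u) v, hBJ']; ring
    have e2 : sympB m F v u = - sympB m F u v := (hA.neg_eq u v).symm
    rw [e1, e2, map_add, map_neg]
    ring⟩
  have hcoef : ∀ u v u' v', hfun u v = hfun u' v' → sympB m F u v = sympB m F u' v' := fun u v u' v' h => by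
    have h2 := hind (sympB m F u (J v) + sympB m F u v - (sympB m F u' (J v') + sympB m F u' v'))
      (sympB m F u v - sympB m F u' v') (by
        simp only [map_sub, map_add]
        simp only [hfun] at h
        linear_combination h)
    exact sub_eq_zero.1 h2.2
  have hHnd : H.Nondegenerate := by
    refine ⟨fun u hu => sympB_nondegenerate.1 u fun v => ?_, fun v hv => sympB_nondegenerate.2 v fun u => ?_⟩
    · have := hcoef u v 0 v ((hu v).trans (by simp [hfun, -sympB_apply]))
      simpa using this
    · have := hcoef u v u 0 ((hv u).trans (by simp [hfun, -sympB_apply]))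
      simpa [-sympB_apply] using this
  obtain ⟨q', hq', hH⟩ := isHerm_of_involution hσne hσ2 hHsymm hHnd
  obtain rfl : q' = q := Nat.pow_left_injective two_ne_zero (hq'.symm.trans hK)
  -- compare the two groups
  have hcomm : ∀ g : V ≃ₗ[F] V, (∀ v, g (J v) = J (g v)) → ∀ (c : K) v, g (c • v) = c • g v := fun g hg => by
    refine hgen _ (fun a v => ?_) (fun c d hc hd v => ?_) (fun c hc v => ?_)
    · rw [algebraMap_smul, algebraMap_smul, map_smul]
    · rw [add_smul, add_smul, map_add, hc, hd]
    · rw [mul_smul, mul_smul, hωV, hωV, hg, hc]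
  have hmemc : ∀ g, g ∈ Subgroup.centralizer ({x} : Set ↥(Matrix.symplecticGroup (Fin m) F)) →
      ∀ v, (e g).1 (J v) = J ((e g).1 v) := fun g hg v => by
    have h1 : e g * e x = e x * e g := by rw [← map_mul, ← map_mul, Subgroup.mem_centralizer_singleton_iff.1 hg]
    exact LinearEquiv.congr_fun (congrArg Subtype.val h1) v
  let Ψ : ↥(Subgroup.centralizer ({x} : Set ↥(Matrix.symplecticGroup (Fin m) F))) → isomGroup H (fun v => H v v) := fun g =>
    ⟨{ (e g.1).1.toAddEquiv with map_smul' := hcomm (e g.1).1 (hmemc g.1 g.2) }, by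
      have h1 : ∀ u v, hfun ((e g.1).1 u) ((e g.1).1 v) = hfun u v := fun u v => by
        simp only [hfun]
        rw [← hmemc g.1 g.2, (e g.1).2.1, (e g.1).2.1]
      exact ⟨h1, fun v => h1 v v⟩⟩
  have hΨ : Function.Bijective Ψ := by
    refine ⟨fun g g' h => Subtype.ext (e.injective (Subtype.ext (LinearEquiv.ext fun v => ?_))), fun g => ?_⟩
    · exact congrArg (fun k : isomGroup H (fun v => H v v) => k.1 v) h
    · let g₀ : isomGroup (sympB m F) (fun _ => (0 : F)) :=
        ⟨g.1.restrictScalars F, fun u v => hcoef _ _ _ _ (g.2.1 u v), fun _ => rfl⟩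
      refine ⟨⟨e.symm g₀, Subgroup.mem_centralizer_singleton_iff.2 (e.injective ?_)⟩, ?_⟩
      · rw [map_mul, map_mul, MulEquiv.apply_symm_apply]
        refine Subtype.ext (LinearEquiv.ext fun v => ?_)
        show g.1 (J v) = J (g.1 v)
        rw [← hωV, ← hωV, map_smul]
      · refine Subtype.ext (LinearEquiv.ext fun v => ?_)
        show (e (e.symm g₀)).1 v = g.1 v
        rw [e.apply_symm_apply]
        rfl
  rw [Nat.card_congr (Equiv.ofBijective Ψ hΨ), hH.card_isom hK, hdim]
  push_cast
  rw [Finset.prod_range]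
  congr 1
  refine Finset.prod_congr rfl fun i _ => ?_
  split_ifs with hi
  · rw [pow_succ (-1 : ℤ), hi.neg_one_pow]; push_cast; ring
  · rw [pow_succ (-1 : ℤ), (Nat.not_even_iff_odd.1 hi).neg_one_pow, Nat.cast_sub (Nat.one_le_pow _ _ (by omega))]
    push_cast; ring

end Cfsg.Agent.Linear.OrderThreeCent
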