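import Cfsg.Agent.Linear.OrthSingDerange
import Cfsg.Agent.Linear.OmegaElem
import Cfsg.Agent.Linear.InvolOmega

/-!
# Elements of prime order and totally singular subspaces: common tools
-/

set_option autoImplicit false
set_option linter.unusedSectionVars false

namespace Cfsg.Agent.Linear.OrthDerangeBase

open Module Cfsg.Agent.Forms Cfsg.Agent.Linear.OrthSpaces Cfsg.Agent.Linear.OrthFree
  Cfsg.Agent.Linear.OrthSingDerange

variable {F : Type*} [Field F] [Fintype F] {V : Type*} [AddCommGroup V] [Module F V] [FiniteDimensional F V]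
  {Q : QuadraticForm F V}

local notation "BQ" => QuadraticMap.polarBilin Q

theorem toLin_pow {ι : Type} [Fintype ι] [DecidableEq ι] {x : GL ι F} {N : ℕ} (h : x ^ N = 1) :
    (Matrix.toLin' (x : Matrix ι ι F)) ^ N = 1 := by
  have h1 : ((x : Matrix ι ι F)) ^ N = 1 := by rw [← Units.val_pow_eq_pow_val, h, Units.val_one]
  show (Matrix.toLinAlgEquiv' (x : Matrix ι ι F)) ^ N = 1
  rw [← map_pow, h1, map_one]

theorem toLin_inj {ι : Type} [Fintype ι] [DecidableEq ι] {x : GL ι F}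
    (h : Matrix.toLin' (x : Matrix ι ι F) = 1) : x = 1 :=
  Units.ext (Matrix.toLin'.injective (by rw [h, Units.val_one, Matrix.toLin'_one]; rfl))

/-- The sum of singular subspaces of the two eigenspaces of an involution. -/
theorem exists_sum (hB : (BQ).Nondegenerate) (h2 : (2 : F) ≠ 0) {T : Module.End F V} (hT : T ^ 2 = 1)
    (hTQ : ∀ v, Q (T v) = Q v) {m e₁ e₂ : ℕ} (hm : m = e₁ + e₂)
    (h₁ : 2 * e₁ < finrank F (LinearMap.ker (T + 1)) ∨
      (2 * e₁ = finrank F (LinearMap.ker (T + 1)) ∧ Plus Q (LinearMap.ker (T + 1))))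
    (h₂ : 2 * e₂ < finrank F (LinearMap.ker (T - 1)) ∨
      (2 * e₂ = finrank F (LinearMap.ker (T - 1)) ∧ Plus Q (LinearMap.ker (T - 1)))) :
    ∃ W : Submodule F V, finrank F W = m ∧ Sing Q W ∧ ∀ w ∈ W, T w ∈ W := by
  obtain ⟨hN, hP, -⟩ := InvolOmega.spaces h2 hB hT hTQ
  have hK : Nd Q (LinearMap.ker (T - 1)) := by
    have := (nd_split hB hN (nd_top hB) le_top).1
    rwa [top_inf_eq, ← hP] at this
  obtain ⟨E, hE, hEs, hEd⟩ := exists_sing hN h₁
  obtain ⟨U, hU, hUs, hUd⟩ := exists_sing hK h₂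
  have hperp : U ≤ perp BQ E := fun x hx => mem_perp_iff.2 fun y hy => mem_perp_iff.1 (hP ▸ hU hx) y (hE hy)
  refine ⟨E ⊔ U, ?_, sing_sup hEs hUs hperp, fun w hw => ?_⟩
  · have h1 := Submodule.finrank_sup_add_finrank_inf_eq E U
    rw [show E ⊓ U = ⊥ from le_bot_iff.1 (inf_bot hB hN le_rfl ▸ inf_le_inf hE (hP ▸ hU)), finrank_bot, hEd, hUd] at h1
    omega
  · obtain ⟨x, hx, y, hy, rfl⟩ := Submodule.mem_sup.1 hw
    rw [map_add, show T x = -x from eq_neg_of_add_eq_zero_left (hE hx), show T y = y from sub_eq_zero.1 (hU hy)]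
    exact Submodule.add_mem_sup (E.neg_mem hx) hy

/-- An invariant singular subspace of an involution is the sum of its two parts. -/
theorem sum_parts (hB : (BQ).Nondegenerate) (h2 : (2 : F) ≠ 0) {T : Module.End F V} (hT : T ^ 2 = 1)
    (hTQ : ∀ v, Q (T v) = Q v) {W : Submodule F V} (hWs : Sing Q W) (hW : ∀ w ∈ W, T w ∈ W) :
    ∃ e₁ e₂, finrank F W = e₁ + e₂ ∧
      (2 * e₁ < finrank F (LinearMap.ker (T + 1)) ∨
        (2 * e₁ = finrank F (LinearMap.ker (T + 1)) ∧ Plus Q (LinearMap.ker (T + 1)))) ∧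
      (2 * e₂ < finrank F (LinearMap.ker (T - 1)) ∨
        (2 * e₂ = finrank F (LinearMap.ker (T - 1)) ∧ Plus Q (LinearMap.ker (T - 1)))) := by
  obtain ⟨hN, hP, -⟩ := InvolOmega.spaces h2 hB hT hTQ
  have hK : Nd Q (LinearMap.ker (T - 1)) := by
    have := (nd_split hB hN (nd_top hB) le_top).1
    rwa [top_inf_eq, ← hP] at this
  have key : ∀ X : Submodule F V, Nd Q X → 2 * finrank F ↥(W ⊓ X) < finrank F X ∨
      (2 * finrank F ↥(W ⊓ X) = finrank F X ∧ Plus Q X) := by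
    intro X hX
    have hs : Sing Q (W ⊓ X) := fun x hx => hWs x hx.1
    rcases (sing_le hX inf_le_right hs).lt_or_eq with h | h
    · exact Or.inl h
    · exact Or.inr ⟨h, _, inf_le_right, hs, h⟩
  refine ⟨_, _, ?_, key _ hN, key _ hK⟩
  have hsup : W ⊓ LinearMap.ker (T + 1) ⊔ W ⊓ LinearMap.ker (T - 1) = W := by
    refine le_antisymm (sup_le inf_le_left inf_le_left) fun w hw => ?_
    have hTT : T (T w) = w := by rw [← Module.End.mul_apply, ← pow_two, hT, Module.End.one_apply]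
    have hv : w = (2 : F)⁻¹ • (w - T w) + (2 : F)⁻¹ • (w + T w) := by
      rw [← smul_add, show w - T w + (w + T w) = (2 : F) • w by rw [two_smul]; abel, smul_smul,
        inv_mul_cancel₀ h2, one_smul]
    rw [hv]
    refine Submodule.add_mem_sup ⟨W.smul_mem _ (W.sub_mem hw (hW w hw)), Submodule.smul_mem _ _ ?_⟩
      ⟨W.smul_mem _ (W.add_mem hw (hW w hw)), Submodule.smul_mem _ _ ?_⟩
    · simp [hTT]
    · simp [hTT, add_comm]
  have h1 := Submodule.finrank_sup_add_finrank_inf_eq (W ⊓ LinearMap.ker (T + 1)) (W ⊓ LinearMap.ker (T - 1))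
  rw [hsup, show W ⊓ LinearMap.ker (T + 1) ⊓ (W ⊓ LinearMap.ker (T - 1)) = ⊥ from
    le_bot_iff.1 (inf_bot hB hN le_rfl ▸ inf_le_inf inf_le_right (hP ▸ inf_le_right)), finrank_bot] at h1
  omega

/-- A scalar multiple has the same invariant subspaces. -/
theorem inv_smul' {T : Module.End F V} {z : F} (hz : z ≠ 0) {W : Submodule F V}
    (hW : ∀ w ∈ W, (z • T) w ∈ W) : ∀ w ∈ W, T w ∈ W := fun w hw => by
  have := W.smul_mem z⁻¹ (hW w hw)
  rwa [LinearMap.smul_apply, smul_smul, inv_mul_cancel₀ hz, one_smul] at this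

theorem mod_add_div' (a i : ℕ) : a % i + i * (a / i) = a := Nat.mod_add_div a i

/-- The combinatorial step of sufficiency. -/
theorem exists_split {m i hh : ℕ} : ∃ j e, j ≤ hh ∧ m = e + i * j ∧
    ((j = m / i ∧ e = m % i) ∨ (j = hh ∧ hh < m / i)) := by
  rcases le_or_gt (m / i) hh with h | h
  · exact ⟨m / i, m % i, h, (Nat.mod_add_div m i).symm, Or.inl ⟨rfl, rfl⟩⟩
  · have h1 : i * hh ≤ i * (m / i) := Nat.mul_le_mul_left i h.le
    have := Nat.mod_add_div m i
    exact ⟨hh, m - i * hh, le_rfl, by omega, Or.inr ⟨rfl, h⟩⟩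

end Cfsg.Agent.Linear.OrthDerangeBase
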