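import Cfsg.Agent.Linear.OrthFree
import Cfsg.Agent.Forms.QuadOrder

/-!
# Orbits of prime-to-`r` length in orthogonal groups
-/

set_option autoImplicit false
set_option linter.unusedSectionVars false

namespace Cfsg.Agent.Linear.OrthOrbit

open Polynomial Module Cfsg.Agent.Forms Cfsg.Agent.Linear.OrthSpaces Cfsg.Agent.Linear.OrthFree

variable {F : Type*} [Field F] [Fintype F] {q r i : ℕ} {S : Finset F[X]}

/-- The exponent of `r` in the product of the `q ^ 2x - 1`, `x ≤ w`. -/
def expo (q r w : ℕ) : ℕ := ∑ x ∈ Finset.range w, padicValNat r (q ^ (2 * (x + 1)) - 1)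

theorem one_lt_q (h : Ctx F q r i S) : 1 < q := h.hq ▸ Fintype.one_lt_card

theorem dvd_pow_sub_iff (h : Ctx F q r i S) (x : ℕ) : r ∣ q ^ x - 1 ↔ i ∣ x := by
  rw [h.hi, orderOf_dvd_iff_pow_eq_one, ← ZMod.natCast_eq_zero_iff,
    Nat.cast_sub (Nat.one_le_pow _ _ (by have := one_lt_q h; omega)), Nat.cast_pow, Nat.cast_one, sub_eq_zero]

theorem dvd_two_iff (h : Ctx F q r i S) (x : ℕ) : i ∣ 2 * x ↔ cc i ∣ 2 * x := by
  refine ⟨fun hd => ?_, fun hd => dvd_trans ?_ hd⟩
  · unfold cc
    split_ifs with he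
    · exact hd
    · exact Nat.mul_dvd_mul_left 2 ((Nat.prime_two.coprime_iff_not_dvd.2
        (fun h' => he (even_iff_two_dvd.2 h'))).symm.dvd_of_dvd_mul_left hd)
  · unfold cc
    split_ifs
    · exact dvd_rfl
    · exact Dvd.intro_left 2 rfl

theorem expo_eq (h : Ctx F q r i S) {w J : ℕ} (hle : cc i * J ≤ 2 * w) (hlt : 2 * w < cc i * (J + 1)) :
    ∀ u, 2 * u = cc i * J → expo q r w = expo q r u := by
  intro u hu
  obtain ⟨d, rfl⟩ : ∃ d, w = u + d := ⟨w - u, by omega⟩
  rw [expo, expo, Finset.sum_range_add, Nat.add_eq_left]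
  refine Finset.sum_eq_zero fun x hx => ?_
  refine padicValNat.eq_zero_of_not_dvd fun hd => ?_
  have hxd := Finset.mem_range.1 hx
  obtain ⟨y, hy⟩ := (dvd_two_iff h _).1 ((dvd_pow_sub_iff h _).1 hd)
  have h1 : J < y := Nat.lt_of_mul_lt_mul_left (show cc i * J < cc i * y by omega)
  have h2 : cc i * (J + 1) ≤ cc i * y := Nat.mul_le_mul_left _ h1
  omega

/-- The isometries of a quadratic form. -/
abbrev Oc {V : Type*} [AddCommGroup V] [Module F V] (Q : QuadraticForm F V) : Subgroup (V ≃ₗ[F] V) :=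
  isomGroup (QuadraticMap.polarBilin Q) Q

section Order

variable {V : Type*} [AddCommGroup V] [Module F V] [FiniteDimensional F V] {Q : QuadraticForm F V}

theorem exists_core (hB : (QuadraticMap.polarBilin Q).Nondegenerate) :
    ∃ W : Submodule F V, IsSingularCore Q W ∧ Sing Q W ∧ ∀ U : Submodule F V, Sing Q U → finrank F U ≤ finrank F W := by
  classical
  have hex : ∃ k, ∀ U : Submodule F V, Sing Q U → finrank F U ≤ k := ⟨finrank F V, fun U _ => Submodule.finrank_le U⟩
  obtain ⟨W, hW, hWk⟩ : ∃ W : Submodule F V, Sing Q W ∧ Nat.find hex ≤ finrank F W := by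
    rcases Nat.eq_zero_or_pos (Nat.find hex) with h0 | h0
    · exact ⟨⊥, fun w hw => by rw [(Submodule.mem_bot F).1 hw, map_zero], by rw [h0]; exact Nat.zero_le _⟩
    · by_contra hcon
      push Not at hcon
      exact Nat.find_min hex (Nat.sub_lt h0 one_pos) fun U hU => by have := hcon U hU; omega
  refine ⟨W, ⟨hW, fun v hv hv0 => ?_⟩, hW, fun U hU => (Nat.find_spec hex U hU).trans hWk⟩
  by_contra hvW
  have hs : Sing Q (W ⊔ Submodule.span F {v}) := by
    refine sing_sup hW (fun x hx => ?_) ?_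
    · obtain ⟨a, rfl⟩ := Submodule.mem_span_singleton.1 hx
      rw [QuadraticMap.map_smul, hv0, smul_zero]
    · rw [Submodule.span_le, Set.singleton_subset_iff]
      exact mem_perp_iff.2 fun u hu => hv u hu
  have h1 := (Nat.find_spec hex _ hs).trans hWk
  have h2 : W < W ⊔ Submodule.span F {v} := lt_of_le_of_ne le_sup_left fun e =>
    hvW (e ▸ Submodule.mem_sup_right (Submodule.mem_span_singleton_self v))
  have := Submodule.finrank_lt_finrank_of_lt h2
  omega

theorem val_pieces (h : Ctx F q r i S) (e w : ℕ) :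
    padicValNat r (2 * (q ^ e * ∏ x ∈ Finset.range w, (q ^ (2 * (x + 1)) - 1))) = expo q r w ∧
      2 * (q ^ e * ∏ x ∈ Finset.range w, (q ^ (2 * (x + 1)) - 1)) ≠ 0 := by
  haveI := Fact.mk h.hr
  have hq := one_lt_q h
  have hne : ∀ x : ℕ, q ^ (2 * (x + 1)) - 1 ≠ 0 := fun x => by
    have := Nat.one_lt_pow (n := 2 * (x + 1)) (by omega) hq; omega
  have hprod : ∏ x ∈ Finset.range w, (q ^ (2 * (x + 1)) - 1) ≠ 0 := Finset.prod_ne_zero_iff.2 fun x _ => hne x
  refine ⟨?_, mul_ne_zero two_ne_zero (mul_ne_zero (by positivity) hprod)⟩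
  rw [padicValNat.mul two_ne_zero (mul_ne_zero (by positivity) hprod), padicValNat.mul (by positivity) hprod]
  rw [padicValNat.eq_zero_of_not_dvd (fun hd => h.hr2 ((Nat.prime_dvd_prime_iff_eq h.hr Nat.prime_two).1 hd)),
    padicValNat.eq_zero_of_not_dvd (fun hd => h.hrq (h.hr.dvd_of_dvd_pow hd)), zero_add, zero_add]
  induction w with
  | zero => simp [expo]
  | succ w ih =>
    have hp' : ∏ x ∈ Finset.range w, (q ^ (2 * (x + 1)) - 1) ≠ 0 := Finset.prod_ne_zero_iff.2 fun x _ => hne x
    rw [Finset.prod_range_succ, padicValNat.mul hp' (hne w), ih hp', expo, expo, Finset.sum_range_succ]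

theorem sq_factor (hq : 1 < q) (w : ℕ) : q ^ (2 * w) - 1 = (q ^ w - 1) * (q ^ w + 1) := by
  obtain ⟨A, hA⟩ : ∃ A, q ^ w = A + 1 := ⟨q ^ w - 1, by have := Nat.one_le_pow w q (by omega); omega⟩
  rw [hA, Nat.add_sub_cancel, two_mul w, pow_add, hA]
  have : (A + 1) * (A + 1) = A * (A + 1 + 1) + 1 := by ring
  omega

theorem pow_half (h : Ctx F q r i S) {u J : ℕ} (hu : 2 * u = cc i * J) :
    (q : ZMod r) ^ u = if Odd i ∨ Even J then 1 else -1 := by
  haveI := Fact.mk h.hr
  by_cases hio : Odd i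
  · rw [cc, if_neg (Nat.not_even_iff_odd.2 hio)] at hu
    rw [if_pos (Or.inl hio), show u = i * J by rw [Nat.mul_assoc] at hu; omega, pow_mul, h.hi, pow_orderOf_eq_one,
      one_pow]
  · obtain ⟨hh, hhh⟩ := Nat.not_odd_iff_even.1 hio
    rw [cc, if_pos ⟨hh, hhh⟩, hhh, ← two_mul, Nat.mul_assoc] at hu
    have hi1 := h.hi0
    have hneg : (q : ZMod r) ^ hh = -1 := by
      have hsq : ((q : ZMod r) ^ hh) * ((q : ZMod r) ^ hh) = 1 := by
        rw [← pow_add, ← hhh, h.hi, pow_orderOf_eq_one]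
      refine (mul_self_eq_one_iff.1 hsq).resolve_left fun h1 => ?_
      have := Nat.le_of_dvd (by omega) (orderOf_dvd_of_pow_eq_one h1)
      rw [← h.hi] at this
      omega
    rw [show u = hh * J by omega, pow_mul, hneg]
    split_ifs with hc
    · exact (hc.resolve_left hio).neg_one_pow
    · exact (Nat.not_even_iff_odd.1 fun e => hc (Or.inr e)).neg_one_pow

theorem card_orth (h : Ctx F q r i S) (hB : (QuadraticMap.polarBilin Q).Nondegenerate) :
    (∀ w, finrank F V = 2 * w + 1 → padicValNat r (Nat.card (Oc Q)) = expo q r w) ∧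
    (∀ w, finrank F V = 2 * w → 1 ≤ w → Plus Q (⊤ : Submodule F V) →
      padicValNat r (Nat.card (Oc Q)) + padicValNat r (q ^ w + 1) = expo q r w) ∧
    (∀ w, finrank F V = 2 * w → 1 ≤ w → ¬ Plus Q (⊤ : Submodule F V) →
      padicValNat r (Nat.card (Oc Q)) + padicValNat r (q ^ w - 1) = expo q r w) := by
  haveI := Fact.mk h.hr
  have hq1 := one_lt_q h
  haveI : Finite V := Module.finite_of_finite F
  have hne : Nat.card (Oc Q) ≠ 0 := Nat.card_pos.ne'
  obtain ⟨W, hW, hWs, hWmax⟩ := exists_core hB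
  have hle : 2 * finrank F W ≤ finrank F V := by
    have := sing_le (nd_top hB) le_top hWs
    rwa [finrank_top] at this
  have hex : ∀ e, 2 * e < finrank F V → e ≤ finrank F W := fun e he => by
    obtain ⟨U, -, hU, hUd⟩ := exists_sing (nd_top hB) (e := e) (Or.inl (by rwa [finrank_top]))
    exact hUd ▸ hWmax U hU
  have hT := quadType_of_core h.hq hB hW
  refine ⟨fun w hw => ?_, fun w hw hw1 hp => ?_, fun w hw hw1 hp => ?_⟩
  · have h1 := hex w (by omega)
    rw [show finrank F W = w by omega, hw, show 2 * w + 1 - 2 * w = 1 by omega] at hT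
    rcases hT with ⟨h0, -⟩ | ⟨-, -, hO⟩ | ⟨h0, -⟩
    · omega
    · rw [hO, mul_assoc]; exact (val_pieces h _ w).1
    · omega
  · obtain ⟨U, -, hU, hUd⟩ := hp
    rw [finrank_top] at hUd
    have h1 := hWmax U hU
    rw [show finrank F W = w by omega, hw, Nat.sub_self] at hT
    rcases hT with ⟨-, -, hO⟩ | ⟨h0, -⟩ | ⟨h0, -⟩
    · rw [← (val_pieces h (w * (w - 1)) w).1, ← hO, padicValNat.mul hne (by positivity)]
    · omega
    · omega
  · have h1 := hex (w - 1) (by omega)
    have h2 : finrank F W ≠ w := fun e => hp ⟨W, le_top, hWs, by rw [finrank_top, hw, e]⟩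
    rw [show finrank F W = w - 1 by omega, hw, show 2 * w - 2 * (w - 1) = 2 by omega] at hT
    rcases hT with ⟨h0, -⟩ | ⟨h0, -⟩ | ⟨-, -, hO⟩
    · omega
    · omega
    · rw [show w - 1 + 1 = w by omega] at hO
      rw [← (val_pieces h (w * (w - 1)) w).1, ← hO,
        padicValNat.mul hne (by have := Nat.one_lt_pow (n := w) (by omega) hq1; omega)]

/-- No free nondegenerate subspace of greater dimension fits. -/
def Maximal (Q : QuadraticForm F V) (i J : ℕ) : Prop :=
  ¬ (cc i * (J + 1) < finrank F V ∨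
    (cc i * (J + 1) = finrank F V ∧ (Plus Q (⊤ : Submodule F V) ↔ (Odd i ∨ Even (J + 1)))))

/-- The exponent of `r` in the order of a space of free type. -/
theorem ord_free (h : Ctx F q r i S) (hB : (QuadraticMap.polarBilin Q).Nondegenerate) {u J : ℕ}
    (hd : finrank F V = cc i * J) (hu : 2 * u = cc i * J) (ht : Plus Q (⊤ : Submodule F V) ↔ (Odd i ∨ Even J)) :
    expo q r u ≤ padicValNat r (Nat.card (Oc Q)) := by
  haveI := Fact.mk h.hr
  rcases Nat.eq_zero_or_pos u with rfl | hu0
  · simp [expo]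
  have hq1 := one_lt_q h
  obtain ⟨-, hp, hm⟩ := card_orth h hB
  have hsign := pow_half h hu
  have hne : (1 : ZMod r) ≠ -1 := fun e => by
    have h2 : ((2 : ℕ) : ZMod r) = 0 := by push_cast; linear_combination e
    rw [ZMod.natCast_eq_zero_iff] at h2
    exact h.hr2 ((Nat.prime_dvd_prime_iff_eq h.hr Nat.prime_two).1 h2)
  by_cases hP : Plus Q (⊤ : Submodule F V)
  · rw [if_pos (ht.1 hP)] at hsign
    have h1 := hp u (by omega) hu0 hP
    rw [padicValNat.eq_zero_of_not_dvd (n := q ^ u + 1) (fun hd => hne ?_), add_zero] at h1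
    · exact h1.ge
    · rw [← ZMod.natCast_eq_zero_iff, Nat.cast_add, Nat.cast_pow, hsign, Nat.cast_one] at hd
      linear_combination hd
  · rw [if_neg (fun e => hP (ht.2 e))] at hsign
    have h1 := hm u (by omega) hu0 hP
    rw [padicValNat.eq_zero_of_not_dvd (n := q ^ u - 1) (fun hd => hne ?_), add_zero] at h1
    · exact h1.ge
    · rw [← ZMod.natCast_eq_zero_iff, Nat.cast_sub (Nat.one_le_pow _ _ (by omega)), Nat.cast_pow, hsign,
        Nat.cast_one] at hd
      linear_combination -hd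

theorem ord_top (h : Ctx F q r i S) (hB : (QuadraticMap.polarBilin Q).Nondegenerate) {u J : ℕ}
    (hu : 2 * u = cc i * J) (hle : cc i * J ≤ finrank F V) (hmax : Maximal Q i J) :
    padicValNat r (Nat.card (Oc Q)) ≤ expo q r u := by
  haveI := Fact.mk h.hr
  have hq1 := one_lt_q h
  have hc := cc_pos h.hi0
  obtain ⟨ho, hp, hm⟩ := card_orth h hB
  have hlt : finrank F V ≤ cc i * (J + 1) := not_lt.1 fun e => hmax (Or.inl e)
  obtain ⟨g, hg⟩ := (cc_even i).mul_right (J + 1)
  obtain ⟨w, hw | hw⟩ := Nat.even_or_odd' (finrank F V)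
  swap
  · rw [ho w hw, expo_eq h (w := w) (J := J) (by omega) (by omega) u hu]
  rcases Nat.eq_zero_or_pos w with rfl | hw0
  · haveI : Subsingleton V := Module.finrank_zero_iff.1 (by omega : finrank F V = 0)
    haveI : Subsingleton (V ≃ₗ[F] V) := ⟨fun a b => LinearEquiv.ext fun x => Subsingleton.elim _ _⟩
    rw [Nat.card_of_subsingleton (1 : Oc Q), padicValNat.one]
    exact Nat.zero_le _
  by_cases heq : cc i * (J + 1) = 2 * w
  swap
  · rw [← expo_eq h (w := w) (J := J) (by omega) (by omega) u hu]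
    by_cases hP : Plus Q (⊤ : Submodule F V)
    · have := hp w hw hw0 hP; omega
    · have := hm w hw hw0 hP; omega
  have hsign := pow_half h (u := w) heq.symm
  have hmism : ¬ (Plus Q (⊤ : Submodule F V) ↔ (Odd i ∨ Even (J + 1))) := fun e => hmax (Or.inr ⟨by omega, e⟩)
  have hsplit : expo q r w = expo q r u + padicValNat r (q ^ w - 1) + padicValNat r (q ^ w + 1) := by
    obtain ⟨w', rfl⟩ : ∃ w', w = w' + 1 := ⟨w - 1, by omega⟩
    rw [expo, Finset.sum_range_succ, ← expo, expo_eq h (w := w') (J := J) (by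
      have : cc i * J + cc i = cc i * (J + 1) := by ring
      obtain ⟨e, he⟩ := cc_even i
      omega) (by omega) u hu, sq_factor hq1,
      padicValNat.mul (by have := Nat.one_lt_pow (n := w' + 1) (by omega) hq1; omega) (by positivity), Nat.add_assoc]
  by_cases hP : Plus Q (⊤ : Submodule F V)
  · rw [if_neg (fun e => hmism (iff_of_true hP e))] at hsign
    have h1 := hp w hw hw0 hP
    have h2 : padicValNat r (q ^ w - 1) = 0 := padicValNat.eq_zero_of_not_dvd fun hd => by
      rw [← ZMod.natCast_eq_zero_iff, Nat.cast_sub (Nat.one_le_pow _ _ (by omega)), Nat.cast_pow, hsign,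
        Nat.cast_one] at hd
      have h2 : ((2 : ℕ) : ZMod r) = 0 := by push_cast; linear_combination -hd
      rw [ZMod.natCast_eq_zero_iff] at h2
      exact h.hr2 ((Nat.prime_dvd_prime_iff_eq h.hr Nat.prime_two).1 h2)
    omega
  · rw [if_pos (by by_contra e; exact hmism (iff_of_false hP e))] at hsign
    have h1 := hm w hw hw0 hP
    have h2 : padicValNat r (q ^ w + 1) = 0 := padicValNat.eq_zero_of_not_dvd fun hd => by
      rw [← ZMod.natCast_eq_zero_iff, Nat.cast_add, Nat.cast_pow, hsign, Nat.cast_one] at hd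
      have h2 : ((2 : ℕ) : ZMod r) = 0 := by push_cast; linear_combination hd
      rw [ZMod.natCast_eq_zero_iff] at h2
      exact h.hr2 ((Nat.prime_dvd_prime_iff_eq h.hr Nat.prime_two).1 h2)
    omega

/-- An orbit containing a subspace centralised by a maximal free part has length prime to `r`. -/
theorem not_dvd_card (h : Ctx F q r i S) (hB : (QuadraticMap.polarBilin Q).Nondegenerate) {P : Submodule F V → Prop}
    {W₀ : Submodule F V} (hW₀ : P W₀) (hiso : ∀ W, P W → Iso Q W₀ W)
    (hclosed : ∀ (g : V ≃ₗ[F] V), (∀ v, Q (g v) = Q v) → P (W₀.map g.toLinearMap))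
    {R : Submodule F V} (hR : Nd Q R) {J : ℕ} (hRd : finrank F R = cc i * J)
    (hRt : Plus Q R ↔ (Odd i ∨ Even J)) (hmax : Maximal Q i J) (hperp : W₀ ≤ perp (QuadraticMap.polarBilin Q) R) :
    ¬ r ∣ Nat.card {W : Submodule F V // P W} := by
  classical
  haveI := Fact.mk h.hr
  haveI : Finite V := Module.finite_of_finite F
  have hI := isForm_quadratic Q hB
  have hpol : ∀ g : V ≃ₗ[F] V, (∀ v, Q (g v) = Q v) → g ∈ Oc Q := fun g hg =>
    ⟨fun u v => by simp [QuadraticMap.polar, ← map_add, hg], hg⟩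
  letI : MulAction (Oc Q) (Submodule F V) :=
    { smul := fun g W => W.map g.1.toLinearMap
      one_smul := fun W => Submodule.map_id W
      mul_smul := fun g k W => Submodule.map_comp _ _ W }
  have hsmul : ∀ (g : Oc Q) (W : Submodule F V), g • W = W.map g.1.toLinearMap := fun _ _ => rfl
  have horb : MulAction.orbit (Oc Q) W₀ = {W : Submodule F V | P W} := by
    ext W
    constructor
    · rintro ⟨g, rfl⟩
      exact hclosed g.1 g.2.2
    · intro hW
      obtain ⟨g, hg, hgW⟩ := exists_map_eq hB (hiso W hW)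
      exact ⟨⟨g, hpol g hg⟩, hgW⟩
  have hidx : (MulAction.stabilizer (Oc Q) W₀).index = Nat.card {W : Submodule F V // P W} := by
    rw [MulAction.index_stabilizer, horb]
    rfl
  -- the isometries of `R` fix `W₀`
  have hc : IsCompl R (perp (QuadraticMap.polarBilin Q) R) := nd_isCompl hB hR
  let e := Submodule.prodEquivOfIsCompl R _ hc
  let ext : (R ≃ₗ[F] R) → (V ≃ₗ[F] V) := fun a => (e.symm.trans (a.prodCongr (LinearEquiv.refl F _))).trans e
  have hext : ∀ a (x : R) (y : perp (QuadraticMap.polarBilin Q) R), ext a ((x : V) + y) = (a x : V) + y :=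
    fun a x y => by
      show e ((a.prodCongr (LinearEquiv.refl F _)) (e.symm (e (x, y)))) = _
      rw [e.symm_apply_apply]; rfl
  have hextQ : ∀ a : Oc (Q.comp R.subtype), ∀ v, Q (ext a.1 v) = Q v := fun a v => by
    obtain ⟨⟨x, y⟩, rfl⟩ := e.surjective v
    show Q (ext a.1 ((x : V) + y)) = Q ((x : V) + y)
    rw [hext, Q_add_of_perp (Subtype.prop _) y.2, Q_add_of_perp x.2 y.2]
    congr 1
    exact a.2.2 x
  let φ : Oc (Q.comp R.subtype) →* Oc Q :=
    { toFun := fun a => ⟨ext a.1, hpol _ (hextQ a)⟩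
      map_one' := Subtype.ext (LinearEquiv.ext fun v => by
        obtain ⟨⟨x, y⟩, rfl⟩ := e.surjective v
        exact hext _ x y)
      map_mul' := fun a b => Subtype.ext (LinearEquiv.ext fun v => by
        obtain ⟨⟨x, y⟩, rfl⟩ := e.surjective v
        show ext (a.1 * b.1) ((x : V) + y) = ext a.1 (ext b.1 ((x : V) + y))
        rw [hext, hext, hext]
        rfl) }
  have hφinj : Function.Injective φ := fun a b hab => Subtype.ext (LinearEquiv.ext fun x => by
    have h1 := congrArg (fun g : Oc Q => g.1 ((x : V) + ((0 : perp (QuadraticMap.polarBilin Q) R) : V))) hab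
    simp only [φ, MonoidHom.coe_mk, OneHom.coe_mk] at h1
    rw [hext, hext, Submodule.coe_zero, add_zero, add_zero] at h1
    exact Subtype.ext h1)
  have hle : φ.range ≤ MulAction.stabilizer (Oc Q) W₀ := by
    rintro _ ⟨a, rfl⟩
    rw [MulAction.mem_stabilizer_iff, hsmul]
    have hfix : ∀ w ∈ W₀, (φ a).1 w = w := fun w hw => by
      have := hext a.1 0 ⟨w, hperp hw⟩
      simpa [φ] using this
    refine le_antisymm (by rintro _ ⟨w, hw, rfl⟩; rw [LinearEquiv.coe_coe, hfix w hw]; exact hw)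
      fun w hw => ⟨w, hw, hfix w hw⟩
  obtain ⟨u, hu⟩ := (cc_even i).mul_right J
  rw [← two_mul] at hu
  have hRt' : Plus (Q.comp R.subtype) (⊤ : Submodule F R) ↔ (Odd i ∨ Even J) := by
    rw [← hRt]
    constructor
    · rintro ⟨U, -, hU, hUd⟩
      refine ⟨U.map R.subtype, Submodule.map_subtype_le _ _, by rintro _ ⟨x, hx, rfl⟩; exact hU x hx, ?_⟩
      rw [Submodule.finrank_map_subtype_eq, hUd, finrank_top]
    · rintro ⟨U, hUW, hU, hUd⟩
      refine ⟨U.comap R.subtype, le_top, fun x hx => hU _ hx, ?_⟩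
      rw [(Submodule.comapSubtypeEquivOfLe hUW).finrank_eq, finrank_top, hUd]
  have hlow := ord_free h (res_nondeg hR) hRd hu.symm hRt'
  have hhigh := ord_top h hB hu.symm (hRd ▸ Submodule.finrank_le R) hmax
  obtain ⟨k, hk⟩ : Nat.card (Oc (Q.comp R.subtype)) ∣ Nat.card (MulAction.stabilizer (Oc Q) W₀) :=
    (Nat.card_congr (MonoidHom.ofInjective hφinj).toEquiv) ▸ Subgroup.card_dvd_of_le hle
  have hmul := (MulAction.stabilizer (Oc Q) W₀).index_mul_card
  rw [hidx] at hmul
  intro hd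
  haveI : Finite {W : Submodule F V // P W} := Subtype.finite
  have hN : Nat.card {W : Submodule F V // P W} ≠ 0 := by
    haveI : Nonempty {W : Submodule F V // P W} := ⟨⟨W₀, hW₀⟩⟩
    exact Nat.card_pos.ne'
  have hk0 : k ≠ 0 := fun e => by
    rw [e, mul_zero] at hk
    exact (Nat.card_pos (α := MulAction.stabilizer (Oc Q) W₀)).ne' hk
  have h1 := congrArg (padicValNat r) hmul
  rw [padicValNat.mul hN Nat.card_pos.ne', hk, padicValNat.mul Nat.card_pos.ne' hk0] at h1
  have h2 := one_le_padicValNat_of_dvd hN hd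
  omega

end Order

end Cfsg.Agent.Linear.OrthOrbit
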