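import Cfsg.Agent.Linear.OrthTypes
import Cfsg.Agent.KnownB.Proj.Orth.GraphField
import Cfsg.Agent.Forms.Witt
import Cfsg.Agent.Forms.Group

/-!
# Nondegenerate and singular subspaces of quadratic spaces over finite fields
-/

set_option autoImplicit false
set_option linter.unusedSectionVars false

namespace Cfsg.Agent.Linear.OrthSpaces

open Module Cfsg.Agent.Forms Cfsg.Agent.KnownB.Proj.Orth Cfsg.Agent.Linear.OrthTypes

variable {F V : Type*} [Field F] [Fintype F] [AddCommGroup V] [Module F V] [FiniteDimensional F V]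
  {Q : QuadraticForm F V}

local notation "BQ" => QuadraticMap.polarBilin Q

/-- The polar form is nondegenerate on `W`. -/
def Nd (Q : QuadraticForm F V) (W : Submodule F V) : Prop :=
  ∀ w ∈ W, (∀ x ∈ W, QuadraticMap.polar Q w x = 0) → w = 0

/-- `Q` vanishes on `W`. -/
def Sing (Q : QuadraticForm F V) (W : Submodule F V) : Prop := ∀ w ∈ W, Q w = 0

/-- `W` has a singular subspace of half dimension. -/
def Plus (Q : QuadraticForm F V) (W : Submodule F V) : Prop :=
  ∃ U ≤ W, Sing Q U ∧ 2 * finrank F U = finrank F W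

/-- `W` and `W'` are isometric. -/
def Iso (Q : QuadraticForm F V) (W W' : Submodule F V) : Prop :=
  ∃ e : W ≃ₗ[F] W', ∀ w : W, Q ((e w : W') : V) = Q (w : V)

theorem polar_sing {W : Submodule F V} (hW : Sing Q W) {x y : V} (hx : x ∈ W) (hy : y ∈ W) :
    QuadraticMap.polar Q x y = 0 := by
  simp [QuadraticMap.polar, hW _ (W.add_mem hx hy), hW _ hx, hW _ hy]

theorem polar_res (W : Submodule F V) (x y : W) :
    QuadraticMap.polarBilin (Q.comp W.subtype) x y = QuadraticMap.polar Q (x : V) (y : V) := by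
  simp [QuadraticMap.polar]

theorem res_nondeg {W : Submodule F V} (hW : Nd Q W) :
    (QuadraticMap.polarBilin (Q.comp W.subtype)).Nondegenerate := by
  refine ⟨fun x hx => Subtype.ext (hW x x.2 fun y hy => ?_), fun x hx => Subtype.ext (hW x x.2 fun y hy => ?_)⟩
  · rw [← polar_res W x ⟨y, hy⟩]; exact hx _
  · rw [QuadraticMap.polar_comm, ← polar_res W ⟨y, hy⟩ x]; exact hx _

theorem nd_bot : Nd Q (⊥ : Submodule F V) := fun w hw _ => (Submodule.mem_bot F).1 hw

theorem plus_bot : Plus Q (⊥ : Submodule F V) :=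
  ⟨⊥, le_rfl, fun w hw => by rw [(Submodule.mem_bot F).1 hw, map_zero], by simp⟩

theorem nd_of_ge {W : Submodule F V} (hB : (BQ).Nondegenerate) (hW : W = ⊤) : Nd Q W := fun w _ h =>
  hB.1 w fun x => h x (hW ▸ trivial)

theorem nd_top (hB : (BQ).Nondegenerate) : Nd Q (⊤ : Submodule F V) := nd_of_ge hB rfl

theorem nd_isCompl (hB : (BQ).Nondegenerate) {U : Submodule F V} (hU : Nd Q U) : IsCompl U (perp BQ U) :=
  (isForm_quadratic Q hB).isCompl_perp hU

theorem mem_perp_iff {U : Submodule F V} {v : V} :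
    v ∈ perp BQ U ↔ ∀ u ∈ U, QuadraticMap.polar Q u v = 0 := Iff.rfl

theorem nd_split (hB : (BQ).Nondegenerate) {U W : Submodule F V} (hU : Nd Q U) (hW : Nd Q W) (hUW : U ≤ W) :
    Nd Q (W ⊓ perp BQ U) ∧ finrank F U + finrank F ↥(W ⊓ perp BQ U) = finrank F W ∧
      U ⊔ (W ⊓ perp BQ U) = W := by
  have hc := nd_isCompl hB hU
  have hsup : U ⊔ (W ⊓ perp BQ U) = W := by
    rw [inf_comm W, ← sup_inf_assoc_of_le _ hUW, hc.sup_eq_top, top_inf_eq]
  refine ⟨fun w hw h => hW w hw.1 fun x hx => ?_, ?_, hsup⟩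
  · rw [← hsup] at hx
    obtain ⟨u, hu, y, hy, rfl⟩ := Submodule.mem_sup.1 hx
    rw [QuadraticMap.polar_add_right, h y hy, add_zero, QuadraticMap.polar_comm]
    exact mem_perp_iff.1 hw.2 u hu
  · have h := Submodule.finrank_sup_add_finrank_inf_eq U (W ⊓ perp BQ U)
    rw [hsup, show U ⊓ (W ⊓ perp BQ U) = ⊥ from le_bot_iff.1 (hc.inf_eq_bot ▸ inf_le_inf_left _ inf_le_right),
      finrank_bot, add_zero] at h
    exact h.symm

theorem nd_sup {U U' : Submodule F V} (hU : Nd Q U) (hU' : Nd Q U') (h : U' ≤ perp BQ U) : Nd Q (U ⊔ U') := by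
  intro w hw hz
  obtain ⟨a, ha, b, hb, rfl⟩ := Submodule.mem_sup.1 hw
  have ha0 : a = 0 := hU a ha fun x hx => by
    have h1 := hz x (Submodule.mem_sup_left hx)
    rwa [QuadraticMap.polar_add_left, QuadraticMap.polar_comm ⇑Q b x, mem_perp_iff.1 (h hb) x hx, add_zero] at h1
  subst ha0
  rw [zero_add] at hz ⊢
  exact hU' b hb fun x hx => hz x (Submodule.mem_sup_right hx)

theorem inf_bot (hB : (BQ).Nondegenerate) {U U' : Submodule F V} (hU : Nd Q U) (h : U' ≤ perp BQ U) : U ⊓ U' = ⊥ :=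
  le_bot_iff.1 ((nd_isCompl hB hU).inf_eq_bot ▸ inf_le_inf_left _ h)

theorem finrank_sup (hB : (BQ).Nondegenerate) {U U' : Submodule F V} (hU : Nd Q U) (h : U' ≤ perp BQ U) :
    finrank F ↥(U ⊔ U') = finrank F U + finrank F U' := by
  have := Submodule.finrank_sup_add_finrank_inf_eq U U'
  rw [inf_bot hB hU h, finrank_bot, add_zero] at this
  exact this

theorem Q_add_of_perp {U : Submodule F V} {u v : V} (hu : u ∈ U) (hv : v ∈ perp BQ U) : Q (u + v) = Q u + Q v := by
  rw [QuadraticMap.map_add Q, mem_perp_iff.1 hv u hu, add_zero]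

theorem sing_sup {U U' : Submodule F V} (hU : Sing Q U) (hU' : Sing Q U') (h : U' ≤ perp BQ U) : Sing Q (U ⊔ U') := by
  intro w hw
  obtain ⟨a, ha, b, hb, rfl⟩ := Submodule.mem_sup.1 hw
  rw [Q_add_of_perp ha (h hb), hU a ha, hU' b hb, add_zero]

/-- Singular subspaces of nondegenerate spaces are at most halves. -/
theorem sing_le {U W : Submodule F V} (hW : Nd Q W) (hUW : U ≤ W) (hU : Sing Q U) :
    2 * finrank F U ≤ finrank F W := by
  have hI := isForm_quadratic (Q.comp W.subtype) (res_nondeg hW)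
  have h := hI.finrank_le_of_le_perp (X := U.comap W.subtype) fun y hy x hx => by
    rw [polar_res]
    exact polar_sing hU hx hy
  rwa [(Submodule.comapSubtypeEquivOfLe hUW).finrank_eq] at h

theorem plus_iff {W : Submodule F V} (hW : Nd Q W) {w : ℕ} (hd : finrank F W = 2 * w) :
    Plus Q W ↔ IsPlus (Q.comp W.subtype) w := by
  constructor
  · rintro ⟨U, hUW, hU, hUd⟩
    refine isPlus_of_singular (res_nondeg hW) hd (W := U.comap W.subtype) ?_ fun x hx => hU _ hx
    rw [(Submodule.comapSubtypeEquivOfLe hUW).finrank_eq]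
    omega
  · rintro ⟨e, he⟩
    let j : (Fin w → F) →ₗ[F] V := W.subtype ∘ₗ e.toLinearMap ∘ₗ
      { toFun := fun f => Sum.elim f 0
        map_add' := fun f g => by funext s; rcases s with s | s <;> simp
        map_smul' := fun c f => by funext s; rcases s with s | s <;> simp }
    have hji : Function.Injective j := fun f g h => by
      have := e.injective (W.injective_subtype h)
      funext i
      simpa using congrFun this (Sum.inl i)
    refine ⟨LinearMap.range j, ?_, ?_, ?_⟩
    · rintro _ ⟨f, rfl⟩; exact (e _).2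
    · rintro _ ⟨f, rfl⟩
      refine (he _).trans ?_
      simp [Cfsg.quadFormPlus]
    · rw [LinearMap.finrank_range_of_inj hji, finrank_fin_fun]; omega

theorem not_plus_iff {W : Submodule F V} (hW : Nd Q W) {w : ℕ} (hd : finrank F W = 2 * w) :
    ¬ Plus Q W ↔ 1 ≤ w ∧ IsMinus (Q.comp W.subtype) (w - 1) := by
  constructor
  · intro h
    exact (classify (res_nondeg hW) hd).resolve_left fun h' => h ((plus_iff hW hd).2 h')
  · rintro ⟨h1, h2⟩ h
    have h' := (plus_iff hW hd).1 h
    rw [show w = (w - 1) + 1 by omega] at h'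
    exact not_plus_and_minus rfl h' h2

/-- Even-dimensional nondegenerate spaces of the same type are isometric. -/
theorem iso_of_type {W W' : Submodule F V} (hW : Nd Q W) (hW' : Nd Q W') (hd : finrank F W = finrank F W')
    (he : Even (finrank F W)) (ht : Plus Q W ↔ Plus Q W') : Iso Q W W' := by
  obtain ⟨w, hw⟩ := he
  rw [← two_mul] at hw
  have hw' : finrank F W' = 2 * w := hd ▸ hw
  by_cases h : Plus Q W
  · obtain ⟨e, he⟩ := (plus_iff hW hw).1 h
    obtain ⟨e', he'⟩ := (plus_iff hW' hw').1 (ht.1 h)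
    refine ⟨e.symm.trans e', fun x => ?_⟩
    obtain ⟨y, rfl⟩ := e.surjective x
    show (Q.comp W'.subtype) (e' (e.symm (e y))) = (Q.comp W.subtype) (e y)
    rw [e.symm_apply_apply, he', he]
  · obtain ⟨-, a, b, hab, e, he⟩ := (not_plus_iff hW hw).1 h
    obtain ⟨-, a', b', hab', e', he'⟩ := (not_plus_iff hW' hw').1 fun h' => h (ht.2 h')
    obtain ⟨M, hM⟩ := exists_plane_change (w - 1) hab' hab
    refine ⟨e.symm.trans (M.trans e'), fun x => ?_⟩
    obtain ⟨y, rfl⟩ := e.surjective x
    show (Q.comp W'.subtype) (e' (M (e.symm (e y)))) = (Q.comp W.subtype) (e y)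
    rw [e.symm_apply_apply, he', hM, he]

theorem map_isom {W : Submodule F V} {g : V ≃ₗ[F] V} (hg : ∀ v, Q (g v) = Q v) :
    (Nd Q W → Nd Q (W.map g.toLinearMap)) ∧ (Sing Q W → Sing Q (W.map g.toLinearMap)) := by
  refine ⟨fun h => ?_, fun h => by rintro _ ⟨x, hx, rfl⟩; exact (hg x).trans (h x hx)⟩
  rintro _ ⟨x, hx, rfl⟩ h'
  rw [LinearEquiv.coe_coe, h x hx fun y hy => ?_, map_zero]
  rw [← h' (g y) ⟨y, hy, rfl⟩]
  simp [QuadraticMap.polar, ← map_add, hg]

theorem plus_map {W : Submodule F V} {g : V ≃ₗ[F] V} (hg : ∀ v, Q (g v) = Q v) (h : Plus Q W) :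
    Plus Q (W.map g.toLinearMap) := by
  obtain ⟨U, hUW, hU, hUd⟩ := h
  refine ⟨U.map g.toLinearMap, Submodule.map_mono hUW, (map_isom hg).2 hU, ?_⟩
  rw [LinearEquiv.finrank_map_eq, LinearEquiv.finrank_map_eq]; exact hUd

theorem plus_of_iso {W W' : Submodule F V} (h : Iso Q W W') (hp : Plus Q W) : Plus Q W' := by
  obtain ⟨e, he⟩ := h
  obtain ⟨U, hUW, hU, hUd⟩ := hp
  let j : U →ₗ[F] V := W'.subtype ∘ₗ e.toLinearMap ∘ₗ Submodule.inclusion hUW
  have hji : Function.Injective j := fun x y hxy =>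
    Submodule.inclusion_injective hUW (e.injective (W'.injective_subtype hxy))
  refine ⟨LinearMap.range j, ?_, ?_, ?_⟩
  · rintro _ ⟨x, rfl⟩; exact (e _).2
  · rintro _ ⟨x, rfl⟩; exact (he _).trans (hU _ x.2)
  · rw [LinearMap.finrank_range_of_inj hji, hUd]; exact e.finrank_eq

/-- Witt: an isometry of `V` taking `W` to `W'`. -/
theorem exists_map_eq (hB : (BQ).Nondegenerate) {W W' : Submodule F V} (h : Iso Q W W') :
    ∃ g : V ≃ₗ[F] V, (∀ v, Q (g v) = Q v) ∧ W.map g.toLinearMap = W' := by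
  obtain ⟨e, he⟩ := h
  obtain ⟨g, hg⟩ := (isForm_quadratic Q hB).exists_isom_extend W (W'.subtype ∘ₗ e.toLinearMap)
    (W'.injective_subtype.comp e.injective)
    (fun x y => by
      show QuadraticMap.polar Q ((e x : W') : V) ((e y : W') : V) = QuadraticMap.polar Q (x : V) (y : V)
      simp only [QuadraticMap.polar, ← Submodule.coe_add, ← map_add, he])
    he
  refine ⟨g.1, fun v => g.2.2 v, Submodule.eq_of_le_of_finrank_eq ?_ ?_⟩
  · rintro _ ⟨x, hx, rfl⟩
    rw [LinearEquiv.coe_coe, hg ⟨x, hx⟩]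
    exact (e _).2
  · rw [LinearEquiv.finrank_map_eq]; exact e.finrank_eq

theorem iso_of_sing {W W' : Submodule F V} (hW : Sing Q W) (hW' : Sing Q W') (hd : finrank F W = finrank F W') :
    Iso Q W W' :=
  ⟨LinearEquiv.ofFinrankEq W W' hd, fun w => by rw [hW _ w.2, hW' _ (Subtype.prop _)]⟩

/-- Anisotropic planes are nondegenerate and not of plus type. -/
theorem plane_of_aniso {P : Submodule F V} (hd : finrank F P = 2) (h : ∀ v ∈ P, Q v = 0 → v = 0) :
    Nd Q P ∧ ¬ Plus Q P := by
  refine ⟨fun w hw hwp => ?_, ?_⟩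
  · by_cases h2 : (2 : F) = 0
    · by_contra hw0
      have hne : ¬ P ≤ Submodule.span F {w} := fun hle => by
        have h1 := Submodule.finrank_mono hle
        rw [hd, finrank_span_singleton hw0] at h1
        omega
      obtain ⟨x, hxP, hx⟩ := SetLike.not_le_iff_exists.1 hne
      obtain ⟨s, hs⟩ := exists_sq_of_two_eq_zero h2 (Q x)
      obtain ⟨t, ht⟩ := exists_sq_of_two_eq_zero h2 (Q w)
      have hz : Q (t • x + s • w) = 0 := by
        rw [QuadraticMap.map_add Q, QuadraticMap.map_smul, QuadraticMap.map_smul, QuadraticMap.polar_smul_left,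
          QuadraticMap.polar_smul_right, QuadraticMap.polar_comm, hwp x hxP, ← hs, ← ht]
        simp only [smul_eq_mul]
        linear_combination (t ^ 2 * s ^ 2) * h2
      have h0 := h _ (P.add_mem (P.smul_mem t hxP) (P.smul_mem s hw)) hz
      by_cases ht0 : t = 0
      · exact hw0 (h w hw (by rw [← ht, ht0]; ring))
      · refine hx (Submodule.mem_span_singleton.2 ⟨-(t⁻¹ * s), ?_⟩)
        have h1 := congrArg (fun v => t⁻¹ • v) h0
        simp only [smul_add, smul_smul, inv_mul_cancel₀ ht0, one_smul, smul_zero] at h1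
        rw [neg_smul]
        exact (eq_neg_of_add_eq_zero_left h1).symm
    · refine h w hw ?_
      have h1 := hwp w hw
      rw [QuadraticMap.polar_self, nsmul_eq_mul, Nat.cast_ofNat] at h1
      exact (mul_eq_zero.1 h1).resolve_left h2
  · rintro ⟨U, hUP, hU, hUd⟩
    have hU0 : U = ⊥ := le_bot_iff.1 fun u hu => (Submodule.mem_bot F).2 (h u (hUP hu) (hU u hu))
    rw [hU0, finrank_bot] at hUd
    omega

/-- A Witt decomposition inside a nondegenerate subspace. -/
theorem exists_witt {X : Submodule F V} (hX : Nd Q X) :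
    ∃ (k d : ℕ) (e f : Fin k → V) (g : Fin d → V), d ≤ 2 ∧ 2 * k + d = finrank F X ∧
      (∀ i, e i ∈ X ∧ f i ∈ X) ∧ (∀ r, g r ∈ X) ∧ (∀ i, Q (e i) = 0 ∧ Q (f i) = 0) ∧
      (∀ i j, QuadraticMap.polar Q (e i) (f j) = if i = j then 1 else 0) ∧
      (∀ i j, QuadraticMap.polar Q (e i) (e j) = 0) ∧ (∀ i j, QuadraticMap.polar Q (f i) (f j) = 0) ∧
      (∀ i r, QuadraticMap.polar Q (e i) (g r) = 0) ∧ (∀ i r, QuadraticMap.polar Q (f i) (g r) = 0) ∧
      LinearIndependent F (Sum.elim (Sum.elim e f) g) ∧ (∀ c : Fin d → F, Q (∑ r, c r • g r) = 0 → c = 0) := by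
  obtain ⟨k, d, b, hd, hb⟩ := KnownB.exists_isWitt (Q.comp X.subtype) (res_nondeg hX)
  have hpol : ∀ x y : X, QuadraticMap.polar (Q.comp X.subtype) x y = QuadraticMap.polar Q (x : V) (y : V) :=
    fun x y => polar_res X x y
  refine ⟨k, d, fun i => b (Sum.inl (Sum.inl i)), fun i => b (Sum.inl (Sum.inr i)), fun r => b (Sum.inr r), hd, ?_,
    fun i => ⟨Subtype.prop _, Subtype.prop _⟩, fun r => Subtype.prop _, fun i => ⟨hb.sing (Sum.inl i), hb.sing (Sum.inr i)⟩,
    fun i j => by rw [← hpol, hb.ef], fun i j => by rw [← hpol, hb.ee], fun i j => by rw [← hpol, hb.ff],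
    fun i r => by rw [← hpol, hb.perp], fun i r => by rw [← hpol, hb.perp], ?_, fun c hc => hb.aniso c ?_⟩
  · rw [finrank_eq_card_basis b, Fintype.card_sum, Fintype.card_sum, Fintype.card_fin, Fintype.card_fin]; omega
  · have hfun : Sum.elim (Sum.elim (fun i => (b (Sum.inl (Sum.inl i)) : V)) (fun i => (b (Sum.inl (Sum.inr i)) : V)))
        (fun r => (b (Sum.inr r) : V)) = X.subtype ∘ b := by
      funext s; rcases s with (s | s) | s <;> rfl
    rw [hfun]
    exact b.linearIndependent.map' X.subtype (Submodule.ker_subtype X)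
  · simpa using hc

/-- Singular subspaces of every admissible dimension. -/
theorem exists_sing {X : Submodule F V} (hX : Nd Q X) {e : ℕ}
    (he : 2 * e < finrank F X ∨ (2 * e = finrank F X ∧ Plus Q X)) :
    ∃ U ≤ X, Sing Q U ∧ finrank F U = e := by
  classical
  rcases he with he | ⟨he, U, hUX, hU, hUd⟩
  swap
  · exact ⟨U, hUX, hU, by omega⟩
  obtain ⟨k, d, ev, fv, gv, hd, hdim, hm, -, hs, -, hee, -, -, -, hli, -⟩ := exists_witt hX
  let v : Fin e → V := fun i => ev (Fin.castLE (by omega) i)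
  have hv : LinearIndependent F v :=
    hli.comp (fun i => Sum.inl (Sum.inl (Fin.castLE _ i)))
      (Sum.inl_injective.comp (Sum.inl_injective.comp (Fin.castLE_injective _)))
  refine ⟨Submodule.span F (Set.range v), Submodule.span_le.2 (by rintro _ ⟨i, rfl⟩; exact (hm _).1), fun x hx => ?_,
    by rw [finrank_span_eq_card hv, Fintype.card_fin]⟩
  obtain ⟨c, rfl⟩ := (Submodule.mem_span_range_iff_exists_fun F).1 hx
  rw [QuadraticMap.map_sum Q, Finset.sum_eq_zero (fun i _ => by
    rw [QuadraticMap.map_smul, (hs _).1, smul_zero]), zero_add]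
  refine Finset.sum_eq_zero fun p hp => ?_
  induction p using Sym2.inductionOn with
  | _ i j =>
    simp only [QuadraticMap.polarSym2, Sym2.map_mk, Sym2.lift_mk]
    rw [QuadraticMap.polar_smul_left, QuadraticMap.polar_smul_right, hee, smul_zero, smul_zero]

/-- The hyperbolic space on some of the pairs of a Witt decomposition. -/
theorem pairs_space {k : ℕ} {ev fv : Fin k → V} (hs : ∀ i, Q (ev i) = 0 ∧ Q (fv i) = 0)
    (hef : ∀ i j, QuadraticMap.polar Q (ev i) (fv j) = if i = j then 1 else 0)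
    (hee : ∀ i j, QuadraticMap.polar Q (ev i) (ev j) = 0) (hff : ∀ i j, QuadraticMap.polar Q (fv i) (fv j) = 0) :
    Nd Q (Submodule.span F (Set.range (Sum.elim ev fv))) ∧ Plus Q (Submodule.span F (Set.range (Sum.elim ev fv))) ∧
      finrank F ↥(Submodule.span F (Set.range (Sum.elim ev fv))) = 2 * k := by
  classical
  have hpe : ∀ (c : Fin k ⊕ Fin k → F) (j : Fin k),
      QuadraticMap.polarBilin Q (ev j) (∑ s, c s • Sum.elim ev fv s) = c (Sum.inr j) := fun c j => by
    rw [map_sum, Fintype.sum_sum_type]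
    simp [hee, hef]
  have hpf : ∀ (c : Fin k ⊕ Fin k → F) (j : Fin k),
      QuadraticMap.polarBilin Q (fv j) (∑ s, c s • Sum.elim ev fv s) = c (Sum.inl j) := fun c j => by
    rw [map_sum, Fintype.sum_sum_type]
    simp [hff, QuadraticMap.polar_comm Q (fv j), hef]
  have hli : LinearIndependent F (Sum.elim ev fv) := Fintype.linearIndependent_iff.2 fun c hc s => by
    rcases s with j | j
    · have h1 := hpf c j; rw [hc, map_zero] at h1; exact h1.symm
    · have h1 := hpe c j; rw [hc, map_zero] at h1; exact h1.symm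
  have hdim : finrank F ↥(Submodule.span F (Set.range (Sum.elim ev fv))) = 2 * k := by
    rw [finrank_span_eq_card hli, Fintype.card_sum, Fintype.card_fin, two_mul]
  refine ⟨fun w hw hz => ?_, ⟨Submodule.span F (Set.range ev), ?_, ?_, ?_⟩, hdim⟩
  · obtain ⟨c, rfl⟩ := (Submodule.mem_span_range_iff_exists_fun F).1 hw
    refine Finset.sum_eq_zero fun s _ => ?_
    rcases s with j | j
    · rw [← hpf c j, QuadraticMap.polarBilin_apply_apply, QuadraticMap.polar_comm,
        hz (fv j) (Submodule.subset_span ⟨Sum.inr j, rfl⟩), zero_smul]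
    · rw [← hpe c j, QuadraticMap.polarBilin_apply_apply, QuadraticMap.polar_comm,
        hz (ev j) (Submodule.subset_span ⟨Sum.inl j, rfl⟩), zero_smul]
  · exact Submodule.span_mono (by rintro _ ⟨i, rfl⟩; exact ⟨Sum.inl i, rfl⟩)
  · intro x hx
    obtain ⟨c, rfl⟩ := (Submodule.mem_span_range_iff_exists_fun F).1 hx
    rw [QuadraticMap.map_sum Q, Finset.sum_eq_zero (fun i _ => by
      rw [QuadraticMap.map_smul, (hs _).1, smul_zero]), zero_add]
    refine Finset.sum_eq_zero fun p hp => ?_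
    induction p using Sym2.inductionOn with
    | _ i j =>
      simp only [QuadraticMap.polarSym2, Sym2.map_mk, Sym2.lift_mk]
      rw [QuadraticMap.polar_smul_left, QuadraticMap.polar_smul_right, hee, smul_zero, smul_zero]
  · have hev : LinearIndependent F ev := hli.comp Sum.inl Sum.inl_injective
    rw [finrank_span_eq_card hev, Fintype.card_fin, hdim]

/-- A hyperbolic subspace. -/
theorem exists_hyp {X : Submodule F V} (hX : Nd Q X) {u : ℕ}
    (hu : 2 * u < finrank F X ∨ (2 * u = finrank F X ∧ Plus Q X)) :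
    ∃ U ≤ X, Nd Q U ∧ Plus Q U ∧ finrank F U = 2 * u := by
  classical
  rcases hu with hu | ⟨hu, hp⟩
  swap
  · exact ⟨X, le_rfl, hX, hp, hu.symm⟩
  obtain ⟨k, d, ev, fv, gv, hd, hdim, hm, -, hs, hef, hee, hff, -, -, -, -⟩ := exists_witt hX
  have huk : u ≤ k := by omega
  obtain ⟨h1, h2, h3⟩ := pairs_space (ev := fun i : Fin u => ev (Fin.castLE huk i))
    (fv := fun i : Fin u => fv (Fin.castLE huk i)) (fun i => hs _)
    (fun i j => by rw [hef]; exact if_congr (Fin.castLE_injective huk).eq_iff rfl rfl)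
    (fun i j => hee _ _) (fun i j => hff _ _)
  exact ⟨_, Submodule.span_le.2 (by rintro _ ⟨i | i, rfl⟩; exacts [(hm _).1, (hm _).2]), h1, h2, h3⟩

/-- An anisotropic plane. -/
theorem exists_plane {X : Submodule F V} (hX : Nd Q X)
    (h3 : 3 ≤ finrank F X ∨ (finrank F X = 2 ∧ ¬ Plus Q X)) :
    ∃ P ≤ X, finrank F P = 2 ∧ ∀ v ∈ P, Q v = 0 → v = 0 := by
  classical
  have key : ∀ g : Fin 2 → V, (∀ r, g r ∈ X) → (∀ c : Fin 2 → F, Q (∑ r, c r • g r) = 0 → c = 0) →
      ∃ P ≤ X, finrank F P = 2 ∧ ∀ v ∈ P, Q v = 0 → v = 0 := by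
    intro g hg ha
    have hli : LinearIndependent F g := Fintype.linearIndependent_iff.2 fun c hc s => by
      rw [ha c (by rw [hc, map_zero])]; rfl
    refine ⟨Submodule.span F (Set.range g), Submodule.span_le.2 (by rintro _ ⟨r, rfl⟩; exact hg r),
      by rw [finrank_span_eq_card hli, Fintype.card_fin], fun v hv hv0 => ?_⟩
    obtain ⟨c, rfl⟩ := (Submodule.mem_span_range_iff_exists_fun F).1 hv
    rw [ha c hv0]
    simp
  obtain ⟨k, d, ev, fv, gv, hd, hdim, hm, hgm, hs, hef, hee, hff, heg, hfg, hli, han⟩ := exists_witt hX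
  rcases (show d = 2 ∨ d = 1 ∨ d = 0 by omega) with rfl | rfl | rfl
  · exact key gv hgm han
  · have hk : 1 ≤ k := by omega
    set i0 : Fin k := ⟨0, hk⟩
    set c := Q (gv 0) with hc
    have hc0 : c ≠ 0 := fun h => by
      have := congrFun (han (fun _ => 1) (by simpa using h)) 0
      simp at this
    have h2 : (2 : F) ≠ 0 := by
      intro h2
      refine hli.ne_zero (Sum.inr 0) (hX _ (hgm 0) fun x hx => ?_)
      have hsp : Submodule.span F (Set.range (Sum.elim (Sum.elim ev fv) gv)) = X :=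
        Submodule.eq_of_le_of_finrank_eq (Submodule.span_le.2 (by
          rintro _ ⟨(i | i) | r, rfl⟩
          exacts [(hm _).1, (hm _).2, hgm _])) (by
            rw [finrank_span_eq_card hli]; simp; omega)
      rw [← hsp] at hx
      induction hx using Submodule.span_induction with
      | mem y hy =>
        obtain ⟨(i | i) | r, rfl⟩ := hy
        · simp [QuadraticMap.polar_comm Q (gv 0), heg]
        · simp [QuadraticMap.polar_comm Q (gv 0), hfg]
        · rw [Sum.elim_inr, Sum.elim_inr, Fin.fin_one_eq_zero r, QuadraticMap.polar_self]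
          simp [h2]
      | zero => simp
      | add y z _ _ hy hz => rw [QuadraticMap.polar_add_right, hy, hz, add_zero]
      | smul a y _ hy => rw [QuadraticMap.polar_smul_right, hy, smul_zero]
    obtain ⟨ν, hν⟩ := exists_nonsquare_of_two_ne_zero h2
    set s := -c * ν
    refine key ![ev i0 + s • fv i0, gv 0] (fun r => by
      fin_cases r
      · exact X.add_mem (hm _).1 (X.smul_mem s (hm _).2)
      · exact hgm 0) fun z hz => ?_
    have hQ : Q (∑ r, z r • ![ev i0 + s • fv i0, gv 0] r) = z 0 ^ 2 * s + z 1 ^ 2 * c := by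
      simp only [Fin.sum_univ_two, Matrix.cons_val_zero, Matrix.cons_val_one]
      rw [QuadraticMap.map_add Q, QuadraticMap.map_smul, QuadraticMap.map_smul, QuadraticMap.map_add Q,
        QuadraticMap.map_smul, (hs i0).1, (hs i0).2, QuadraticMap.polar_smul_left, QuadraticMap.polar_smul_right,
        QuadraticMap.polar_smul_right, QuadraticMap.polar_add_left, QuadraticMap.polar_smul_left, heg, hfg, hef,
        if_pos rfl]
      simp only [smul_eq_mul, ← hc]
      ring
    rw [hQ] at hz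
    have hz0 : z 0 = 0 := by
      by_contra h0
      refine hν ⟨z 1 / z 0, ?_⟩
      field_simp
      simp only [s] at hz
      have h5 : z 0 ^ 2 * ν = z 1 ^ 2 := mul_left_cancel₀ hc0 (by linear_combination -hz)
      linear_combination h5
    funext r
    fin_cases r
    · exact hz0
    · rw [hz0, zero_pow two_ne_zero, zero_mul, zero_add, mul_eq_zero] at hz
      exact eq_zero_of_pow_eq_zero (hz.resolve_right hc0)
  · rcases h3 with h3 | ⟨h3, hnp⟩
    · have hk : 2 ≤ k := by omega
      obtain ⟨ζ, hζ⟩ := exists_aniso_one F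
      set i0 : Fin k := ⟨0, by omega⟩
      set i1 : Fin k := ⟨1, by omega⟩
      have hne : i0 ≠ i1 := by simp [i0, i1, Fin.ext_iff]
      refine key ![ev i0 + fv i0, ev i1 + fv i0 + ζ • fv i1] (fun r => by
        fin_cases r
        · exact X.add_mem (hm _).1 (hm _).2
        · exact X.add_mem (X.add_mem (hm _).1 (hm _).2) (X.smul_mem ζ (hm _).2)) fun z hz => ?_
      have hQ : Q (∑ r, z r • ![ev i0 + fv i0, ev i1 + fv i0 + ζ • fv i1] r) =
          z 0 ^ 2 + 1 * z 0 * z 1 + ζ * z 1 ^ 2 := by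
        simp only [Fin.sum_univ_two, Matrix.cons_val_zero, Matrix.cons_val_one]
        simp only [QuadraticMap.map_add Q, QuadraticMap.map_smul, QuadraticMap.polar_smul_left,
          QuadraticMap.polar_smul_right, QuadraticMap.polar_add_left, QuadraticMap.polar_add_right, hef, hee, hff,
          (hs _).1, (hs _).2, smul_eq_mul]
        simp [QuadraticMap.polar_comm Q (fv i0) (ev _), hef, hne, hne.symm]
        ring
      rw [hQ] at hz
      obtain ⟨h0, h1⟩ := hζ _ _ hz
      funext r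
      fin_cases r
      exacts [h0, h1]
    · obtain ⟨h1, h2, h3'⟩ := pairs_space hs hef hee hff
      refine absurd ?_ hnp
      have : Submodule.span F (Set.range (Sum.elim ev fv)) = X :=
        Submodule.eq_of_le_of_finrank_eq (Submodule.span_le.2 (by
          rintro _ ⟨i | i, rfl⟩; exacts [(hm _).1, (hm _).2])) (by omega)
      rwa [← this]

/-- Two anisotropic planes form a hyperbolic space. -/
theorem two_planes {P P' : Submodule F V} (hd : finrank F P = 2) (hd' : finrank F P' = 2)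
    (hP : ∀ v ∈ P, Q v = 0 → v = 0) (hP' : ∀ v ∈ P', Q v = 0 → v = 0) (hperp : P' ≤ perp BQ P) :
    ∃ U ≤ P ⊔ P', Sing Q U ∧ finrank F U = 2 := by
  obtain ⟨hn, hp⟩ := plane_of_aniso hd hP
  obtain ⟨hn', hp'⟩ := plane_of_aniso hd' hP'
  have hB' : (QuadraticMap.polarBilin (-(Q.comp P'.subtype))).Nondegenerate := by
    have h := res_nondeg hn'
    have e : ∀ x y : P', QuadraticMap.polarBilin (-(Q.comp P'.subtype)) x y =
        - QuadraticMap.polarBilin (Q.comp P'.subtype) x y := fun x y => by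
      simp [QuadraticMap.polar]; ring
    refine ⟨fun x hx => h.1 x fun y => ?_, fun x hx => h.2 x fun y => ?_⟩
    · have := hx y; rwa [e, neg_eq_zero] at this
    · have := hx y; rwa [e, neg_eq_zero] at this
  obtain ⟨-, a, b, hab, e, he⟩ := (not_plus_iff hn (w := 1) hd).1 hp
  obtain ⟨-, a', b', hab', e', he'⟩ : 1 ≤ 1 ∧ IsMinus (-(Q.comp P'.subtype)) (1 - 1) := by
    refine (classify hB' (w := 1) hd').resolve_left ?_
    rintro ⟨e, he⟩
    have h0 := he (Pi.single (Sum.inl 0) 1)
    have hz : Q (((e (Pi.single (Sum.inl 0) 1)) : P') : V) = 0 := by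
      have : -(Q (((e (Pi.single (Sum.inl 0) 1)) : P') : V)) = 0 := by
        simpa [Cfsg.quadFormPlus] using h0
      simpa using this
    have h1 := e.map_eq_zero_iff.1 (Subtype.ext (hP' _ (Subtype.prop _) hz))
    simpa using congrFun h1 (Sum.inl 0)
  obtain ⟨M, hM⟩ := exists_plane_change (1 - 1) hab' hab
  let φ : P ≃ₗ[F] P' := e.symm.trans (M.trans e')
  have hφ : ∀ x : P, Q ((φ x : P') : V) = - Q (x : V) := fun x => by
    obtain ⟨y, rfl⟩ := e.surjective x
    have h1 : -(Q ((φ (e y) : P') : V)) = qMinus (1 - 1) F a' b' (M y) := by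
      rw [← he']; simp [φ]
    have h2 : Q (((e y) : P) : V) = qMinus (1 - 1) F a b y := he y
    rw [h2, ← hM, ← h1, neg_neg]
  let j : P →ₗ[F] V := P.subtype + P'.subtype ∘ₗ φ.toLinearMap
  have hji : Function.Injective j := (injective_iff_map_eq_zero j).2 fun x hx => by
    have h1 : (x : V) ∈ P ⊓ perp BQ P := ⟨x.2, by
      have : (x : V) = -((φ x : P') : V) := eq_neg_of_add_eq_zero_left hx
      rw [this]
      exact Submodule.neg_mem _ (hperp (φ x).2)⟩
    have h2 : ∀ y ∈ P, QuadraticMap.polar Q (x : V) y = 0 := fun y hy => by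
      rw [QuadraticMap.polar_comm]; exact mem_perp_iff.1 h1.2 y hy
    exact Subtype.ext (hn _ x.2 h2)
  refine ⟨LinearMap.range j, ?_, ?_, by rw [LinearMap.finrank_range_of_inj hji, hd]⟩
  · rintro _ ⟨x, rfl⟩; exact Submodule.add_mem_sup x.2 (φ x).2
  · rintro _ ⟨x, rfl⟩
    show Q ((x : V) + ((φ x : P') : V)) = 0
    rw [Q_add_of_perp x.2 (hperp (φ x).2), hφ, add_neg_cancel]

/-- The type of an orthogonal sum. -/
theorem plus_sup (hB : (BQ).Nondegenerate) {A B : Submodule F V} (hA : Nd Q A) (hBn : Nd Q B)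
    (hperp : B ≤ perp BQ A) (hAe : Even (finrank F A)) (hBe : Even (finrank F B)) :
    Plus Q (A ⊔ B) ↔ (Plus Q A ↔ Plus Q B) := by
  classical
  have hS := nd_sup hA hBn hperp
  have hdim := finrank_sup hB hA hperp
  have cancel : ∀ A B : Submodule F V, Nd Q A → B ≤ perp BQ A → Plus Q (A ⊔ B) → Plus Q A → Nd Q (A ⊔ B) →
      Plus Q B := by
    intro A B hA hperp hS hpA hSn
    obtain ⟨UA, hUA, hUAs, hUAd⟩ := hpA
    obtain ⟨U, hU, hUs, hUd⟩ := hS
    -- move the half so that it contains the half of `A`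
    obtain ⟨T, hT, hTs, hTd⟩ : ∃ T, T ≤ U ∧ Sing Q T ∧ finrank F T = finrank F UA := by
      have hle : finrank F UA ≤ finrank F U := by
        have := finrank_sup hB hA hperp
        omega
      obtain ⟨s, hs⟩ := (exists_linearIndependent_of_le_finrank (R := F) (M := U) hle)
      refine ⟨Submodule.span F (Set.range fun i => (s i : V)),
        Submodule.span_le.2 (by rintro _ ⟨i, rfl⟩; exact (s i).2), ?_, ?_⟩
      · intro x hx
        exact hUs x (Submodule.span_le.2 (by rintro _ ⟨i, rfl⟩; exact (s i).2) hx)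
      · exact (finrank_span_eq_card (hs.map' U.subtype (Submodule.ker_subtype U))).trans (Fintype.card_fin _)
    have hABd := finrank_sup hB hA hperp
    set S := A ⊔ B with hSdef
    obtain ⟨g, hgQ, hg⟩ := exists_map_eq (Q := Q.comp S.subtype) (res_nondeg hSn)
      (W := T.comap S.subtype) (W' := UA.comap S.subtype)
      (iso_of_sing (fun x hx => hTs _ hx) (fun x hx => hUAs _ hx) (by
        rw [(Submodule.comapSubtypeEquivOfLe (hT.trans hU)).finrank_eq,
          (Submodule.comapSubtypeEquivOfLe (hUA.trans (le_sup_left : A ≤ A ⊔ B))).finrank_eq, hTd]))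
    let j : U →ₗ[F] V := S.subtype ∘ₗ g.toLinearMap ∘ₗ Submodule.inclusion hU
    have hji : Function.Injective j := fun x y h =>
      Submodule.inclusion_injective hU (g.injective (S.injective_subtype h))
    set U' := LinearMap.range j with hU'
    have hU'd : finrank F U' = finrank F U := LinearMap.finrank_range_of_inj hji
    have hU's : Sing Q U' := by
      rintro _ ⟨x, rfl⟩
      exact (hgQ _).trans (hUs _ x.2)
    have hU'S : U' ≤ S := by rintro _ ⟨x, rfl⟩; exact Subtype.prop _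
    have hUA' : UA ≤ U' := fun y hy => by
      have hy' : (⟨y, (hUA.trans le_sup_left) hy⟩ : S) ∈ UA.comap S.subtype := hy
      rw [← hg] at hy'
      obtain ⟨t, ht, htg⟩ := hy'
      exact ⟨⟨(t : V), hT ht⟩, congrArg Subtype.val htg⟩
    -- the projection to `B`
    refine ⟨B ⊓ (U' ⊔ UA), inf_le_left, fun x hx => ?_, ?_⟩
    · rw [sup_eq_left.2 hUA'] at hx
      exact hU's x hx.2
    · rw [sup_eq_left.2 hUA']
      -- `U' = UA + (U' ∩ B)`
      have hperpUA : U' ≤ UA ⊔ (B ⊓ U') := by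
        intro x hx
        obtain ⟨a, ha, b, hb, rfl⟩ := Submodule.mem_sup.1 (hU'S hx)
        have hpa : ∀ u ∈ UA, QuadraticMap.polar Q u a = 0 := fun u hu => by
          have h1 := polar_sing hU's (hUA' hu) hx
          rwa [QuadraticMap.polar_add_right, mem_perp_iff.1 (hperp hb) u (hUA hu), add_zero] at h1
        have hsp : Sing Q UA := hUAs
        -- `UA` is its own perpendicular inside `A`
        have haUA : a ∈ UA := by
          set UAc := UA.comap A.subtype
          have hI := isForm_quadratic (Q.comp A.subtype) (res_nondeg hA)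
          have hle : UAc ≤ perp (QuadraticMap.polarBilin (Q.comp A.subtype)) UAc := fun y hy x hx => by
            rw [polar_res]; exact polar_sing hUAs hx hy
          have heq : UAc = perp (QuadraticMap.polarBilin (Q.comp A.subtype)) UAc := by
            refine Submodule.eq_of_le_of_finrank_le hle ?_
            have h1 := hI.finrank_perp UAc
            have h2 : finrank F UAc = finrank F UA := (Submodule.comapSubtypeEquivOfLe hUA).finrank_eq
            omega
          have hmem : (⟨a, ha⟩ : A) ∈ perp (QuadraticMap.polarBilin (Q.comp A.subtype)) UAc := fun x hx => by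
            rw [polar_res]; exact hpa _ hx
          rw [← heq] at hmem
          exact hmem
        refine Submodule.add_mem_sup haUA ⟨hb, ?_⟩
        have := U'.sub_mem hx (hUA' haUA)
        rwa [add_sub_cancel_left] at this
      have h1 : U' = UA ⊔ (B ⊓ U') := le_antisymm hperpUA (sup_le hUA' inf_le_right)
      have h2 : UA ⊓ (B ⊓ U') = ⊥ := le_bot_iff.1 (inf_bot hB hA hperp ▸ inf_le_inf hUA inf_le_left)
      have h3 := Submodule.finrank_sup_add_finrank_inf_eq UA (B ⊓ U')
      rw [← h1, h2, finrank_bot] at h3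
      omega
  constructor
  · intro hp
    refine ⟨fun hpA => cancel A B hA hperp hp hpA hS, fun hpB => ?_⟩
    refine cancel B A hBn (fun a ha => mem_perp_iff.2 fun b hb => ?_) (sup_comm A B ▸ hp) hpB (sup_comm A B ▸ hS)
    rw [QuadraticMap.polar_comm]
    exact mem_perp_iff.1 (hperp hb) a ha
  · intro h
    by_cases hpA : Plus Q A
    · obtain ⟨UA, hUA, hUAs, hUAd⟩ := hpA
      obtain ⟨UB, hUB, hUBs, hUBd⟩ := h.1 ⟨UA, hUA, hUAs, hUAd⟩
      have hpU : UB ≤ perp BQ UA := fun x hx => mem_perp_iff.2 fun u hu => mem_perp_iff.1 (hperp (hUB hx)) u (hUA hu)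
      refine ⟨UA ⊔ UB, sup_le_sup hUA hUB, sing_sup hUAs hUBs hpU, ?_⟩
      have h1 := Submodule.finrank_sup_add_finrank_inf_eq UA UB
      rw [show UA ⊓ UB = ⊥ from le_bot_iff.1 (inf_bot hB hA hperp ▸ inf_le_inf hUA hUB), finrank_bot] at h1
      omega
    · have hpB : ¬ Plus Q B := fun hb => hpA (h.2 hb)
      -- a plane and a hyperbolic space in each
      have split : ∀ X : Submodule F V, Nd Q X → Even (finrank F X) → ¬ Plus Q X →
          ∃ P H : Submodule F V, P ≤ X ∧ H ≤ X ∧ H ≤ perp BQ P ∧ finrank F P = 2 ∧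
            (∀ v ∈ P, Q v = 0 → v = 0) ∧ Plus Q H ∧ Nd Q H ∧ finrank F P + finrank F H = finrank F X := by
        intro X hX hXe hXp
        obtain ⟨w, hw⟩ := hXe
        have hw1 : 1 ≤ w := ((not_plus_iff hX (w := w) (by omega)).1 hXp).1
        obtain ⟨H, hHX, hHn, hHp, hHd⟩ := exists_hyp hX (u := w - 1) (Or.inl (by omega))
        obtain ⟨hRn, hRd, hRs⟩ := nd_split hB hHn hX hHX
        set R := X ⊓ perp BQ H
        have hHR : H ≤ perp BQ R := fun x hx => mem_perp_iff.2 fun y hy => by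
          rw [QuadraticMap.polar_comm]; exact mem_perp_iff.1 hy.2 x hx
        have hRp : ¬ Plus Q R := fun hR => hXp (by
          obtain ⟨U1, hU1, hU1s, hU1d⟩ := hR
          obtain ⟨U2, hU2, hU2s, hU2d⟩ := hHp
          refine ⟨U1 ⊔ U2, sup_le (hU1.trans inf_le_left) (hU2.trans hHX),
            sing_sup hU1s hU2s (fun x hx => mem_perp_iff.2 fun u hu => mem_perp_iff.1 (hHR (hU2 hx)) u (hU1 hu)), ?_⟩
          have h1 := Submodule.finrank_sup_add_finrank_inf_eq U1 U2
          rw [show U1 ⊓ U2 = ⊥ from le_bot_iff.1 (inf_bot hB hRn hHR ▸ inf_le_inf hU1 hU2), finrank_bot] at h1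
          omega)
        obtain ⟨P, hPR, hPd, hPa⟩ := exists_plane hRn (Or.inr ⟨by omega, hRp⟩)
        exact ⟨P, H, hPR.trans inf_le_left, hHX,
          fun x hx => mem_perp_iff.2 fun y hy => mem_perp_iff.1 (hHR hx) y (hPR hy), hPd, hPa, hHp, hHn, by omega⟩
      obtain ⟨P, H, hP, hH, hPH, hPd, hPa, hHp, hHn, hA'⟩ := split A hA hAe hpA
      obtain ⟨P', H', hP', hH', hPH', hPd', hPa', hHp', hHn', hB'⟩ := split B hBn hBe hpB
      have hAB : ∀ a ∈ A, ∀ b ∈ B, QuadraticMap.polar Q a b = 0 := fun a ha b hb => mem_perp_iff.1 (hperp hb) a ha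
      obtain ⟨U0, hU0, hU0s, hU0d⟩ := two_planes hPd hPd' hPa hPa'
        (fun x hx => mem_perp_iff.2 fun y hy => hAB y (hP hy) x (hP' hx))
      obtain ⟨U1, hU1, hU1s, hU1d⟩ := hHp
      obtain ⟨U2, hU2, hU2s, hU2d⟩ := hHp'
      obtain ⟨hPn, -⟩ := plane_of_aniso hPd hPa
      obtain ⟨hPn', -⟩ := plane_of_aniso hPd' hPa'
      have hpp : U1 ⊔ U2 ≤ perp BQ (P ⊔ P') := by
        refine sup_le ?_ ?_ <;> intro x hx <;> rw [mem_perp_iff] <;> intro y hy <;>
          obtain ⟨y1, hy1, y2, hy2, rfl⟩ := Submodule.mem_sup.1 hy <;>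
          rw [QuadraticMap.polar_add_left]
        · rw [mem_perp_iff.1 (hPH (hU1 hx)) y1 hy1, QuadraticMap.polar_comm,
            hAB x (hH (hU1 hx)) y2 (hP' hy2), add_zero]
        · rw [mem_perp_iff.1 (hPH' (hU2 hx)) y2 hy2, hAB y1 (hP hy1) x (hH' (hU2 hx)), add_zero]
      have h12 : U2 ≤ perp BQ U1 := fun x hx => mem_perp_iff.2 fun y hy => hAB y (hH (hU1 hy)) x (hH' (hU2 hx))
      refine ⟨U0 ⊔ (U1 ⊔ U2), sup_le (hU0.trans (sup_le_sup hP hP'))
          (sup_le_sup (hU1.trans hH) (hU2.trans hH')),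
        sing_sup hU0s (sing_sup hU1s hU2s h12) (fun x hx => mem_perp_iff.2 fun y hy =>
          mem_perp_iff.1 (hpp hx) y (hU0 hy)), ?_⟩
      have hPP : P' ≤ perp BQ P := fun x hx => mem_perp_iff.2 fun y hy => hAB y (hP hy) x (hP' hx)
      have h1 := Submodule.finrank_sup_add_finrank_inf_eq U1 U2
      rw [show U1 ⊓ U2 = ⊥ from le_bot_iff.1 (inf_bot hB hA hperp ▸ inf_le_inf (hU1.trans hH) (hU2.trans hH')),
        finrank_bot] at h1
      have h2 := Submodule.finrank_sup_add_finrank_inf_eq U0 (U1 ⊔ U2)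
      rw [show U0 ⊓ (U1 ⊔ U2) = ⊥ from
        le_bot_iff.1 (inf_bot hB (nd_sup hPn hPn' hPP) hpp ▸ inf_le_inf hU0 le_rfl), finrank_bot] at h2
      omega

/-- Nondegenerate subspaces of even dimension and given type. -/
theorem exists_even (hB : (BQ).Nondegenerate) {X : Submodule F V} (hX : Nd Q X) (η : Prop) {u : ℕ} (hu0 : u = 0 → η)
    (hu : 2 * u < finrank F X ∨ (2 * u = finrank F X ∧ (Plus Q X ↔ η))) :
    ∃ U ≤ X, Nd Q U ∧ finrank F U = 2 * u ∧ (Plus Q U ↔ η) := by
  classical
  by_cases hη : η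
  · obtain ⟨U, h1, h2, h3, h4⟩ := exists_hyp hX (u := u) (hu.imp_right fun h => ⟨h.1, h.2.2 hη⟩)
    exact ⟨U, h1, h2, h4, iff_of_true h3 hη⟩
  rcases hu with hu | ⟨hu, ht⟩
  swap
  · exact ⟨X, le_rfl, hX, hu.symm, ht⟩
  have hu1 : 1 ≤ u := Nat.one_le_iff_ne_zero.2 fun h => hη (hu0 h)
  obtain ⟨P, hPX, hPd, hPa⟩ := exists_plane hX (Or.inl (by omega))
  obtain ⟨hPn, hPp⟩ := plane_of_aniso hPd hPa
  obtain ⟨hRn, hRd, -⟩ := nd_split hB hPn hX hPX
  obtain ⟨H, hHR, hHn, hHp, hHd⟩ := exists_hyp hRn (u := u - 1) (Or.inl (by omega))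
  have hperp : H ≤ perp BQ P := hHR.trans inf_le_right
  refine ⟨P ⊔ H, sup_le hPX (hHR.trans inf_le_left), nd_sup hPn hHn hperp, by rw [finrank_sup hB hPn hperp]; omega, ?_⟩
  rw [plus_sup hB hPn hHn hperp ⟨1, by omega⟩ ⟨u - 1, by omega⟩]
  exact iff_of_false (fun h => hPp (h.2 hHp)) hη

end Cfsg.Agent.Linear.OrthSpaces
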