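import Cfsg.Agent.Linear.TSCount
import Cfsg.Agent.Linear.OrthSpaces
import Cfsg.Agent.Forms.QuadOrder

/-!
# The number of totally singular subspaces modulo the characteristic
-/

set_option autoImplicit false
set_option linter.unusedSectionVars false

namespace Cfsg.Agent.Linear.SingCount

open Module Cfsg.Agent.Forms Cfsg.Agent.Linear.OrthSpaces

universe u

variable {F : Type*} [Field F] [Fintype F] {p q : ℕ} [Fact p.Prime] [CharP F p]

theorem cast_q (hF : Fintype.card F = q) : (q : ZMod p) = 0 := by
  obtain ⟨f, -, hf⟩ := FiniteField.card F p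
  rw [← hF, hf, Nat.cast_pow, ZMod.natCast_self, zero_pow f.pos.ne']

theorem card_lines_mod (hF : Fintype.card F = q) {U : Type*} [AddCommGroup U] [Module F U] [FiniteDimensional F U]
    (h0 : 1 ≤ finrank F U) : ((Nat.card {L : Submodule F U // finrank F L = 1} : ℕ) : ZMod p) = 1 := by
  have h1 := congrArg (fun n : ℕ => (n : ZMod p))
    (GeomClasses.SubspaceDerange.card_subspaces (V := U) hF (b := 1) h0)
  have hq : ∀ a, 1 ≤ a → ((q ^ a - 1 : ℕ) : ZMod p) = -1 := fun a ha => by
    rw [Nat.cast_sub (Nat.one_le_pow _ _ (hF ▸ Fintype.card_pos)), Nat.cast_pow, cast_q hF, zero_pow (by omega)]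
    simp
  simp only [GeomClasses.SubspaceDerange.qProd, Finset.prod_range_one, Nat.sub_zero, Nat.cast_mul, hq _ le_rfl,
    hq _ h0] at h1
  linear_combination -h1

theorem zero_count_mod (hF : Fintype.card F = q) {V : Type*} [AddCommGroup V] [Module F V] [FiniteDimensional F V]
    {Q : QuadraticForm F V} (hB : (QuadraticMap.polarBilin Q).Nondegenerate) (hn : 3 ≤ finrank F V) :
    ((Nat.card {v : V // Q v = 0} : ℕ) : ZMod p) = 0 := by
  classical
  haveI : Finite V := Module.finite_of_finite F
  have hI := isForm_quadratic Q hB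
  obtain ⟨e, he0, he⟩ := exists_singular_of_three_le Q hn
  obtain ⟨f, h⟩ := hI.exists_hypPair he0 (he.trans (map_zero Q).symm) (map_zero Q)
  have hstep := (card_isom_step hF hI h).1
  have hco := h.finrank_co hI
  have h1 := congrArg (fun n : ℕ => (n : ZMod p)) hstep
  simp only [Nat.cast_add, Nat.cast_mul, Nat.cast_pow, cast_q (p := p) hF, zero_mul, add_zero] at h1
  rw [zero_pow (by omega), mul_zero] at h1
  exact h1

theorem sing_lines (hF : Fintype.card F = q) {V : Type*} [AddCommGroup V] [Module F V] [FiniteDimensional F V]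
    {Q : QuadraticForm F V} (hB : (QuadraticMap.polarBilin Q).Nondegenerate) (hn : 3 ≤ finrank F V) :
    ((Nat.card {L : Submodule F V // finrank F L = 1 ∧ Sing Q L} : ℕ) : ZMod p) = 1 := by
  classical
  haveI : Finite V := Module.finite_of_finite F
  have h1 := TSCount.card_with (V := V) hF (b := 1) (Sing Q) (fun s => Q (s 0) = 0) fun s _ => by
    refine ⟨fun hs x hx => ?_, fun hs => hs _ (Submodule.subset_span ⟨0, rfl⟩)⟩
    obtain ⟨c, rfl⟩ := (Submodule.mem_span_range_iff_exists_fun F).1 hx
    rw [Fin.sum_univ_one, QuadraticMap.map_smul, hs, smul_zero]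
  have h2 : Nat.card {s : Fin 1 → V // LinearIndependent F s ∧ Q (s 0) = 0} + 1 = Nat.card {v : V // Q v = 0} := by
    have e1 : {s : Fin 1 → V // LinearIndependent F s ∧ Q (s 0) = 0} ≃ {v : {v : V // Q v = 0} // (v : V) ≠ 0} :=
      { toFun := fun s => ⟨⟨s.1 0, s.2.2⟩, s.2.1.ne_zero 0⟩
        invFun := fun v => ⟨fun _ => (v.1 : V), linearIndependent_unique_iff.2 v.2, v.1.2⟩
        left_inv := fun s => Subtype.ext (funext fun i => congrArg s.1 (Subsingleton.elim 0 i))
        right_inv := fun v => rfl }
    have e2 : {v : {v : V // Q v = 0} // ¬ (v : V) ≠ 0} ≃ Unit :=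
      { toFun := fun _ => ()
        invFun := fun _ => ⟨⟨0, map_zero Q⟩, not_not.2 rfl⟩
        left_inv := fun v => Subtype.ext (Subtype.ext (not_not.1 v.2).symm)
        right_inv := fun _ => rfl }
    rw [Nat.card_congr e1, ← Nat.card_congr (Equiv.sumCompl fun v : {v : V // Q v = 0} => (v : V) ≠ 0), Nat.card_sum,
      (Nat.card_congr e2).trans Nat.card_unique]
  have h3 := congrArg (fun n : ℕ => (n : ZMod p)) h2
  rw [h1] at h3
  simp only [GeomClasses.SubspaceDerange.qProd, Finset.prod_range_one, Finset.sum_range_one, pow_zero, one_mul,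
    Nat.sub_zero, pow_one, Nat.cast_add, Nat.cast_mul, Nat.cast_one, zero_count_mod hF hB hn,
    Nat.cast_sub (hF ▸ Fintype.card_pos : 1 ≤ q), cast_q (p := p) hF] at h3
  linear_combination -h3

/-- `W ↦ W ∩ {e, f}^⊥` for singular `W` through the singular vector `e`. -/
theorem card_through {V : Type u} [AddCommGroup V] [Module F V] [FiniteDimensional F V]
    {Q : QuadraticForm F V} (hB : (QuadraticMap.polarBilin Q).Nondegenerate) {e f : V} (he0 : e ≠ 0)
    (h : IsHypPair (QuadraticMap.polarBilin Q) Q e f) (m : ℕ) :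
    Nat.card {W : Submodule F V // (finrank F W = m + 1 ∧ Sing Q W) ∧ Submodule.span F {e} ≤ W} =
      Nat.card {U : Submodule F (IsHypPair.co (QuadraticMap.polarBilin Q) e f) //
        finrank F U = m ∧ Sing (coQ Q e f) U} := by
  classical
  have hI := isForm_quadratic Q hB
  set P := IsHypPair.co (QuadraticMap.polarBilin Q) e f with hP
  have hef : QuadraticMap.polar Q e f = 1 := h.pairing
  have he : Q e = 0 := by simpa using h.he
  have hsplit : ∀ W : Submodule F V, Sing Q W → e ∈ W → W = Submodule.span F {e} ⊔ (W ⊓ P) := by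
    intro W hW heW
    refine le_antisymm (fun w hw => ?_) (sup_le (by simpa using heW) inf_le_left)
    obtain ⟨a, b, x, hx, rfl⟩ := h.exists_coords hI w
    have h1 := polar_sing hW heW hw
    have hx1 : QuadraticMap.polar Q e x = 0 := (IsHypPair.mem_co.1 hx).1
    rw [QuadraticMap.polar_add_right, QuadraticMap.polar_add_right, QuadraticMap.polar_smul_right,
      QuadraticMap.polar_smul_right, hef, hx1, QuadraticMap.polar_self, he] at h1
    have hb : b = 0 := by simpa using h1
    subst hb
    rw [zero_smul, add_zero] at hw ⊢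
    refine Submodule.add_mem_sup (Submodule.smul_mem _ _ (Submodule.mem_span_singleton_self e)) ⟨?_, hx⟩
    simpa using W.sub_mem hw (W.smul_mem a heW)
  have hdisj : ∀ U : Submodule F V, U ≤ P → Submodule.span F {e} ⊓ U = ⊥ := fun U hU => by
    rw [← disjoint_iff, disjoint_comm, Submodule.disjoint_span_singleton' he0]
    intro hc
    exact h.B_fe_ne hI (IsHypPair.mem_co.1 (hU hc)).2
  have hdim : ∀ U : Submodule F V, U ≤ P →
      finrank F ↥(Submodule.span F {e} ⊔ U) = finrank F U + 1 := fun U hU => by
    have h1 := Submodule.finrank_sup_add_finrank_inf_eq (Submodule.span F {e}) U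
    rw [hdisj U hU, finrank_bot, finrank_span_singleton he0] at h1
    omega
  refine Nat.card_congr
    { toFun := fun W => ⟨W.1.comap P.subtype, ?_, fun x hx => W.2.1.2 _ hx⟩
      invFun := fun U => ⟨Submodule.span F {e} ⊔ U.1.map P.subtype, ⟨?_, ?_⟩, le_sup_left⟩
      left_inv := fun W => Subtype.ext ?_
      right_inv := fun U => Subtype.ext ?_ }
  · have h1 := hsplit W.1 W.2.1.2 (W.2.2 (Submodule.mem_span_singleton_self e))
    have h2 := hdim (W.1 ⊓ P) inf_le_right
    rw [← h1, W.2.1.1] at h2
    rw [← Submodule.finrank_map_subtype_eq, Submodule.map_comap_subtype, inf_comm]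
    exact (by omega : finrank F ↥(W.1 ⊓ P) = m)
  · rw [hdim _ (Submodule.map_subtype_le _ _), Submodule.finrank_map_subtype_eq, U.2.1]
  · refine sing_sup (fun x hx => ?_) (by rintro _ ⟨x, hx, rfl⟩; exact U.2.2 x hx) ?_
    · obtain ⟨a, rfl⟩ := Submodule.mem_span_singleton.1 hx
      rw [QuadraticMap.map_smul, he, smul_zero]
    · rintro _ ⟨x, -, rfl⟩
      refine mem_perp_iff.2 fun y hy => ?_
      obtain ⟨a, rfl⟩ := Submodule.mem_span_singleton.1 hy
      rw [QuadraticMap.polar_smul_left, show QuadraticMap.polar Q e (P.subtype x) = 0 from (IsHypPair.mem_co.1 x.2).1,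
        smul_zero]
  · simp only [Submodule.map_comap_subtype]
    rw [inf_comm]
    exact (hsplit W.1 W.2.1.2 (W.2.2 (Submodule.mem_span_singleton_self e))).symm
  · refine le_antisymm (fun x hx => ?_) (fun x hx => Submodule.mem_sup_right ⟨x, hx, rfl⟩)
    obtain ⟨a, ha, b, hb, hab⟩ := Submodule.mem_sup.1 hx
    obtain ⟨y, hy, rfl⟩ := hb
    have hmem : a ∈ Submodule.span F {e} ⊓ P := ⟨ha, by
      rw [show a = (x : V) - (y : V) from eq_sub_of_add_eq hab]
      exact P.sub_mem x.2 y.2⟩
    rw [hdisj P le_rfl, Submodule.mem_bot] at hmem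
    rw [hmem, zero_add] at hab
    exact (Subtype.ext hab : y = x) ▸ hy

/-- Below the half dimension the number of totally singular subspaces is `1` modulo `p`. -/
theorem card_mod (hF : Fintype.card F = q) : ∀ (m : ℕ) {V : Type u} [AddCommGroup V] [Module F V]
    [FiniteDimensional F V] (Q : QuadraticForm F V), (QuadraticMap.polarBilin Q).Nondegenerate →
    2 * m < finrank F V →
    ((Nat.card {W : Submodule F V // finrank F W = m ∧ Sing Q W} : ℕ) : ZMod p) = 1 := by
  intro m
  induction m with
  | zero =>
    intro V _ _ _ Q _ _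
    have : Unique {W : Submodule F V // finrank F W = 0 ∧ Sing Q W} :=
      { default := ⟨⊥, finrank_bot F V, fun w hw => by rw [(Submodule.mem_bot F).1 hw, map_zero]⟩
        uniq := fun W => Subtype.ext (Submodule.finrank_eq_zero.1 W.2.1) }
    rw [Nat.card_unique, Nat.cast_one]
  | succ m ih =>
    intro V _ _ _ Q hB hn
    classical
    haveI : Finite V := Module.finite_of_finite F
    have hI := isForm_quadratic Q hB
    set A := {W : Submodule F V // finrank F W = m + 1 ∧ Sing Q W}
    set L := {L : Submodule F V // finrank F L = 1 ∧ Sing Q L}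
    haveI : Fintype A := Fintype.ofFinite _
    haveI : Fintype L := Fintype.ofFinite _
    have e : (Σ W : A, {K : L // (K : Submodule F V) ≤ W}) ≃ (Σ K : L, {W : A // (K : Submodule F V) ≤ W}) :=
      { toFun := fun x => ⟨x.2.1, x.1, x.2.2⟩
        invFun := fun x => ⟨x.2.1, x.1, x.2.2⟩
        left_inv := fun x => rfl
        right_inv := fun x => rfl }
    have h1 := congrArg (fun n : ℕ => (n : ZMod p)) (Nat.card_congr e)
    simp only [Nat.card_sigma, Nat.cast_sum] at h1
    have hW : ∀ W : A, ((Nat.card {K : L // (K : Submodule F V) ≤ W} : ℕ) : ZMod p) = 1 := by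
      intro W
      let e' : {K : L // (K : Submodule F V) ≤ W} ≃ {K : Submodule F (W : Submodule F V) // finrank F K = 1} :=
        { toFun := fun K => ⟨K.1.1.comap (W : Submodule F V).subtype, by
            rw [(Submodule.comapSubtypeEquivOfLe K.2).finrank_eq]; exact K.1.2.1⟩
          invFun := fun K => ⟨⟨K.1.map (W : Submodule F V).subtype,
            by rw [Submodule.finrank_map_subtype_eq]; exact K.2,
            fun x hx => W.2.2 x (Submodule.map_subtype_le _ _ hx)⟩, Submodule.map_subtype_le _ _⟩
          left_inv := fun K => Subtype.ext (Subtype.ext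
            ((Submodule.map_comap_subtype _ _).trans (inf_eq_right.2 K.2)))
          right_inv := fun K => Subtype.ext (Submodule.comap_map_eq_of_injective
            (Submodule.injective_subtype _) K.1) }
      rw [Nat.card_congr e']
      exact card_lines_mod hF (by rw [W.2.1]; omega)
    have hK : ∀ K : L, ((Nat.card {W : A // (K : Submodule F V) ≤ W} : ℕ) : ZMod p) = 1 := by
      intro K
      obtain ⟨v, hv0, hv⟩ := finrank_eq_one_iff'.1 K.2.1
      have hKspan : (K : Submodule F V) = Submodule.span F {(v : V)} := by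
        refine le_antisymm (fun x hx => ?_) ((Submodule.span_singleton_le_iff_mem _ _).2 v.2)
        obtain ⟨c, hc⟩ := hv ⟨x, hx⟩
        exact Submodule.mem_span_singleton.2 ⟨c, congrArg Subtype.val hc⟩
      have he0 : (v : V) ≠ 0 := fun h0 => hv0 (Subtype.ext h0)
      have he : Q (v : V) = 0 := K.2.2 _ v.2
      obtain ⟨f, h⟩ := hI.exists_hypPair he0 (he.trans (map_zero Q).symm) (map_zero Q)
      rw [Nat.card_congr (Equiv.subtypeSubtypeEquivSubtypeInter _ fun W => (K : Submodule F V) ≤ W), hKspan,
        card_through hB he0 h m]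
      have hco := h.finrank_co hI
      exact ih (coQ Q (v : V) f) (coQ_nondegenerate hI h) (by omega)
    rw [Finset.sum_congr rfl (fun W _ => hW W), Finset.sum_congr rfl (fun K _ => hK K), Finset.sum_const,
      Finset.sum_const, Finset.card_univ, Finset.card_univ, nsmul_eq_mul, nsmul_eq_mul, mul_one, mul_one,
      ← Nat.card_eq_fintype_card, ← Nat.card_eq_fintype_card, sing_lines hF hB (by omega)] at h1
    exact h1

end Cfsg.Agent.Linear.SingCount
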