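import Cfsg.Agent.Linear.OrthFree
import Cfsg.Agent.Linear.OrthOrbit
import Cfsg.Agent.Linear.SingCount

/-!
# Elements of odd prime order and totally singular subspaces
-/

set_option autoImplicit false
set_option linter.unusedSectionVars false

namespace Cfsg.Agent.Linear.OrthSingDerange

open Polynomial Module Cfsg.Agent.Forms Cfsg.Agent.Linear.SpPrimeClasses Cfsg.Agent.Linear.CycloFactors
  Cfsg.Agent.Linear.OrthSpaces Cfsg.Agent.Linear.OrthFree

variable {F : Type*} [Field F] [Fintype F] {V : Type*} [AddCommGroup V] [Module F V] [FiniteDimensional F V]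
  {Q : QuadraticForm F V} {q r i : ℕ} {S : Finset F[X]}

local notation "BQ" => QuadraticMap.polarBilin Q

/-- `e` is at most the Witt index of a space of dimension `f`, hyperbolic iff `ε`. -/
def Wit (e f : ℕ) (ε : Prop) : Prop := 2 * e < f ∨ (2 * e = f ∧ ε)

/-- A free part of dimension `cc i * J` fits into `V`. -/
def Adm (Q : QuadraticForm F V) (i J : ℕ) : Prop :=
  cc i * J < finrank F V ∨ (cc i * J = finrank F V ∧ (Plus Q (⊤ : Submodule F V) ↔ (Odd i ∨ Even J)))

theorem maximal_iff (J : ℕ) : OrthOrbit.Maximal Q i J ↔ ¬ Adm Q i (J + 1) := Iff.rfl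

/-- The hyperbolic type of the fixed space of an element with free part of dimension `cc i * J`. -/
def FixPlus (Q : QuadraticForm F V) (i J : ℕ) : Prop :=
  Plus Q (⊤ : Submodule F V) ↔ (Odd i ∨ Even J)

theorem fix_type (h : Ctx F q r i S) (hB : (BQ).Nondegenerate) {T : Module.End F V} (hT : T ^ r = 1)
    (hTQ : ∀ v, Q (T v) = Q v) {f : ℕ} (hf : finrank F (LinearMap.ker (T - 1)) = f) {J : ℕ}
    (hJ : f + cc i * J = finrank F V) (hfe : Even f) :
    Plus Q (LinearMap.ker (T - 1)) ↔ FixPlus Q i J := by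
  obtain ⟨R, hR, L, J', hRn, hKn, -, hRp, hsup, hdim, -, -, -, -, hRd, hRt, -⟩ := structure_of h hB hT hTQ
  obtain rfl : J' = J := Nat.eq_of_mul_eq_mul_left (cc_pos h.hi0) (by omega)
  have := plus_sup hB hKn hRn hRp (hf ▸ hfe) (hRd ▸ (cc_even i).mul_right J')
  rw [hsup, hRt] at this
  rw [FixPlus]
  tauto

/-- Singular invariant subspaces from the fixed part and the free part. -/
theorem exists_invariant (h : Ctx F q r i S) (hB : (BQ).Nondegenerate) {T : Module.End F V} (hT : T ^ r = 1)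
    (hTQ : ∀ v, Q (T v) = Q v) {m : ℕ}
    (hm : ∀ (f J o hh : ℕ), f + cc i * J = finrank F V → cc i * J = i * (2 * hh + o) → Adm Q i J →
      o ≤ S.card → (Odd i → o = 0) → ∃ j e, j ≤ hh ∧ m = e + i * j ∧ Wit e f (FixPlus Q i J)) :
    ∃ W : Submodule F V, finrank F W = m ∧ Sing Q W ∧ ∀ w ∈ W, T w ∈ W := by
  classical
  obtain ⟨R, hR, L, J, hRn, hKn, hRf, hRp, hsup, hdim, hL, hh, hRc, hLJ, hRd, hRt, hTc⟩ := structure_of h hB hT hTQ
  obtain ⟨H, O, hHO, hOn, hOo⟩ := TSCrit.split h.hS L hL hh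
  have hOS : ∀ P ∈ O, P ∈ S := fun P hP => hL P (by rw [hHO]; simp [hP])
  have hOh : O.map hat = O := by
    rcases Nat.even_or_odd i with he | ho
    · conv_rhs => rw [← Multiset.map_id O]
      exact Multiset.map_congr rfl fun P hP => h.hS.self (Nat.not_odd_iff_even.2 he) P (hOS P hP)
    · rw [hOo ho, Multiset.map_zero]
  have hadm : Adm Q i J := by
    rcases Nat.eq_zero_or_pos (finrank F (LinearMap.ker (T - 1))) with h0 | h0
    · refine Or.inr ⟨by omega, ?_⟩
      have hR' : R = ⊤ := by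
        refine Submodule.eq_top_of_finrank_eq ?_
        omega
      rwa [hR'] at hRt
    · left; omega
  obtain ⟨j, e, hj, hme, he⟩ := hm _ J (Multiset.card O) (Multiset.card H) hdim
    (by rw [← hLJ, hHO]; simp only [Multiset.card_add, Multiset.card_map]; ring) hadm
    (TSCrit.card_le_of_nodup h.hS hOn hOS) (fun ho => by rw [hOo ho]; rfl)
  obtain ⟨U₀, hU₀i, hU₀, hU₀d⟩ := exists_sing_free (Q := Q.comp R.subtype) h (res_nondeg hRn)
    (T := T.restrict hR) (by rw [TSDerange.restrict_pow_eq hR (z := 1) (by rw [hT, one_smul]), one_smul])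
    (fun w => hTQ (w : V)) (fun w hw => Subtype.ext (by
      have hm' : (w : V) ∈ R ⊓ LinearMap.ker (T - 1) := ⟨w.2, sub_eq_zero.2 (congrArg Subtype.val hw)⟩
      rwa [hRf, Submodule.mem_bot] at hm'))
    hRc hL hHO hOh hOo hj
  obtain ⟨E, hEK, hE, hEd⟩ := exists_sing hKn (e := e) (he.imp_right fun h' =>
    ⟨h'.1, (fix_type h hB hT hTQ rfl hdim ⟨e, by omega⟩).2 h'.2⟩)
  set U := U₀.map R.subtype with hU
  have hUR : U ≤ R := Submodule.map_subtype_le _ _
  have hperp : U ≤ perp BQ E := fun x hx => mem_perp_iff.2 fun y hy => mem_perp_iff.1 (hRp (hUR hx)) y (hEK hy)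
  refine ⟨E ⊔ U, ?_, sing_sup hE (by rintro _ ⟨x, hx, rfl⟩; exact hU₀ x hx) hperp, ?_⟩
  · have h1 := Submodule.finrank_sup_add_finrank_inf_eq E U
    have hUd : finrank F U = i * j := by rw [hU, Submodule.finrank_map_subtype_eq, hU₀d]
    rw [show E ⊓ U = ⊥ from le_bot_iff.1 (inf_bot hB hKn hRp ▸ inf_le_inf hEK hUR), finrank_bot, hEd, hUd] at h1
    omega
  · intro w hw
    obtain ⟨x, hx, y, hy, rfl⟩ := Submodule.mem_sup.1 hw
    rw [map_add, show T x = x from sub_eq_zero.1 (hEK hx)]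
    refine Submodule.add_mem_sup hx ?_
    obtain ⟨z, hz, rfl⟩ := hy
    exact ⟨_, hU₀i z hz, rfl⟩

theorem exists_repl (h : Ctx F q r i S) (ht : 1 ≤ S.card) (J : ℕ) :
    ∃ L : Multiset F[X], (∀ P ∈ L, P ∈ S) ∧ L.map hat = L ∧ i * Multiset.card L = cc i * J := by
  obtain ⟨P, hP⟩ := Finset.card_pos.1 ht
  by_cases he : Even i
  · refine ⟨Multiset.replicate J P, fun Q' hQ => by rw [Multiset.eq_of_mem_replicate hQ]; exact hP, ?_, ?_⟩
    · rw [Multiset.map_replicate, h.hS.self (Nat.not_odd_iff_even.2 he) P hP]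
    · rw [Multiset.card_replicate, cc, if_pos he]
  · refine ⟨Multiset.replicate J P + Multiset.replicate J (hat P), fun Q' hQ => ?_, ?_, ?_⟩
    · rcases Multiset.mem_add.1 hQ with h' | h' <;> rw [Multiset.eq_of_mem_replicate h']
      exacts [hP, h.hS.hat_mem P hP]
    · rw [Multiset.map_add, Multiset.map_replicate, Multiset.map_replicate, h.hS.hat_hat P hP, add_comm]
    · rw [Multiset.card_add, Multiset.card_replicate, Multiset.card_replicate, cc, if_neg he]; ring

/-- Consequences of all isometries of order `r` fixing a totally singular `m`-space. -/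
theorem necessity (h : Ctx F q r i S) (hB : (BQ).Nondegenerate) (ht : 1 ≤ S.card) {m : ℕ}
    (hW : ∃ W : Submodule F V, finrank F W = m ∧ Sing Q W)
    (hdvd : r ∣ Nat.card {W : Submodule F V // finrank F W = m ∧ Sing Q W})
    (H : ∀ T : Module.End F V, T ^ r = 1 → (∀ v, Q (T v) = Q v) → T ≠ 1 →
      ∃ W : Submodule F V, finrank F W = m ∧ Sing Q W ∧ ∀ w ∈ W, T w ∈ W)
    {J : ℕ} (hJ : Adm Q i J) (hmax : ¬ Adm Q i (J + 1)) :
    1 ≤ J ∧ ¬ Wit m (finrank F V - cc i * J) (FixPlus Q i J) ∧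
      (∃ e, i ≤ m ∧ e ≡ m [MOD i] ∧ e ≤ m ∧ Wit e (finrank F V - cc i * J) (FixPlus Q i J)) ∧
      (Even i → ∀ o, 1 ≤ o → o ≤ S.card → Adm Q i o → Wit m (finrank F V - i * o) (FixPlus Q i o)) := by
  classical
  haveI := Fact.mk h.hr
  have hmax' : OrthOrbit.Maximal Q i J := hmax
  -- elements with given free part
  have fixed : ∀ (T : Module.End F V) (hT : T ^ r = 1) (hTQ : ∀ v, Q (T v) = Q v) (W : Submodule F V),
      (∀ w ∈ W, T w ∈ W) → Sing Q W → ∀ J', finrank F (LinearMap.ker (T - 1)) + cc i * J' = finrank F V →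
      Wit (finrank F ↥(W ⊓ LinearMap.ker (T - 1))) (finrank F (LinearMap.ker (T - 1))) (FixPlus Q i J') := by
    intro T hT hTQ W _ hWs J' hJ'
    obtain ⟨R, hR, L, J'', hRn, hKn, -⟩ := structure_of h hB hT hTQ
    have hs : Sing Q (W ⊓ LinearMap.ker (T - 1)) := fun x hx => hWs x hx.1
    have hle := sing_le hKn inf_le_right hs
    rcases hle.lt_or_eq with hlt | heq
    · exact Or.inl hlt
    · exact Or.inr ⟨heq, (fix_type h hB hT hTQ rfl hJ' ⟨_, by rw [← heq, two_mul]⟩).1 ⟨_, inf_le_right, hs, heq⟩⟩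
  obtain ⟨L, hL, hh, hLc⟩ := exists_repl h ht J
  obtain ⟨T, hT, hTQ, hker, hTc⟩ := exists_elem h hB hL hh hLc hJ
  have hle : cc i * J ≤ finrank F V := by rcases hJ with hJ | hJ <;> omega
  obtain ⟨R, hR, LR, JR, hRn, hKn, hRf, hRp, hsup, hdim, -, -, -, -, hRd, hRt, -⟩ := structure_of h hB hT hTQ
  obtain rfl : JR = J := Nat.eq_of_mul_eq_mul_left (cc_pos h.hi0) (by omega)
  have hno : ¬ Wit m (finrank F V - cc i * JR) (FixPlus Q i JR) := by
    intro hw
    rw [← hker] at hw
    obtain ⟨E, hEK, hE, hEd⟩ := exists_sing hKn (e := m) (hw.imp_right fun h' =>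
      ⟨h'.1, (fix_type h hB hT hTQ rfl hdim ⟨m, by omega⟩).2 h'.2⟩)
    refine OrthOrbit.not_dvd_card h hB (P := fun W => finrank F W = m ∧ Sing Q W) (W₀ := E) ⟨hEd, hE⟩
      (fun W hW' => iso_of_sing hE hW'.2 (hEd.trans hW'.1.symm))
      (fun g hg => ⟨by rw [LinearEquiv.finrank_map_eq, hEd], (map_isom hg).2 hE⟩) hRn hRd hRt hmax' (fun x hx => ?_) hdvd
    refine mem_perp_iff.2 fun y hy => ?_
    rw [QuadraticMap.polar_comm]
    exact mem_perp_iff.1 (hRp hy) x (hEK hx)
  have hJ1 : 1 ≤ JR := by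
    by_contra hJ0
    obtain rfl : JR = 0 := by omega
    obtain ⟨W₀, hW₀d, hW₀⟩ := hW
    refine hno ?_
    have h2 := sing_le (nd_top hB) (le_top (a := W₀)) hW₀
    rw [finrank_top, hW₀d] at h2
    rw [mul_zero, Nat.sub_zero]
    rcases h2.lt_or_eq with hlt | heq
    · exact Or.inl hlt
    · exact Or.inr ⟨heq, iff_of_true ⟨W₀, le_top, hW₀, by rw [hW₀d, finrank_top]; exact heq⟩ (Or.inr Even.zero)⟩
  have hne : ∀ (T : Module.End F V) J', 1 ≤ J' → cc i * J' ≤ finrank F V →
      finrank F (LinearMap.ker (T - 1)) = finrank F V - cc i * J' → T ≠ 1 := by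
    intro T J' hJ' hle' hk h1
    rw [h1, sub_self, LinearMap.ker_zero, finrank_top] at hk
    have : 0 < cc i * J' := Nat.mul_pos (cc_pos h.hi0) hJ'
    omega
  refine ⟨hJ1, hno, ?_, fun hie o ho1 hot hoa => ?_⟩
  · obtain ⟨W, hWd, hWs, hWi⟩ := H T hT hTQ (hne T JR hJ1 hle hker)
    have hmod := GeomClasses.SubspaceDerange.dim_mod h.hq h.hrq h.hi hT hWi
    have hwit := fixed T hT hTQ W hWi hWs JR hdim
    rw [hker] at hwit
    have hem : finrank F ↥(W ⊓ LinearMap.ker (T - 1)) ≤ m := hWd ▸ Submodule.finrank_mono inf_le_left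
    rw [hWd] at hmod
    refine ⟨_, ?_, hmod.symm, hem, hwit⟩
    by_contra hlt
    rw [Nat.ModEq, Nat.mod_eq_of_lt (not_le.1 hlt), Nat.mod_eq_of_lt (by omega)] at hmod
    exact hno (hmod ▸ hwit)
  · obtain ⟨O, hOS, hOc⟩ := Finset.exists_subset_card_eq hot
    have hO : ∀ P ∈ O.val, P ∈ S := fun P hP => hOS hP
    have hOh : O.val.map hat = O.val := by
      conv_rhs => rw [← Multiset.map_id O.val]
      exact Multiset.map_congr rfl fun P hP => h.hS.self (Nat.not_odd_iff_even.2 hie) P (hO P hP)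
    have hcc : cc i = i := if_pos hie
    obtain ⟨T', hT', hT'Q, hker', hT'c⟩ := exists_elem h hB hO hOh (J := o)
      (by rw [← Finset.card_def, hOc, hcc]) hoa
    have hle' : cc i * o ≤ finrank F V := by rcases hoa with h' | h' <;> omega
    obtain ⟨W, hWd, hWs, hWi⟩ := H T' hT' hT'Q (hne T' o ho1 hle' hker')
    obtain ⟨R', hR', LR', JR', hR'n, hK'n, hR'f, hR'p, hsup', hdim', hLS', -, hc', -, -, -, hTc'⟩ :=
      structure_of h hB hT' hT'Q
    have hwit := fixed T' hT' hT'Q W hWi hWs o (by omega)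
    rw [hker', hcc] at hwit
    suffices hWK : W ≤ LinearMap.ker (T' - 1) by
      rwa [inf_eq_left.2 hWK, hWd] at hwit
    -- the free part contains no singular invariant subspace
    let p' : Module.End F V := (r : F)⁻¹ • ∑ l ∈ Finset.range r, T' ^ l
    have hfix : ∀ v, T' (p' v) = p' v := fun v => by
      have h0 : (T' - 1) * ∑ l ∈ Finset.range r, T' ^ l = 0 := by rw [mul_geom_sum, hT', sub_self]
      simp only [p', LinearMap.smul_apply, map_smul]
      congr 1
      exact sub_eq_zero.1 (LinearMap.congr_fun h0 v)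
    intro w hw
    have hpow : ∀ l : ℕ, ∀ x ∈ W, (T' ^ l) x ∈ W := by
      intro l
      induction l with
      | zero => exact fun x hx => hx
      | succ l ih => intro x hx; rw [pow_succ', Module.End.mul_apply]; exact hWi _ (ih x hx)
    have hpW : p' w ∈ W := by
      simp only [p', LinearMap.smul_apply, LinearMap.sum_apply]
      exact W.smul_mem _ (W.sum_mem fun l _ => hpow l w hw)
    have hKR : ∀ l, ∀ x ∈ R', (T' ^ l) x ∈ R' := by
      intro l
      induction l with
      | zero => exact fun x hx => hx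
      | succ l ih => intro x hx; rw [pow_succ', Module.End.mul_apply]; exact hR' _ (ih x hx)
    obtain ⟨a, ha, b, hb, hab⟩ := Submodule.mem_sup.1 (show w ∈ LinearMap.ker (T' - 1) ⊔ R' from hsup' ▸ Submodule.mem_top)
    have hpa : p' a = a := by
      have hl : ∀ l : ℕ, (T' ^ l) a = a := by
        intro l
        induction l with
        | zero => rfl
        | succ l ih => rw [pow_succ', Module.End.mul_apply, ih]; exact sub_eq_zero.1 ha
      simp only [p', LinearMap.smul_apply, LinearMap.sum_apply, hl, Finset.sum_const, Finset.card_range]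
      rw [← Nat.cast_smul_eq_nsmul F, smul_smul, inv_mul_cancel₀ h.hrF, one_smul]
    have hpb : p' b = 0 := by
      have h1 : p' b ∈ R' ⊓ LinearMap.ker (T' - 1) := ⟨by
        simp only [p', LinearMap.smul_apply, LinearMap.sum_apply]
        exact R'.smul_mem _ (R'.sum_mem fun l _ => hKR l b hb), sub_eq_zero.2 (hfix b)⟩
      rwa [hR'f, Submodule.mem_bot] at h1
    have haW : a ∈ W := by
      rw [← hab, map_add, hpa, hpb, add_zero] at hpW
      exact hpW
    have hbW : b ∈ W := by
      have := W.sub_mem hw haW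
      rwa [← hab, add_sub_cancel_left] at this
    suffices hb0 : b = 0 by rw [← hab, hb0, add_zero]; exact ha
    let WR := (W ⊓ R').comap R'.subtype
    have hc2 : (T'.restrict hR').charpoly = O.val.prod := by
      rw [hc', (TSCrit.form_inj h.hS hLS' hO (hTc'.symm.trans hT'c)).2]
    let aR := LinearEquiv.ofInjectiveEndo (T'.restrict hR')
      (fun x y hxy => Subtype.ext (injective_of_pow h.hr.pos hT' (congrArg Subtype.val hxy)))
    have haR : (aR : Module.End F R') = T'.restrict hR' := LinearMap.ext fun x => rfl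
    obtain ⟨π, hπ, hπ0, hπd, hπdvd, -⟩ := TSDerange.exists_dvd (B := QuadraticMap.polarBilin (Q.comp R'.subtype))
      (res_nondeg hR'n) (fun x y hxy => by
        simpa [QuadraticMap.polar_comm] using hxy) aR
      (fun x y => by rw [polar_res, polar_res]; exact polar_inv hT'Q _ _) h.hr.pos h.hrF
      (by rw [haR, TSDerange.restrict_pow_eq hR' (z := 1) (by rw [hT', one_smul]), one_smul]) (W := WR)
      (fun x hx => ⟨hWi _ hx.1, hR' _ hx.2⟩)
      (fun x hx y hy => by rw [polar_res]; exact polar_sing hWs hx.1 hy.1)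
    rw [haR, hc2] at hπdvd
    obtain ⟨e', A', he', he'0, hA'⟩ := TSCrit.half_shape h.hS (f := 0) hO hπ hπ0 (by rwa [pow_zero, one_mul])
      (K := Multiset.card O.val) (by rw [pow_zero, one_mul]; exact dvd_pow_of_factors h.hS hO)
    have hA0 : A' = 0 := by
      refine Multiset.eq_zero_of_forall_notMem fun P hP => ?_
      have h1 := Multiset.le_iff_count.1 hA' P
      have hPO : P ∈ O.val := Multiset.mem_of_le hA' (Multiset.mem_add.2 (Or.inl hP))
      have h3 : P ∈ A'.map hat :=
        Multiset.mem_map.2 ⟨P, hP, h.hS.self (Nat.not_odd_iff_even.2 hie) P (hO P hPO)⟩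
      have h4 := Multiset.nodup_iff_count_le_one.1 O.nodup P
      rw [Multiset.count_add] at h1
      have := Multiset.count_pos.2 hP
      have := Multiset.count_pos.2 h3
      omega
    have hWR : WR = ⊥ := Submodule.finrank_eq_zero.1 (by
      rw [← hπd, he', hA0, Multiset.card_zero, mul_zero]; omega)
    have hbm : (⟨b, hb⟩ : R') ∈ WR := ⟨hbW, hb⟩
    rw [hWR, Submodule.mem_bot] at hbm
    exact congrArg Subtype.val hbm

end Cfsg.Agent.Linear.OrthSingDerange
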