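import Cfsg.Agent.Linear.OmegaIso
import Cfsg.Agent.Linear.SL2Facts
import Cfsg.Agent.Forms.QuadOrder

/-!
# `PΩ₃(q) ≅ PSL₂(q)`

`SL₂` acts on trace-zero `2 × 2` matrices by conjugation, preserving `-det`.
-/

set_option autoImplicit false

namespace Cfsg.Agent.Linear

open Matrix

variable {F : Type*} [Field F]

/-- A vector as a trace-zero matrix. -/
def oddToMat : (Unit ⊕ (Fin 1 ⊕ Fin 1) → F) →ₗ[F] Matrix (Fin 2) (Fin 2) F where
  toFun v := !![v (.inl ()), v (.inr (.inl 0)); v (.inr (.inr 0)), -v (.inl ())]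
  map_add' u v := by ext i j; fin_cases i <;> fin_cases j <;> simp [add_comm]
  map_smul' c v := by ext i j; fin_cases i <;> fin_cases j <;> simp

/-- A matrix as a vector. -/
def matToOdd : Matrix (Fin 2) (Fin 2) F →ₗ[F] (Unit ⊕ (Fin 1 ⊕ Fin 1) → F) where
  toFun M := Sum.elim (fun _ => M 0 0) (Sum.elim (fun _ => M 0 1) (fun _ => M 1 0))
  map_add' M N := by funext k; rcases k with ⟨⟩ | k | k <;> rfl
  map_smul' c M := by funext k; rcases k with ⟨⟩ | k | k <;> rfl

theorem matToOdd_oddToMat (v : Unit ⊕ (Fin 1 ⊕ Fin 1) → F) : matToOdd (oddToMat v) = v := by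
  funext k
  rcases k with ⟨⟩ | k | k
  · rfl
  all_goals rw [Subsingleton.elim k 0]; rfl

theorem oddToMat_matToOdd {M : Matrix (Fin 2) (Fin 2) F} (hM : M.trace = 0) :
    oddToMat (matToOdd M) = M := by
  rw [Matrix.trace_fin_two] at hM
  ext i j
  fin_cases i <;> fin_cases j <;> try rfl
  change -M 0 0 = M 1 1
  linear_combination -hM

theorem trace_oddToMat (v : Unit ⊕ (Fin 1 ⊕ Fin 1) → F) : (oddToMat v).trace = 0 := by
  simp [Matrix.trace_fin_two, oddToMat]

theorem quadFormOdd_one_eq (v : Unit ⊕ (Fin 1 ⊕ Fin 1) → F) :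
    Cfsg.quadFormOdd 1 F v = -(oddToMat v).det := by
  simp [Cfsg.quadFormOdd, oddToMat, Matrix.det_fin_two]
  ring

theorem trace_conj_sl (g : SpecialLinearGroup (Fin 2) F) (M : Matrix (Fin 2) (Fin 2) F) :
    (g.1 * M * g⁻¹.1).trace = M.trace := by
  rw [Matrix.trace_mul_cycle, sl_inv_mul, one_mul]

/-- The adjoint action. -/
def adjRep : SpecialLinearGroup (Fin 2) F →* Module.End F (Unit ⊕ (Fin 1 ⊕ Fin 1) → F) where
  toFun g := matToOdd ∘ₗ LinearMap.mulRight F g⁻¹.1 ∘ₗ LinearMap.mulLeft F g.1 ∘ₗ oddToMat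
  map_one' := by
    apply LinearMap.ext
    intro v
    change matToOdd ((1 : SpecialLinearGroup (Fin 2) F).1 * oddToMat v *
      (1 : SpecialLinearGroup (Fin 2) F)⁻¹.1) = v
    rw [inv_one]
    change matToOdd (1 * oddToMat v * 1) = v
    rw [one_mul, mul_one, matToOdd_oddToMat]
  map_mul' g h := by
    apply LinearMap.ext
    intro v
    change matToOdd ((g * h).1 * oddToMat v * (g * h)⁻¹.1) =
      matToOdd (g.1 * oddToMat (matToOdd (h.1 * oddToMat v * h⁻¹.1)) * g⁻¹.1)
    rw [oddToMat_matToOdd (by rw [trace_conj_sl, trace_oddToMat]), _root_.mul_inv_rev]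
    change matToOdd (g.1 * h.1 * oddToMat v * (h⁻¹.1 * g⁻¹.1)) = _
    simp only [mul_assoc]

theorem adjRep_apply (g : SpecialLinearGroup (Fin 2) F) (v : Unit ⊕ (Fin 1 ⊕ Fin 1) → F) :
    adjRep g v = matToOdd (g.1 * oddToMat v * g⁻¹.1) := rfl

theorem adjRep_preserves (g : SpecialLinearGroup (Fin 2) F) (v : Unit ⊕ (Fin 1 ⊕ Fin 1) → F) :
    Cfsg.quadFormOdd 1 F (adjRep g v) = Cfsg.quadFormOdd 1 F v := by
  rw [quadFormOdd_one_eq, quadFormOdd_one_eq, adjRep_apply,
    oddToMat_matToOdd (by rw [trace_conj_sl, trace_oddToMat]), Matrix.det_mul, Matrix.det_mul,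
    g.2, g⁻¹.2, one_mul, mul_one]

theorem adjRep_eq_one_iff (g : SpecialLinearGroup (Fin 2) F) :
    adjRep g = 1 ↔ g ∈ Subgroup.center (SpecialLinearGroup (Fin 2) F) := by
  constructor
  · intro h
    have key : ∀ v, g.1 * oddToMat v = oddToMat v * g.1 := by
      intro v
      have h1 : adjRep g v = v := by rw [h]; rfl
      have h2 := congrArg oddToMat h1
      rw [adjRep_apply, oddToMat_matToOdd (by rw [trace_conj_sl, trace_oddToMat])] at h2
      calc g.1 * oddToMat v = g.1 * oddToMat v * (g⁻¹.1 * g.1) := by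
            rw [sl_inv_mul, mul_one]
        _ = oddToMat v * g.1 := by rw [← mul_assoc, h2]
    have k1 := key (Sum.elim (fun _ => 0) (Sum.elim (fun _ => 1) (fun _ => 0)))
    have k2 := key (Sum.elim (fun _ => 0) (Sum.elim (fun _ => 0) (fun _ => 1)))
    have a1 := congrFun (congrFun k1 0) 0
    have a2 := congrFun (congrFun k1 0) 1
    have a3 := congrFun (congrFun k2 0) 0
    simp [oddToMat, Matrix.mul_apply, Fin.sum_univ_two] at a1 a2 a3
    rw [Matrix.SpecialLinearGroup.mem_center_iff]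
    refine ⟨g.1 0 0, ?_, ?_⟩
    · have hd := g.2
      rw [Matrix.det_fin_two, ← a2] at hd
      rw [Fintype.card_fin]
      linear_combination hd - g.1 0 1 * a1
    · ext i j
      fin_cases i <;> fin_cases j <;> simp [Matrix.diagonal_apply, a1, a2, a3]
  · intro h
    obtain ⟨r, hr, hz⟩ := Matrix.SpecialLinearGroup.mem_center_iff.1 h
    apply LinearMap.ext
    intro v
    have hz' : g.1 = r • (1 : Matrix (Fin 2) (Fin 2) F) := by
      rw [← hz, Matrix.scalar_apply, ← Matrix.smul_one_eq_diagonal]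
    have hginv : g.1 * g⁻¹.1 = 1 := sl_mul_inv g
    rw [adjRep_apply, hz']
    rw [hz'] at hginv
    rw [smul_mul_assoc, one_mul] at hginv
    rw [smul_mul_assoc, one_mul, smul_mul_assoc, ← mul_smul_comm, hginv, mul_one,
      matToOdd_oddToMat]
    rfl

/-- `PΩ₃(q) ≅ PSL₂(q)`. -/
theorem pomega_three [Fintype F] (h2 : (2 : F) ≠ 0) :
    Nonempty (Cfsg.POmega F (Cfsg.quadFormOdd 1 F) ≃*
      Matrix.ProjectiveSpecialLinearGroup (Fin 2) F) := by
  classical
  let φ := isoHom (adjRep (F := F)) adjRep_preserves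
  have hker : φ.ker = Subgroup.center (SpecialLinearGroup (Fin 2) F) := by
    ext g
    rw [MonoidHom.mem_ker]
    exact Iff.trans isoHom_eq_one (adjRep_eq_one_iff g)
  have hQ := Cfsg.Agent.Forms.qOdd_nondegenerate (m := 1) (F := F) h2
  refine nonempty_pomega_equiv (Cfsg.Agent.Forms.qOdd 1 F) (Cfsg.Agent.Forms.coe_qOdd 1 F) hQ
    (by simp) φ hker.le (hker ▸ card_center_SL2_le) (fun h => absurd h h2) ?_ ?_ ?_
  · rw [Cfsg.Agent.Forms.card_isometryGroup_odd 1 rfl h2, card_SL_two]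
    simp [mul_assoc]
  · exact range_le_omega_of_odd (Cfsg.Agent.Forms.qOdd 1 F) (Cfsg.Agent.Forms.coe_qOdd 1 F) hQ h2
      (by simp) φ closure_transvections_eq_top (sl2_odd_generators h2)
  · rw [hker]
    exact sl2_central_of_commutator_center

end Cfsg.Agent.Linear
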