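import Cfsg.Agent.Linear.OmegaIso
import Cfsg.Agent.Linear.SL2Facts
import Cfsg.Agent.Linear.Congr
import Cfsg.Agent.Linear.Torus
import Cfsg.Agent.Forms.QuadOrder
import Mathlib.Algebra.QuadraticAlgebra.Basic
import Mathlib.FieldTheory.Finite.GaloisField

/-!
# `PΩ⁻₄(q) ≅ PSL₂(q²)`

`SL₂` over the quadratic extension acts on Hermitian `2 × 2` matrices.
-/

set_option autoImplicit false

namespace Cfsg.Agent.Linear

open Matrix

variable {F : Type*} [Field F] {a b : F}

/-- The quadratic extension attached to `z₁² + a z₁ z₂ + b z₂²`. -/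
abbrev Ext (a b : F) : Type _ := QuadraticAlgebra F (-b) a

/-- The underlying space. -/
abbrev MinusVec (F : Type*) : Type _ := (Fin 1 ⊕ Fin 1) ⊕ Fin 2 → F

/-- A vector as a Hermitian matrix. -/
def toHerm (a b : F) : MinusVec F →ₗ[F] Matrix (Fin 2) (Fin 2) (Ext a b) where
  toFun v := !![⟨-v (.inl (.inl 0)), 0⟩, ⟨v (.inr 0), v (.inr 1)⟩;
    star (⟨v (.inr 0), v (.inr 1)⟩ : Ext a b), ⟨v (.inl (.inr 0)), 0⟩]
  map_add' u v := by
    ext i j <;> fin_cases i <;> fin_cases j <;> simp <;> ring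
  map_smul' c v := by
    ext i j <;> fin_cases i <;> fin_cases j <;> simp <;> ring

/-- A matrix as a vector. -/
def ofHerm (a b : F) : Matrix (Fin 2) (Fin 2) (Ext a b) →ₗ[F] MinusVec F where
  toFun M := Sum.elim (Sum.elim (fun _ => -(M 0 0).re) (fun _ => (M 1 1).re))
    ![(M 0 1).re, (M 0 1).im]
  map_add' M N := by
    funext k; rcases k with (k | k) | k
    · simp [add_comm]
    · simp
    · fin_cases k <;> simp
  map_smul' c M := by
    funext k; rcases k with (k | k) | k
    · simp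
    · simp
    · fin_cases k <;> simp

theorem ofHerm_toHerm (v : MinusVec F) : ofHerm a b (toHerm a b v) = v := by
  funext k
  rcases k with (k | k) | k
  · rw [Subsingleton.elim k 0]; simp [ofHerm, toHerm]
  · rw [Subsingleton.elim k 0]; simp [ofHerm, toHerm]
  · fin_cases k <;> simp [ofHerm, toHerm]

/-- Fixed elements of the conjugation are scalars. -/
theorem im_eq_zero [Finite F] (hab : ∀ z₁ z₂ : F, z₁ ^ 2 + a * z₁ * z₂ + b * z₂ ^ 2 = 0 → z₁ = 0 ∧ z₂ = 0)
    {z : Ext a b} (hz : star z = z) : z.im = 0 := by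
  have h1 := congrArg QuadraticAlgebra.re hz
  have h2 := congrArg QuadraticAlgebra.im hz
  simp at h1 h2
  by_contra hne
  have ha : a = 0 := by
    rcases h1 with h1 | h1
    · exact h1
    · exact absurd h1 hne
  have h20 : (2 : F) = 0 := mul_right_cancel₀ hne (by linear_combination -h2)
  obtain ⟨s, hs⟩ := Cfsg.Agent.Forms.exists_sq_of_two_eq_zero h20 b
  exact one_ne_zero (hab s 1 (by rw [ha]; linear_combination hs + b * h20)).2

theorem toHerm_ofHerm [Finite F]
    (hab : ∀ z₁ z₂ : F, z₁ ^ 2 + a * z₁ * z₂ + b * z₂ ^ 2 = 0 → z₁ = 0 ∧ z₂ = 0)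
    {M : Matrix (Fin 2) (Fin 2) (Ext a b)} (hM : Mᴴ = M) : toHerm a b (ofHerm a b M) = M := by
  have h : ∀ i j, star (M j i) = M i j := fun i j => congrFun (congrFun hM i) j
  have h0 := im_eq_zero hab (h 0 0)
  have h1 := im_eq_zero hab (h 1 1)
  have h10 := h 1 0
  ext i j <;> fin_cases i <;> fin_cases j <;> simp [toHerm, ofHerm, h0, h1]
  all_goals rw [← h10]
  all_goals simp

theorem conjTranspose_toHerm (v : MinusVec F) : (toHerm a b v)ᴴ = toHerm a b v := by
  ext i j <;> fin_cases i <;> fin_cases j <;>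
    simp [toHerm, QuadraticAlgebra.re_one, QuadraticAlgebra.im_one]

theorem quadFormMinus_one_eq (v : MinusVec F) :
    (⟨Cfsg.quadFormMinus 1 F a b v, 0⟩ : Ext a b) = -(toHerm a b v).det := by
  ext <;> simp [toHerm, Cfsg.quadFormMinus, Matrix.det_fin_two] <;> ring

variable [Finite F] [hf : Fact (∀ r : F, r ^ 2 ≠ -b + a * r)]
  (hab : ∀ z₁ z₂ : F, z₁ ^ 2 + a * z₁ * z₂ + b * z₂ ^ 2 = 0 → z₁ = 0 ∧ z₂ = 0)

omit [Finite F] hf in
theorem sandwich_hermitian (g : Matrix (Fin 2) (Fin 2) (Ext a b)) {M : Matrix (Fin 2) (Fin 2) (Ext a b)}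
    (hM : Mᴴ = M) : (g * M * gᴴ)ᴴ = g * M * gᴴ := by
  rw [Matrix.conjTranspose_mul, Matrix.conjTranspose_mul, Matrix.conjTranspose_conjTranspose, hM,
    Matrix.mul_assoc]

/-- The Hermitian action. -/
def hermRep : SpecialLinearGroup (Fin 2) (Ext a b) →* Module.End F (MinusVec F) where
  toFun g := ofHerm a b ∘ₗ LinearMap.mulRight F (g.1)ᴴ ∘ₗ LinearMap.mulLeft F g.1 ∘ₗ toHerm a b
  map_one' := by
    apply LinearMap.ext
    intro v
    change ofHerm a b ((1 : Matrix (Fin 2) (Fin 2) (Ext a b)) * toHerm a b v *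
      (1 : Matrix (Fin 2) (Fin 2) (Ext a b))ᴴ) = v
    rw [Matrix.conjTranspose_one, one_mul, mul_one, ofHerm_toHerm]
  map_mul' g h := by
    apply LinearMap.ext
    intro v
    change ofHerm a b ((g.1 * h.1) * toHerm a b v * (g.1 * h.1)ᴴ) =
      ofHerm a b (g.1 * toHerm a b (ofHerm a b (h.1 * toHerm a b v * h.1ᴴ)) * g.1ᴴ)
    rw [toHerm_ofHerm hab (sandwich_hermitian _ (conjTranspose_toHerm v)),
      Matrix.conjTranspose_mul]
    simp only [mul_assoc]

theorem hermRep_apply (g : SpecialLinearGroup (Fin 2) (Ext a b)) (v : MinusVec F) :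
    hermRep hab g v = ofHerm a b (g.1 * toHerm a b v * g.1ᴴ) := rfl

theorem hermRep_preserves (g : SpecialLinearGroup (Fin 2) (Ext a b)) (v : MinusVec F) :
    Cfsg.quadFormMinus 1 F a b (hermRep hab g v) = Cfsg.quadFormMinus 1 F a b v := by
  suffices h : (⟨Cfsg.quadFormMinus 1 F a b (hermRep hab g v), 0⟩ : Ext a b) =
      ⟨Cfsg.quadFormMinus 1 F a b v, 0⟩ from congrArg QuadraticAlgebra.re h
  rw [quadFormMinus_one_eq, quadFormMinus_one_eq, hermRep_apply,
    toHerm_ofHerm hab (sandwich_hermitian _ (conjTranspose_toHerm v)), Matrix.det_mul,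
    Matrix.det_mul, Matrix.det_conjTranspose, g.2, star_one, one_mul, mul_one]

theorem hermRep_eq_one_iff (g : SpecialLinearGroup (Fin 2) (Ext a b)) :
    hermRep hab g = 1 ↔ g ∈ Subgroup.center (SpecialLinearGroup (Fin 2) (Ext a b)) := by
  constructor
  · intro h
    have key : ∀ v, g.1 * toHerm a b v * g.1ᴴ = toHerm a b v := by
      intro v
      have h1 : hermRep hab g v = v := by rw [h]; rfl
      have h2 := congrArg (toHerm a b) h1
      rwa [hermRep_apply, toHerm_ofHerm hab (sandwich_hermitian _ (conjTranspose_toHerm v))] at h2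
    have hone : toHerm a b (Sum.elim (Sum.elim (fun _ => -1) (fun _ => 1)) 0) = 1 := by
      ext i j <;> fin_cases i <;> fin_cases j <;>
        simp [toHerm, QuadraticAlgebra.re_one, QuadraticAlgebra.im_one]
    have hu : g.1 * g.1ᴴ = 1 := by
      have h1 := key (Sum.elim (Sum.elim (fun _ => -1) (fun _ => 1)) 0)
      rwa [hone, mul_one] at h1
    have comm : ∀ v, toHerm a b v * g.1 = g.1 * toHerm a b v := by
      intro v
      conv_lhs => rw [← key v]
      rw [mul_assoc, mul_eq_one_comm.1 hu, mul_one]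
    have k1 := comm (Sum.elim (Sum.elim (fun _ => -1) (fun _ => 0)) 0)
    have k2 := comm (Sum.elim (Sum.elim (fun _ => 0) (fun _ => 0)) ![1, 0])
    have e1 : toHerm a b (Sum.elim (Sum.elim (fun _ => -1) (fun _ => 0)) 0) =
        !![1, 0; 0, 0] := by
      ext i j <;> fin_cases i <;> fin_cases j <;>
        simp [toHerm, QuadraticAlgebra.re_one, QuadraticAlgebra.im_one]
    have e2 : toHerm a b (Sum.elim (Sum.elim (fun _ => 0) (fun _ => 0)) ![1, 0]) =
        !![0, 1; 1, 0] := by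
      ext i j <;> fin_cases i <;> fin_cases j <;>
        simp [toHerm, QuadraticAlgebra.re_one, QuadraticAlgebra.im_one]
    rw [e1] at k1
    rw [e2] at k2
    have a1 := congrFun (congrFun k1 0) 1
    have a2 := congrFun (congrFun k1 1) 0
    have a3 := congrFun (congrFun k2 0) 1
    simp [Matrix.mul_apply, Fin.sum_univ_two] at a1 a2 a3
    rw [Matrix.SpecialLinearGroup.mem_center_iff]
    refine ⟨g.1 0 0, ?_, ?_⟩
    · have hd := g.2
      rw [Matrix.det_fin_two] at hd
      rw [Fintype.card_fin]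
      linear_combination hd + g.1 1 0 * a1 - g.1 0 0 * a3
    · ext i j : 1
      fin_cases i <;> fin_cases j <;> simp [Matrix.diagonal_apply, a1, ← a2, ← a3]
  · intro h
    obtain ⟨r, hr, hz⟩ := Matrix.SpecialLinearGroup.mem_center_iff.1 h
    rw [Fintype.card_fin] at hr
    apply LinearMap.ext
    intro v
    have hrs : r * star r = 1 := by
      rcases sq_eq_one_iff.1 hr with h1 | h1 <;> simp [h1]
    have hz' : g.1 = r • (1 : Matrix (Fin 2) (Fin 2) (Ext a b)) := by
      rw [← hz, Matrix.scalar_apply, ← Matrix.smul_one_eq_diagonal]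
    rw [hermRep_apply, hz', Matrix.conjTranspose_smul, Matrix.conjTranspose_one, smul_mul_assoc,
      one_mul, mul_smul_comm, mul_one, smul_smul, mul_comm, hrs, one_smul, ofHerm_toHerm]
    rfl

omit hf [Finite F] in
/-- `PΩ⁻₄(q) ≅ PSL₂(q²)`. -/
theorem pomega_four_minus [Fintype F] {K : Type*} [Field K] [Fintype K] {q : ℕ}
    (hF : Fintype.card F = q) (hK : Fintype.card K = q ^ 2) (a b : F)
    (hab : ∀ z₁ z₂ : F, z₁ ^ 2 + a * z₁ * z₂ + b * z₂ ^ 2 = 0 → z₁ = 0 ∧ z₂ = 0) :
    Nonempty (Cfsg.POmega F (Cfsg.quadFormMinus 1 F a b) ≃*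
      Matrix.ProjectiveSpecialLinearGroup (Fin 2) K) := by
  classical
  have hroot : ∀ r : F, r ^ 2 ≠ -b + a * r := by
    intro r hr
    exact one_ne_zero (neg_eq_zero.1 (hab r (-1) (by linear_combination hr)).2)
  have : Fact (∀ r : F, r ^ 2 ≠ -b + a * r) := ⟨hroot⟩
  have : Fintype (Ext a b) := Fintype.ofFinite _
  have hcardL : Fintype.card (Ext a b) = q ^ 2 := by
    rw [← Nat.card_eq_fintype_card, card_quadraticAlgebra, hF]
  have hq : 1 < q := hF ▸ Fintype.one_lt_card
  let φ := isoHom (hermRep (a := a) (b := b) hab) (hermRep_preserves hab)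
  have hker : φ.ker = Subgroup.center (SpecialLinearGroup (Fin 2) (Ext a b)) := by
    ext g
    rw [MonoidHom.mem_ker]
    exact Iff.trans isoHom_eq_one (hermRep_eq_one_iff hab g)
  have hQ := Cfsg.Agent.Forms.qMinus_nondegenerate (m := 1) a b
    (Cfsg.Agent.Forms.disc_ne_zero hab)
  obtain ⟨e⟩ := nonempty_pomega_equiv (Cfsg.Agent.Forms.qMinus 1 F a b)
    (Cfsg.Agent.Forms.coe_qMinus 1 F a b) hQ (by simp) φ hker.le (hker ▸ card_center_SL2_le)
    (fun h2 => by
      rw [hker]
      refine center_SL2_eq_bot ?_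
      rw [← map_ofNat (algebraMap F (Ext a b)) 2, h2, map_zero])
    (by
      rw [Cfsg.Agent.Forms.card_isometryGroup_minus 1 hF a b hab, card_SL_two, hcardL]
      simp only [Finset.prod_range_one, zero_add, mul_one, Nat.reduceAdd]
      have hsq : (q ^ 2) ^ 2 - 1 = (q ^ 2 + 1) * (q ^ 2 - 1) := by
        simpa using Nat.sq_sub_sq (q ^ 2) 1
      rw [hsq]
      exact le_of_eq (by ring))
    (range_le_omega_of_perfect φ (sl2_perfect (by rw [hcardL]; nlinarith)))
    (fun x hx => sl2_central_of_commutator_center x fun g => hker ▸ hx g)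
  exact ⟨e.trans (pslCongr (FiniteField.ringEquivOfCardEq (hcardL.trans hK.symm)))⟩

end Cfsg.Agent.Linear
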