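import Cfsg.Agent.Linear.OmegaIso
import Cfsg.Agent.Linear.SL2Facts
import Cfsg.Agent.Forms.QuadOrder
import Mathlib.Algebra.CharP.Two

/-!
# `PΩ⁺₄(q) ≅ PSL₂(q) × PSL₂(q)`

`SL₂ × SL₂` acts on `2 × 2` matrices by `M ↦ g M h⁻¹`, preserving the determinant.
-/

set_option autoImplicit false

namespace Cfsg.Agent.Linear

open Matrix
open scoped commutatorElement

variable {F : Type*} [Field F]

/-- The four-space as `2 × 2` matrices. -/
def plusTwoMat : (Fin 2 ⊕ Fin 2 → F) ≃ₗ[F] Matrix (Fin 2) (Fin 2) F where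
  toFun v := !![v (.inl 0), v (.inl 1); -v (.inr 1), v (.inr 0)]
  invFun M := Sum.elim ![M 0 0, M 0 1] ![M 1 1, -M 1 0]
  map_add' u v := by ext i j; fin_cases i <;> fin_cases j <;> simp [add_comm]
  map_smul' c v := by ext i j; fin_cases i <;> fin_cases j <;> simp
  left_inv v := by funext k; rcases k with k | k <;> fin_cases k <;> simp
  right_inv M := by ext i j; fin_cases i <;> fin_cases j <;> simp

theorem quadFormPlus_two_eq (v : Fin 2 ⊕ Fin 2 → F) :
    Cfsg.quadFormPlus 2 F v = (plusTwoMat v).det := by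
  simp [Cfsg.quadFormPlus, plusTwoMat, Matrix.det_fin_two, Fin.sum_univ_two]

/-- Two-sided multiplication. -/
def pairRep : SpecialLinearGroup (Fin 2) F × SpecialLinearGroup (Fin 2) F →*
    Module.End F (Fin 2 ⊕ Fin 2 → F) where
  toFun g := plusTwoMat.symm.toLinearMap ∘ₗ LinearMap.mulRight F g.2⁻¹.1 ∘ₗ
    LinearMap.mulLeft F g.1.1 ∘ₗ plusTwoMat.toLinearMap
  map_one' := by
    apply LinearMap.ext
    intro v
    change plusTwoMat.symm ((1 : SpecialLinearGroup (Fin 2) F).1 * plusTwoMat v *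
      (1 : SpecialLinearGroup (Fin 2) F)⁻¹.1) = v
    rw [inv_one]
    change plusTwoMat.symm (1 * plusTwoMat v * 1) = v
    rw [one_mul, mul_one, LinearEquiv.symm_apply_apply]
  map_mul' g h := by
    apply LinearMap.ext
    intro v
    change plusTwoMat.symm ((g.1 * h.1).1 * plusTwoMat v * (g.2 * h.2)⁻¹.1) =
      plusTwoMat.symm (g.1.1 * plusTwoMat (plusTwoMat.symm (h.1.1 * plusTwoMat v * h.2⁻¹.1))
        * g.2⁻¹.1)
    rw [LinearEquiv.apply_symm_apply, _root_.mul_inv_rev]
    change plusTwoMat.symm (g.1.1 * h.1.1 * plusTwoMat v * (h.2⁻¹.1 * g.2⁻¹.1)) = _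
    simp only [mul_assoc]

theorem pairRep_apply (g : SpecialLinearGroup (Fin 2) F × SpecialLinearGroup (Fin 2) F)
    (v : Fin 2 ⊕ Fin 2 → F) :
    pairRep g v = plusTwoMat.symm (g.1.1 * plusTwoMat v * g.2⁻¹.1) := rfl

theorem pairRep_preserves (g : SpecialLinearGroup (Fin 2) F × SpecialLinearGroup (Fin 2) F)
    (v : Fin 2 ⊕ Fin 2 → F) :
    Cfsg.quadFormPlus 2 F (pairRep g v) = Cfsg.quadFormPlus 2 F v := by
  rw [quadFormPlus_two_eq, quadFormPlus_two_eq, pairRep_apply, LinearEquiv.apply_symm_apply,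
    Matrix.det_mul, Matrix.det_mul, g.1.2, g.2⁻¹.2, one_mul, mul_one]

theorem pairRep_eq_one_iff (g : SpecialLinearGroup (Fin 2) F × SpecialLinearGroup (Fin 2) F) :
    pairRep g = 1 ↔ g.1 = g.2 ∧ g.1 ∈ Subgroup.center (SpecialLinearGroup (Fin 2) F) := by
  constructor
  · intro h
    have key : ∀ M : Matrix (Fin 2) (Fin 2) F, g.1.1 * M * g.2⁻¹.1 = M := by
      intro M
      have h1 : pairRep g (plusTwoMat.symm M) = plusTwoMat.symm M := by rw [h]; rfl
      rw [pairRep_apply, LinearEquiv.apply_symm_apply] at h1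
      exact plusTwoMat.symm.injective h1
    have heq : g.1 = g.2 := by
      apply Subtype.ext
      calc g.1.1 = g.1.1 * 1 * (g.2⁻¹.1 * g.2.1) := by rw [sl_inv_mul, mul_one, mul_one]
        _ = g.2.1 := by rw [← mul_assoc, key, one_mul]
    refine ⟨heq, Subgroup.mem_center_iff.2 fun x => Subtype.ext ?_⟩
    change x.1 * g.1.1 = g.1.1 * x.1
    calc x.1 * g.1.1 = g.1.1 * x.1 * g.2⁻¹.1 * g.1.1 := by rw [key]
      _ = g.1.1 * x.1 := by rw [mul_assoc, heq, sl_inv_mul, mul_one]
  · rintro ⟨h1, h2⟩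
    apply LinearMap.ext
    intro v
    obtain ⟨r, -, hz⟩ := Matrix.SpecialLinearGroup.mem_center_iff.1 h2
    rw [pairRep_apply, ← h1, ← hz, Matrix.scalar_commute _ (fun r' => Commute.all r r') _,
      mul_assoc, hz, sl_mul_inv, mul_one, LinearEquiv.symm_apply_apply]
    rfl

/-- `PΩ⁺₄(q) ≅ PSL₂(q) × PSL₂(q)`. -/
theorem pomega_four_plus [Fintype F] (hq : 3 ≤ Fintype.card F) :
    Nonempty (Cfsg.POmega F (Cfsg.quadFormPlus 2 F) ≃*
      Matrix.ProjectiveSpecialLinearGroup (Fin 2) F ×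
        Matrix.ProjectiveSpecialLinearGroup (Fin 2) F) := by
  classical
  set S := SpecialLinearGroup (Fin 2) F
  let φ := isoHom (pairRep (F := F)) pairRep_preserves
  have hker : ∀ g, g ∈ φ.ker ↔ g.1 = g.2 ∧ g.1 ∈ Subgroup.center S := fun g => by
    rw [MonoidHom.mem_ker]
    exact Iff.trans isoHom_eq_one (pairRep_eq_one_iff g)
  have hkerle : φ.ker ≤ Subgroup.center (S × S) := by
    intro g hg
    obtain ⟨h1, h2⟩ := (hker g).1 hg
    rw [Subgroup.mem_center_iff]
    intro x
    exact Prod.ext (Subgroup.mem_center_iff.1 h2 x.1) (Subgroup.mem_center_iff.1 (h1 ▸ h2) x.2)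
  have hinj : Function.Injective (fun g : φ.ker => (⟨g.1.1, ((hker g.1).1 g.2).2⟩ :
      Subgroup.center S)) := by
    intro a b h
    have h' : a.1.1 = b.1.1 := congrArg Subtype.val h
    exact Subtype.ext (Prod.ext h'
      (((hker a.1).1 a.2).1.symm.trans (h'.trans ((hker b.1).1 b.2).1)))
  have hQ := Cfsg.Agent.Forms.qPlus_nondegenerate (m := 2) (F := F)
  have hrange : φ.range ≤ Cfsg.Omega F (Cfsg.quadFormPlus 2 F) := by
    have key : ∀ ψ : S →* Cfsg.isometryGroup F (Cfsg.quadFormPlus 2 F),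
        ψ.range ≤ Cfsg.Omega F (Cfsg.quadFormPlus 2 F) := by
      intro ψ
      by_cases h2 : (2 : F) = 0
      · refine range_le_omega_of_perfect ψ (sl2_perfect ?_)
        have heven := (FiniteField.even_card_iff_char_two (F := F)).1
          (CharP.ringChar_of_prime_eq_zero Nat.prime_two (by exact_mod_cast h2))
        omega
      · exact range_le_omega_of_odd (Cfsg.Agent.Forms.qPlus 2 F) (Cfsg.Agent.Forms.coe_qPlus 2 F)
          hQ h2 (by simp) ψ closure_transvections_eq_top (sl2_odd_generators h2)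
    rintro _ ⟨g, rfl⟩
    have hg : g = MonoidHom.inl S S g.1 * MonoidHom.inr S S g.2 := by simp
    rw [hg, map_mul]
    exact mul_mem (key (φ.comp (MonoidHom.inl S S)) ⟨g.1, rfl⟩)
      (key (φ.comp (MonoidHom.inr S S)) ⟨g.2, rfl⟩)
  obtain ⟨e⟩ := nonempty_pomega_equiv (Cfsg.Agent.Forms.qPlus 2 F)
    (Cfsg.Agent.Forms.coe_qPlus 2 F) hQ (by simp) φ hkerle
    ((Nat.card_le_card_of_injective _ hinj).trans card_center_SL2_le)
    (fun h2 => by
      rw [eq_bot_iff]
      intro g hg
      obtain ⟨h1, hc⟩ := (hker g).1 hg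
      rw [center_SL2_eq_bot h2, Subgroup.mem_bot] at hc
      exact Subgroup.mem_bot.2 (Prod.ext hc (h1 ▸ hc)))
    (by
      rw [Cfsg.Agent.Forms.card_isometryGroup_plus 2 rfl (by norm_num), Nat.card_prod,
        card_SL_two]
      simp only [Finset.prod_range_one, Nat.add_sub_cancel_left, zero_add, mul_one,
        show (2 : ℕ) - 1 = 1 from rfl]
      exact le_of_eq (by ring))
    hrange
    (fun x hx => by
      have hx' : ∀ g, ⁅x, g⁆ ∈ Subgroup.center (S × S) := fun g => hkerle (hx g)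
      have c1 : x.1 ∈ Subgroup.center S := sl2_central_of_commutator_center _ fun g => by
        rw [Subgroup.mem_center_iff]
        exact fun y => congrArg Prod.fst (Subgroup.mem_center_iff.1 (hx' (g, 1)) (y, 1))
      have c2 : x.2 ∈ Subgroup.center S := sl2_central_of_commutator_center _ fun g => by
        rw [Subgroup.mem_center_iff]
        exact fun y => congrArg Prod.snd (Subgroup.mem_center_iff.1 (hx' (1, g)) (1, y))
      rw [Subgroup.mem_center_iff]
      exact fun y => Prod.ext (Subgroup.mem_center_iff.1 c1 y.1) (Subgroup.mem_center_iff.1 c2 y.2))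
  let π := (QuotientGroup.mk' (Subgroup.center S)).prodMap (QuotientGroup.mk' (Subgroup.center S))
  have hπ : π.ker = Subgroup.center (S × S) := by
    rw [MonoidHom.ker_prodMap, QuotientGroup.ker_mk', Subgroup.center_prod]
  have hs : Function.Surjective π :=
    (QuotientGroup.mk'_surjective _).prodMap (QuotientGroup.mk'_surjective _)
  exact ⟨e.trans ((QuotientGroup.quotientMulEquivOfEq hπ.symm).trans
    (QuotientGroup.quotientKerEquivOfSurjective π hs))⟩

end Cfsg.Agent.Linear
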