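import Cfsg.Agent.Linear.POmega6Plus
import Cfsg.Agent.Forms.SympBridge
import Cfsg.Agent.Forms.SympOrder

/-!
# `PΩ₅(q) ≅ PSp₄(q)`

`Sp₄` fixes the alternating matrix `J`; it acts on the perpendicular of `J` in the exterior square.
-/

set_option autoImplicit false

namespace Cfsg.Agent.Linear

open Matrix
open scoped commutatorElement

variable {F : Type*} [Field F]

/-- The five-space inside the exterior square. -/
def fiveIn : (Unit ⊕ (Fin 2 ⊕ Fin 2) → F) →ₗ[F] (Fin 6 → F) where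
  toFun v := ![v (.inr (.inl 0)), v (.inl ()), v (.inr (.inl 1)), v (.inr (.inr 1)), -v (.inl ()),
    v (.inr (.inr 0))]
  map_add' u v := by funext k; fin_cases k <;> simp [add_comm]
  map_smul' c v := by funext k; fin_cases k <;> simp

/-- A left inverse. -/
def fiveOut : (Fin 6 → F) →ₗ[F] (Unit ⊕ (Fin 2 ⊕ Fin 2) → F) where
  toFun p := Sum.elim (fun _ => p 1) (Sum.elim ![p 0, p 2] ![p 5, p 3])
  map_add' u v := by funext k; rcases k with ⟨⟩ | k | k <;> (try fin_cases k) <;> simp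
  map_smul' c v := by funext k; rcases k with ⟨⟩ | k | k <;> (try fin_cases k) <;> simp

theorem fiveOut_fiveIn (v : Unit ⊕ (Fin 2 ⊕ Fin 2) → F) : fiveOut (fiveIn v) = v := by
  funext k; rcases k with ⟨⟩ | k | k <;> (try fin_cases k) <;> simp [fiveIn, fiveOut]

theorem fiveIn_fiveOut {p : Fin 6 → F} (hp : p 1 + p 4 = 0) : fiveIn (fiveOut p) = p := by
  have h4 : p 4 = -p 1 := by linear_combination hp
  funext k; fin_cases k <;> simp [fiveIn, fiveOut, h4]

theorem fiveIn_perp (v : Unit ⊕ (Fin 2 ⊕ Fin 2) → F) : fiveIn v 1 + fiveIn v 4 = 0 := by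
  simp [fiveIn]

theorem quadFormOdd_two_eq (v : Unit ⊕ (Fin 2 ⊕ Fin 2) → F) :
    Cfsg.quadFormOdd 2 F v = pfaff (fiveIn v) := by
  simp [Cfsg.quadFormOdd, fiveIn, pfaff, Fin.sum_univ_two]
  ring

/-- Coordinates of `J`. -/
def jVec : Fin 6 → F := ![0, -1, 0, 0, -1, 0]

theorem dot_hodge_jVec (p : Fin 6 → F) : p ⬝ᵥ hodgeStar jVec = p 1 + p 4 := by
  simp [hodgeStar, jVec, dotProduct, Fin.sum_univ_six]

/-- `Sp₄` as matrices on four points. -/
def sp4Mat : Matrix.symplecticGroup (Fin 2) F →* SpecialLinearGroup (Fin 4) F where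
  toFun g := ⟨Matrix.reindexAlgEquiv F F finSumFinEquiv g.1, by
    rw [Matrix.det_reindexAlgEquiv, SymplecticGroup.det_eq_one g.2]⟩
  map_one' := Subtype.ext (map_one (Matrix.reindexAlgEquiv F F finSumFinEquiv))
  map_mul' g h := Subtype.ext (map_mul (Matrix.reindexAlgEquiv F F finSumFinEquiv) g.1 h.1)

theorem altMat_jVec : altMat (jVec (F := F)) =
    Matrix.reindexAlgEquiv F F finSumFinEquiv (Matrix.J (Fin 2) F) := by
  ext i j
  fin_cases i <;> fin_cases j <;>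
    simp [altMat, jVec, Matrix.J, finSumFinEquiv, Fin.addCases, Matrix.reindexAlgEquiv_apply]

theorem wedge_jVec (g : Matrix.symplecticGroup (Fin 2) F) :
    wedge (sp4Mat g).1 (jVec (F := F)) = jVec := by
  set e : Fin 2 ⊕ Fin 2 ≃ Fin 4 := finSumFinEquiv
  have hT : (Matrix.reindexAlgEquiv F F e g.1)ᵀ = Matrix.reindexAlgEquiv F F e g.1ᵀ := rfl
  rw [wedge_apply]
  change altCo (Matrix.reindexAlgEquiv F F e g.1 * altMat jVec *
    (Matrix.reindexAlgEquiv F F e g.1)ᵀ) = _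
  rw [altMat_jVec, hT, ← map_mul, ← map_mul, SymplecticGroup.mem_iff.1 g.2, ← altMat_jVec,
    altCo_altMat]

theorem wedge_perp (g : Matrix.symplecticGroup (Fin 2) F) (p : Fin 6 → F) :
    wedge (sp4Mat g).1 p 1 + wedge (sp4Mat g).1 p 4 = p 1 + p 4 := by
  have h := pfaff_wedge (sp4Mat g) (p + jVec)
  rw [map_add, wedge_jVec, pfaff_add, pfaff_add, pfaff_wedge, dot_hodge_jVec, dot_hodge_jVec] at h
  exact add_left_cancel h

/-- The representation on the five-space. -/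
def sp4Rep : Matrix.symplecticGroup (Fin 2) F →* Module.End F (Unit ⊕ (Fin 2 ⊕ Fin 2) → F) where
  toFun g := fiveOut ∘ₗ wedge (sp4Mat g).1 ∘ₗ fiveIn
  map_one' := by
    apply LinearMap.ext
    intro v
    rw [map_one]
    change fiveOut (wedge (1 : Matrix (Fin 4) (Fin 4) F) (fiveIn v)) = v
    rw [wedge_one]
    exact fiveOut_fiveIn v
  map_mul' g h := by
    apply LinearMap.ext
    intro v
    rw [map_mul]
    change fiveOut (wedge ((sp4Mat g).1 * (sp4Mat h).1) (fiveIn v)) =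
      fiveOut (wedge (sp4Mat g).1 (fiveIn (fiveOut (wedge (sp4Mat h).1 (fiveIn v)))))
    rw [wedge_mul, fiveIn_fiveOut (by rw [wedge_perp, fiveIn_perp])]
    rfl

theorem sp4Rep_preserves (g : Matrix.symplecticGroup (Fin 2) F)
    (v : Unit ⊕ (Fin 2 ⊕ Fin 2) → F) :
    Cfsg.quadFormOdd 2 F (sp4Rep g v) = Cfsg.quadFormOdd 2 F v := by
  rw [quadFormOdd_two_eq, quadFormOdd_two_eq]
  change pfaff (fiveIn (fiveOut (wedge (sp4Mat g).1 (fiveIn v)))) = _
  rw [fiveIn_fiveOut (by rw [wedge_perp, fiveIn_perp]), pfaff_wedge]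

theorem sp4Rep_ker (h2 : (2 : F) ≠ 0) {g : Matrix.symplecticGroup (Fin 2) F} (h : sp4Rep g = 1) :
    ∃ c : F, c ^ 2 = 1 ∧ g.1 = c • (1 : Matrix (Fin 2 ⊕ Fin 2) (Fin 2 ⊕ Fin 2) F) := by
  have hfix : ∀ p : Fin 6 → F, p 1 + p 4 = 0 → wedge (sp4Mat g).1 p = p := by
    intro p hp
    have h1 : sp4Rep g (fiveOut p) = fiveOut p := by rw [h]; rfl
    have h2 := congrArg fiveIn h1
    change fiveIn (fiveOut (wedge (sp4Mat g).1 (fiveIn (fiveOut p)))) = _ at h2
    rw [fiveIn_fiveOut hp, fiveIn_fiveOut (by rw [wedge_perp, hp])] at h2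
    exact h2
  obtain ⟨c, hc, hg⟩ := scalar_of_wedge_eq_one (sp4Mat g).1 (sp4Mat g)⁻¹.1
    (congrArg Subtype.val (mul_inv_cancel (sp4Mat g))) (LinearMap.ext fun p => by
      set t := -(p 1 + p 4) / 2
      have hp : (p - t • (jVec : Fin 6 → F)) 1 + (p - t • (jVec : Fin 6 → F)) 4 = 0 := by
        simp [jVec, t]
        field_simp
        ring
      have h1 := hfix _ hp
      rw [map_sub, map_smul, wedge_jVec, sub_left_inj] at h1
      exact h1)
  refine ⟨c, hc, (Matrix.reindexAlgEquiv F F finSumFinEquiv).injective ?_⟩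
  rw [map_smul, map_one]
  exact hg

/-- `PΩ₅(q) ≅ PSp₄(q)`. -/
theorem pomega_five [Fintype F] (h2 : (2 : F) ≠ 0) :
    Nonempty (Cfsg.POmega F (Cfsg.quadFormOdd 2 F) ≃* Cfsg.PSp 2 F) := by
  classical
  let φ := isoHom (sp4Rep (F := F)) sp4Rep_preserves
  have hker : ∀ g, g ∈ φ.ker → ∃ c : F, c ^ 2 = 1 ∧
      g.1 = c • (1 : Matrix (Fin 2 ⊕ Fin 2) (Fin 2 ⊕ Fin 2) F) := fun g hg =>
    sp4Rep_ker h2 (isoHom_eq_one.1 (MonoidHom.mem_ker.1 hg))
  have hkerle : φ.ker ≤ Subgroup.center (Matrix.symplecticGroup (Fin 2) F) := by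
    intro g hg
    obtain ⟨c, -, hc⟩ := hker g hg
    rw [Subgroup.mem_center_iff]
    intro x
    apply Subtype.ext
    change x.1 * g.1 = g.1 * x.1
    rw [hc, mul_smul_comm, smul_mul_assoc, one_mul, mul_one]
  have h11 : ∀ (g : φ.ker) (c : F), g.1.1 = c • (1 : Matrix (Fin 2 ⊕ Fin 2) (Fin 2 ⊕ Fin 2) F) →
      g.1.1 (.inl 0) (.inl 0) = c := fun g c hc => by rw [hc]; simp
  set q := Fintype.card F with hqdef
  have hq3 : 3 ≤ q := by
    by_contra hlt
    have h1 : 1 < q := Fintype.one_lt_card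
    have hq2 : Fintype.card F = 2 := by omega
    have h2' : ((2 : ℕ) : F) = 0 := by rw [← hq2, FiniteField.cast_card_eq_zero]
    exact h2 (by exact_mod_cast h2')
  have hperf := Cfsg.Agent.Forms.commutator_symplectic_eq_top (F := F) (m := 2)
    (Or.inr (Or.inl ⟨rfl, hq3⟩))
  refine nonempty_pomega_equiv (Cfsg.Agent.Forms.qOdd 2 F) (Cfsg.Agent.Forms.coe_qOdd 2 F)
    (Cfsg.Agent.Forms.qOdd_nondegenerate h2) (by simp) φ hkerle ?_ (fun h => absurd h h2) ?_
    (range_le_omega_of_perfect φ hperf) (central_of_commutator_mem hperf hkerle)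
  · refine card_le_two_of_scalar (fun g : φ.ker => g.1.1 (.inl 0) (.inl 0))
      (fun g k hgk => ?_) fun g => ?_
    · obtain ⟨c, -, hc⟩ := hker _ g.2
      obtain ⟨d, -, hd⟩ := hker _ k.2
      simp only [h11 g c hc, h11 k d hd] at hgk
      exact Subtype.ext (Subtype.ext (by rw [hc, hd, hgk]))
    · obtain ⟨c, hc2, hc⟩ := hker _ g.2
      rw [h11 g c hc, hc2]
  · rw [Cfsg.Agent.Forms.card_isometryGroup_odd 2 rfl h2,
      Cfsg.Agent.Forms.card_symplecticGroup rfl 2, mul_assoc]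

end Cfsg.Agent.Linear
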