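import Cfsg.Agent.Linear.PGL2MaxMeet
import Mathlib

/-!
# The subgroups `A₅` of `PSL₂(q)`
-/

set_option autoImplicit false
set_option linter.unusedSectionVars false

namespace Cfsg.Agent.Linear.PSL2Eleven

open scoped Pointwise
open Matrix Cfsg.Agent.Dickson Cfsg.Agent.Linear.PSL2Borel Cfsg.Agent.Linear.PSL2Dickson
  Cfsg.Agent.Linear.PSL2Ext Cfsg.Agent.Linear.PSL2Max Cfsg.Agent.Linear.PGL2Max

variable {F : Type*} [Field F] [Fintype F]

local notation "SL" => Matrix.SpecialLinearGroup (Fin 2) F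
local notation "PSL" => Matrix.ProjectiveSpecialLinearGroup (Fin 2) F
local notation "PGL" => Matrix.ProjGenLinGroup (Fin 2) F
local notation "A5" => alternatingGroup (Fin 5)

/-- Generators of `A₅` and an outer automorphism squaring their product. -/
theorem exists_gens :
    ∃ (a b c : alternatingGroup (Fin 5)) (α : MulAut (alternatingGroup (Fin 5))),
      orderOf a = 2 ∧ orderOf b = 3 ∧ orderOf c = 5 ∧ a * b = c ∧ α c = c ^ 2 := by
  haveI := Fact.mk Nat.prime_two
  haveI := Fact.mk Nat.prime_three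
  haveI : Fact (Nat.Prime 5) := ⟨by norm_num⟩
  let c : alternatingGroup (Fin 5) := ⟨finRotate 5, Equiv.Perm.mem_alternatingGroup.2 (by decide)⟩
  obtain ⟨a, ha, ha1, hb, hb1⟩ : ∃ a : alternatingGroup (Fin 5),
      a ^ 2 = 1 ∧ a ≠ 1 ∧ (a * c) ^ 3 = 1 ∧ a * c ≠ 1 := by decide +kernel
  refine ⟨a, a * c, c, MulAut.conjNormal (Equiv.swap 1 2 * Equiv.swap 2 4 * Equiv.swap 4 3),
    orderOf_eq_prime ha ha1, orderOf_eq_prime hb hb1, orderOf_eq_prime (by decide) (by decide),
    by rw [← mul_assoc, ← pow_two, ha, one_mul], Subtype.ext ?_⟩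
  rw [MulAut.conjNormal_apply, Subgroup.coe_pow]
  decide

theorem tr_mul_self (g : SL) : tr (g * g) = tr g ^ 2 - 2 := by
  have hd := det_eq g
  simp [tr, mul_apply2]
  linear_combination -2 * hd

theorem exists_lifts (h2 : (2 : F) ≠ 0) {a b : A5} (ha : orderOf a = 2) (hb : orderOf b = 3)
    (f : A5 →* PSL) (hf : Function.Injective f) :
    ∃ g h : SL, toPSL g = f a ∧ toPSL h = f b ∧ tr g = 0 ∧ tr h = 1 := by
  obtain ⟨g, hg⟩ := toPSL_surjective (f a)
  obtain ⟨h, hh⟩ := toPSL_surjective (f b)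
  have ho : ∀ x, orderOf (f x) = orderOf x := orderOf_injective f hf
  have htg : tr g = 0 := tr_order_two h2 (by rw [hg, ho, ha])
  rcases mul_self_eq_one_iff.1 (tr_order_three (g := h) (by rw [hh, ho, hb])) with e | e
  · exact ⟨g, h, hg, hh, htg, e⟩
  · exact ⟨g, -h, hg, (toPSL_eq_iff.2 (Or.inr rfl)).trans hh, htg, by rw [tr_neg, e, neg_neg]⟩

theorem match_gens {a b : A5} (ha : orderOf a = 2) (hb : orderOf b = 3) (hc : orderOf (a * b) = 5)
    {f f' : A5 →* PSL} {g h g' h' : SL} (hg : toPSL g = f a) (hh : toPSL h = f b)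
    (hg' : toPSL g' = f' a) (hh' : toPSL h' = f' b) (s1 : tr g = 0) (s2 : tr h = 1) (s1' : tr g' = 0)
    (s2' : tr h' = 1) (hne : tr (g * h) ^ 2 ≠ 3) (e : tr (g' * h') ^ 2 = tr (g * h) ^ 2) :
    ∃ P : GL (Fin 2) F, ∀ x, glAut P (f x) = f' x := by
  have hcd : PSL2Pairs.cdet g h ≠ 0 := by
    rw [PSL2Pairs.cdet_eq, s1, s2]
    intro e'
    exact hne (by linear_combination -e')
  obtain ⟨g'', hg'', s1'', s3⟩ : ∃ g'' : SL, toPSL g'' = f' a ∧ tr g'' = 0 ∧ tr (g'' * h') = tr (g * h) := by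
    rcases sq_eq_sq_iff_eq_or_eq_neg.1 e with e' | e'
    · exact ⟨g', hg', s1', e'⟩
    · exact ⟨-g', (toPSL_eq_iff.2 (Or.inr rfl)).trans hg', by rw [tr_neg, s1', neg_zero],
        by rw [neg_mul, tr_neg, e', neg_neg]⟩
  obtain ⟨P, e1, e2⟩ := PSL2Pairs.exists_conj hcd (s1''.trans s1.symm) (s2'.trans s2.symm) s3
  refine ⟨P, fun x => ?_⟩
  have htop := closure_alt_five ha hb hc
    (H := MonoidHom.eqLocus ((glAut P).toMonoidHom.comp f) f')
    (show glAut P (f a) = f' a by rw [← hg, ← hg'', glAut_toPSL, conjGL_eq_of e1])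
    (show glAut P (f b) = f' b by rw [← hh, ← hh', glAut_toPSL, conjGL_eq_of e2])
  exact (htop ▸ Subgroup.mem_top x : x ∈ MonoidHom.eqLocus ((glAut P).toMonoidHom.comp f) f')

/-- All subgroups `A₅` are conjugate in `PGL₂(q)`, `q` odd. -/
theorem a5_pgl_conj (h2 : (2 : F) ≠ 0) {H H' : Subgroup PSL} (e : H ≃* A5) (e' : H' ≃* A5) :
    ∃ P : GL (Fin 2) F, H.map (glAut P).toMonoidHom = H' := by
  obtain ⟨a, b, c, α, ha, hb, hc, hab, hα⟩ := exists_gens
  have finish : ∀ f f' : A5 →* PSL, f.range = H → f'.range = H' →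
      (∃ P : GL (Fin 2) F, ∀ x, glAut P (f x) = f' x) →
      ∃ P : GL (Fin 2) F, H.map (glAut P).toMonoidHom = H' := by
    rintro f f' rfl rfl ⟨P, hP⟩
    exact ⟨P, by rw [MonoidHom.map_range, show (glAut P).toMonoidHom.comp f = f' from MonoidHom.ext hP]⟩
  let f : A5 →* PSL := H.subtype.comp e.symm.toMonoidHom
  let f' : A5 →* PSL := H'.subtype.comp e'.symm.toMonoidHom
  have hf : Function.Injective f := Subtype.val_injective.comp e.symm.injective
  have hf' : Function.Injective f' := Subtype.val_injective.comp e'.symm.injective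
  have hr : f.range = H := by
    rw [MonoidHom.range_comp, MonoidHom.range_eq_top.2 e.symm.surjective, ← MonoidHom.range_eq_map,
      Subgroup.range_subtype]
  have hr' : f'.range = H' := by
    rw [MonoidHom.range_comp, MonoidHom.range_eq_top.2 e'.symm.surjective, ← MonoidHom.range_eq_map,
      Subgroup.range_subtype]
  obtain ⟨g, h, hg, hh, s1, s2⟩ := exists_lifts h2 ha hb f hf
  obtain ⟨g', h', hg', hh', s1', s2'⟩ := exists_lifts h2 ha hb f' hf'
  have h5 : ∀ (φ : A5 →* PSL), Function.Injective φ → ∀ x y : SL, toPSL x = φ a → toPSL y = φ b →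
      toPSL (x * y) = φ c ∧ (tr (x * y) ^ 2) ^ 2 - 3 * tr (x * y) ^ 2 + 1 = 0 := by
    intro φ hφ x y hx hy
    have : toPSL (x * y) = φ c := by rw [map_mul, hx, hy, ← map_mul, hab]
    exact ⟨this, tr_order_five (by rw [this, orderOf_injective φ hφ, hc])⟩
  obtain ⟨-, q1⟩ := h5 f hf g h hg hh
  obtain ⟨hc', q2⟩ := h5 f' hf' g' h' hg' hh'
  have hne : tr (g * h) ^ 2 ≠ 3 := fun e3 => by rw [e3] at q1; norm_num at q1
  by_cases heq : tr (g' * h') ^ 2 = tr (g * h) ^ 2
  · exact finish f f' hr hr' (match_gens ha hb (hab ▸ hc) hg hh hg' hh' s1 s2 s1' s2' hne heq)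
  -- otherwise compose with the outer automorphism
  let f'' : A5 →* PSL := f'.comp α.toMonoidHom
  have hf'' : Function.Injective f'' := hf'.comp α.injective
  obtain ⟨g'', h'', hg'', hh'', s1'', s2''⟩ := exists_lifts h2 ha hb f'' hf''
  obtain ⟨hc'', -⟩ := h5 f'' hf'' g'' h'' hg'' hh''
  have hsum : tr (g * h) ^ 2 + tr (g' * h') ^ 2 = 3 := by
    have : (tr (g * h) ^ 2 - tr (g' * h') ^ 2) * (tr (g * h) ^ 2 + tr (g' * h') ^ 2 - 3) = 0 := by
      linear_combination q1 - q2
    exact sub_eq_zero.1 ((mul_eq_zero.1 this).resolve_left (sub_ne_zero.2 (Ne.symm heq)))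
  refine finish f f'' hr ?_ (match_gens ha hb (hab ▸ hc) hg hh hg'' hh'' s1 s2 s1'' s2'' hne ?_)
  · rw [MonoidHom.range_comp, MonoidHom.range_eq_top.2 α.surjective, ← MonoidHom.range_eq_map, hr']
  have e2 : toPSL (g'' * h'') = toPSL ((g' * h') * (g' * h')) := by
    rw [hc'', map_mul, hc', ← map_mul]
    show f' (α c) = _
    rw [hα, pow_two]
  have key : tr (g'' * h'') ^ 2 = (tr (g' * h') ^ 2 - 2) ^ 2 := by
    rcases toPSL_eq_iff.1 e2 with e3 | e3
    · rw [e3, tr_mul_self]
    · rw [e3, tr_neg, tr_mul_self, neg_sq]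
  rw [key]
  linear_combination q2 - hsum

/-- A subgroup `A₅` is self-normalising in `PGL₂(q)`. -/
theorem normalizer_eq (h2 : (2 : F) ≠ 0) (h5 : (5 : F) ≠ 0) {H : Subgroup PSL} (e : H ≃* A5) :
    Subgroup.normalizer ((H.map T : Subgroup PGL) : Set PGL) = H.map T := by
  classical
  set N := Subgroup.normalizer ((H.map T : Subgroup PGL) : Set PGL) with hN
  have hle : H.map T ≤ N := Subgroup.le_normalizer
  have hcH : Nat.card (H.map T : Subgroup PGL) = 60 :=
    (Nat.card_congr (Subgroup.equivMapOfInjective H T T_injective).toEquiv).symm.trans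
      ((Nat.card_congr e.toEquiv).trans card_four_five.2.2)
  let f : A5 →* PSL := H.subtype.comp e.symm.toMonoidHom
  have hf : Function.Injective f := Subtype.val_injective.comp e.symm.injective
  obtain ⟨ψ, hψ⟩ := exists_aut_hom (M := N) f hf fun P hP a => by
    have hm : T (glAut P (f a)) ∈ H.map T := by
      rw [T_glAut]
      exact (Subgroup.mem_normalizer_iff.1 hP _).1 (Subgroup.mem_map_of_mem _ (SetLike.coe_mem _))
    obtain ⟨y, hy, hye⟩ := hm
    exact ⟨e ⟨y, hy⟩, by simpa [f] using (T_injective hye).symm⟩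
  obtain ⟨H4, ⟨e4⟩⟩ := Cfsg.Agent.Linear.exists_A4_in_A5
  have hinj : Function.Injective ψ := (injective_iff_map_eq_one ψ).2 fun y hy => by
    obtain ⟨y, hym⟩ := y
    induction y using ProjGenLinGroup.induction_on with | mk P =>
    refine Subtype.ext (fix_a4 h2 (f.comp (H4.subtype.comp e4.symm.toMonoidHom))
      (hf.comp (Subtype.val_injective.comp e4.symm.injective)) fun a => ?_)
    show glAut P (f _) = f _
    rw [hψ P hym, hy]; rfl
  have hd : Nat.card N ∣ 120 := by
    have h := Subgroup.card_subgroup_dvd_card ψ.range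
    rw [card_mulAut (by norm_num) (by norm_num),
      ← Nat.card_congr (MonoidHom.ofInjective hinj).toEquiv] at h
    exact h
  have hd60 : 60 ∣ Nat.card N := hcH ▸ Subgroup.card_dvd_of_le hle
  refine (Subgroup.eq_of_le_of_card_ge hle ?_).symm
  rw [hcH]
  by_contra hbig
  have h120 : Nat.card N = 120 := by
    obtain ⟨k, hk⟩ := hd60
    rw [hk] at hd hbig ⊢
    have := Nat.le_of_dvd (by norm_num) hd
    omega
  have hbij : Function.Bijective ψ := by
    refine (Nat.bijective_iff_injective_and_card ψ).2 ⟨hinj, ?_⟩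
    rw [h120, card_mulAut (by norm_num) (by norm_num)]; rfl
  obtain ⟨a, b, c, α, ha, hb, hc, hab, hα⟩ := exists_gens
  obtain ⟨⟨y, hym⟩, hy⟩ := hbij.2 α
  induction y using ProjGenLinGroup.induction_on with | mk P =>
  have hPc : glAut P (f c) = f (c ^ 2) := by rw [hψ P hym, hy, hα]
  obtain ⟨g, hg⟩ := toPSL_surjective (f c)
  have hτ := tr_order_five (g := g) (by rw [hg, orderOf_injective f hf, hc])
  rw [map_pow, ← hg, glAut_toPSL, pow_two, ← map_mul] at hPc
  have hsq : tr g ^ 2 = (tr g ^ 2 - 2) ^ 2 := by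
    rcases toPSL_eq_iff.1 hPc with h | h <;> have := congrArg tr h <;> rw [tr_conjGL] at this
    · rw [tr_mul_self] at this; linear_combination (tr g + (tr g ^ 2 - 2)) * this
    · rw [tr_neg, tr_mul_self] at this; linear_combination (tr g - (tr g ^ 2 - 2)) * this
  have h3 : 2 * tr g ^ 2 = 3 := by linear_combination hτ + hsq
  exact h5 (by linear_combination (-4 : F) * hτ + (2 * tr g ^ 2 - 3) * h3)

theorem map_glAut_T (P : GL (Fin 2) F) (H : Subgroup PSL) :
    (H.map (glAut P).toMonoidHom).map T = (H.map T).map (MulAut.conj (ProjGenLinGroup.mk P)).toMonoidHom := by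
  rw [Subgroup.map_map, Subgroup.map_map]
  exact congrArg H.map (MonoidHom.ext fun x => T_glAut P x)

/-- The number of subgroups `A₅`. -/
theorem count (h2 : (2 : F) ≠ 0) (h5 : (5 : F) ≠ 0) {H : Subgroup PSL} (e : H ≃* A5) :
    Nat.card {L : Subgroup PSL // Nonempty (L ≃* A5)} * 60 = Nat.card PGL := by
  classical
  set N := Subgroup.normalizer ((H.map T : Subgroup PGL) : Set PGL) with hN
  have hout : ∀ x : PGL, ∃ P : GL (Fin 2) F, ProjGenLinGroup.mk P = x := fun x =>
    by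
      induction x using ProjGenLinGroup.induction_on with | mk P => exact ⟨P, rfl⟩
  choose rep hrep using hout
  let φ : PGL ⧸ N → {L : Subgroup PSL // Nonempty (L ≃* A5)} := fun x =>
    ⟨H.map (glAut (rep x.out)).toMonoidHom, ⟨((glAut (rep x.out)).subgroupMap H).symm.trans e⟩⟩
  have hT : ∀ x, (φ x).1.map T = (H.map T).map (MulAut.conj x.out).toMonoidHom := fun x => by
    exact (map_glAut_T (rep x.out) H).trans (by rw [hrep])
  have hb : Function.Bijective φ := by
    refine ⟨fun x y hxy => ?_, fun L => ?_⟩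
    · have e' := congrArg (fun L : Subgroup PSL => L.map T) (congrArg Subtype.val hxy)
      simp only [hT] at e'
      rw [← QuotientGroup.out_eq' x, ← QuotientGroup.out_eq' y, QuotientGroup.eq]
      refine Subgroup.mem_normalizer_fintype fun v hv => ?_
      have hm : y.out * v * (y.out)⁻¹ ∈ (H.map T).map (MulAut.conj x.out).toMonoidHom :=
        e' ▸ Subgroup.mem_map_of_mem (MulAut.conj y.out).toMonoidHom hv
      obtain ⟨u, hu, hue⟩ := hm
      show (x.out)⁻¹ * y.out * v * ((x.out)⁻¹ * y.out)⁻¹ ∈ H.map T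
      have hue' : x.out * u * (x.out)⁻¹ = y.out * v * (y.out)⁻¹ := hue
      rw [show (x.out)⁻¹ * y.out * v * ((x.out)⁻¹ * y.out)⁻¹ = (x.out)⁻¹ * (y.out * v * (y.out)⁻¹) * x.out by group,
        ← hue', show (x.out)⁻¹ * (x.out * u * (x.out)⁻¹) * x.out = u by group]
      exact hu
    · obtain ⟨eL⟩ := L.2
      obtain ⟨P, hP⟩ := a5_pgl_conj h2 e eL
      refine ⟨(ProjGenLinGroup.mk P : PGL ⧸ N), Subtype.ext (Subgroup.map_injective T_injective ?_)⟩
      obtain ⟨n, hn⟩ := QuotientGroup.mk_out_eq_mul N (ProjGenLinGroup.mk P)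
      have hfix : (H.map T).map (MulAut.conj (n : PGL)).toMonoidHom = H.map T := by
        ext v
        constructor
        · rintro ⟨u, hu, rfl⟩
          exact (Subgroup.mem_normalizer_iff.1 n.2 u).1 hu
        · intro hv
          refine ⟨(n : PGL)⁻¹ * v * n, (Subgroup.mem_normalizer_iff.1 n.2 _).2 (by simpa [mul_assoc] using hv), ?_⟩
          show (n : PGL) * ((n : PGL)⁻¹ * v * n) * (n : PGL)⁻¹ = v
          group
      rw [hT, hn, ← hP, map_glAut_T]
      conv_rhs => rw [← hfix, Subgroup.map_map]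
      exact congrArg (H.map T).map (MonoidHom.ext fun v => by simp [mul_assoc])
  rw [← Nat.card_eq_of_bijective φ hb, ← Subgroup.index_eq_card, ← N.index_mul_card]
  congr 1
  rw [hN, normalizer_eq h2 h5 e, ← Nat.card_congr (Subgroup.equivMapOfInjective H T T_injective).toEquiv,
    Nat.card_congr e.toEquiv, card_four_five.2.2]

theorem glAut_of_mem {P : GL (Fin 2) F} (hP : ProjGenLinGroup.mk P ∈ (T (F := F)).range) (L : Subgroup PSL) :
    ∃ y : PSL, L.map (glAut P).toMonoidHom = MulAut.conj y • L := by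
  obtain ⟨y, hy⟩ := hP
  refine ⟨y, congrArg L.map (MonoidHom.ext fun x => T_injective ?_)⟩
  show T (glAut P x) = T (y * x * y⁻¹)
  rw [T_glAut, map_mul, map_mul, map_inv, hy]

/-- The two classes of subgroups `A₅`. -/
theorem two_classes (hodd : Fintype.card F % 2 = 1) (h5 : (5 : F) ≠ 0) {H : Subgroup PSL} (e : H ≃* A5) :
    ∃ K : Subgroup PSL, Nonempty (K ≃* A5) ∧ (∀ g : PSL, MulAut.conj g • H ≠ K) ∧
      ∀ L : Subgroup PSL, Nonempty (L ≃* A5) → ∃ g : PSL, MulAut.conj g • L = H ∨ MulAut.conj g • L = K := by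
  classical
  have h2 : (2 : F) ≠ 0 := PSL2Classes.two_ne_zero_of_odd hodd
  have hidx := index_range_T (F := F) hodd
  obtain ⟨x0, hx0⟩ : ∃ x : PGL, x ∉ (T (F := F)).range := by
    by_contra! hall
    rw [(Subgroup.eq_top_iff' _).2 hall, Subgroup.index_top] at hidx
    omega
  induction x0 using ProjGenLinGroup.induction_on with | mk P0 =>
  refine ⟨H.map (glAut P0).toMonoidHom, ⟨((glAut P0).subgroupMap H).symm.trans e⟩, fun g hg => hx0 ?_,
    fun L ⟨eL⟩ => ?_⟩
  · have hT : (H.map T).map (MulAut.conj (T g)).toMonoidHom =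
        (H.map T).map (MulAut.conj (ProjGenLinGroup.mk P0)).toMonoidHom := by
      rw [← map_glAut_T, ← hg, Subgroup.map_map]
      show _ = (H.map (MulAut.conj g).toMonoidHom).map T
      rw [Subgroup.map_map]
      exact congrArg H.map (MonoidHom.ext fun x => by simp)
    have hmem : (ProjGenLinGroup.mk P0)⁻¹ * T g ∈ Subgroup.normalizer ((H.map T : Subgroup PGL) : Set PGL) := by
      refine Subgroup.mem_normalizer_fintype fun v hv => ?_
      have hm : T g * v * (T g)⁻¹ ∈ (H.map T).map (MulAut.conj (ProjGenLinGroup.mk P0)).toMonoidHom :=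
        hT ▸ Subgroup.mem_map_of_mem (MulAut.conj (T g)).toMonoidHom hv
      obtain ⟨u, hu, hue⟩ := hm
      have hue' : ProjGenLinGroup.mk P0 * u * (ProjGenLinGroup.mk P0)⁻¹ = T g * v * (T g)⁻¹ := hue
      show (ProjGenLinGroup.mk P0)⁻¹ * T g * v * ((ProjGenLinGroup.mk P0)⁻¹ * T g)⁻¹ ∈ H.map T
      rw [show (ProjGenLinGroup.mk P0)⁻¹ * T g * v * ((ProjGenLinGroup.mk P0)⁻¹ * T g)⁻¹ =
        (ProjGenLinGroup.mk P0)⁻¹ * (T g * v * (T g)⁻¹) * ProjGenLinGroup.mk P0 by group, ← hue']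
      simpa [mul_assoc] using hu
    rw [normalizer_eq h2 h5 e] at hmem
    obtain ⟨y, -, hy⟩ := hmem
    exact ⟨g * y⁻¹, by rw [map_mul, map_inv, hy]; group⟩
  obtain ⟨P, hP⟩ := a5_pgl_conj h2 eL e
  by_cases hPm : ProjGenLinGroup.mk P ∈ (T (F := F)).range
  · obtain ⟨y, hy⟩ := glAut_of_mem hPm L
    exact ⟨y, Or.inl (by rw [← hy, hP])⟩
  · have hm : ProjGenLinGroup.mk (P0 * P) ∈ (T (F := F)).range := by
      rw [map_mul, Subgroup.mul_mem_iff_of_index_two hidx]
      exact iff_of_false hx0 hPm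
    obtain ⟨y, hy⟩ := glAut_of_mem hm L
    exact ⟨y, Or.inr (by rw [← hy, map_glAut_mul, hP])⟩

end Cfsg.Agent.Linear.PSL2Eleven
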