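import Cfsg.Agent.Linear.PGLInvol
import Mathlib

/-!
# Elements of order three in `PSL_3(4)`
-/

set_option autoImplicit false
set_option linter.unusedSectionVars false

namespace Cfsg.Agent.Linear.PSL34

open Polynomial
open scoped MatrixGroups Pointwise

variable {F : Type*} [Field F] [Fintype F]

local notation "V3" => (Fin 3 → F)
local notation "E" => (Matrix.toLinAlgEquiv' : Matrix (Fin 3) (Fin 3) F ≃ₐ[F] Module.End F (Fin 3 → F))
local notation "PSL34" => Matrix.ProjectiveSpecialLinearGroup (Fin 3) F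

theorem two_eq_zero (hF : Fintype.card F = 4) : (2 : F) = 0 := by
  have h := FiniteField.cast_card_eq_zero F
  rw [hF] at h
  exact mul_self_eq_zero.1 (by linear_combination (by exact_mod_cast h : ((4 : ℕ) : F) = 0))

theorem cube_eq_one (hF : Fintype.card F = 4) {a : F} (ha : a ≠ 0) : a ^ 3 = 1 := by
  have := FiniteField.pow_card_sub_one_eq_one a ha
  rwa [hF] at this

theorem factor_linear (hF : Fintype.card F = 4) {g : Module.End F V3} (hg : g ^ 3 = 1) {p : F[X]}
    (hp : Irreducible p) (hpm : p.Monic) (hd : p ∣ g.charpoly) : ∃ a : F, a ≠ 0 ∧ p = X - C a := by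
  classical
  obtain ⟨v, hv, hv0⟩ := Forms.exists_ker_of_dvd_charpoly g hp hd
  have hdvd : p ∣ X ^ 4 - X := by
    by_contra hne
    obtain ⟨a, b, hab⟩ := hp.coprime_iff_not_dvd.2 hne
    have hz : aeval g (X ^ 4 - X : F[X]) = 0 := by
      rw [map_sub, map_pow, aeval_X, pow_succ, hg, one_mul, sub_self]
    have := congrArg (fun P => aeval g P v) hab
    simp only [map_add, map_mul, map_one, LinearMap.add_apply, Module.End.mul_apply, hv0, hz,
      LinearMap.zero_apply, map_zero, add_zero, Module.End.one_apply] at this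
    exact hv this.symm
  rw [← hF, ← prod_multiset_X_sub_C_of_monic_of_roots_card_eq
    (monic_X_pow_sub (by rw [degree_X]; exact_mod_cast (Fintype.one_lt_card (α := F))))
    (by rw [FiniteField.roots_X_pow_card_sub_X, FiniteField.X_pow_card_sub_X_natDegree_eq F Fintype.one_lt_card]; rfl)] at hdvd
  obtain ⟨a, ha, hpa⟩ := hp.prime.exists_mem_multiset_map_dvd hdvd
  refine ⟨a, fun h => ?_, eq_of_monic_of_associated hpm (monic_X_sub_C a)
    (hp.associated_of_dvd (irreducible_X_sub_C a) hpa)⟩
  subst h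
  obtain rfl := eq_of_monic_of_associated hpm (monic_X_sub_C (0 : F))
    (hp.associated_of_dvd (irreducible_X_sub_C 0) hpa)
  have e : g v = 0 := by simpa using hv0
  have := congrArg (fun f : Module.End F V3 => f v) hg
  simp only [pow_succ, pow_zero, one_mul, Module.End.mul_apply, e, map_zero, Module.End.one_apply] at this
  exact hv this.symm

theorem eq_prod_linear (d : ℕ) : ∀ (P : F[X]), P.natDegree = d → P.Monic →
    (∀ p, Irreducible p → p.Monic → p ∣ P → ∃ a : F, a ≠ 0 ∧ p = X - C a) →
    ∃ l : List F, l.length = d ∧ (∀ a ∈ l, a ≠ 0) ∧ P = (l.map fun a => X - C a).prod := by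
  induction d with
  | zero => exact fun P hd hP _ => ⟨[], rfl, by simp, by simpa using hP.natDegree_eq_zero.1 hd⟩
  | succ d ih =>
    intro P hd hP h
    obtain ⟨p, hpm, hp, hdvd⟩ := Polynomial.exists_monic_irreducible_factor P
      (Polynomial.not_isUnit_of_natDegree_pos _ (by omega))
    obtain ⟨a, ha, rfl⟩ := h p hp hpm hdvd
    obtain ⟨R, rfl⟩ := hdvd
    have hR : R.Monic := hpm.of_mul_monic_left hP
    rw [hpm.natDegree_mul hR, natDegree_X_sub_C] at hd
    obtain ⟨l, hl, hl0, rfl⟩ := ih R (by omega) hR fun r hr hrm hrd => h r hr hrm (hrd.mul_left _)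
    exact ⟨a :: l, by simp [hl], by simp [ha]; exact hl0, by simp⟩

theorem charpoly_three (hF : Fintype.card F = 4) {g : Module.End F V3} (hg : g ^ 3 = 1)
    (hdet : LinearMap.det g = 1) (hns : ¬ ∃ a : F, g = a • 1) : g.charpoly = X ^ 3 - 1 := by
  have h2 := two_eq_zero hF
  obtain ⟨l, hl, hl0, hP⟩ := eq_prod_linear 3 g.charpoly
    (by rw [LinearMap.charpoly_natDegree, Module.finrank_fin_fun]) g.charpoly_monic fun p => factor_linear hF hg
  obtain ⟨a, b, c, rfl⟩ := List.length_eq_three.1 hl
  simp only [List.mem_cons, List.not_mem_nil, or_false, forall_eq_or_imp, forall_eq] at hl0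
  obtain ⟨ha, hb, hc⟩ := hl0
  simp only [List.map_cons, List.map_nil, List.prod_cons, List.prod_nil, mul_one] at hP
  have habc : a * b * c = 1 := by
    have h := LinearMap.det_eq_sign_charpoly_coeff g
    rw [hdet, Module.finrank_fin_fun, hP, coeff_zero_eq_eval_zero] at h
    simp only [eval_mul, eval_sub, eval_X, eval_C] at h
    linear_combination -h
  have hpos : ∀ x y z : F, x * y * z = 1 → x ≠ 0 → x = y → z = x := by
    rintro x y z h hx rfl
    exact mul_left_cancel₀ (mul_ne_zero hx hx) (by linear_combination h - cube_eq_one hF hx)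
  have ha3 := cube_eq_one hF ha
  have hb3 := cube_eq_one hF hb
  by_cases hab : a = b
  · exfalso
    have hca := hpos a b c habc ha hab
    subst hab hca
    have hm : ((3 : ℕ) : F) ≠ 0 := by
      rw [show ((3 : ℕ) : F) = 2 + 1 by norm_num, h2, zero_add]
      exact one_ne_zero
    have hcp : (c • (1 : Module.End F V3)).charpoly = g.charpoly := by
      rw [hP, show (c • (1 : Module.End F V3)) = Matrix.toLin' (Matrix.diagonal fun _ => c) by
        rw [← Matrix.smul_one_eq_diagonal, map_smul, Matrix.toLin'_one]; rfl, Matrix.charpoly_toLin',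
        Matrix.charpoly_diagonal, Fin.prod_univ_three, mul_assoc]
    obtain ⟨e, -, he⟩ := Forms.exists_conj_of_charpoly_eq hm 3 g (c • 1) hg
      (by rw [_root_.smul_pow, one_pow, ha3, one_smul]) hcp.symm
    refine hns ⟨c, LinearMap.ext fun x => e.injective ?_⟩
    rw [he, LinearMap.smul_apply, LinearMap.smul_apply, Module.End.one_apply, Module.End.one_apply, map_smul]
  · have hq : a ^ 2 + a * b + b ^ 2 = 0 :=
      (mul_eq_zero.1 (show (a - b) * (a ^ 2 + a * b + b ^ 2) = 0 by linear_combination ha3 - hb3)).resolve_left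
        (sub_ne_zero.2 hab)
    have hab0 : a + b ≠ 0 := fun h => hab (by linear_combination h - b * h2)
    have hc' : c = a + b := by
      have h1 : (a + b) * (a * b) = 1 := by
        linear_combination a * hq - ha3 - h2
      exact mul_left_cancel₀ (mul_ne_zero ha hb) (by linear_combination habc - h1)
    rw [hP, hc']
    have e1 : a + b + (a + b) = 0 := by linear_combination (a + b) * h2
    have e2 : a * b + (a + b) * (a + b) = 0 := by linear_combination hq + a * b * h2
    have e3 : a * b * (a + b) = 1 := by rw [← hc']; exact habc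
    rw [show (X - C a) * ((X - C b) * (X - C (a + b))) =
      X ^ 3 - C (a + b + (a + b)) * X ^ 2 + C (a * b + (a + b) * (a + b)) * X - C (a * b * (a + b)) by
        simp only [map_add, map_mul]; ring, e1, e2, e3]
    simp

theorem lift_charpoly (hF : Fintype.card F = 4) (x : PSL34) (hx : orderOf x = 3) :
    ∃ g : SL(3, F), QuotientGroup.mk g = x ∧ (E g.1) ^ 3 = 1 ∧ (E g.1).charpoly = X ^ 3 - 1 := by
  obtain ⟨g, rfl⟩ := QuotientGroup.mk_surjective x
  have h2 := two_eq_zero hF
  have h3 : g ^ 3 ∈ Subgroup.center SL(3, F) := by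
    have h := pow_orderOf_eq_one (QuotientGroup.mk g : PSL34)
    rw [hx, ← QuotientGroup.mk_pow, QuotientGroup.eq_one_iff] at h
    exact h
  obtain ⟨c, hc, hcg⟩ := Matrix.SpecialLinearGroup.mem_center_iff.1 h3
  rw [Fintype.card_fin] at hc
  have hns : ¬ ∃ a : F, E g.1 = a • 1 := by
    rintro ⟨a, ha⟩
    have hga : g.1 = a • 1 := (E).injective (by rw [map_smul, map_one, ha])
    have hdet := g.2
    rw [hga, Matrix.det_smul, Matrix.det_one, mul_one, Fintype.card_fin] at hdet
    have : (QuotientGroup.mk g : PSL34) = 1 := (QuotientGroup.eq_one_iff _).2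
      (Matrix.SpecialLinearGroup.mem_center_iff.2 ⟨a, by rw [Fintype.card_fin]; exact hdet, by
        rw [hga]; simp [Matrix.smul_one_eq_diagonal]⟩)
    rw [this, orderOf_one] at hx
    omega
  have hg3 : (E g.1) ^ 3 = c • 1 := by
    have h : (g.1) ^ 3 = c • (1 : Matrix (Fin 3) (Fin 3) F) := by
      rw [← Matrix.SpecialLinearGroup.coe_pow, ← hcg, Matrix.scalar_apply, Matrix.smul_one_eq_diagonal]
    rw [← map_pow, h, map_smul, map_one]
  have hdet : LinearMap.det (E g.1) = 1 := by
    show LinearMap.det (Matrix.toLin' g.1) = 1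
    rw [LinearMap.det_toLin', g.2]
  by_cases hc1 : c = 1
  · rw [hc1, one_smul] at hg3
    exact ⟨g, rfl, hg3, charpoly_three hF hg3 hdet hns⟩
  exfalso
  have hirr : Irreducible (X ^ 3 - C c : F[X]) := X_pow_sub_C_irreducible_of_prime Nat.prime_three fun b hb => by
    rcases eq_or_ne b 0 with rfl | hb0
    · rw [← hb] at hc
      norm_num at hc
    · exact hc1 (by rw [← hb, cube_eq_one hF hb0])
  have hmon : (X ^ 3 - C c : F[X]).Monic := monic_X_pow_sub_C c (by norm_num)
  obtain ⟨k, hk⟩ := PGLInvol.eq_pow_of_forall_factor (f := X ^ 3 - C c) _ (E g.1).charpoly rfl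
    (LinearMap.charpoly_monic _) fun p hp hpm hd => by
      obtain ⟨v, hv, hv0⟩ := Forms.exists_ker_of_dvd_charpoly _ hp hd
      have hz : aeval (E g.1) (X ^ 3 - C c : F[X]) = 0 := by
        rw [map_sub, map_pow, aeval_X, aeval_C, hg3, Algebra.algebraMap_eq_smul_one, sub_self]
      by_contra hne
      obtain ⟨a, b, hab⟩ := hp.coprime_iff_not_dvd.2 fun h => hne
        (eq_of_monic_of_associated hpm hmon (hp.associated_of_dvd hirr h))
      have := congrArg (fun P => aeval (E g.1) P v) hab
      simp only [map_add, map_mul, map_one, LinearMap.add_apply, Module.End.mul_apply, hv0, hz,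
        LinearMap.zero_apply, map_zero, add_zero, Module.End.one_apply] at this
      exact hv this.symm
  have hdeg := congrArg natDegree hk
  rw [LinearMap.charpoly_natDegree, Module.finrank_fin_fun, natDegree_pow, natDegree_X_pow_sub_C] at hdeg
  obtain rfl : k = 1 := by omega
  have h := LinearMap.det_eq_sign_charpoly_coeff (E g.1)
  rw [hdet, Module.finrank_fin_fun, hk, pow_one, coeff_sub, coeff_X_pow, coeff_C_zero, if_neg (by norm_num)] at h
  exact hc1 (by linear_combination -h)

theorem conjugate (hF : Fintype.card F = 4) (X Y : Subgroup PSL34) (hX : Nat.card ↥X = 3)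
    (hY : Nat.card ↥Y = 3) : ∃ g : PSL34, MulAut.conj g • X = Y := by
  classical
  have hgen : ∀ Z : Subgroup PSL34, Nat.card ↥Z = 3 → ∃ z, orderOf z = 3 ∧ Subgroup.zpowers z = Z := fun Z hZ => by
    haveI : Fact (Nat.Prime 3) := ⟨Nat.prime_three⟩
    obtain ⟨z, hz⟩ := (isCyclic_of_prime_card hZ).exists_generator
    refine ⟨z.1, ?_, le_antisymm (Subgroup.zpowers_le.2 z.2) fun w hw => ?_⟩
    · rw [Subgroup.orderOf_coe, orderOf_eq_card_of_forall_mem_zpowers hz, hZ]
    · obtain ⟨k, hk⟩ := Subgroup.mem_zpowers_iff.1 (hz ⟨w, hw⟩)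
      exact ⟨k, by simpa using congrArg Subtype.val hk⟩
  obtain ⟨x, hx, rfl⟩ := hgen X hX
  obtain ⟨y, hy, rfl⟩ := hgen Y hY
  obtain ⟨g, rfl, hg, hgc⟩ := lift_charpoly hF x hx
  obtain ⟨h, rfl, hh, hhc⟩ := lift_charpoly hF y hy
  have hm : ((3 : ℕ) : F) ≠ 0 := by
    rw [show ((3 : ℕ) : F) = 2 + 1 by norm_num, two_eq_zero hF, zero_add]
    exact one_ne_zero
  obtain ⟨e, hdet, he⟩ := Forms.exists_conj_of_charpoly_eq hm 3 (E g.1) (E h.1) hg hh (hgc.trans hhc.symm)
  let P : SL(3, F) := ⟨(E).symm e.toLinearMap, by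
    show (LinearMap.toMatrix' (e : Module.End F V3)).det = 1
    rw [LinearMap.det_toMatrix', hdet]⟩
  have hP : P * g = h * P := Subtype.ext ((E).injective (by
    rw [Matrix.SpecialLinearGroup.coe_mul, Matrix.SpecialLinearGroup.coe_mul, map_mul, map_mul]
    refine LinearMap.ext fun v => ?_
    simp only [P, AlgEquiv.apply_symm_apply, Module.End.mul_apply, LinearEquiv.coe_coe]
    exact he v))
  refine ⟨QuotientGroup.mk P, ?_⟩
  rw [Subgroup.pointwise_smul_def]
  show Subgroup.map (MulAut.conj (QuotientGroup.mk P : PSL34)).toMonoidHom _ = _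
  rw [MonoidHom.map_zpowers]
  congr 1
  show (QuotientGroup.mk P : PSL34) * QuotientGroup.mk g * (QuotientGroup.mk P : PSL34)⁻¹ = QuotientGroup.mk h
  rw [mul_inv_eq_iff_eq_mul, ← QuotientGroup.mk_mul, ← QuotientGroup.mk_mul, hP]

end Cfsg.Agent.Linear.PSL34
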