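import Cfsg.Agent.GeomClasses.HalfParity
import Cfsg.Agent.Linear.SpinorList
import Cfsg.Agent.Linear.Transvection
import Mathlib

/-!
# The two families in plus type, all dimensions and fields
-/

set_option autoImplicit false
set_option linter.unusedSectionVars false

namespace Cfsg.Agent.Linear.PlusFamilies

open Cfsg.Agent Cfsg.Agent.Forms
open Module (finrank)

section General

variable {F V : Type*} [Field F] [AddCommGroup V] [Module F V] [FiniteDimensional F V] [Finite F]
  {Q : QuadraticForm F V}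

set_option quotPrecheck false in
local notation "BQ" => QuadraticMap.polar ⇑Q

local notation "sp" => Submodule.span F

/-- The Dickson invariant is the parity of the codimension of the meet of a maximal totally singular
subspace with its image. -/
theorem dickson_of_image' (hQ : (QuadraticMap.polarBilin Q).Nondegenerate)
    (hgen : Subgroup.closure (reflectionSet Q) = ⊤)
    {T : Submodule F V} (hT : ∀ x ∈ T, Q x = 0) (hdim : 2 * finrank F T = finrank F V) :
    ∀ (j : ℕ) (g : orthGroup Q) (T' : Submodule F V), T.map ((g : V ≃ₗ[F] V) : V →ₗ[F] V) = T' →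
      finrank F ↥(T ⊓ T') + j = finrank F T → dickson g = (j : ZMod 2) := by
  intro j
  induction j with
  | zero =>
    intro g T' hgT hj
    rw [Nat.cast_zero]
    have h1 : T ⊓ T' = T := Submodule.eq_of_le_of_finrank_eq inf_le_left (by omega)
    have h2 : finrank F T' = finrank F T := by rw [← hgT, LinearEquiv.finrank_map_eq]
    have h3 : T = T' := Submodule.eq_of_le_of_finrank_eq (inf_eq_left.mp h1) h2.symm
    exact GeomClasses.dickson_of_stab hQ hT hdim fun x hx => by
      rw [h3, ← hgT]; exact ⟨x, hx, rfl⟩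
  | succ j ih =>
    intro g T' hgT hj
    have hT' : ∀ x ∈ T', Q x = 0 := fun x hx => by
      rw [← hgT] at hx; obtain ⟨y, hy, rfl⟩ := hx
      exact (g.2.2 y).trans (hT y hy)
    have hdim' : 2 * finrank F T' = finrank F V := by rw [← hgT, LinearEquiv.finrank_map_eq]; exact hdim
    obtain ⟨a, ha, haT⟩ : ∃ a ∈ T', a ∉ T := SetLike.not_le_iff_exists.mp fun hle => by
      rw [inf_eq_right.mpr hle] at hj; omega
    obtain ⟨b, hb, hab⟩ : ∃ b ∈ T, BQ b a ≠ 0 := by
      by_contra hno
      push Not at hno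
      exact haT (by rw [← GeomClasses.half_perp hQ hT hdim]; exact hno)
    set v := a - b with hv
    have hQv : Q v = -BQ b a := by
      rw [hv, sub_eq_add_neg, QuadraticMap.map_add Q, QuadraticMap.map_neg, hT' a ha, hT b hb,
        QuadraticMap.polar_neg_right, QuadraticMap.polar_comm]; ring
    have hQv0 : Q v ≠ 0 := by rw [hQv]; exact neg_ne_zero.mpr hab
    set r := reflection Q v
    have hra : (r : V ≃ₗ[F] V) a = b := by
      have h1 : BQ v a = Q v := by
        rw [hQv, hv, QuadraticMap.polar_sub_left, GeomClasses.polar_ts hT' ha ha, zero_sub]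
      rw [Forms.reflection_apply, h1, inv_mul_cancel₀ hQv0, one_smul, hv, sub_sub_cancel]
    have hrfix : ∀ x, BQ v x = 0 → (r : V ≃ₗ[F] V) x = x := fun x hx => Forms.reflection_fix (Q := Q) hx
    set T'' := T'.map ((r : V ≃ₗ[F] V) : V →ₗ[F] V)
    have hT'' : T.map (((r * g : orthGroup Q) : V ≃ₗ[F] V) : V →ₗ[F] V) = T'' := by
      rw [show T'' = T'.map ((r : V ≃ₗ[F] V) : V →ₗ[F] V) from rfl, ← hgT, ← Submodule.map_comp]
      rfl
    have heq : T ⊓ T'' = (T ⊓ T') ⊔ sp {b} := by
      refine le_antisymm ?_ (sup_le (fun x hx => ⟨hx.1, x, hx.2, hrfix x (by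
        rw [hv, QuadraticMap.polar_sub_left, GeomClasses.polar_ts hT' ha hx.2, GeomClasses.polar_ts hT hb hx.1, sub_zero])⟩)
        ((Submodule.span_singleton_le_iff_mem _ _).mpr ⟨hb, a, ha, hra⟩))
      rintro x ⟨hx, y, hy, hyx⟩
      have hyx' : (r : V ≃ₗ[F] V) y = x := hyx
      set c := -BQ b y / Q v
      have hry : (r : V ≃ₗ[F] V) y = y - c • a + c • b := by
        rw [Forms.reflection_apply, show BQ v y = -BQ b y by
          rw [hv, QuadraticMap.polar_sub_left, GeomClasses.polar_ts hT' ha hy, zero_sub], hv]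
        simp only [c, div_eq_inv_mul]
        module
      have hm : y - c • a ∈ T ⊓ T' := ⟨by
        have : y - c • a = x - c • b := by rw [← hyx', hry, add_sub_cancel_right]
        rw [this]; exact sub_mem hx (T.smul_mem _ hb), sub_mem hy (T'.smul_mem _ ha)⟩
      rw [← hyx', hry]
      exact add_mem (Submodule.mem_sup_left hm) (Submodule.mem_sup_right (Submodule.smul_mem _ _ (Submodule.mem_span_singleton_self b)))
    have hdimI : finrank F ↥(T ⊓ T'') = finrank F ↥(T ⊓ T') + 1 := by
      have hbT : b ∉ T ⊓ T' := fun h => hab (GeomClasses.polar_ts hT' h.2 ha)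
      have hb0 : b ≠ 0 := fun h => hbT (by rw [h]; exact zero_mem _)
      have h := Submodule.finrank_sup_add_finrank_inf_eq (T ⊓ T') (sp {b})
      have h0 : (T ⊓ T') ⊓ sp {b} = ⊥ := (Submodule.eq_bot_iff _).mpr fun x hx => by
        obtain ⟨c, rfl⟩ := Submodule.mem_span_singleton.mp hx.2
        by_contra hc
        have hc0 : c ≠ 0 := fun h0 => hc (by rw [h0, zero_smul])
        exact hbT (by simpa [smul_smul, inv_mul_cancel₀ hc0] using (T ⊓ T').smul_mem c⁻¹ hx.1)
      rw [h0, finrank_bot, finrank_span_singleton hb0, ← heq] at h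
      omega
    have h1 := ih (r * g) T'' hT'' (by omega)
    rw [dickson_mul hQ r (hgen ▸ Subgroup.mem_top g), dickson_reflection hQ hQv0] at h1
    have e2 : (2 : ZMod 2) = 0 := rfl
    push_cast
    linear_combination h1 - e2

theorem det_eq (hQ : (QuadraticMap.polarBilin Q).Nondegenerate)
    (hgen : Subgroup.closure (reflectionSet Q) = ⊤) (g : orthGroup Q) :
    orthDet Q g = if dickson g = 0 then 1 else -1 := by
  have hg : g ∈ Subgroup.closure (reflectionSet Q) := hgen ▸ Subgroup.mem_top g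
  induction hg using Subgroup.closure_induction_right with
  | one => simp [dickson_one]
  | mul_right x _ r hr ih =>
    obtain ⟨v, hv, rfl⟩ := hr
    rw [map_mul, ih, dickson_mul hQ x (reflection_mem_closure Q hv), dickson_reflection hQ hv,
      show orthDet Q (reflection Q v) = -1 from Units.ext (orthDet_reflection Q hv)]
    generalize dickson x = d
    have hd : d + 1 = 0 ↔ ¬ d = 0 := by revert d; decide
    simp only [hd]
    split_ifs <;> simp
  | mul_inv_cancel x _ r hr ih =>
    obtain ⟨v, hv, rfl⟩ := hr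
    rw [reflection_inv, map_mul, ih, dickson_mul hQ x (reflection_mem_closure Q hv), dickson_reflection hQ hv,
      show orthDet Q (reflection Q v) = -1 from Units.ext (orthDet_reflection Q hv)]
    generalize dickson x = d
    have hd : d + 1 = 0 ↔ ¬ d = 0 := by revert d; decide
    simp only [hd]
    split_ifs <;> simp

end General

section Plus

open Matrix

variable {F : Type*} [Field F] [Fintype F] {m : ℕ}

local notation "Vp" => (Fin m ⊕ Fin m → F)
local notation "U0" => LinearMap.ker (LinearMap.funLeft F F (Sum.inr : Fin m → Fin m ⊕ Fin m))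
local notation "Qp" => Cfsg.Agent.Forms.qPlus m F

theorem gen (h : Fintype.card F ≠ 2 ∨ m ≠ 2) : Subgroup.closure (reflectionSet Qp) = ⊤ := by
  refine closure_reflectionSet _ qPlus_nondegenerate ?_
  rw [Nat.card_eq_fintype_card, Module.finrank_pi, Fintype.card_sum, Fintype.card_fin]
  rcases h with h | h
  · exact Or.inr (Or.inl h)
  · exact Or.inr (Or.inr (by omega))

theorem finrank_U0 : finrank F U0 = m := by
  have h := LinearMap.finrank_range_add_finrank_ker (LinearMap.funLeft F F (Sum.inr : Fin m → Fin m ⊕ Fin m))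
  rw [LinearMap.range_eq_top.2 (LinearMap.funLeft_surjective_of_injective _ _ _ Sum.inr_injective), finrank_top,
    Module.finrank_pi, Module.finrank_pi, Fintype.card_sum, Fintype.card_fin] at h
  omega

theorem U0_singular : ∀ x ∈ U0, Qp x = 0 := fun x hx => by
  have h : ∀ i, x (Sum.inr i) = 0 := fun i => congrFun (LinearMap.mem_ker.1 hx) i
  simp [Cfsg.quadFormPlus, h]

theorem dickson_U0 (h : Fintype.card F ≠ 2 ∨ m ≠ 2) (g : orthGroup Qp) :
    dickson g = ((m - finrank F ↥(U0 ⊓ Submodule.map ((g : Vp ≃ₗ[F] Vp) : Vp →ₗ[F] Vp) U0) : ℕ) : ZMod 2) := by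
  refine dickson_of_image' qPlus_nondegenerate (gen h) U0_singular ?_ _ g _ rfl ?_
  · rw [finrank_U0, Module.finrank_pi, Fintype.card_sum, Fintype.card_fin]; omega
  · rw [finrank_U0]
    have := Submodule.finrank_mono (inf_le_left : U0 ⊓ Submodule.map ((g : Vp ≃ₗ[F] Vp) : Vp →ₗ[F] Vp) U0 ≤ U0)
    rw [finrank_U0] at this
    omega

theorem map_eq (g : ↥(Cfsg.isometryGroup F ⇑Qp)) :
    Submodule.map (Matrix.mulVecLin ((g : GL (Fin m ⊕ Fin m) F) : Matrix (Fin m ⊕ Fin m) (Fin m ⊕ Fin m) F)) U0 =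
      Submodule.map ((isometryEquiv Qp g : Vp ≃ₗ[F] Vp) : Vp →ₗ[F] Vp) U0 :=
  congrArg (fun f => Submodule.map f U0) (LinearMap.ext fun x => rfl)

theorem even_iff_dickson (h : Fintype.card F ≠ 2 ∨ m ≠ 2) (g : ↥(Cfsg.isometryGroup F ⇑Qp)) :
    Even (m - finrank F ↥(U0 ⊓ Submodule.map
      (Matrix.mulVecLin ((g : GL (Fin m ⊕ Fin m) F) : Matrix (Fin m ⊕ Fin m) (Fin m ⊕ Fin m) F)) U0)) ↔
      dickson (isometryEquiv Qp g) = 0 := by
  rw [map_eq, dickson_U0 h, ZMod.natCast_eq_zero_iff_even]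

theorem even_iff_det (h2 : (2 : F) ≠ 0) (g : ↥(Cfsg.isometryGroup F ⇑Qp)) :
    Even (m - finrank F ↥(U0 ⊓ Submodule.map
      (Matrix.mulVecLin ((g : GL (Fin m ⊕ Fin m) F) : Matrix (Fin m ⊕ Fin m) (Fin m ⊕ Fin m) F)) U0)) ↔
      ((g : GL (Fin m ⊕ Fin m) F) : Matrix (Fin m ⊕ Fin m) (Fin m ⊕ Fin m) F).det = 1 := by
  have h : Fintype.card F ≠ 2 ∨ m ≠ 2 := Or.inl fun hc => h2 (by
    have := FiniteField.cast_card_eq_zero F
    rw [hc] at this
    exact_mod_cast this)
  rw [even_iff_dickson h, ← det_isometryEquiv, det_eq qPlus_nondegenerate (gen h)]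
  split_ifs with hd
  · simp [hd]
  · simp only [hd, false_iff, Units.val_neg, Units.val_one]
    exact fun e => h2 (by linear_combination -e)

theorem even_iff_omega [CharP F 2] (hm : 1 ≤ m) (h : Fintype.card F ≠ 2 ∨ m ≠ 2)
    (g : ↥(Cfsg.isometryGroup F ⇑Qp)) :
    Even (m - finrank F ↥(U0 ⊓ Submodule.map
      (Matrix.mulVecLin ((g : GL (Fin m ⊕ Fin m) F) : Matrix (Fin m ⊕ Fin m) (Fin m ⊕ Fin m) F)) U0)) ↔
      g ∈ Cfsg.Omega F ⇑Qp := by
  rw [even_iff_dickson h, mem_omega_iff,
    (commutator_index_two_of_gen (CharTwo.two_eq_zero) qPlus_nondegenerate (gen h)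
      (by rw [Module.finrank_pi, Fintype.card_sum, Fintype.card_fin]; omega)).2]

/-- The vector `e_i - d f_i`. -/
def pv (i : Fin m) (d : F) : Vp := Pi.single (Sum.inl i) 1 - d • Pi.single (Sum.inr i) 1

theorem Q_pv (i : Fin m) (d : F) : Qp (pv i d) = -d := by
  simp [pv, Cfsg.quadFormPlus, Pi.single_apply]

theorem polar_pv (i : Fin m) (d : F) (x : Vp) :
    QuadraticMap.polar Qp (pv i d) x = x (Sum.inr i) - d * x (Sum.inl i) := by
  simp [pv, QuadraticMap.polar, Cfsg.quadFormPlus, Pi.single_apply, mul_add, add_mul, Finset.sum_add_distrib]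
  ring

theorem refl_pv (i : Fin m) {d : F} (hd : d ≠ 0) (x : Vp) :
    (reflection Qp (pv i d) : Vp ≃ₗ[F] Vp) x =
      fun k => if k = Sum.inl i then d⁻¹ * x (Sum.inr i) else if k = Sum.inr i then d * x (Sum.inl i) else x k := by
  funext k
  rw [Forms.reflection_apply, Q_pv, polar_pv]
  by_cases h1 : k = Sum.inl i
  · subst h1; simp [pv]; field_simp; ring
  by_cases h2 : k = Sum.inr i
  · subst h2; simp [pv]; field_simp; ring
  · simp [pv, h1, h2, Pi.single_apply]

theorem exists_swap (hm : 1 ≤ m) :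
    ∃ g : orthGroup Qp, (∀ x i, (g : Vp ≃ₗ[F] Vp) x (Sum.inl i) = x (Sum.inr i) ∧
      (g : Vp ≃ₗ[F] Vp) x (Sum.inr i) = x (Sum.inl i)) ∧
      (Even m → g ∈ commutator (orthGroup Qp)) := by
  classical
  let i0 : Fin m := ⟨0, hm⟩
  set a := Abelianization.of (reflection Qp (pv i0 1)) with ha
  have key : ∀ S : Finset (Fin m), ∃ g : orthGroup Qp, (∀ x i,
      (g : Vp ≃ₗ[F] Vp) x (Sum.inl i) = (if i ∈ S then x (Sum.inr i) else x (Sum.inl i)) ∧
      (g : Vp ≃ₗ[F] Vp) x (Sum.inr i) = (if i ∈ S then x (Sum.inl i) else x (Sum.inr i))) ∧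
      Abelianization.of g = a ^ S.card := by
    intro S
    induction S using Finset.induction with
    | empty => exact ⟨1, fun x i => by simp, by simp⟩
    | insert j S hj ih =>
      obtain ⟨g, hg, hga⟩ := ih
      refine ⟨reflection Qp (pv j 1) * g, fun x i => ?_, ?_⟩
      · rw [orth_mul_apply, refl_pv j one_ne_zero]
        obtain ⟨h1, h2⟩ := hg x i
        rcases eq_or_ne i j with rfl | hij
        · simp [h1, h2, hj]
        · simp [h1, h2, hij]
      · rw [map_mul, hga, Finset.card_insert_of_notMem hj, pow_succ']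
        congr 1
        exact hom_reflection_eq qPlus_nondegenerate _ (by rw [Q_pv]; simp) one_ne_zero
          (by rw [Q_pv, Q_pv, one_pow, one_mul])
  obtain ⟨g, hg, hga⟩ := key Finset.univ
  refine ⟨g, fun x i => by simpa using hg x i, fun he => ?_⟩
  rw [← Abelianization.ker_of, MonoidHom.mem_ker, hga, Finset.card_univ, Fintype.card_fin]
  obtain ⟨j, hj⟩ := he
  rw [show a ^ m = (a * a) ^ j by rw [← pow_two, ← pow_mul, two_mul, ← hj],
    show a * a = 1 by rw [ha, ← map_mul, reflection_mul_self, map_one], one_pow]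

theorem swap_iff (hm : 1 ≤ m) (h : Fintype.card F ≠ 2 ∨ m ≠ 2) :
    (∃ g : ↥(Cfsg.isometryGroup F ⇑Qp), g ∈ Cfsg.Omega F ⇑Qp ∧
      (∀ v : Vp, (∀ i, v (Sum.inr i) = 0) → ∀ i,
        (((g : GL (Fin m ⊕ Fin m) F) : Matrix (Fin m ⊕ Fin m) (Fin m ⊕ Fin m) F).mulVec v) (Sum.inl i) = 0) ∧
      (∀ v : Vp, (∀ i, v (Sum.inl i) = 0) → ∀ i,
        (((g : GL (Fin m ⊕ Fin m) F) : Matrix (Fin m ⊕ Fin m) (Fin m ⊕ Fin m) F).mulVec v) (Sum.inr i) = 0)) ↔
      Even m := by
  constructor
  · rintro ⟨g, hg, h1, -⟩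
    have hd : dickson (isometryEquiv Qp g) = 0 := congrArg Multiplicative.toAdd
      (Abelianization.commutator_subset_ker (dicksonHom qPlus_nondegenerate (gen h)) ((mem_omega_iff _ g).1 hg))
    have hbot : U0 ⊓ Submodule.map
        (Matrix.mulVecLin ((g : GL (Fin m ⊕ Fin m) F) : Matrix (Fin m ⊕ Fin m) (Fin m ⊕ Fin m) F)) U0 = ⊥ := by
      refine (Submodule.eq_bot_iff _).2 ?_
      rintro _ ⟨hx, v, hv, rfl⟩
      funext k
      rcases k with i | i
      · exact h1 v (fun j => congrFun (LinearMap.mem_ker.1 hv) j) i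
      · exact congrFun (LinearMap.mem_ker.1 hx) i
    have := (even_iff_dickson h g).2 hd
    rwa [hbot, finrank_bot, Nat.sub_zero] at this
  · intro he
    obtain ⟨g, hg, hc⟩ := exists_swap (F := F) hm
    refine ⟨(isometryEquiv Qp).symm g, by rw [mem_omega_iff, MulEquiv.apply_symm_apply]; exact hc he,
      fun v hv i => ?_, fun v hv i => ?_⟩
    · rw [← isometryEquiv_apply, MulEquiv.apply_symm_apply, (hg v i).1, hv]
    · rw [← isometryEquiv_apply, MulEquiv.apply_symm_apply, (hg v i).2, hv]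

/-- The Levi element of a matrix. -/
noncomputable def levi (m : ℕ) (F : Type*) [Field F] :
    GL (Fin m) F →* ↥(Cfsg.isometryGroup F ⇑(Cfsg.Agent.Forms.qPlus m F)) :=
  MonoidHom.mk' (fun A => ⟨⟨Matrix.fromBlocks A.1 0 0 (A⁻¹).1ᵀ, Matrix.fromBlocks (A⁻¹).1 0 0 A.1ᵀ,
      by rw [Matrix.fromBlocks_multiply, ← Matrix.transpose_mul, Units.mul_inv, Matrix.transpose_one]; simp,
      by rw [Matrix.fromBlocks_multiply, ← Matrix.transpose_mul, Units.inv_mul, Matrix.transpose_one]; simp⟩,
    mem_isometryGroup_iff.2 fun v => by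
      have hQ : ∀ w : Fin m ⊕ Fin m → F, Cfsg.Agent.Forms.qPlus m F w = (w ∘ Sum.inl) ⬝ᵥ (w ∘ Sum.inr) :=
        fun w => by simp [Cfsg.quadFormPlus, dotProduct]
      rw [hQ, hQ, Matrix.fromBlocks_mulVec]
      simp only [Sum.elim_comp_inl, Sum.elim_comp_inr, Matrix.zero_mulVec, add_zero, zero_add]
      rw [Matrix.dotProduct_mulVec, Matrix.vecMul_transpose, Matrix.mulVec_mulVec, Units.inv_mul, Matrix.one_mulVec]⟩)
    (fun A B => Subtype.ext (Units.ext (by
      show Matrix.fromBlocks (A * B).1 0 0 ((A * B)⁻¹).1ᵀ = _ * _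
      rw [Matrix.fromBlocks_multiply]
      simp [Matrix.transpose_mul])))

theorem levi_iff (hm : 1 ≤ m) (h : Fintype.card F ≠ 2 ∨ m ≠ 2) (A : GL (Fin m) F) :
    (∃ g : ↥(Cfsg.isometryGroup F ⇑Qp), g ∈ Cfsg.Omega F ⇑Qp ∧
      ((g : GL (Fin m ⊕ Fin m) F) : Matrix (Fin m ⊕ Fin m) (Fin m ⊕ Fin m) F) =
        Matrix.fromBlocks (A : Matrix (Fin m) (Fin m) F) 0 0 ((A : Matrix (Fin m) (Fin m) F)⁻¹).transpose) ↔
      IsSquare (A : Matrix (Fin m) (Fin m) F).det := by
  classical
  set d := (A : Matrix (Fin m) (Fin m) F).det with hd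
  have hd0 : d ≠ 0 := Matrix.GeneralLinearGroup.det_ne_zero A
  let i0 : Fin m := ⟨0, hm⟩
  let δ : Fin m → F := Function.update (fun _ => 1) i0 d
  have hδ0 : (Matrix.diagonal δ).det ≠ 0 := by
    rw [Matrix.det_diagonal, Finset.prod_update_of_mem (Finset.mem_univ _)]; simp [hd0]
  let D : GL (Fin m) F := Matrix.GeneralLinearGroup.mkOfDetNeZero (Matrix.diagonal δ) hδ0
  have hDd : D.1.det = d := by
    show (Matrix.diagonal δ).det = d
    rw [Matrix.det_diagonal, Finset.prod_update_of_mem (Finset.mem_univ _)]; simp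
  have hmem : ∀ B : GL (Fin m) F, Abelianization.of (isometryEquiv Qp (levi m F B)) = 1 ↔
      levi m F B ∈ Cfsg.Omega F ⇑Qp := fun B => by
    rw [mem_omega_iff, ← Abelianization.ker_of, MonoidHom.mem_ker]
  have hAD : Abelianization.of (isometryEquiv Qp (levi m F A)) = Abelianization.of (isometryEquiv Qp (levi m F D)) := by
    let χ := (Abelianization.of.comp (isometryEquiv Qp).toMonoidHom).comp (levi m F)
    have hker : A * D⁻¹ ∈ (Matrix.GeneralLinearGroup.det : GL (Fin m) F →* Fˣ).ker := by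
      rw [MonoidHom.mem_ker, map_mul, map_inv, mul_inv_eq_one]
      exact Units.ext (by rw [Matrix.GeneralLinearGroup.val_det_apply, Matrix.GeneralLinearGroup.val_det_apply, hDd])
    rw [← Cfsg.Agent.Linear.commutator_GL_eq_ker_det (fun hc => by
      rw [Fintype.card_fin] at hc
      by_contra! hall
      have : Fintype.card F ≤ 2 := by
        have hsub : (Finset.univ : Finset F) ⊆ {0, 1} := fun x _ => by
          by_cases hx : x = 0
          · simp [hx]
          · simp [hall x hx]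
        exact le_trans (Finset.card_le_card hsub) Finset.card_le_two
      have := Fintype.one_lt_card (α := F)
      rcases h with h | h <;> omega)] at hker
    have h1 : χ (A * D⁻¹) = 1 := Abelianization.commutator_subset_ker χ hker
    rw [map_mul, map_inv, mul_inv_eq_one] at h1
    exact h1
  have hfac : isometryEquiv Qp (levi m F D) = reflection Qp (pv i0 1) * reflection Qp (pv i0 d) := by
    refine orth_ext fun x => ?_
    rw [isometryEquiv_apply, orth_mul_apply, refl_pv i0 hd0, refl_pv i0 one_ne_zero]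
    have hinv : (D⁻¹).1 = Matrix.diagonal fun i => (δ i)⁻¹ := by
      rw [Matrix.coe_units_inv]
      refine Matrix.inv_eq_right_inv ?_
      show Matrix.diagonal δ * _ = 1
      rw [Matrix.diagonal_mul_diagonal, ← Matrix.diagonal_one]
      congr 1
      funext i
      exact mul_inv_cancel₀ (by by_cases hi : i = i0 <;> simp [δ, Function.update_apply, hi, hd0])
    show (Matrix.fromBlocks (Matrix.diagonal δ) 0 0 ((D⁻¹).1)ᵀ).mulVec x = _
    rw [hinv, Matrix.diagonal_transpose, Matrix.fromBlocks_mulVec]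
    funext k
    rcases k with i | i <;> by_cases hi : i = i0 <;>
      simp [δ, Matrix.mulVec_diagonal, Function.update_apply, hi]
  have hexists : (∃ g : ↥(Cfsg.isometryGroup F ⇑Qp), g ∈ Cfsg.Omega F ⇑Qp ∧
      ((g : GL (Fin m ⊕ Fin m) F) : Matrix (Fin m ⊕ Fin m) (Fin m ⊕ Fin m) F) =
        Matrix.fromBlocks (A : Matrix (Fin m) (Fin m) F) 0 0 ((A : Matrix (Fin m) (Fin m) F)⁻¹).transpose) ↔
      levi m F A ∈ Cfsg.Omega F ⇑Qp := by
    have e : ((levi m F A : GL (Fin m ⊕ Fin m) F) : Matrix (Fin m ⊕ Fin m) (Fin m ⊕ Fin m) F) =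
        Matrix.fromBlocks (A : Matrix (Fin m) (Fin m) F) 0 0 ((A : Matrix (Fin m) (Fin m) F)⁻¹).transpose := by
      rw [← Matrix.coe_units_inv]; rfl
    exact ⟨fun ⟨g, hg, hgM⟩ => (show g = levi m F A from Subtype.ext (Units.ext (hgM.trans e.symm))) ▸ hg,
      fun hA => ⟨_, hA, e⟩⟩
  rw [hexists, ← hmem, hAD, hfac]
  constructor
  · intro hone
    by_cases h2 : (2 : F) = 0
    · haveI : CharP F 2 := CharTwo.of_one_ne_zero_of_two_eq_zero one_ne_zero h2
      exact FiniteField.isSquare_of_char_two (ringChar.eq F 2) d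
    · rw [← MonoidHom.mem_ker, Abelianization.ker_of] at hone
      have hiff := SpinorList.mem_iff Qp h2 qPlus_nondegenerate
        (by rw [Module.finrank_pi, Fintype.card_sum, Fintype.card_fin]; omega) [pv i0 1, pv i0 d]
        (by simpa [← Cfsg.Agent.Forms.coe_qPlus, Q_pv] using hd0)
      simp only [List.map_cons, List.map_nil, List.prod_cons, List.prod_nil, mul_one] at hiff
      obtain ⟨-, hsq⟩ := hiff.1 hone
      simpa [Q_pv] using hsq
  · rintro ⟨c, hc⟩
    have hc0 : c ≠ 0 := fun e => hd0 (by rw [hc, e, zero_mul])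
    rw [map_mul, hom_reflection_eq qPlus_nondegenerate Abelianization.of (u := pv i0 d) (v := pv i0 1)
      (by rw [Q_pv]; simp) hc0 (by rw [Q_pv, Q_pv, hc]; ring), ← map_mul, reflection_mul_self, map_one]

end Plus

end Cfsg.Agent.Linear.PlusFamilies
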