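import Cfsg.Agent.Linear.OrthSpaces
import Cfsg.Agent.Linear.OrthFreeSub
import Cfsg.Agent.Linear.SpinorList
import Cfsg.Agent.Linear.OmegaElem
import Mathlib.Algebra.QuadraticAlgebra.Basic

/-!
# Self adjoint maps with nonsquare scalar square on quadratic spaces of odd characteristic
-/

set_option autoImplicit false
set_option linter.unusedSectionVars false

namespace Cfsg.Agent.Linear.QuadStr

open Module Cfsg.Agent.Forms Cfsg.Agent.Linear.OrthSpaces

universe u

variable {F : Type*} [Field F] [Fintype F] {V : Type u} [AddCommGroup V] [Module F V] [FiniteDimensional F V]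
  {Q : QuadraticForm F V}

local notation "BQ" => QuadraticMap.polarBilin Q

/-- A self adjoint map with square `δ`. -/
structure Str (Q : QuadraticForm F V) (δ : F) (J : Module.End F V) : Prop where
  sq : ∀ v, J (J v) = δ • v
  sa : ∀ u v, QuadraticMap.polar Q (J u) v = QuadraticMap.polar Q u (J v)

variable {δ : F} {J J' : Module.End F V}

theorem Str.value (h : Str Q δ J) (h2 : (2 : F) ≠ 0) (v : V) : Q (J v) = δ * Q v := by
  have h1 := h.sa v (J v)
  rw [h.sq, QuadraticMap.polar_smul_right, QuadraticMap.polar_self, QuadraticMap.polar_self, nsmul_eq_mul,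
    nsmul_eq_mul, smul_eq_mul] at h1
  push_cast at h1
  refine mul_left_cancel₀ h2 ?_
  linear_combination h1

theorem Str.value_add (h : Str Q δ J) (h2 : (2 : F) ≠ 0) (v : V) (s t : F) :
    Q (s • v + t • J v) = (s * s + δ * (t * t)) * Q v + s * t * QuadraticMap.polar Q (J v) v := by
  rw [QuadraticMap.map_add Q, QuadraticMap.map_smul, QuadraticMap.map_smul, QuadraticMap.polar_smul_left,
    QuadraticMap.polar_smul_right, h.value h2, QuadraticMap.polar_comm Q v]
  simp only [smul_eq_mul]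
  ring

/-- Transport by an isometry. -/
theorem Str.conj (h : Str Q δ J) {g : V ≃ₗ[F] V} (hg : ∀ v, Q (g v) = Q v) :
    Str Q δ (g.toLinearMap ∘ₗ J ∘ₗ g.symm.toLinearMap) := by
  have hgp : ∀ x y, QuadraticMap.polar Q (g x) (g y) = QuadraticMap.polar Q x y := fun x y => by
    simp only [QuadraticMap.polar, ← map_add, hg]
  refine ⟨fun v => ?_, fun u v => ?_⟩
  · simp [h.sq]
  · obtain ⟨u, rfl⟩ := g.surjective u
    obtain ⟨v, rfl⟩ := g.surjective v
    simp only [LinearMap.comp_apply, LinearEquiv.coe_coe, LinearEquiv.symm_apply_apply, hgp, h.sa]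

/-- An invariant subspace has an invariant complement. -/
theorem Str.perp_inv (h : Str Q δ J) {W : Submodule F V} (hW : ∀ w ∈ W, J w ∈ W) :
    ∀ w ∈ perp BQ W, J w ∈ perp BQ W := fun w hw => mem_perp_iff.2 fun u hu => by
  rw [← h.sa]
  exact mem_perp_iff.1 hw _ (hW u hu)

theorem Str.res (h : Str Q δ J) {W : Submodule F V} (hW : ∀ w ∈ W, J w ∈ W) :
    Str (Q.comp W.subtype) δ (J.restrict hW) :=
  ⟨fun v => Subtype.ext (h.sq v), fun u v => by
    show QuadraticMap.polar (⇑(Q.comp W.subtype)) (J.restrict hW u) v =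
      QuadraticMap.polar (⇑(Q.comp W.subtype)) u (J.restrict hW v)
    have hp : ∀ x y : W, QuadraticMap.polar (⇑(Q.comp W.subtype)) x y = QuadraticMap.polar Q (x : V) (y : V) :=
      fun x y => polar_res W x y
    rw [hp, hp]
    exact h.sa _ _⟩

/-- Orthogonal sums. -/
theorem glue (hB : (BQ).Nondegenerate) {W : Submodule F V} (hW : Nd Q W) {J₁ : Module.End F W}
    {J₂ : Module.End F (perp BQ W)} (h₁ : Str (Q.comp W.subtype) δ J₁)
    (h₂ : Str (Q.comp (perp BQ W).subtype) δ J₂) :
    ∃ J : Module.End F V, Str Q δ J ∧ (∀ w : W, J (w : V) = J₁ w) ∧ ∀ w : perp BQ W, J (w : V) = J₂ w := by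
  have hc := nd_isCompl hB hW
  let J : Module.End F V := LinearMap.ofIsCompl hc (W.subtype ∘ₗ J₁) ((perp BQ W).subtype ∘ₗ J₂)
  have hl : ∀ w : W, J (w : V) = J₁ w := fun w => LinearMap.ofIsCompl_left_apply hc w
  have hr : ∀ w : perp BQ W, J (w : V) = J₂ w := fun w => LinearMap.ofIsCompl_right_apply hc w
  have hdec : ∀ v : V, ∃ (a : W) (b : perp BQ W), v = (a : V) + b := fun v => by
    obtain ⟨a, ha, b, hb, rfl⟩ := Submodule.mem_sup.1 (hc.sup_eq_top ▸ Submodule.mem_top : v ∈ W ⊔ perp BQ W)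
    exact ⟨⟨a, ha⟩, ⟨b, hb⟩, rfl⟩
  have ho : ∀ (a : W) (b : perp BQ W), QuadraticMap.polar Q (a : V) (b : V) = 0 ∧
      QuadraticMap.polar Q (b : V) (a : V) = 0 := fun a b => by
    have := mem_perp_iff.1 b.2 _ a.2
    exact ⟨this, by rw [QuadraticMap.polar_comm]; exact this⟩
  refine ⟨J, ⟨fun v => ?_, fun u v => ?_⟩, hl, hr⟩
  · obtain ⟨a, b, rfl⟩ := hdec v
    rw [map_add, hl, hr, map_add, hl, hr, h₁.sq, h₂.sq, Submodule.coe_smul, Submodule.coe_smul, smul_add]
  · obtain ⟨a, b, rfl⟩ := hdec u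
    obtain ⟨a', b', rfl⟩ := hdec v
    have e1 : QuadraticMap.polar Q (J₁ a : V) (a' : V) = QuadraticMap.polar Q (a : V) (J₁ a' : V) :=
      ((polar_res W _ _).symm.trans (h₁.sa a a')).trans (polar_res W _ _)
    have e2 : QuadraticMap.polar Q (J₂ b : V) (b' : V) = QuadraticMap.polar Q (b : V) (J₂ b' : V) :=
      ((polar_res _ _ _).symm.trans (h₂.sa b b')).trans (polar_res _ _ _)
    simp only [map_add, hl, hr, QuadraticMap.polar_add_left, QuadraticMap.polar_add_right, e1, e2, (ho _ _).1,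
      (ho _ _).2, add_zero, zero_add]

/-- A nondegenerate plane spanned by orthogonal vectors carries a structure. -/
theorem exists_plane (h2 : (2 : F) ≠ 0) (hB : (BQ).Nondegenerate) (hd : finrank F V = 2) (δ : F) :
    ∃ J : Module.End F V, Str Q δ J := by
  classical
  obtain ⟨e, he⟩ : ∃ e, Q e ≠ 0 := by
    by_contra hcon
    push Not at hcon
    have := sing_le (nd_top hB) le_rfl (fun w _ => hcon w)
    rw [finrank_top, hd] at this
    omega
  have he0 : e ≠ 0 := fun h => he (by rw [h, map_zero])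
  have hen : Nd Q (F ∙ e) := fun w hw hz => by
    obtain ⟨c, rfl⟩ := Submodule.mem_span_singleton.1 hw
    have h := hz e (Submodule.mem_span_singleton_self e)
    rw [QuadraticMap.polar_smul_left, QuadraticMap.polar_self, smul_eq_mul, nsmul_eq_mul] at h
    rw [(mul_eq_zero.1 h).resolve_right (mul_ne_zero (by exact_mod_cast h2) he), zero_smul]
  obtain ⟨hPn, hPd, -⟩ := nd_split hB hen (nd_top hB) le_top
  rw [top_inf_eq] at hPn hPd
  rw [finrank_span_singleton he0, finrank_top, hd] at hPd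
  obtain ⟨f, hf, hf0⟩ : ∃ f ∈ perp BQ (F ∙ e), Q f ≠ 0 := by
    by_contra hcon
    push Not at hcon
    have := sing_le hPn le_rfl hcon
    omega
  have hef : QuadraticMap.polar Q e f = 0 := mem_perp_iff.1 hf e (Submodule.mem_span_singleton_self e)
  have hli : LinearIndependent F ![e, f] := LinearIndependent.pair_iff.mpr fun s t hst => by
    have h1 := congrArg (fun x => QuadraticMap.polar Q e x) hst
    have h3 := congrArg (fun x => QuadraticMap.polar Q f x) hst
    simp only [QuadraticMap.polar_add_right, QuadraticMap.polar_smul_right, QuadraticMap.polar_self, hef,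
      QuadraticMap.polar_comm Q f e, smul_eq_mul, mul_zero, add_zero, zero_add, nsmul_eq_mul,
      QuadraticMap.polar_zero_right] at h1 h3
    exact ⟨(mul_eq_zero.1 h1).resolve_right (mul_ne_zero (by exact_mod_cast h2) he),
      (mul_eq_zero.1 h3).resolve_right (mul_ne_zero (by exact_mod_cast h2) hf0)⟩
  let b := basisOfLinearIndependentOfCardEqFinrank hli (by rw [Fintype.card_fin, hd])
  have hbv : ∀ i, b i = ![e, f] i := fun i => by rw [coe_basisOfLinearIndependentOfCardEqFinrank]
  obtain ⟨x, y, hxy⟩ := Forms.exists_sq_add_sq_eq (a := (1 : F)) (b := Q f / Q e) one_ne_zero (div_ne_zero hf0 he) δ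
  let J : Module.End F V := b.constr F ![x • e + y • f, (y * (Q f / Q e)) • e - x • f]
  have hJe : J e = x • e + y • f := by
    have := b.constr_basis F ![x • e + y • f, (y * (Q f / Q e)) • e - x • f] 0
    rwa [hbv] at this
  have hJf : J f = (y * (Q f / Q e)) • e - x • f := by
    have := b.constr_basis F ![x • e + y • f, (y * (Q f / Q e)) • e - x • f] 1
    rwa [hbv] at this
  refine ⟨J, fun v => ?_, fun u v => ?_⟩
  · refine LinearMap.congr_fun (show J * J = δ • 1 from b.ext fun i => ?_) v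
    rw [hbv]
    fin_cases i <;>
      simp only [Fin.zero_eta, Fin.mk_one, Matrix.cons_val_zero, Matrix.cons_val_one, Module.End.mul_apply, LinearMap.smul_apply,
        Module.End.one_apply, hJe, hJf, map_add, map_sub, map_smul] <;>
      match_scalars <;> first | ring1 | linear_combination hxy | linear_combination -hxy
  · refine LinearMap.congr_fun (LinearMap.congr_fun (show (BQ) ∘ₗ J = (BQ).compl₂ J from
      b.ext fun i => b.ext fun i' => ?_) u) v
    rw [hbv, hbv]
    fin_cases i <;> fin_cases i' <;>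
      simp only [Fin.zero_eta, Fin.mk_one, Matrix.cons_val_zero, Matrix.cons_val_one, LinearMap.comp_apply, LinearMap.compl₂_apply,
        QuadraticMap.polarBilin_apply_apply, hJe, hJf, QuadraticMap.polar_add_left, QuadraticMap.polar_add_right,
        QuadraticMap.polar_sub_left, QuadraticMap.polar_sub_right, QuadraticMap.polar_smul_left,
        QuadraticMap.polar_smul_right, QuadraticMap.polar_self, hef, QuadraticMap.polar_comm Q f e, smul_eq_mul,
        nsmul_eq_mul] <;>
      field_simp <;> ring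

/-- Structures exist in every even dimension. -/
theorem exists_str (h2 : (2 : F) ≠ 0) (δ : F) : ∀ (w : ℕ) {V : Type u} [AddCommGroup V] [Module F V]
    [FiniteDimensional F V] {Q : QuadraticForm F V}, (QuadraticMap.polarBilin Q).Nondegenerate →
      finrank F V = 2 * w → ∃ J : Module.End F V, Str Q δ J := by
  intro w
  induction w with
  | zero =>
    intro V _ _ _ Q _ hd
    haveI : Subsingleton V := Module.finrank_zero_iff.1 hd
    exact ⟨0, fun v => Subsingleton.elim _ _, fun u v => by simp [Subsingleton.elim u v, Subsingleton.elim v 0]⟩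
  | succ w ih =>
    intro V _ _ _ Q hB hd
    rcases Nat.eq_zero_or_pos w with rfl | hw
    · exact exists_plane h2 hB (by omega) δ
    obtain ⟨P, -, hPn, -, hPd⟩ := exists_hyp (nd_top hB) (u := 1) (Or.inl (by rw [finrank_top]; omega))
    obtain ⟨hXn, hXd, -⟩ := nd_split hB hPn (nd_top hB) le_top
    rw [top_inf_eq] at hXn hXd
    rw [finrank_top] at hXd
    obtain ⟨J₁, h₁⟩ := exists_plane h2 (res_nondeg hPn) hPd δ
    obtain ⟨J₂, h₂⟩ := ih (res_nondeg hXn) (by omega)
    obtain ⟨J, hJ, -, -⟩ := glue hB hPn h₁ h₂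
    exact ⟨J, hJ⟩

/-- The value of a vector in the quadratic extension. -/
def kap (Q : QuadraticForm F V) (δ : F) (J : Module.End F V) (v : V) : QuadraticAlgebra F δ 0 :=
  ⟨Q v, δ⁻¹ * 2⁻¹ * QuadraticMap.polar Q (J v) v⟩

theorem fact_field (hns : ¬ IsSquare δ) : Fact (∀ r : F, r ^ 2 ≠ δ + 0 * r) :=
  ⟨fun r h => hns ⟨r, by linear_combination -h⟩⟩

theorem delta_ne_zero (hns : ¬ IsSquare δ) : δ ≠ 0 := fun h => hns (h ▸ IsSquare.zero)

theorem Str.kap_smul (h : Str Q δ J) (h2 : (2 : F) ≠ 0) (hδ : δ ≠ 0) (z : QuadraticAlgebra F δ 0) (v : V) :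
    kap Q δ J (z.re • v + z.im • J v) = z * z * kap Q δ J v := by
  have hc : QuadraticMap.polar Q (J (z.re • v + z.im • J v)) (z.re • v + z.im • J v) =
      (z.re * z.re + δ * (z.im * z.im)) * QuadraticMap.polar Q (J v) v + 4 * δ * (z.re * z.im) * Q v := by
    simp only [map_add, map_smul, h.sq, QuadraticMap.polar_add_left, QuadraticMap.polar_add_right,
      QuadraticMap.polar_smul_left, QuadraticMap.polar_smul_right, QuadraticMap.polar_self, h.value h2,
      QuadraticMap.polar_comm Q v (J v), smul_eq_mul, nsmul_eq_mul]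
    push_cast
    ring
  refine QuadraticAlgebra.ext ?_ ?_
  · simp only [kap, QuadraticAlgebra.re_mul, QuadraticAlgebra.im_mul, h.value_add h2]
    field_simp
    ring
  · simp only [kap, QuadraticAlgebra.re_mul, QuadraticAlgebra.im_mul, hc]
    field_simp
    ring

theorem Str.kap_add (h : Str Q δ J) {v w : V} (h1 : QuadraticMap.polar Q v w = 0)
    (h3 : QuadraticMap.polar Q (J v) w = 0) : kap Q δ J (v + w) = kap Q δ J v + kap Q δ J w := by
  have h4 : QuadraticMap.polar Q (J w) v = 0 := by rw [h.sa, QuadraticMap.polar_comm]; exact h3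
  refine QuadraticAlgebra.ext ?_ ?_
  · simp [kap, QuadraticMap.map_add Q, h1]
  · simp only [kap, QuadraticAlgebra.im_add, map_add, QuadraticMap.polar_add_left, QuadraticMap.polar_add_right, h3, h4]
    ring

/-- The plane of a vector with nonzero value. -/
theorem Str.plane (h : Str Q δ J) (h2 : (2 : F) ≠ 0) (hns : ¬ IsSquare δ) {v : V} (hv : kap Q δ J v ≠ 0) :
    LinearIndependent F ![v, J v] ∧ Nd Q (Submodule.span F (Set.range ![v, J v])) ∧
      (∀ w ∈ Submodule.span F (Set.range ![v, J v]), J w ∈ Submodule.span F (Set.range ![v, J v])) ∧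
      finrank F (Submodule.span F (Set.range ![v, J v])) = 2 := by
  have hδ := delta_ne_zero hns
  set c := QuadraticMap.polar Q (J v) v
  have hD : 4 * δ * (Q v * Q v) - c * c ≠ 0 := fun hD => by
    by_cases hq : Q v = 0
    · rw [hq] at hD
      have hc : c = 0 := mul_self_eq_zero.1 (by linear_combination -hD)
      exact hv (QuadraticAlgebra.ext (by simp [kap, hq]) (by simp [kap, show QuadraticMap.polar Q (J v) v = 0 from hc]))
    · exact hns ⟨c / (2 * Q v), by field_simp; linear_combination hD⟩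
  have key : ∀ s t : F, QuadraticMap.polar Q (s • v + t • J v) v = 0 →
      QuadraticMap.polar Q (s • v + t • J v) (J v) = 0 → s = 0 ∧ t = 0 := by
    intro s t e1 e2
    simp only [QuadraticMap.polar_add_left, QuadraticMap.polar_smul_left, QuadraticMap.polar_self,
      QuadraticMap.polar_comm Q v (J v), h.value h2, smul_eq_mul, nsmul_eq_mul] at e1 e2
    push_cast at e1 e2
    exact ⟨(mul_eq_zero.1 (show s * (4 * δ * (Q v * Q v) - c * c) = 0 by
        linear_combination (2 * δ * Q v) * e1 - c * e2)).resolve_right hD,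
      (mul_eq_zero.1 (show t * (4 * δ * (Q v * Q v) - c * c) = 0 by
        linear_combination (2 * Q v) * e2 - c * e1)).resolve_right hD⟩
  have hli : LinearIndependent F ![v, J v] := LinearIndependent.pair_iff.mpr fun s t hst =>
    key s t (by rw [hst, QuadraticMap.polar_zero_left]) (by rw [hst, QuadraticMap.polar_zero_left])
  have hmem : ∀ w ∈ Submodule.span F (Set.range ![v, J v]), ∃ s t : F, w = s • v + t • J v := fun w hw => by
    obtain ⟨cf, rfl⟩ := (Submodule.mem_span_range_iff_exists_fun F).1 hw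
    exact ⟨cf 0, cf 1, by simp [Fin.sum_univ_two]⟩
  have hv' : v ∈ Submodule.span F (Set.range ![v, J v]) := Submodule.subset_span ⟨0, rfl⟩
  have hJv : J v ∈ Submodule.span F (Set.range ![v, J v]) := Submodule.subset_span ⟨1, rfl⟩
  refine ⟨hli, fun w hw hz => ?_, fun w hw => ?_, by rw [finrank_span_eq_card hli, Fintype.card_fin]⟩
  · obtain ⟨s, t, rfl⟩ := hmem w hw
    obtain ⟨rfl, rfl⟩ := key s t (hz _ hv') (hz _ hJv)
    simp
  · obtain ⟨s, t, rfl⟩ := hmem w hw
    rw [map_add, map_smul, map_smul, h.sq, smul_smul]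
    exact add_mem (Submodule.smul_mem _ _ hJv) (Submodule.smul_mem _ _ hv')

theorem kap_ne_zero {v : V} (hv : Q v ≠ 0) : kap Q δ J v ≠ 0 :=
  fun h => hv (congrArg QuadraticAlgebra.re h)

/-- Squares in the quadratic extension are detected by the norm. -/
theorem isSquare_of_norm (h2 : (2 : F) ≠ 0) (hns : ¬ IsSquare δ) {z : QuadraticAlgebra F δ 0}
    (hz : IsSquare (QuadraticAlgebra.norm z)) : IsSquare z := by
  classical
  have hδ := delta_ne_zero hns
  obtain ⟨x, y⟩ := z
  rw [QuadraticAlgebra.norm_def] at hz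
  obtain ⟨t, ht⟩ := hz
  dsimp at ht
  by_cases hy : y = 0
  · subst hy
    by_cases hx : IsSquare x
    · obtain ⟨s, rfl⟩ := hx
      exact ⟨⟨s, 0⟩, QuadraticAlgebra.ext (by simp) (by simp)⟩
    · have hx0 : x ≠ 0 := fun h => hx (h ▸ IsSquare.zero)
      obtain ⟨s, hs⟩ : IsSquare (x * δ) := (SpinorList.isSquare_mul_iff' h2 hx0 hδ).2 (iff_of_false hx hns)
      refine ⟨⟨0, s / δ⟩, QuadraticAlgebra.ext ?_ ?_⟩
      · simp only [QuadraticAlgebra.re_mul]; field_simp; linear_combination hs
      · simp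
  · have hne : x + t ≠ 0 ∧ x - t ≠ 0 := by
      have : (x + t) * (x - t) = δ * (y * y) := by linear_combination ht
      exact ⟨left_ne_zero_of_mul (this ▸ mul_ne_zero hδ (mul_ne_zero hy hy)),
        right_ne_zero_of_mul (this ▸ mul_ne_zero hδ (mul_ne_zero hy hy))⟩
    have hcase : IsSquare ((x + t) / 2) ∨ IsSquare ((x - t) / 2) := by
      by_contra hcon
      push Not at hcon
      obtain ⟨s, hs⟩ := (SpinorList.isSquare_mul_iff' h2 (div_ne_zero hne.1 h2) (div_ne_zero hne.2 h2)).2
        (iff_of_false hcon.1 hcon.2)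
      refine hns ⟨2 * s / y, ?_⟩
      field_simp
      field_simp at hs
      linear_combination hs - ht
    obtain ⟨u, hu0, hu⟩ : ∃ u : F, u ≠ 0 ∧ (2 * (u * u) - x) * (2 * (u * u) - x) = t * t := by
      rcases hcase with ⟨u, hu⟩ | ⟨u, hu⟩
      · refine ⟨u, fun h => hne.1 ?_, ?_⟩
        · rw [h] at hu; field_simp at hu; linear_combination hu
        · field_simp at hu; linear_combination (-(2 * (u * u) - x + t)) * hu
      · refine ⟨u, fun h => hne.2 ?_, ?_⟩
        · rw [h] at hu; field_simp at hu; linear_combination hu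
        · field_simp at hu; linear_combination (-(2 * (u * u) - x - t)) * hu
    refine ⟨⟨u, y / (2 * u)⟩, QuadraticAlgebra.ext ?_ ?_⟩
    · simp only [QuadraticAlgebra.re_mul]; field_simp; linear_combination -hu + ht
    · simp only [QuadraticAlgebra.im_mul]; field_simp; ring

/-- The norm of the value of a vector in a plane, up to squares. -/
theorem norm_plane (hB : (BQ).Nondegenerate) (h : Str Q δ J) (h' : Str Q δ J') (h2 : (2 : F) ≠ 0)
    (hns : ¬ IsSquare δ) (hd : finrank F V = 2) {v : V} (hv : Q v ≠ 0) :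
    IsSquare (QuadraticAlgebra.norm (kap Q δ J v * kap Q δ J' v)) := by
  have hδ := delta_ne_zero hns
  have hv0 : v ≠ 0 := fun h => hv (by rw [h, map_zero])
  have hvn : Nd Q (F ∙ v) := fun w hw hz => by
    obtain ⟨c, rfl⟩ := Submodule.mem_span_singleton.1 hw
    have h := hz v (Submodule.mem_span_singleton_self v)
    rw [QuadraticMap.polar_smul_left, QuadraticMap.polar_self, smul_eq_mul, nsmul_eq_mul] at h
    rw [(mul_eq_zero.1 h).resolve_right (mul_ne_zero (by exact_mod_cast h2) hv), zero_smul]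
  obtain ⟨-, hPd, -⟩ := nd_split hB hvn (nd_top hB) le_top
  rw [top_inf_eq] at hPd
  rw [finrank_span_singleton hv0, finrank_top, hd] at hPd
  have dat : ∀ {J : Module.End F V}, Str Q δ J → ∃ f ∈ perp BQ (F ∙ v), f ≠ 0 ∧
      QuadraticAlgebra.norm (kap Q δ J v) = δ⁻¹ * (Q v * Q f) := by
    intro J h
    set c := 2⁻¹ * QuadraticMap.polar Q (J v) v with hc
    refine ⟨J v - (c / Q v) • v, mem_perp_iff.2 fun u hu => ?_, fun e => ?_, ?_⟩
    · obtain ⟨s, rfl⟩ := Submodule.mem_span_singleton.1 hu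
      rw [QuadraticMap.polar_smul_left, QuadraticMap.polar_sub_right, QuadraticMap.polar_smul_right,
        QuadraticMap.polar_self, QuadraticMap.polar_comm Q v, smul_eq_mul, smul_eq_mul, nsmul_eq_mul, hc]
      push_cast
      field_simp
      ring
    · have h1 := h.sq v
      rw [sub_eq_zero.1 e, map_smul, sub_eq_zero.1 e, smul_smul] at h1
      exact hns ⟨_, (smul_left_injective F hv0 h1).symm⟩
    · rw [QuadraticAlgebra.norm_def, sub_eq_add_neg (J v), ← neg_smul, QuadraticMap.map_add Q,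
        QuadraticMap.map_smul, QuadraticMap.polar_smul_right, h.value h2, hc]
      simp only [kap, smul_eq_mul]
      field_simp
      ring
  obtain ⟨f, hf, hf0, hfn⟩ := dat h
  obtain ⟨f', hf', -, hfn'⟩ := dat h'
  obtain ⟨l, hl⟩ := exists_smul_eq_of_finrank_eq_one (show finrank F (perp BQ (F ∙ v)) = 1 by omega)
    (x := ⟨f, hf⟩) (fun e => hf0 (congrArg Subtype.val e)) ⟨f', hf'⟩
  have hl' : f' = l • f := (congrArg Subtype.val hl).symm
  rw [map_mul, hfn, hfn', hl', QuadraticMap.map_smul, smul_eq_mul]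
  exact ⟨δ⁻¹ * Q v * Q f * l, by ring⟩

/-- Matching values. -/
theorem exists_kap (hB : (BQ).Nondegenerate) (h : Str Q δ J) (h' : Str Q δ J') (h2 : (2 : F) ≠ 0)
    (hns : ¬ IsSquare δ) {w : ℕ} (hd : finrank F V = 2 * w) {v : V} (hv : Q v ≠ 0) :
    ∃ v', kap Q δ J' v' = kap Q δ J v := by
  classical
  haveI := fact_field hns
  have hδ := delta_ne_zero hns
  rcases Nat.lt_or_ge w 2 with hw | hw
  · rcases Nat.eq_zero_or_pos w with rfl | hw0
    · haveI : Subsingleton V := Module.finrank_zero_iff.1 (by simpa using hd)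
      exact absurd (by rw [Subsingleton.elim v 0, map_zero]) hv
    obtain ⟨s, hs⟩ := isSquare_of_norm h2 hns (norm_plane hB h h' h2 hns (by omega) hv)
    have hne := kap_ne_zero (δ := δ) (J := J') hv
    set z := s / kap Q δ J' v
    refine ⟨z.re • v + z.im • J' v, ?_⟩
    rw [h'.kap_smul h2 hδ, div_mul_div_comm, ← hs]
    field_simp
  · obtain ⟨-, hPn, hPi, hPd⟩ := h'.plane h2 hns (kap_ne_zero (δ := δ) (J := J') hv)
    set P := Submodule.span F (Set.range ![v, J' v])
    obtain ⟨hXn, hXd, -⟩ := nd_split hB hPn (nd_top hB) le_top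
    rw [top_inf_eq] at hXn hXd
    rw [finrank_top] at hXd
    obtain ⟨v₂, hv₂, hv₂0⟩ : ∃ f ∈ perp BQ P, Q f ≠ 0 := by
      by_contra hcon
      push Not at hcon
      have := sing_le hXn le_rfl hcon
      omega
    set K := QuadraticAlgebra F δ 0
    haveI : Finite K := Finite.of_equiv _ (QuadraticAlgebra.equivProd δ 0).symm
    letI : Fintype K := Fintype.ofFinite K
    have hodd : Fintype.card K % 2 = 1 := by
      rw [Fintype.card_congr (QuadraticAlgebra.equivProd δ 0), Fintype.card_prod, Nat.mul_mod,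
        FiniteField.odd_card_of_char_ne_two fun h => h2 (by
          have : ((2 : ℕ) : F) = 0 := by
            haveI := ringChar.charP F
            rw [← h]; exact CharP.cast_eq_zero F (ringChar F)
          exact_mod_cast this)]
    obtain ⟨a, b, hab⟩ := FiniteField.exists_root_sum_quadratic
      (f := Polynomial.C (kap Q δ J' v) * Polynomial.X ^ 2)
      (g := Polynomial.C (kap Q δ J' v₂) * Polynomial.X ^ 2 + Polynomial.C (-kap Q δ J v))
      (Polynomial.degree_C_mul_X_pow 2 (kap_ne_zero hv))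
      (by
        rw [Polynomial.degree_add_eq_left_of_degree_lt] <;> rw [Polynomial.degree_C_mul_X_pow 2 (kap_ne_zero hv₂0)]
        · norm_num
        · exact lt_of_le_of_lt Polynomial.degree_C_le (by norm_num))
      hodd
    simp only [Polynomial.eval_add, Polynomial.eval_mul, Polynomial.eval_C, Polynomial.eval_pow,
      Polynomial.eval_X] at hab
    refine ⟨(a.re • v + a.im • J' v) + (b.re • v₂ + b.im • J' v₂), ?_⟩
    have hmP : a.re • v + a.im • J' v ∈ P :=
      add_mem (P.smul_mem _ (Submodule.subset_span ⟨0, rfl⟩)) (P.smul_mem _ (Submodule.subset_span ⟨1, rfl⟩))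
    have hmX : b.re • v₂ + b.im • J' v₂ ∈ perp BQ P :=
      add_mem (Submodule.smul_mem _ _ hv₂) (Submodule.smul_mem _ _ (h'.perp_inv hPi _ hv₂))
    rw [h'.kap_add (mem_perp_iff.1 hmX _ hmP) (mem_perp_iff.1 hmX _ (hPi _ hmP)), h'.kap_smul h2 hδ,
      h'.kap_smul h2 hδ]
    linear_combination hab

/-- Structures are conjugate under the isometry group. -/
theorem exists_conj (h2 : (2 : F) ≠ 0) (hns : ¬ IsSquare δ) : ∀ (w : ℕ) {V : Type u} [AddCommGroup V] [Module F V]
    [FiniteDimensional F V] {Q : QuadraticForm F V} {J J' : Module.End F V},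
    (QuadraticMap.polarBilin Q).Nondegenerate → finrank F V = 2 * w → Str Q δ J → Str Q δ J' →
      ∃ g : V ≃ₗ[F] V, (∀ v, Q (g v) = Q v) ∧ ∀ v, g (J v) = J' (g v) := by
  intro w
  induction w with
  | zero =>
    intro V _ _ _ Q J J' _ hd _ _
    haveI : Subsingleton V := Module.finrank_zero_iff.1 hd
    exact ⟨LinearEquiv.refl F V, fun v => rfl, fun v => Subsingleton.elim _ _⟩
  | succ w ih =>
    intro V _ _ _ Q J J' hB hd h h'
    obtain ⟨v, hv⟩ : ∃ v, Q v ≠ 0 := by
      by_contra hcon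
      push Not at hcon
      have := sing_le (nd_top hB) le_rfl (fun x _ => hcon x)
      rw [finrank_top, hd] at this
      omega
    obtain ⟨v', hv'⟩ := exists_kap hB h h' h2 hns hd hv
    have hκ := kap_ne_zero (δ := δ) (J := J) hv
    obtain ⟨hli, -, -, -⟩ := h.plane h2 hns hκ
    obtain ⟨hli', hPn, hPi, hPd⟩ := h'.plane h2 hns (hv' ▸ hκ)
    set P := Submodule.span F (Set.range ![v', J' v'])
    have ea : Q v' = Q v := congrArg QuadraticAlgebra.re hv'
    have ec : QuadraticMap.polar Q (J' v') v' = QuadraticMap.polar Q (J v) v :=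
      mul_left_cancel₀ (mul_ne_zero (inv_ne_zero (delta_ne_zero hns)) (inv_ne_zero h2))
        (congrArg QuadraticAlgebra.im hv')
    let ψ := Fintype.linearCombination F ![v, J v]
    let ψ' := Fintype.linearCombination F ![v', J' v']
    have hψ : Function.Injective ψ := hli.fintypeLinearCombination_injective
    let φ : LinearMap.range ψ →ₗ[F] V := ψ' ∘ₗ (LinearEquiv.ofInjective ψ hψ).symm.toLinearMap
    have hφ : ∀ c, φ ⟨ψ c, c, rfl⟩ = ψ' c := fun c => by
      show ψ' ((LinearEquiv.ofInjective ψ hψ).symm ⟨ψ c, c, rfl⟩) = _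
      rw [show (⟨ψ c, c, rfl⟩ : LinearMap.range ψ) = LinearEquiv.ofInjective ψ hψ c from Subtype.ext rfl,
        LinearEquiv.symm_apply_apply]
    have hQψ : ∀ c : Fin 2 → F, Q (ψ' c) = Q (ψ c) := fun c => by
      simp only [ψ, ψ', Fintype.linearCombination_apply, Fin.sum_univ_two, Matrix.cons_val_zero, Matrix.cons_val_one]
      rw [h'.value_add h2, h.value_add h2, ea, ec]
    have hφQ : ∀ x : LinearMap.range ψ, Q (φ x) = Q (x : V) := by
      rintro ⟨_, c, rfl⟩
      rw [hφ]; exact hQψ c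
    obtain ⟨g₀, hg₀⟩ := (isForm_quadratic Q hB).exists_isom_extend _ φ
      (hli'.fintypeLinearCombination_injective.comp (LinearEquiv.injective _))
      (fun x y => by
        show QuadraticMap.polar Q (φ x) (φ y) = QuadraticMap.polar Q (x : V) (y : V)
        simp only [QuadraticMap.polar, ← map_add, ← Submodule.coe_add, hφQ]) hφQ
    set g := g₀.1
    have hgQ : ∀ x, Q (g x) = Q x := fun x => g₀.2.2 x
    have hgc : ∀ c, g (ψ c) = ψ' c := fun c => (hg₀ ⟨ψ c, c, rfl⟩).trans (hφ c)
    have hgv : g v = v' := by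
      have := hgc ![1, 0]
      simpa [ψ, ψ', Fintype.linearCombination_apply, Fin.sum_univ_two] using this
    have hgJ : g (J v) = J' v' := by
      have := hgc ![0, 1]
      simpa [ψ, ψ', Fintype.linearCombination_apply, Fin.sum_univ_two] using this
    set J'' := g.toLinearMap ∘ₗ J ∘ₗ g.symm.toLinearMap
    have h'' : Str Q δ J'' := h.conj hgQ
    have e1 : J'' v' = J' v' := by
      show g (J (g.symm v')) = _
      rw [← hgv, g.symm_apply_apply, hgJ, hgv]
    have e2 : J'' (J' v') = δ • v' := by rw [← e1, h''.sq]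
    have hagree : ∀ x ∈ P, J'' x = J' x := fun x hx => by
      obtain ⟨cf, rfl⟩ := (Submodule.mem_span_range_iff_exists_fun F).1 hx
      simp [Fin.sum_univ_two, e1, e2, h'.sq]
    have hPi'' : ∀ x ∈ P, J'' x ∈ P := fun x hx => hagree x hx ▸ hPi x hx
    obtain ⟨hXn, hXd, -⟩ := nd_split hB hPn (nd_top hB) le_top
    rw [top_inf_eq] at hXn hXd
    rw [finrank_top] at hXd
    obtain ⟨k, hk, hkJ⟩ := ih (res_nondeg hXn) (by omega) (h''.res (h''.perp_inv hPi'')) (h'.res (h'.perp_inv hPi))
    have hc := nd_isCompl hB hPn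
    let e := Submodule.prodEquivOfIsCompl P (perp (QuadraticMap.polarBilin Q) P) hc
    let G : V ≃ₗ[F] V := (e.symm.trans ((LinearEquiv.refl F P).prodCongr k)).trans e
    have hG : ∀ (a : P) (b : perp (QuadraticMap.polarBilin Q) P), G ((a : V) + b) = (a : V) + k b := fun a b => by
      show e (((LinearEquiv.refl F P).prodCongr k) (e.symm (e (a, b)))) = _
      rw [e.symm_apply_apply]
      rfl
    have hdec : ∀ x : V, ∃ (a : P) (b : perp (QuadraticMap.polarBilin Q) P), x = (a : V) + b := fun x => by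
      obtain ⟨⟨a, b⟩, rfl⟩ := e.surjective x
      exact ⟨a, b, rfl⟩
    refine ⟨g.trans G, fun x => ?_, fun x => ?_⟩
    · obtain ⟨a, b, hab⟩ := hdec (g x)
      show Q (G (g x)) = Q x
      rw [hab, hG, Q_add_of_perp a.2 (k b).2, ← hgQ x, hab, Q_add_of_perp a.2 b.2]
      exact congrArg (Q (a : V) + ·) (hk b)
    · have hgx : g (J x) = J'' (g x) := by simp [J'']
      obtain ⟨a, b, hab⟩ := hdec (g x)
      show G (g (J x)) = J' (G (g x))
      rw [hgx, hab, map_add, hagree _ a.2, hG]
      have h1 : J'' (b : V) = ((J''.restrict (h''.perp_inv hPi'') b : perp (QuadraticMap.polarBilin Q) P) : V) := rfl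
      rw [h1, show J' (a : V) = ((⟨J' (a : V), hPi _ a.2⟩ : P) : V) from rfl, hG, hkJ b, map_add]
      rfl

section Omega

variable [Finite V]

theorem orthDet_eq (h2 : (2 : F) ≠ 0) (hB : (BQ).Nondegenerate) (g : orthGroup Q) :
    orthDet Q g = 1 ∨ orthDet Q g = -1 := by
  have hg : g ∈ Subgroup.closure (reflectionSet Q) := closure_reflectionSet_odd h2 Q hB ▸ Subgroup.mem_top g
  induction hg using Subgroup.closure_induction with
  | mem x hx =>
    obtain ⟨v, hv, rfl⟩ := hx
    exact Or.inr (Units.ext (orthDet_reflection Q hv))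
  | one => exact Or.inl (map_one _)
  | mul a b _ _ ha hb => rcases ha with ha | ha <;> rcases hb with hb | hb <;> simp [map_mul, ha, hb]
  | inv a _ ha => rcases ha with ha | ha <;> simp [map_inv, ha]

/-- A structure centralised by an element of determinant one and nontrivial spinor norm. -/
theorem exists_spinor_cent (h2 : (2 : F) ≠ 0) (hns : ¬ IsSquare δ) (hB : (BQ).Nondegenerate) {w : ℕ}
    (hd : finrank F V = 2 * w) (hw : 2 ≤ w) (h : Str Q δ J) :
    ∃ g : orthGroup Q, orthDet Q g = 1 ∧ spinor Q h2 g = -1 ∧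
      ∀ v, (g : V ≃ₗ[F] V) (J v) = J ((g : V ≃ₗ[F] V) v) := by
  classical
  obtain ⟨e, he⟩ : ∃ v, Q v = 1 := exists_eq_value h2 Q hB (by omega) 1
  have he0 : e ≠ 0 := fun h => one_ne_zero (α := F) (by rw [← he, h, map_zero])
  have hen : Nd Q (F ∙ e) := fun x hx hz => by
    obtain ⟨c, rfl⟩ := Submodule.mem_span_singleton.1 hx
    have h := hz e (Submodule.mem_span_singleton_self e)
    rw [QuadraticMap.polar_smul_left, QuadraticMap.polar_self, smul_eq_mul, nsmul_eq_mul, he, mul_one] at h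
    rw [(mul_eq_zero.1 h).resolve_right (by exact_mod_cast h2), zero_smul]
  obtain ⟨hEn, hEd, -⟩ := nd_split hB hen (nd_top hB) le_top
  rw [top_inf_eq] at hEn hEd
  rw [finrank_span_singleton he0, finrank_top] at hEd
  obtain ⟨⟨f, hfE⟩, hf⟩ := exists_eq_value h2 (Q.comp (perp BQ (F ∙ e)).subtype) (res_nondeg hEn) (by omega) δ
  have hf' : Q f = δ := hf
  have hδ := delta_ne_zero hns
  have hef : QuadraticMap.polar Q e f = 0 := mem_perp_iff.1 hfE e (Submodule.mem_span_singleton_self e)
  have he1 : Q e ≠ 0 := by rw [he]; exact one_ne_zero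
  have hf1 : Q f ≠ 0 := by rw [hf']; exact hδ
  have hli : LinearIndependent F ![e, f] := LinearIndependent.pair_iff.mpr fun s t hst => by
    have h1 := congrArg (fun x => QuadraticMap.polar Q e x) hst
    have h3 := congrArg (fun x => QuadraticMap.polar Q f x) hst
    simp only [QuadraticMap.polar_add_right, QuadraticMap.polar_smul_right, QuadraticMap.polar_self, hef,
      QuadraticMap.polar_comm Q f e, smul_eq_mul, mul_zero, add_zero, zero_add, nsmul_eq_mul,
      QuadraticMap.polar_zero_right] at h1 h3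
    exact ⟨(mul_eq_zero.1 h1).resolve_right (mul_ne_zero (by exact_mod_cast h2) he1),
      (mul_eq_zero.1 h3).resolve_right (mul_ne_zero (by exact_mod_cast h2) hf1)⟩
  set P := Submodule.span F (Set.range ![e, f])
  have hPd : finrank F P = 2 := by rw [finrank_span_eq_card hli, Fintype.card_fin]
  have hPn : Nd Q P := by
    intro x hx hz
    obtain ⟨cf, rfl⟩ := (Submodule.mem_span_range_iff_exists_fun F).1 hx
    have h1 := hz e (Submodule.subset_span ⟨0, rfl⟩)
    have h3 := hz f (Submodule.subset_span ⟨1, rfl⟩)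
    simp only [Fin.sum_univ_two, Matrix.cons_val_zero, Matrix.cons_val_one, QuadraticMap.polar_add_left,
      QuadraticMap.polar_smul_left, QuadraticMap.polar_self, hef, QuadraticMap.polar_comm Q f e, smul_eq_mul,
      mul_zero, add_zero, zero_add, nsmul_eq_mul] at h1 h3 ⊢
    rw [(mul_eq_zero.1 h1).resolve_right (mul_ne_zero (by exact_mod_cast h2) he1),
      (mul_eq_zero.1 h3).resolve_right (mul_ne_zero (by exact_mod_cast h2) hf1)]
    simp
  obtain ⟨hXn, hXd, -⟩ := nd_split hB hPn (nd_top hB) le_top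
  rw [top_inf_eq] at hXn hXd
  rw [finrank_top] at hXd
  obtain ⟨J₁, h₁⟩ := exists_plane h2 (res_nondeg hPn) hPd δ
  obtain ⟨J₂, h₂⟩ := exists_str h2 δ (w - 1) (res_nondeg hXn) (by omega)
  obtain ⟨J₀, h₀, hl, hr⟩ := glue hB hPn h₁ h₂
  -- the element negating the plane
  set n : orthGroup Q := reflection Q e * reflection Q f with hn
  have hnP : ∀ x ∈ P, (n : V ≃ₗ[F] V) x = -x := fun x hx => by
    obtain ⟨cf, rfl⟩ := (Submodule.mem_span_range_iff_exists_fun F).1 hx
    simp only [hn, orth_mul_apply, Forms.reflection_apply, Fin.sum_univ_two, Matrix.cons_val_zero,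
      Matrix.cons_val_one, QuadraticMap.polar_add_right, QuadraticMap.polar_sub_right, QuadraticMap.polar_smul_right,
      QuadraticMap.polar_self, hef, QuadraticMap.polar_comm Q f e, smul_eq_mul, nsmul_eq_mul, he, hf']
    match_scalars <;> field_simp <;> ring
  have hnX : ∀ x ∈ perp BQ P, (n : V ≃ₗ[F] V) x = x := fun x hx => by
    have h1 : QuadraticMap.polar Q e x = 0 := mem_perp_iff.1 hx e (Submodule.subset_span ⟨0, rfl⟩)
    have h3 : QuadraticMap.polar Q f x = 0 := mem_perp_iff.1 hx f (Submodule.subset_span ⟨1, rfl⟩)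
    simp [hn, orth_mul_apply, Forms.reflection_apply, h1, h3]
  have hn0 : ∀ x, (n : V ≃ₗ[F] V) (J₀ x) = J₀ ((n : V ≃ₗ[F] V) x) := fun x => by
    obtain ⟨a, ha, b, hb, rfl⟩ := Submodule.mem_sup.1
      ((nd_isCompl hB hPn).sup_eq_top ▸ Submodule.mem_top : x ∈ P ⊔ perp BQ P)
    rw [map_add, hl ⟨a, ha⟩, hr ⟨b, hb⟩, map_add, map_add, hnP _ (J₁ ⟨a, ha⟩).2, hnX _ (J₂ ⟨b, hb⟩).2, hnP a ha,
      hnX b hb, map_add, map_neg, hl ⟨a, ha⟩, hr ⟨b, hb⟩]
  obtain ⟨g₀, hgQ, hgJ⟩ := exists_conj h2 hns w hB hd h₀ h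
  let g₁ : orthGroup Q := ⟨g₀, fun u v => by simp [QuadraticMap.polar, ← map_add, hgQ], hgQ⟩
  refine ⟨g₁ * n * g₁⁻¹, ?_, ?_, fun v => ?_⟩
  · rw [map_mul, map_mul, map_inv, mul_comm (orthDet Q g₁), mul_inv_cancel_right, hn, map_mul]
    refine Units.ext ?_
    rw [Units.val_mul, orthDet_reflection Q he1, orthDet_reflection Q hf1]
    simp
  · rw [map_mul, map_mul, map_inv, mul_comm (spinor Q h2 g₁), mul_inv_cancel_right, hn, map_mul,
      (spinor_reflection h2 hB he1).1 (by rw [he]; exact IsSquare.one),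
      (spinor_reflection h2 hB hf1).2 (by rw [hf']; exact hns), one_mul]
  · clear_value n
    obtain ⟨x, rfl⟩ := g₀.surjective v
    have hi : ∀ y, ((g₁⁻¹ : orthGroup Q) : V ≃ₗ[F] V) (g₀ y) = y := fun y => g₀.symm_apply_apply y
    rw [← hgJ, orth_mul_apply, orth_mul_apply, hi, orth_mul_apply, orth_mul_apply, hi, hn0]
    exact hgJ _

/-- Up to a transporter of determinant minus one, the conjugating element can be taken in `Ω`. -/
theorem exists_omega (h2 : (2 : F) ≠ 0) (hns : ¬ IsSquare δ) (hB : (BQ).Nondegenerate) {w : ℕ}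
    (hd : finrank F V = 2 * w) (hw : 2 ≤ w) (h : Str Q δ J) (h' : Str Q δ J') {s : orthGroup Q}
    (hs : orthDet Q s = -1) :
    ∃ g ∈ commutator (orthGroup Q), (∀ v, (g : V ≃ₗ[F] V) (J v) = J' ((g : V ≃ₗ[F] V) v)) ∨
      ∀ v, (g : V ≃ₗ[F] V) (J v) =
        (s : V ≃ₗ[F] V) (J' (((s⁻¹ : orthGroup Q) : V ≃ₗ[F] V) ((g : V ≃ₗ[F] V) v))) := by
  obtain ⟨g₀, hgQ, hgJ⟩ := exists_conj h2 hns w hB hd h h'
  let g₁ : orthGroup Q := ⟨g₀, fun u v => by simp [QuadraticMap.polar, ← map_add, hgQ], hgQ⟩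
  have key : ∀ (K : Module.End F V), Str Q δ K → ∀ g : orthGroup Q, orthDet Q g = 1 →
      (∀ v, (g : V ≃ₗ[F] V) (J v) = K ((g : V ≃ₗ[F] V) v)) →
      ∃ g' ∈ commutator (orthGroup Q), ∀ v, (g' : V ≃ₗ[F] V) (J v) = K ((g' : V ≃ₗ[F] V) v) := by
    intro K hK g hg hgK
    rcases Int.units_eq_one_or (spinor Q h2 g) with hs1 | hs1
    · exact ⟨g, (mem_commutator_iff h2 hB (by omega)).2 ⟨hg, hs1⟩, hgK⟩
    · obtain ⟨n, hn1, hn2, hnK⟩ := exists_spinor_cent h2 hns hB hd hw hK
      refine ⟨n * g, (mem_commutator_iff h2 hB (by omega)).2 ⟨by rw [map_mul, hn1, hg, mul_one],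
        by rw [map_mul, hn2, hs1]; rfl⟩, fun v => ?_⟩
      rw [orth_mul_apply, orth_mul_apply, hgK, hnK]
  rcases orthDet_eq h2 hB g₁ with hd1 | hd1
  · obtain ⟨g, hg, hgK⟩ := key J' h' g₁ hd1 hgJ
    exact ⟨g, hg, Or.inl hgK⟩
  · have hsQ : ∀ v, Q ((s : V ≃ₗ[F] V) v) = Q v := fun v => s.2.2 v
    obtain ⟨g, hg, hgK⟩ := key _ (h'.conj hsQ) (s * g₁) (by rw [map_mul, hs, hd1]; simp) fun v => by
      rw [orth_mul_apply, orth_mul_apply]
      simp only [LinearMap.comp_apply, LinearEquiv.coe_coe, LinearEquiv.symm_apply_apply]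
      exact congrArg _ (hgJ v)
    exact ⟨g, hg, Or.inr fun v => hgK v⟩

end Omega

end Cfsg.Agent.Linear.QuadStr
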