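import Cfsg.Agent.Linear.NdEvenCases
import Cfsg.Agent.Linear.JordanTypeGroups
import Cfsg.Agent.GeomClasses.JordanType
import Cfsg.Agent.GeomClasses.SympUnipotent

/-!
# Jordan partitions of unipotent isometries and of their invariant nondegenerate subspaces
-/

set_option autoImplicit false
set_option linter.unusedSectionVars false

namespace Cfsg.Agent.Linear.UnipPartition

open Module Cfsg.Agent.Forms Cfsg.Agent.Linear.OrthSpaces Cfsg.Agent.GeomClasses.JordanType
  Cfsg.Agent.GeomClasses.SympUnipotent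

variable {F : Type*} [Field F] [Fintype F] {V : Type*} [AddCommGroup V] [Module F V] [FiniteDimensional F V]
  {Q : QuadraticForm F V}

local notation "BQ" => QuadraticMap.polarBilin Q

/-- Even parts occur an even number of times. -/
def Good (μ : Multiset ℕ) : Prop := ∀ e : ℕ, Even e → Even (μ.count e)

/-- The ranks of the odd powers are even. -/
theorem even_imDim (h2 : (2 : F) ≠ 0) {T : Module.End F V} (hTQ : ∀ v, Q (T v) = Q v) {p : ℕ}
    (hnil : (T - 1) ^ p = 0) {W : Submodule F V} (hW : Nd Q W) (hWi : ∀ w ∈ W, T w ∈ W) (k : ℕ) :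
    Even (imDim (T - 1) W (2 * k + 1)) := by
  classical
  let b := finBasis F W
  let T' : Module.End F W := T.restrict hWi
  let K := Q.comp W.subtype
  have hKn := res_nondeg hW
  set A := LinearMap.toMatrixAlgEquiv b T' with hA
  set G := LinearMap.BilinForm.toMatrix b (QuadraticMap.polarBilin K) with hG
  have hcoe : ∀ j : ℕ, ∀ w : W, (((T' - 1) ^ j) w : V) = ((T - 1) ^ j) (w : V) := by
    intro j
    induction j with
    | zero => intro w; rfl
    | succ j ih =>
      intro w
      rw [pow_succ, pow_succ, Module.End.mul_apply, Module.End.mul_apply, ih]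
      rfl
  have hinv : A.transpose * G * A = G := by
    have h := LinearMap.BilinForm.toMatrix_comp b b (QuadraticMap.polarBilin K) T' T'
    rw [hA, hG]
    refine Eq.trans h.symm (congrArg _ (LinearMap.ext fun x => LinearMap.ext fun y => ?_))
    show QuadraticMap.polar K (T' x) (T' y) = QuadraticMap.polar K x y
    have hK : ∀ z, K (T' z) = K z := fun z => hTQ z
    simp only [QuadraticMap.polar, ← map_add, hK]
  have hsym : G.transpose = G := by
    ext i j
    simp [hG, LinearMap.BilinForm.toMatrix_apply, QuadraticMap.polar_comm]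
  have hdet : IsUnit G.det :=
    isUnit_iff_ne_zero.2 ((LinearMap.BilinForm.nondegenerate_iff_det_ne_zero b).1 hKn)
  have hA1 : ∀ j, (A - 1) ^ j = LinearMap.toMatrixAlgEquiv b ((T' - 1) ^ j) := fun j => by
    rw [map_pow, map_sub, map_one]
  have hAnil : IsNilpotent (A - 1) := ⟨p, by
    rw [hA1]
    refine (LinearMap.toMatrixAlgEquiv b).map_eq_zero_iff.2 (LinearMap.ext fun w => Subtype.ext ?_)
    rw [hcoe, hnil]; rfl⟩
  have h := JordanTypeParity.even_rank_orth h2 hdet hinv hsym hAnil k
  rw [hA1, Matrix.rank_eq_finrank_range_toLin _ b b] at h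
  rw [show Matrix.toLin b b (LinearMap.toMatrixAlgEquiv b ((T' - 1) ^ (2 * k + 1))) = (T' - 1) ^ (2 * k + 1) from
    Matrix.toLin_toMatrix b b _] at h
  rwa [imDim, show W.map ((T - 1) ^ (2 * k + 1)) = (LinearMap.range ((T' - 1) ^ (2 * k + 1))).map W.subtype from ?_,
    Submodule.finrank_map_subtype_eq]
  ext v
  simp only [Submodule.mem_map, LinearMap.mem_range]
  constructor
  · rintro ⟨w, hw, rfl⟩
    exact ⟨_, ⟨⟨w, hw⟩, rfl⟩, hcoe _ ⟨w, hw⟩⟩
  · rintro ⟨_, ⟨w, rfl⟩, rfl⟩
    exact ⟨w, w.2, (hcoe _ w).symm⟩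

/-- The partition of an invariant nondegenerate subspace. -/
theorem exists_sub (h2 : (2 : F) ≠ 0) (hB : (BQ).Nondegenerate) {T : Module.End F V} (hTQ : ∀ v, Q (T v) = Q v)
    (hinj : Function.Injective T) {p : ℕ} (hnil : (T - 1) ^ p = 0) {μ : Multiset ℕ}
    (hprof : ∀ k, imDim (T - 1) ⊤ k = prof μ k) {W : Submodule F V} (hW : Nd Q W) (hWi : ∀ w ∈ W, T w ∈ W) :
    ∃ ν : Multiset ℕ, ν ≤ μ ∧ ν.sum = finrank F W ∧ Good ν := by
  classical
  set N := T - 1 with hN
  have hc : IsCompl W (perp BQ W) := nd_isCompl hB hW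
  have hD : W.map N ≤ W := by
    rintro _ ⟨w, hw, rfl⟩
    exact W.sub_mem (hWi w hw) hw
  have hE : (perp BQ W).map N ≤ perp BQ W := by
    rintro _ ⟨w, hw, rfl⟩
    exact (perp BQ W).sub_mem (OrthFree.perp_invariant hTQ hinj hWi w hw) hw
  set ν : Multiset ℕ := ∑ b ∈ Finset.range p, Multiset.replicate (topDim N W b - topDim N W (b + 1)) (b + 1) with hν
  have hcount : ∀ c, ν.count (c + 1) = if c < p then topDim N W c - topDim N W (c + 1) else 0 := fun c => by
    rw [hν, Multiset.count_sum']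
    simp only [Multiset.count_replicate, Nat.add_right_cancel_iff, Finset.sum_ite_eq', Finset.mem_range]
  have hcount0 : ν.count 0 = 0 := by
    rw [hν, Multiset.count_sum']
    simp [Multiset.count_replicate]
  refine ⟨ν, Multiset.le_iff_count.2 fun c => ?_, ?_, fun e he => ?_⟩
  · rcases c with _ | c
    · rw [hcount0]; exact Nat.zero_le _
    rw [hcount]
    split_ifs with hcp
    swap; · exact Nat.zero_le _
    have e1 := topDim_split hD hE hc c
    have e2 := topDim_split hD hE hc (c + 1)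
    have e3 := topDim_anti hE c
    have e4 := prof_count μ c
    have e5 := imDim_succ N ⊤ c
    have e6 := imDim_succ N ⊤ (c + 1)
    rw [hprof, hprof] at e5
    rw [hprof, hprof, show c + 1 + 1 = c + 2 from rfl] at e6
    omega
  · have hsum : ∀ m, (∑ b ∈ Finset.range m, (topDim N W b - topDim N W (b + 1)) * (b + 1)) + m * topDim N W m +
        imDim N W m = imDim N W 0 := by
      intro m
      induction m with
      | zero => simp
      | succ m ih =>
        have h1 := imDim_succ N W m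
        have h2' := topDim_anti hD m
        rw [Finset.sum_range_succ]
        obtain ⟨e, he⟩ : ∃ e, topDim N W m = topDim N W (m + 1) + e := ⟨topDim N W m - topDim N W (m + 1), by omega⟩
        rw [he] at ih h1 ⊢
        rw [Nat.add_sub_cancel_left]
        simp only [mul_add, add_mul, mul_one, one_mul] at ih ⊢
        have hc' : e * m = m * e := mul_comm _ _
        omega
    have hp : imDim N W p = 0 := by rw [imDim, hnil, Submodule.map_zero, finrank_bot]
    have hp' : topDim N W p = 0 := by have := imDim_succ N W p; omega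
    have h0 : imDim N W 0 = finrank F W := by rw [imDim, pow_zero, Module.End.one_eq_id, Submodule.map_id]
    have := hsum p
    rw [hp, hp', mul_zero] at this
    rw [hν, ← Multiset.coe_sumAddMonoidHom, map_sum]
    simp only [Multiset.coe_sumAddMonoidHom, Multiset.sum_replicate, smul_eq_mul]
    omega
  · rcases e with _ | c
    · rw [hcount0]; exact Even.zero
    rw [hcount]
    split_ifs with hcp
    swap; · exact Even.zero
    rw [Nat.even_iff] at he
    obtain ⟨a, ha⟩ : ∃ a, c = 2 * a + 1 := ⟨c / 2, by omega⟩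
    have h1 := imDim_succ N W c
    have h2' := imDim_succ N W (c + 1)
    have h3 := Nat.even_iff.1 (even_imDim h2 hTQ hnil hW hWi a)
    have h4 := Nat.even_iff.1 (even_imDim h2 hTQ hnil hW hWi (a + 1))
    have h5 := topDim_anti hD c
    rw [← hN] at h3 h4
    rw [← ha] at h3
    rw [show 2 * (a + 1) + 1 = c + 1 + 1 by omega] at h4
    rw [Nat.even_iff]
    omega

/-- Quadratic spaces of the same odd dimension are similar. -/
theorem similar_odd {U : Type*} [AddCommGroup U] [Module F U] [FiniteDimensional F U] {Q' : QuadraticForm F U}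
    (hB : (BQ).Nondegenerate) (hB' : (QuadraticMap.polarBilin Q').Nondegenerate) {a : ℕ}
    (hn : finrank F V = 2 * a + 1) (hn' : finrank F U = 2 * a + 1) :
    ∃ (c : F) (e : V ≃ₗ[F] U), c ≠ 0 ∧ ∀ v, Q' (e v) = c * Q v := by
  classical
  obtain ⟨k, d, b, hd, hb⟩ := KnownB.exists_isWitt Q hB
  obtain ⟨k', d', b', hd', hb'⟩ := KnownB.exists_isWitt Q' hB'
  have h1 := finrank_eq_card_basis b
  have h1' := finrank_eq_card_basis b'
  simp only [Fintype.card_sum, Fintype.card_fin] at h1 h1'
  obtain rfl : d = 1 := by omega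
  obtain rfl : d' = 1 := by omega
  obtain rfl : k = k' := by omega
  set γ := Q (b (Sum.inr 0)) with hγ
  set γ' := Q' (b' (Sum.inr 0)) with hγ'
  have hne : γ ≠ 0 := fun h => by
    simpa using congrFun (hb.aniso (fun _ => 1) (by simpa using h)) 0
  have hne' : γ' ≠ 0 := fun h => by
    simpa using congrFun (hb'.aniso (fun _ => 1) (by simpa using h)) 0
  set c := γ' / γ with hc
  have hc0 : c ≠ 0 := div_ne_zero hne' hne
  let u : ((Fin k ⊕ Fin k) ⊕ Fin 1) → Fˣ := fun s =>
    Sum.elim (Sum.elim (fun _ => 1) (fun _ => Units.mk0 c hc0)) (fun _ => 1) s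
  let b'' := b'.unitsSMul u
  let e := b.equiv b'' (Equiv.refl _)
  have he : ∀ s, e (b s) = (u s : F) • b' s := fun s => by
    simp only [e, Basis.equiv_apply, Equiv.refl_apply, b'', Basis.unitsSMul_apply, Units.smul_def]
  refine ⟨c, e, hc0, fun v => ?_⟩
  have key : Q'.comp e.toLinearMap = c • Q := by
    refine quadraticMap_ext_basis _ _ b (fun i => ?_) fun i j hij => ?_
    · rw [QuadraticMap.comp_apply, LinearEquiv.coe_coe, he, QuadraticMap.map_smul, QuadraticMap.smul_apply,
        smul_eq_mul, smul_eq_mul]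
      rcases i with i | i
      · rw [hb'.sing, hb.sing, mul_zero, mul_zero]
      · obtain rfl : i = 0 := Subsingleton.elim _ _
        rw [← hγ, ← hγ', hc, div_mul_cancel₀ _ hne]
        simp [u]
    · have hl : QuadraticMap.polar (⇑(Q'.comp e.toLinearMap)) (b i) (b j) =
          ((u i : F) * (u j : F)) * QuadraticMap.polar Q' (b' i) (b' j) := by
        have : QuadraticMap.polar (⇑(Q'.comp e.toLinearMap)) (b i) (b j) = QuadraticMap.polar Q' (e (b i)) (e (b j)) := by
          simp [QuadraticMap.polar]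
        rw [this, he, he, QuadraticMap.polar_smul_left, QuadraticMap.polar_smul_right, smul_eq_mul, smul_eq_mul]
        ring
      have hr : QuadraticMap.polar (⇑(c • Q)) (b i) (b j) = c * QuadraticMap.polar Q (b i) (b j) := by
        simp [QuadraticMap.polar, mul_sub]
      rw [hl, hr]
      rcases i with (i | i) | i <;> rcases j with (j | j) | j
      · rw [hb'.ee, hb.ee, mul_zero, mul_zero]
      · rw [hb'.ef, hb.ef]; simp [u]
      · rw [hb'.perp, hb.perp, mul_zero, mul_zero]
      · rw [QuadraticMap.polar_comm, hb'.ef, QuadraticMap.polar_comm Q, hb.ef]; simp [u]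
      · rw [hb'.ff, hb.ff, mul_zero, mul_zero]
      · rw [hb'.perp, hb.perp, mul_zero, mul_zero]
      · rw [QuadraticMap.polar_comm, hb'.perp, QuadraticMap.polar_comm Q, hb.perp, mul_zero, mul_zero]
      · rw [QuadraticMap.polar_comm, hb'.perp, QuadraticMap.polar_comm Q, hb.perp, mul_zero, mul_zero]
      · exact absurd (congrArg Sum.inr (Subsingleton.elim i j)) hij
  have := congrArg (fun K => K v) key
  simpa using this

/-- Unipotent isometries with a given partition, odd dimension. -/
theorem exists_odd (h2 : (2 : F) ≠ 0) (hB : (BQ).Nondegenerate) {a : ℕ} (hn : finrank F V = 2 * a + 1)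
    {μ : Multiset ℕ} (hpos : ∀ e ∈ μ, 0 < e) (hμ : Good μ) (hsum : μ.sum = 2 * a + 1) :
    ∃ T : Module.End F V, (∀ v, Q (T v) = Q v) ∧ ∀ k, imDim (T - 1) ⊤ k = prof μ k := by
  classical
  let dd : Fin μ.toList.length → ℕ := μ.toList.get
  have hmap : (Finset.univ : Finset (Fin μ.toList.length)).val.map dd = μ := by
    rw [Fin.univ_val_map, List.ofFn_get, Multiset.coe_toList]
  have hr : ∀ k, JordanTypeParity.r dd k = prof μ k := fun k => by
    conv_rhs => rw [← hmap]
    rw [prof, Multiset.map_map]; rfl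
  have hdd : ∀ k, dd k ∈ μ := fun k => Multiset.mem_toList.1 (List.get_mem _ _)
  obtain ⟨Q₀, hQ₀, e, A, hconj⟩ := (JordanTypeGroups.orth_jordan_types (n := 2 * a + 1) h2 dd (fun k => hpos _ (hdd k))
    (by rw [← JordanTypeGroups.card_idx_of_r_zero, hr, prof_zero, hsum])).2 (fun j hj _ => by
      have h := hμ j hj
      rw [← hmap, Multiset.count_map] at h
      convert h using 1
      simp only [Finset.card_def, Finset.filter_val]
      exact congrArg Multiset.card (Multiset.filter_congr fun k _ => eq_comm))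
  obtain ⟨c, g, hc, hg⟩ := similar_odd hB hQ₀ hn (by rw [Module.finrank_pi, Fintype.card_fin])
  set M := ((A : Matrix.GeneralLinearGroup (Fin (2 * a + 1)) F) : Matrix (Fin (2 * a + 1)) (Fin (2 * a + 1)) F) with hM
  set T₀ : Module.End F (Fin (2 * a + 1) → F) := Matrix.toLin' M with hT₀
  refine ⟨g.symm.toLinearMap ∘ₗ T₀ ∘ₗ g.toLinearMap, fun v => ?_, fun k => ?_⟩
  · refine mul_left_cancel₀ hc ?_
    rw [← hg, ← hg]
    show Q₀ (g (g.symm (T₀ (g v)))) = _
    rw [LinearEquiv.apply_symm_apply, hT₀, Matrix.toLin'_apply]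
    exact A.2 (g v) (g v)
  · set T := g.symm.toLinearMap ∘ₗ T₀ ∘ₗ g.toLinearMap
    have hpow : ∀ (j : ℕ) (v : V), g (((T - 1) ^ j) v) = ((T₀ - 1) ^ j) (g v) := by
      intro j
      induction j with
      | zero => intro v; rfl
      | succ j ih =>
        intro v
        rw [pow_succ, pow_succ, Module.End.mul_apply, Module.End.mul_apply, ih]
        congr 1
        simp [T]
    rw [imDim, ← LinearEquiv.finrank_map_eq g, ← Submodule.map_comp, ← hr,
      ← JordanTypeParity.rank_sub_one_pow e hconj k, Matrix.rank]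
    refine congrArg (fun S : Submodule F (Fin (2 * a + 1) → F) => finrank F S) ?_
    rw [Submodule.map_top]
    have h : ((M - 1) ^ k).mulVecLin = (T₀ - 1) ^ k := by
      rw [hT₀, show (1 : Module.End F (Fin (2 * a + 1) → F)) = Matrix.toLin' 1 from Matrix.toLin'_one.symm, ← map_sub,
        ← Matrix.toLin'_pow]
      rfl
    rw [h]
    ext w
    simp only [LinearMap.mem_range, LinearMap.comp_apply, LinearEquiv.coe_coe, hpow]
    exact ⟨fun ⟨v, hv⟩ => ⟨_, hv⟩, fun ⟨w', hw'⟩ => ⟨g.symm w', by rw [LinearEquiv.apply_symm_apply, hw']⟩⟩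

/-- Nondegenerate subspaces of every odd dimension. -/
theorem exists_nd_odd (h2 : (2 : F) ≠ 0) (hB : (BQ).Nondegenerate) {u : ℕ} (hu : 2 * u + 1 ≤ finrank F V) :
    ∃ X : Submodule F V, Nd Q X ∧ finrank F X = 2 * u + 1 := by
  obtain ⟨U, -, hUn, -, hUd⟩ := exists_hyp (nd_top hB) (u := u) (Or.inl (by rw [finrank_top]; omega))
  obtain ⟨hPn, hPd, -⟩ := nd_split hB hUn (nd_top hB) le_top
  rw [top_inf_eq] at hPn hPd
  rw [finrank_top] at hPd
  obtain ⟨v, hv, hv0⟩ : ∃ v ∈ perp BQ U, Q v ≠ 0 := by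
    by_contra hcon
    push Not at hcon
    have := sing_le hPn le_rfl hcon
    omega
  have hvn : Nd Q (F ∙ v) := fun w hw hz => by
    obtain ⟨c, rfl⟩ := Submodule.mem_span_singleton.1 hw
    have h := hz v (Submodule.mem_span_singleton_self v)
    rw [QuadraticMap.polar_smul_left, QuadraticMap.polar_self, smul_eq_mul, nsmul_eq_mul] at h
    rw [(mul_eq_zero.1 h).resolve_right (mul_ne_zero (by exact_mod_cast h2) hv0), zero_smul]
  have hle : F ∙ v ≤ perp BQ U := (Submodule.span_singleton_le_iff_mem _ _).2 hv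
  refine ⟨U ⊔ (F ∙ v), nd_sup hUn hvn hle, ?_⟩
  rw [finrank_sup hB hUn hle, hUd, finrank_span_singleton fun h => hv0 (by rw [h, map_zero])]

/-- Unipotent isometries with a given partition having an odd part, even dimension. -/
theorem exists_even (h2 : (2 : F) ≠ 0) (hB : (BQ).Nondegenerate) {d : ℕ} (hn : finrank F V = 2 * d)
    {μ : Multiset ℕ} (hpos : ∀ e ∈ μ, 0 < e) (hμ : Good μ) (hsum : μ.sum = 2 * d) (hodd : ∃ e ∈ μ, Odd e) :
    ∃ T : Module.End F V, (∀ v, Q (T v) = Q v) ∧ ∀ k, imDim (T - 1) ⊤ k = prof μ k := by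
  classical
  obtain ⟨e, he, ⟨u, hu⟩⟩ := hodd
  obtain ⟨μ₀, rfl⟩ := Multiset.exists_cons_of_mem he
  rw [Multiset.sum_cons] at hsum
  obtain ⟨X, hXn, hXd⟩ := exists_nd_odd h2 hB (u := u) (by omega)
  obtain ⟨hPn, hPd, -⟩ := nd_split hB hXn (nd_top hB) le_top
  rw [top_inf_eq] at hPn hPd
  rw [finrank_top] at hPd
  obtain ⟨TX, hTX, hpX⟩ := exists_odd (μ := {e}) h2 (res_nondeg hXn) hXd (fun x hx => by
      rw [Multiset.mem_singleton] at hx; omega) (fun j hj => by
      rw [Multiset.count_singleton, if_neg]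
      · exact Even.zero
      · rintro rfl; exact Nat.not_odd_iff_even.2 hj ⟨u, hu⟩) (by rw [Multiset.sum_singleton, hu])
  obtain ⟨TP, hTP, hpP⟩ := exists_odd (μ := μ₀) (a := d - u - 1) h2 (res_nondeg hPn) (by omega)
    (fun x hx => hpos x (Multiset.mem_cons_of_mem hx)) (fun j hj => by
      have := hμ j hj
      rwa [Multiset.count_cons_of_ne] at this
      rintro rfl; exact Nat.not_odd_iff_even.2 hj ⟨u, hu⟩) (by omega)
  have hc : IsCompl X (perp BQ X) := nd_isCompl hB hXn
  let T : Module.End F V := LinearMap.ofIsCompl hc (X.subtype ∘ₗ TX) ((perp BQ X).subtype ∘ₗ TP)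
  have hl : ∀ x : X, T (x : V) = (TX x : V) := fun x => LinearMap.ofIsCompl_left_apply hc x
  have hr : ∀ x : perp BQ X, T (x : V) = (TP x : V) := fun x => LinearMap.ofIsCompl_right_apply hc x
  refine ⟨T, fun v => ?_, fun k => ?_⟩
  · obtain ⟨x, hx, y, hy, rfl⟩ := Submodule.mem_sup.1 (hc.sup_eq_top ▸ Submodule.mem_top : v ∈ X ⊔ perp BQ X)
    rw [map_add, hl ⟨x, hx⟩, hr ⟨y, hy⟩, Q_add_of_perp (Subtype.prop _) (Subtype.prop _), Q_add_of_perp hx hy]
    exact congrArg₂ (· + ·) (hTX ⟨x, hx⟩) (hTP ⟨y, hy⟩)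
  · have part : ∀ (U : Submodule F V) (S : Module.End F U), (∀ x : U, T (x : V) = (S x : V)) →
        U.map (T - 1) ≤ U ∧ imDim (T - 1) U k = imDim (S - 1) ⊤ k := by
      intro U S hS
      have hpow : ∀ j : ℕ, ∀ x : U, ((T - 1) ^ j) (x : V) = (((S - 1) ^ j) x : V) := by
        intro j
        induction j with
        | zero => intro x; rfl
        | succ j ih =>
          intro x
          rw [pow_succ, pow_succ, Module.End.mul_apply, Module.End.mul_apply, ← ih,
            show (T - 1) (x : V) = ((S - 1) x : V) by simp [hS]]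
      refine ⟨by rintro _ ⟨x, hx, rfl⟩; exact U.sub_mem (hS ⟨x, hx⟩ ▸ Subtype.prop _) hx, ?_⟩
      rw [imDim, imDim, ← Submodule.finrank_map_subtype_eq U]
      refine congrArg (fun S : Submodule F V => finrank F S) ?_
      ext v
      simp only [Submodule.mem_map, Submodule.mem_top, true_and]
      exact ⟨fun ⟨x, hx, hv⟩ => ⟨_, ⟨⟨x, hx⟩, rfl⟩, by rw [← hv, hpow k ⟨x, hx⟩]; rfl⟩,
        fun ⟨_, ⟨x, rfl⟩, hv⟩ => ⟨x, x.2, by rw [← hv, hpow k x]; rfl⟩⟩
    obtain ⟨h1, h1'⟩ := part X TX hl
    obtain ⟨h2', h2''⟩ := part _ TP hr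
    rw [imDim_split h1 h2' hc, h1', h2'', hpX, hpP, ← prof_add, Multiset.singleton_add]

/-- The partition condition from the elements with a part greater than one. -/
theorem exists_nu (h2 : (2 : F) ≠ 0) (hB : (BQ).Nondegenerate) {p : ℕ} [Fact p.Prime] [CharP F p] [Nontrivial V]
    {m : ℕ} {P : Submodule F V → Prop} (hP : ∀ W, P W → finrank F W = m ∧ Nd Q W) (hm : Even m)
    (hmn : m ≤ finrank F V)
    (H : ∀ T : Module.End F V, T ^ p = 1 → (∀ v, Q (T v) = Q v) → T ≠ 1 → ∃ W, P W ∧ ∀ w ∈ W, T w ∈ W)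
    {μ : Multiset ℕ} (hμp : ∀ e ∈ μ, 0 < e ∧ e ≤ p) (hμ : Good μ) (hsum : μ.sum = finrank F V) :
    ∃ ν : Multiset ℕ, ν ≤ μ ∧ ν.sum = m ∧ Good ν := by
  classical
  have hp : p.Prime := Fact.out
  have main : ∀ μ : Multiset ℕ, (∀ e ∈ μ, 0 < e ∧ e ≤ p) → Good μ → μ.sum = finrank F V → (∃ e ∈ μ, Odd e) →
      ∃ ν : Multiset ℕ, ν ≤ μ ∧ ν.sum = m ∧ Good ν := by
    intro μ hμp hμ hsum hex
    by_cases hone : prof μ 1 = 0
    · have hrep : μ = Multiset.replicate (Multiset.card μ) 1 := Multiset.eq_replicate_card.2 fun a ha => by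
        have h := Multiset.sum_eq_zero_iff.1 hone (a - 1) (Multiset.mem_map_of_mem (fun a => a - 1) ha)
        have := (hμp a ha).1
        omega
      refine ⟨Multiset.replicate m 1, ?_, by simp, fun a ha => ?_⟩
      · rw [hrep, Multiset.replicate_le_replicate]
        rw [hrep, Multiset.sum_replicate, smul_eq_mul, mul_one] at hsum
        omega
      · rw [Multiset.count_replicate]
        split_ifs
        · exact hm
        · exact Even.zero
    obtain ⟨T, hTQ, hprof⟩ : ∃ T : Module.End F V, (∀ v, Q (T v) = Q v) ∧ ∀ k, imDim (T - 1) ⊤ k = prof μ k := by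
      rcases Nat.even_or_odd' (finrank F V) with ⟨d, hd | hd⟩
      · exact exists_even h2 hB hd (fun e he => (hμp e he).1) hμ (hsum.trans hd) hex
      · exact exists_odd h2 hB hd (fun e he => (hμp e he).1) hμ (hsum.trans hd)
    haveI : CharP (Module.End F V) p :=
      charP_of_injective_algebraMap (FaithfulSMul.algebraMap_injective F _) p
    have hnil : (T - 1) ^ p = 0 := LinearMap.range_eq_bot.1 (Submodule.finrank_eq_zero.1 (by
      rw [LinearMap.range_eq_map]
      show imDim (T - 1) ⊤ p = 0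
      rw [hprof]
      refine Multiset.sum_eq_zero_iff.2 fun b hb => ?_
      obtain ⟨a, ha, rfl⟩ := Multiset.mem_map.1 hb
      have := (hμp a ha).2
      omega))
    have hTp : T ^ p = 1 := by
      have h := sub_pow_char_of_commute p (Commute.one_right T)
      rw [hnil, one_pow] at h
      exact sub_eq_zero.1 h.symm
    have hinj : Function.Injective T := fun u v h => by
      have h' := congrArg (T ^ (p - 1)) h
      rwa [← Module.End.mul_apply, ← Module.End.mul_apply, ← pow_succ, Nat.sub_add_cancel hp.one_lt.le, hTp,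
        Module.End.one_apply, Module.End.one_apply] at h'
    obtain ⟨W, hPW, hWi⟩ := H T hTp hTQ fun h1 => hone (by
      rw [← hprof, imDim, h1, sub_self, pow_one, Submodule.map_zero, finrank_bot])
    obtain ⟨hWd, hWn⟩ := hP W hPW
    obtain ⟨ν, h1, h3, h4⟩ := exists_sub h2 hB hTQ hinj hnil hprof hWn hWi
    exact ⟨ν, h1, h3.trans hWd, h4⟩
  by_cases hex : ∃ e ∈ μ, Odd e
  · exact main μ hμp hμ hsum hex
  push Not at hex
  simp only [Nat.not_odd_iff_even] at hex
  by_cases hμ0 : μ = 0
  · refine ⟨0, Multiset.zero_le _, ?_, fun e _ => by simp⟩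
    rw [hμ0, Multiset.sum_zero] at hsum
    rw [Multiset.sum_zero]; omega
  obtain ⟨a, ha⟩ := Multiset.exists_mem_of_ne_zero hμ0
  have hp2 : p ≠ 2 := fun h => h2 (by subst h; exact_mod_cast CharP.cast_eq_zero F 2)
  have hae := Nat.even_iff.1 (hex a ha)
  have hpe := Nat.odd_iff.1 (hp.odd_of_ne_two hp2)
  have ha1 := hμp a ha
  have hc := Nat.even_iff.1 (hμ a (hex a ha))
  have hc0 := Multiset.count_pos.2 ha
  obtain ⟨μ₁, rfl⟩ := Multiset.exists_cons_of_mem ha
  have ha' : a ∈ μ₁ := Multiset.count_pos.1 (by rw [Multiset.count_cons_self] at hc; omega)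
  obtain ⟨μ₀, rfl⟩ := Multiset.exists_cons_of_mem ha'
  have hgood0 : ∀ j, Even j → Even (μ₀.count j) := fun j hj => by
    have h := hμ j hj
    rw [Nat.even_iff] at h ⊢
    rw [Multiset.count_cons, Multiset.count_cons] at h
    split_ifs at h <;> omega
  obtain ⟨ν, hν, hνs, hνg⟩ := main ((a + 1) ::ₘ (a - 1) ::ₘ μ₀) (fun e he => by
      rcases Multiset.mem_cons.1 he with rfl | he
      · omega
      rcases Multiset.mem_cons.1 he with rfl | he
      · omega
      · exact hμp e (Multiset.mem_cons_of_mem (Multiset.mem_cons_of_mem he)))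
    (fun j hj => by
      have hj' := Nat.even_iff.1 hj
      rw [Multiset.count_cons_of_ne (by omega), Multiset.count_cons_of_ne (by omega)]
      exact hgood0 j hj)
    (by rw [← hsum]; simp only [Multiset.sum_cons]; omega)
    ⟨a + 1, Multiset.mem_cons_self _ _, Nat.odd_iff.2 (by omega)⟩
  have hev : ∀ ν' : Multiset ℕ, ν' ≤ μ₀ → ν'.sum % 2 = 0 := fun ν' h =>
    Nat.mod_eq_zero_of_dvd (Multiset.dvd_sum fun x hx => even_iff_two_dvd.1
      (hex x (Multiset.mem_cons_of_mem (Multiset.mem_cons_of_mem (Multiset.mem_of_le h hx)))))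
  have hm' := Nat.even_iff.1 hm
  by_cases hx : a + 1 ∈ ν
  · obtain ⟨ν₁, rfl⟩ := Multiset.exists_cons_of_mem hx
    have h1 := (Multiset.cons_le_cons_iff _).1 hν
    rw [Multiset.sum_cons] at hνs
    by_cases hy : a - 1 ∈ ν₁
    · obtain ⟨ν₂, rfl⟩ := Multiset.exists_cons_of_mem hy
      refine ⟨a ::ₘ a ::ₘ ν₂, Multiset.cons_le_cons a (Multiset.cons_le_cons a ((Multiset.cons_le_cons_iff _).1 h1)),
        ?_, fun j hj => ?_⟩
      · rw [Multiset.sum_cons] at hνs
        simp only [Multiset.sum_cons]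
        omega
      · have hj' := Nat.even_iff.1 hj
        have h := hνg j hj
        rw [Multiset.count_cons_of_ne (by omega), Multiset.count_cons_of_ne (by omega)] at h
        rw [Nat.even_iff] at h ⊢
        rw [Multiset.count_cons, Multiset.count_cons]
        split_ifs <;> omega
    · have := hev ν₁ ((Multiset.le_cons_of_notMem hy).1 h1)
      omega
  · have h1 := (Multiset.le_cons_of_notMem hx).1 hν
    by_cases hy : a - 1 ∈ ν
    · obtain ⟨ν₂, rfl⟩ := Multiset.exists_cons_of_mem hy
      have := hev ν₂ ((Multiset.cons_le_cons_iff _).1 h1)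
      rw [Multiset.sum_cons] at hνs
      omega
    · exact ⟨ν, ((Multiset.le_cons_of_notMem hy).1 h1).trans ((Multiset.le_cons_self _ _).trans (Multiset.le_cons_self _ _)),
        hνs, hνg⟩

/-- A sum of twos with even multiplicity. -/
theorem twos {k : ℕ} {ν : Multiset ℕ} (h : ν ≤ Multiset.replicate k 2) (hg : Good ν) : ν.sum % 4 = 0 := by
  obtain ⟨j, -, rfl⟩ := Multiset.le_replicate_iff.1 h
  have := hg 2 even_two
  rw [Multiset.count_replicate_self, Nat.even_iff] at this
  rw [Multiset.sum_replicate, smul_eq_mul]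
  omega

/-- Two small partitions. -/
theorem one_odd {x k m : ℕ} (hx : Odd x) (hm : Even m) {ν : Multiset ℕ}
    (h : ν ≤ x ::ₘ Multiset.replicate k 2) (hs : ν.sum = m) (hg : Good ν) : m % 4 = 0 := by
  rw [Nat.even_iff] at hm
  by_cases hxν : x ∈ ν
  · obtain ⟨ν₁, rfl⟩ := Multiset.exists_cons_of_mem hxν
    obtain ⟨j, -, rfl⟩ := Multiset.le_replicate_iff.1 ((Multiset.cons_le_cons_iff _).1 h)
    rw [Multiset.sum_cons, Multiset.sum_replicate, smul_eq_mul] at hs
    rw [Nat.odd_iff] at hx
    omega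
  · exact hs ▸ twos ((Multiset.le_cons_of_notMem hxν).1 h) hg

theorem three_one {k m : ℕ} (hm : Even m) {ν : Multiset ℕ}
    (h : ν ≤ 3 ::ₘ 1 ::ₘ Multiset.replicate k 2) (hs : ν.sum = m) (hg : Good ν) : m % 4 = 0 := by
  by_cases hxν : 3 ∈ ν
  · obtain ⟨ν₁, rfl⟩ := Multiset.exists_cons_of_mem hxν
    rw [Multiset.sum_cons] at hs
    have h1 := (Multiset.cons_le_cons_iff _).1 h
    rw [Nat.even_iff] at hm
    by_cases hy : 1 ∈ ν₁
    · obtain ⟨ν₂, rfl⟩ := Multiset.exists_cons_of_mem hy
      rw [Multiset.sum_cons] at hs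
      have := twos ((Multiset.cons_le_cons_iff _).1 h1) (fun e he => by
        have hh := hg e he
        have := Nat.even_iff.1 he
        rwa [Multiset.count_cons_of_ne (by omega), Multiset.count_cons_of_ne (by omega)] at hh)
      omega
    · obtain ⟨j, -, rfl⟩ := Multiset.le_replicate_iff.1 ((Multiset.le_cons_of_notMem hy).1 h1)
      rw [Multiset.sum_replicate, smul_eq_mul] at hs
      omega
  · exact one_odd odd_one hm ((Multiset.le_cons_of_notMem hxν).1 h) hs hg

theorem good_small {k : ℕ} (hk : Even k) {l : Multiset ℕ} (hl : ∀ x ∈ l, Odd x) :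
    Good (l + Multiset.replicate k 2) := fun e he => by
  rw [Multiset.count_add, Multiset.count_eq_zero.2 fun h => Nat.not_odd_iff_even.2 he (hl e h), zero_add,
    Multiset.count_replicate]
  split_ifs
  · exact hk
  · exact Even.zero

end Cfsg.Agent.Linear.UnipPartition
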