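import Cfsg.Agent.Linear.QuadStrElem
import Cfsg.Agent.Linear.UnipPartition
import Cfsg.Agent.Linear.NdOddR

/-!
# Elements of prime order and quadratic extension subgroups of orthogonal groups
-/

set_option autoImplicit false
set_option linter.unusedSectionVars false

namespace Cfsg.Agent.Linear.QuadStrBridge

open Module Matrix Cfsg.Agent.Forms Cfsg.Agent.Linear.OrthSpaces Cfsg.Agent.Linear.QuadStr
  Cfsg.Agent.Linear.QuadStrElem

variable {F : Type*} [Field F] [Fintype F] {ι : Type} [Fintype ι] [DecidableEq ι]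

local notation "Mx" => Matrix ι ι F

theorem exists_gen [Nonempty ι] (h2 : (2 : F) ≠ 0) (Q : QuadraticForm F (ι → F)) {K : Subalgebra F Mx}
    (hK : Cfsg.Geo.IsFieldSubalgebra 2 K) (hKf : Cfsg.Geo.IsSelfAdjointFor (QuadraticMap.polar ⇑Q) K) :
    ∃ (j : Mx) (δ : F), j ∈ K ∧ ¬ IsSquare δ ∧ Str Q δ (Matrix.toLin' j) ∧
      ∀ z ∈ K, ∃ a b : F, z = a • (1 : Mx) + b • j := by
  classical
  obtain ⟨k, hk, hkn⟩ : ∃ k ∈ K, k ∉ (⊥ : Subalgebra F Mx) := by
    refine SetLike.not_le_iff_exists.mp fun hle => ?_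
    have := hK.finrank_eq
    rw [le_bot_iff.mp hle, Subalgebra.finrank_bot] at this
    omega
  have hli : LinearIndependent F ![(1 : Mx), k] := by
    refine LinearIndependent.pair_iff.mpr fun s t h => ?_
    by_cases ht : t = 0
    · refine ⟨?_, ht⟩
      rw [ht, zero_smul, add_zero] at h
      exact (smul_eq_zero.mp h).resolve_right one_ne_zero
    · refine absurd ?_ hkn
      rw [Algebra.mem_bot]
      refine ⟨-(t⁻¹ * s), ?_⟩
      rw [Algebra.algebraMap_eq_smul_one, neg_smul, mul_smul, ← smul_neg, neg_eq_of_add_eq_zero_right h,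
        inv_smul_smul₀ ht]
  have hspan : ∀ x ∈ K, ∃ a b : F, x = a • (1 : Mx) + b • k := by
    intro x hx
    have hle : Submodule.span F (Set.range ![(1 : Mx), k]) ≤ Subalgebra.toSubmodule K := by
      rw [Submodule.span_le]
      rintro _ ⟨i, rfl⟩
      fin_cases i
      · exact K.one_mem
      · exact hk
    have heq := Submodule.eq_of_le_of_finrank_eq hle (by
      rw [finrank_span_eq_card hli, Fintype.card_fin]
      exact hK.finrank_eq.symm)
    have hx' : x ∈ Submodule.span F (Set.range ![(1 : Mx), k]) := heq ▸ hx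
    obtain ⟨c, hc⟩ := (Submodule.mem_span_range_iff_exists_fun F).mp hx'
    exact ⟨c 0, c 1, by rw [← hc, Fin.sum_univ_two]; rfl⟩
  obtain ⟨a, b, hab⟩ := hspan (k * k) (K.mul_mem hk hk)
  set j : Mx := (2 : F) • k - b • (1 : Mx) with hj
  set δ : F := 4 * a + b * b with hδ
  have hjK : j ∈ K := K.sub_mem (K.smul_mem hk 2) (K.smul_mem K.one_mem b)
  have hjj : j * j = δ • (1 : Mx) := by
    simp only [hj, hδ, mul_sub, sub_mul, smul_mul_assoc, mul_smul_comm, one_mul, mul_one, hab]
    module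
  have hjn : ∀ c : F, j ≠ c • (1 : Mx) := by
    intro c hc
    have := LinearIndependent.pair_iff.mp hli (-(b + c)) 2 (by
      rw [hj] at hc
      linear_combination (norm := module) hc)
    exact h2 this.2
  refine ⟨j, δ, hjK, ?_, ⟨fun v => ?_, fun u v => ?_⟩, fun z hz => ?_⟩
  · rintro ⟨c, hc⟩
    obtain ⟨y, hy, hy1⟩ := hK.inv (j - c • (1 : Mx)) (K.sub_mem hjK (K.smul_mem K.one_mem c))
      (sub_ne_zero.mpr (hjn c))
    have h0 : (j + c • (1 : Mx)) * (j - c • (1 : Mx)) = 0 := by
      simp only [add_mul, mul_sub, smul_mul_assoc, mul_smul_comm, one_mul, mul_one, hjj, hc]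
      module
    have h1 := congrArg (· * y) h0
    simp only [mul_assoc, hy1, mul_one, zero_mul] at h1
    exact hjn (-c) (by rw [neg_smul]; exact eq_neg_of_add_eq_zero_left h1)
  · simp [Matrix.mulVec_mulVec, hjj, Matrix.smul_mulVec]
  · simpa using hKf j hjK u v
  · obtain ⟨s, t, rfl⟩ := hspan z hz
    refine ⟨s + t * ((2 : F)⁻¹ * b), t * (2 : F)⁻¹, ?_⟩
    rw [hj, smul_sub, smul_smul, smul_smul, mul_assoc t, inv_mul_cancel₀ h2, mul_one]
    module

variable {K : Subalgebra F (Matrix ι ι F)} {j : Matrix ι ι F} {δ : F}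

theorem mem_normalizer (hj : j ∈ K) (hspan : ∀ k ∈ K, ∃ a b : F, k = a • (1 : Mx) + b • j) {g : GL ι F} {β : F}
    (hβ : β * β = 1) (hg : (g : Mx) * j = β • (j * (g : Mx))) : g ∈ Cfsg.Geo.subalgebraNormalizer K := by
  have hconj : ∀ a b : F, (g : Mx) * (a • (1 : Mx) + b • j) * ((g⁻¹ : GL ι F) : Mx) = a • (1 : Mx) + (b * β) • j := by
    intro a b
    rw [mul_add, add_mul, mul_smul_comm, mul_smul_comm, mul_one, hg, smul_mul_assoc, smul_mul_assoc, smul_mul_assoc,
      ← Units.val_mul, mul_inv_cancel, Units.val_one, mul_assoc, ← Units.val_mul, mul_inv_cancel, Units.val_one,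
      mul_one, smul_smul]
  intro k
  constructor
  · intro hk
    obtain ⟨a, b, rfl⟩ := hspan k hk
    rw [hconj]
    exact K.add_mem (K.smul_mem K.one_mem a) (K.smul_mem hj _)
  · intro hk
    obtain ⟨a, b, hab⟩ := hspan _ hk
    have h1 : (g : Mx) * (a • (1 : Mx) + (b * β) • j) * ((g⁻¹ : GL ι F) : Mx) =
        (g : Mx) * k * ((g⁻¹ : GL ι F) : Mx) := by
      rw [hconj, hab, mul_assoc b, hβ, mul_one]
    have h3 := congrArg (fun M => ((g⁻¹ : GL ι F) : Mx) * M * (g : Mx)) h1
    simp only [← mul_assoc, ← Units.val_mul, inv_mul_cancel, Units.val_one, one_mul] at h3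
    simp only [mul_assoc, ← Units.val_mul, inv_mul_cancel, Units.val_one, mul_one] at h3
    rw [← h3]
    exact K.add_mem (K.smul_mem K.one_mem a) (K.smul_mem hj _)

theorem commute_of_mem [Nonempty ι] (h2 : (2 : F) ≠ 0) (hns : ¬ IsSquare δ) (hjj : j * j = δ • (1 : Mx)) (hj : j ∈ K)
    (hspan : ∀ k ∈ K, ∃ a b : F, k = a • (1 : Mx) + b • j) {g : GL ι F} (hg : g ∈ Cfsg.Geo.subalgebraNormalizer K)
    {r : ℕ} (hr : Odd r) (hgr : g ^ r = 1) : (g : Mx) * j = j * (g : Mx) := by
  obtain ⟨a, b, hab⟩ := hspan _ ((hg j).mp hj)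
  have hgj : (g : Mx) * j = (a • (1 : Mx) + b • j) * (g : Mx) := by
    rw [← hab, mul_assoc, ← Units.val_mul, inv_mul_cancel, Units.val_one, mul_one]
  have hδ0 : δ ≠ 0 := delta_ne_zero hns
  have hindep : ∀ s t : F, s • (1 : Mx) + t • j = 0 → s = 0 ∧ t = 0 := fun s t h => by
    by_cases ht : t = 0
    · rw [ht, zero_smul, add_zero] at h
      exact ⟨(smul_eq_zero.1 h).resolve_right one_ne_zero, ht⟩
    · exfalso
      have hjs : j = (-(t⁻¹ * s)) • (1 : Mx) := by
        rw [neg_smul, mul_smul, ← smul_neg, neg_eq_of_add_eq_zero_right h, inv_smul_smul₀ ht]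
      rw [hjs] at hjj
      simp only [smul_mul_assoc, one_mul, smul_smul] at hjj
      exact hns ⟨_, (smul_left_injective F (one_ne_zero (α := Mx)) hjj).symm⟩
  have hone : ∀ s t : F, (s • (1 : Mx) + t • j) * (g : Mx) = 0 → s = 0 ∧ t = 0 := fun s t h => hindep s t (by
    have h' := congrArg (· * ((g⁻¹ : GL ι F) : Mx)) h
    simpa only [mul_assoc, ← Units.val_mul, mul_inv_cancel, Units.val_one, mul_one, zero_mul] using h')
  have hb : a = 0 ∧ b * b = 1 := by
    have h : (g : Mx) * (j * j) = (a • (1 : Mx) + b • j) * ((a • (1 : Mx) + b • j) * (g : Mx)) := by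
      rw [← mul_assoc, hgj, mul_assoc, hgj]
    have h' : ((a * a + b * b * δ - δ) • (1 : Mx) + (2 * a * b) • j) * (g : Mx) = 0 := by
      simp only [hjj, mul_smul_comm, mul_one, ← mul_assoc, add_mul, mul_add, smul_mul_assoc, one_mul] at h
      simp only [add_mul, smul_mul_assoc, one_mul]
      linear_combination (norm := module) -(1 : F) • h
    obtain ⟨e1, e2⟩ := hone _ _ h'
    have hb0 : b ≠ 0 := fun hb0 => hns ⟨a, by rw [hb0] at e1; linear_combination -e1⟩
    have ha : a = 0 := by simpa [h2, hb0] using e2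
    exact ⟨ha, mul_right_cancel₀ hδ0 (by rw [ha] at e1; linear_combination e1)⟩
  rw [hb.1, zero_smul, zero_add, smul_mul_assoc] at hgj
  have hpow : ∀ k : ℕ, ((g ^ k : GL ι F) : Mx) * j = b ^ k • (j * ((g ^ k : GL ι F) : Mx)) := by
    intro k
    induction k with
    | zero => simp
    | succ k ih =>
      rw [pow_succ', Units.val_mul, mul_assoc, ih, mul_smul_comm, ← mul_assoc, hgj, smul_mul_assoc, smul_smul, pow_succ,
        mul_assoc]
  have h := hpow r
  obtain ⟨k, rfl⟩ := hr
  rw [hgr, Units.val_one, pow_succ, pow_mul, pow_two, hb.2, one_pow, one_mul, one_mul, mul_one] at h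
  have hb1 : b = 1 := by
    have := (hindep 0 (1 - b) (by rw [zero_smul, zero_add, sub_smul, one_smul, sub_eq_zero]; exact h)).2
    linear_combination -this
  rw [hgj, hb1, one_smul]

section Main

variable {Q : QuadraticForm F (ι → F)}

theorem toGL_mem (h2 : (2 : F) ≠ 0) {g : orthGroup Q} (hg : g ∈ commutator (orthGroup Q)) :
    GeomClasses.orthToGL Q g ∈ Cfsg.Geo.omegaGL ⇑Q := by
  rw [GeomClasses.omegaGL_eq_map]; exact Subgroup.mem_map_of_mem _ hg

/-- The criterion. -/
theorem elusive_iff {p : ℕ} [Fact p.Prime] [CharP F p] {q : ℕ} (hq : Fintype.card F = q) (hodd : Odd q)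
    (hQ : (QuadraticMap.polarBilin Q).Nondegenerate) {d : ℕ} (hn : Fintype.card ι = 2 * d) (hd : 4 ≤ d)
    (hK : Cfsg.Geo.IsFieldSubalgebra 2 K) (hKf : Cfsg.Geo.IsSelfAdjointFor (QuadraticMap.polar ⇑Q) K)
    (r : ℕ) [Fact r.Prime]
    (hΩ : r ∣ (Cfsg.Geo.subalgebraNormalizer K).relIndex (Cfsg.Geo.omegaGL ⇑Q)) :
    (∀ x ∈ Cfsg.Geo.omegaGL ⇑Q, (∃ z : F, ((x ^ r : GL ι F) : Mx) = z • (1 : Mx)) →
      (∀ z : F, (x : Mx) ≠ z • (1 : Mx)) →
      ∃ g ∈ Cfsg.Geo.omegaGL ⇑Q, g⁻¹ * x * g ∈ Cfsg.Geo.subalgebraNormalizer K) ↔ r = 2 := by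
  classical
  have hr : r.Prime := Fact.out
  have hp : p.Prime := Fact.out
  have h2 := two_ne_zero_of_odd hq hodd
  haveI : Nonempty ι := Fintype.card_pos_iff.1 (by omega)
  have hV : finrank F (ι → F) = 2 * d := by rw [Module.finrank_pi, hn]
  haveI : Nontrivial (ι → F) := Module.nontrivial_of_finrank_pos (R := F) (by omega)
  obtain ⟨j, δ, hjK, hns, hJ₀, hspan⟩ := exists_gen h2 Q hK hKf
  set J₀ := Matrix.toLin' j with hJ₀def
  have hjj : j * j = δ • (1 : Mx) := Matrix.toLin'.injective (LinearMap.ext fun v => by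
    have := hJ₀.sq v
    simpa [hJ₀def, ← Matrix.mulVec_mulVec, Matrix.smul_mulVec] using this)
  constructor
  · intro H
    by_contra hr2
    have hro := hr.odd_of_ne_two hr2
    have key : ∀ T : Module.End F (ι → F), T ^ r = 1 → (∀ v, Q (T v) = Q v) → T ≠ 1 →
        ∃ J, Str Q δ J ∧ ∀ v, T (J v) = J (T v) := by
      intro T hT hTQ hT1
      obtain ⟨x, hx, hxT, hxr⟩ := OmegaElem.exists_of_odd hQ (by omega) hro hT hTQ
      obtain ⟨g, hg, hgx⟩ := H x hx ⟨1, by rw [hxr, Units.val_one, one_smul]⟩ fun z hz => by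
        obtain ⟨v, hv⟩ := NdEvenCases.exists_aniso hQ hV (by omega)
        have hTz : T = z • 1 := by rw [← hxT, hz, map_smul, Matrix.toLin'_one]; rfl
        have hz2 : z * z = 1 := by
          have h := hTQ v
          rw [hTz, LinearMap.smul_apply, Module.End.one_apply, QuadraticMap.map_smul, smul_eq_mul] at h
          exact mul_right_cancel₀ hv (by rw [h, one_mul])
        obtain ⟨k, hk⟩ := hro
        rw [hTz, _root_.smul_pow, one_pow, hk, pow_succ, pow_mul, pow_two, hz2, one_pow, one_mul] at hT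
        exact hT1 (hTz.trans hT)
      have hyr : (g⁻¹ * x * g) ^ r = 1 := by
        have := conj_pow (i := r) (a := g⁻¹) (b := x)
        rwa [inv_inv, hxr, mul_one, inv_mul_cancel] at this
      have hc := commute_of_mem h2 hns hjj hjK hspan hgx hro hyr
      have hM : (x : Mx) * ((g : Mx) * j * ((g⁻¹ : GL ι F) : Mx)) = (g : Mx) * j * ((g⁻¹ : GL ι F) : Mx) * (x : Mx) := by
        have e1 : (x : Mx) * (g : Mx) = (g : Mx) * ((g⁻¹ * x * g : GL ι F) : Mx) := by
          rw [← Units.val_mul, ← Units.val_mul]; congr 1; group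
        have e2 : ((g⁻¹ : GL ι F) : Mx) * (x : Mx) = ((g⁻¹ * x * g : GL ι F) : Mx) * ((g⁻¹ : GL ι F) : Mx) := by
          rw [← Units.val_mul, ← Units.val_mul]; congr 1; group
        rw [← mul_assoc, ← mul_assoc, e1, mul_assoc ((g : Mx) * j), e2, mul_assoc (g : Mx), hc]
        noncomm_ring
      let E := Cfsg.Agent.Forms.glEquiv ι F g
      have hEQ : ∀ v, Q (E v) = Q v := fun v => by
        simp only [E, Cfsg.Agent.Forms.glEquiv_apply]
        exact GeomClasses.omegaGL_preserves Q hg v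
      refine ⟨_, hJ₀.conj hEQ, fun v => ?_⟩
      have hEs : ∀ w, E.symm w = ((g⁻¹ : GL ι F) : Mx) *ᵥ w := fun w => (LinearEquiv.symm_apply_eq _).2 (by
        simp only [E]
        rw [Cfsg.Agent.Forms.glEquiv_apply, Matrix.mulVec_mulVec, ← Units.val_mul, mul_inv_cancel, Units.val_one,
          Matrix.one_mulVec])
      have hJv : ∀ w, (E.toLinearMap ∘ₗ J₀ ∘ₗ E.symm.toLinearMap) w =
          ((g : Mx) * j * ((g⁻¹ : GL ι F) : Mx)) *ᵥ w := fun w => by
        simp only [LinearMap.comp_apply, LinearEquiv.coe_coe, hEs]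
        simp only [E, hJ₀def, Cfsg.Agent.Forms.glEquiv_apply, Matrix.toLin'_apply, Matrix.mulVec_mulVec, mul_assoc]
      rw [hJv, hJv, ← hxT, Matrix.toLin'_apply, Matrix.toLin'_apply, Matrix.mulVec_mulVec, Matrix.mulVec_mulVec, hM]
    rcases eq_or_ne r p with rfl | hrp
    · -- a block of size three
      have hp3 : 3 ≤ r := lt_of_le_of_ne hr.two_le (Ne.symm hr2)
      set μ : Multiset ℕ := {3} + Multiset.replicate (2 * d - 3) 1 with hμ
      have hgood : UnipPartition.Good μ := fun e he => by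
        rw [Nat.even_iff] at he
        rw [hμ, Multiset.count_add, Multiset.count_singleton, Multiset.count_replicate, if_neg (by omega),
          if_neg (by omega)]
        exact Even.zero
      obtain ⟨T, hTQ, hprof⟩ := UnipPartition.exists_even h2 hQ hV (μ := μ) (fun e he => by
          rcases Multiset.mem_add.1 he with h | h
          · rw [Multiset.mem_singleton.1 h]; omega
          · rw [Multiset.eq_of_mem_replicate h]; omega)
        hgood (by rw [hμ, Multiset.sum_add, Multiset.sum_singleton, Multiset.sum_replicate, smul_eq_mul]; omega)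
        ⟨3, Multiset.mem_add.2 (Or.inl (Multiset.mem_singleton_self 3)), ⟨1, rfl⟩⟩
      have hpr : ∀ k, GeomClasses.SympUnipotent.prof μ k = (3 - k) + (2 * d - 3) * (1 - k) := fun k => by
        rw [hμ, GeomClasses.SympUnipotent.prof_add, GeomClasses.SympUnipotent.prof_replicate]
        simp [GeomClasses.SympUnipotent.prof]
      haveI : CharP (Module.End F (ι → F)) r :=
        charP_of_injective_algebraMap (FaithfulSMul.algebraMap_injective F _) r
      have hnil : (T - 1) ^ r = 0 := LinearMap.range_eq_bot.1 (Submodule.finrank_eq_zero.1 (by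
        rw [LinearMap.range_eq_map]
        show GeomClasses.JordanType.imDim (T - 1) ⊤ r = 0
        rw [hprof, hpr, show 3 - r = 0 by omega, show 1 - r = 0 by omega, mul_zero, add_zero]))
      have hTr : T ^ r = 1 := by
        have h := sub_pow_char_of_commute r (Commute.one_right T)
        rw [hnil, one_pow] at h
        exact sub_eq_zero.1 h.symm
      have hd2 : finrank F ((⊤ : Submodule F (ι → F)).map ((T - 1) ^ 2)) = 1 := by
        show GeomClasses.JordanType.imDim (T - 1) ⊤ 2 = 1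
        rw [hprof, hpr]
        norm_num
      obtain ⟨J, hJ, hJT⟩ := key T hTr hTQ fun e => by
        rw [e, sub_self, pow_two, mul_zero, Submodule.map_zero, finrank_bot] at hd2
        exact zero_ne_one hd2
      obtain ⟨u, hu, hspanu⟩ := finrank_eq_one_iff'.1 hd2
      obtain ⟨w, -, hw⟩ := Submodule.mem_map.1 u.2
      have hu0 : (((T - 1) ^ (2 : ℕ) : Module.End F (ι → F))) w ≠ 0 := fun e => hu (Subtype.ext (hw.symm.trans e))
      have hcm : Commute J (T - 1) := (Commute.sub_right (LinearMap.ext fun v => (hJT v).symm) (Commute.one_right J))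
      obtain ⟨c, hc⟩ := hspanu ⟨((T - 1) ^ (2 : ℕ) : Module.End F (ι → F)) (J w), Submodule.mem_map_of_mem Submodule.mem_top⟩
      have hc' : J (((T - 1) ^ (2 : ℕ) : Module.End F (ι → F)) w) = c • ((T - 1) ^ (2 : ℕ) : Module.End F (ι → F)) w := by
        rw [← Module.End.mul_apply, (hcm.pow_right 2).eq, Module.End.mul_apply]
        exact (congrArg Subtype.val hc).symm.trans (by rw [Submodule.coe_smul, hw])
      have h1 := hJ.sq (((T - 1) ^ (2 : ℕ) : Module.End F (ι → F)) w)
      rw [hc', map_smul, hc', smul_smul] at h1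
      exact hns ⟨c, (smul_left_injective F hu0 h1).symm⟩
    · set i := orderOf (q : ZMod r) with hi
      obtain ⟨S, hS, ht⟩ := OrthFree.exists_ctx (p := p) hq hr hr2 hrp hi
      rw [← hS.hScard] at ht
      have hi0 := hS.hi0
      by_cases h4 : 4 ∣ i
      · -- a Sylow subgroup lies in a conjugate
        obtain ⟨P⟩ : Nonempty (Sylow r (Cfsg.Geo.omegaGL ⇑Q)) := inferInstance
        let ρ : P →* Module.End F (ι → F) :=
          (Matrix.toLinAlgEquiv' (R := F) (n := ι) : Mx ≃ₐ[F] Module.End F (ι → F)).toAlgHom.toRingHom.toMonoidHom.comp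
            ((Units.coeHom Mx).comp ((Cfsg.Geo.omegaGL ⇑Q).subtype.comp (P : Subgroup (Cfsg.Geo.omegaGL ⇑Q)).subtype))
        have hρ : ∀ (x : P) v, ρ x v = ((x.1.1 : GL ι F) : Mx) *ᵥ v := fun x v => rfl
        obtain ⟨J, hJ, hJc⟩ := exists_centralised hS h2 h4 hns P.2 _ ρ hQ hV (even_two_mul d)
          (fun x v => by rw [hρ]; exact GeomClasses.omegaGL_preserves Q x.1.2 v)
        obtain ⟨g₀, hgQ, hgJ⟩ := exists_conj h2 hns d hQ hV hJ₀ hJ
        let g₁ : orthGroup Q := ⟨g₀, fun u v => by simp [QuadraticMap.polar, ← map_add, hgQ], hgQ⟩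
        set G := GeomClasses.orthToGL Q g₁ with hG
        have hGv : ∀ v, (G : Mx) *ᵥ v = g₀ v := fun v => GeomClasses.orthToGL_mulVec Q g₁ v
        set H := Cfsg.Geo.subalgebraNormalizer K ⊓ Cfsg.Geo.omegaGL ⇑Q with hH
        set P' := ((P : Subgroup (Cfsg.Geo.omegaGL ⇑Q)).map (Cfsg.Geo.omegaGL ⇑Q).subtype).map
          (MulAut.conj G⁻¹).toMonoidHom with hP'
        have hP'le : P' ≤ H := by
          rintro _ ⟨_, ⟨x, hxP, rfl⟩, rfl⟩
          simp only [MulEquiv.coe_toMonoidHom, MulAut.conj_apply, inv_inv, Subgroup.coe_subtype]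
          refine ⟨mem_normalizer hjK hspan (β := 1) (one_mul 1) ?_, ?_⟩
          · rw [one_smul]
            refine Cfsg.Agent.Forms.matrix_ext_mulVec fun v => ?_
            have hx : ∀ w, (x.1 : Mx) *ᵥ (J w) = J ((x.1 : Mx) *ᵥ w) := fun w => by
              have := hJc ⟨x, hxP⟩ w
              rwa [hρ, hρ] at this
            have hGj : ∀ w, (G : Mx) *ᵥ (j *ᵥ w) = J ((G : Mx) *ᵥ w) := fun w => by
              rw [hGv, hGv, ← hgJ, hJ₀def, Matrix.toLin'_apply]
            have hinv : ∀ w, (G : Mx) *ᵥ (((G⁻¹ : GL ι F) : Mx) *ᵥ w) = w := fun w => by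
              rw [Matrix.mulVec_mulVec, ← Units.val_mul, mul_inv_cancel, Units.val_one, Matrix.one_mulVec]
            simp only [← Matrix.mulVec_mulVec, Units.val_mul]
            refine Matrix.mulVec_injective_iff_isUnit.2 G.isUnit ?_
            rw [hinv, hGj, hGj, hinv, hx]
          · have hmem : (x : GL ι F) ∈ Cfsg.Geo.omegaGL ⇑Q := x.2
            show _ ∈ Cfsg.Geo.omegaGL ⇑Q
            generalize (x : GL ι F) = xg at hmem ⊢
            rw [GeomClasses.omegaGL_eq_map] at hmem ⊢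
            obtain ⟨y, hy, hyx⟩ := Subgroup.mem_map.1 hmem
            refine Subgroup.mem_map.2 ⟨g₁⁻¹ * y * g₁, ?_, ?_⟩
            · have := (inferInstance : (commutator (orthGroup Q)).Normal).conj_mem y hy g₁⁻¹
              rwa [inv_inv] at this
            · rw [map_mul, map_mul, map_inv, hyx]
        haveI : Finite (GL ι F) := inferInstance
        have hcardP : Nat.card P' = Nat.card P := by
          rw [hP', Subgroup.card_map_of_injective (MulEquiv.injective _),
            Subgroup.card_map_of_injective (Subgroup.subtype_injective _)]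
        have hdvd : Nat.card P ∣ Nat.card H := hcardP ▸ Subgroup.card_dvd_of_le hP'le
        have hidx := Subgroup.card_mul_index ((Cfsg.Geo.subalgebraNormalizer K).subgroupOf (Cfsg.Geo.omegaGL ⇑Q))
        rw [← Subgroup.inf_subgroupOf_right, Nat.card_congr (Subgroup.subgroupOfEquivOfLe inf_le_right).toEquiv,
          Subgroup.inf_subgroupOf_right, ← hH] at hidx
        change _ * (Cfsg.Geo.subalgebraNormalizer K).relIndex (Cfsg.Geo.omegaGL ⇑Q) = _ at hidx
        obtain ⟨k, hk⟩ := hdvd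
        rw [hk, ← Subgroup.card_mul_index (P : Subgroup (Cfsg.Geo.omegaGL ⇑Q)), mul_assoc] at hidx
        have := Nat.eq_of_mul_eq_mul_left Nat.card_pos hidx
        exact P.not_dvd_index (this ▸ hΩ.mul_left k)
      · -- one atom
        haveI : Finite (Cfsg.Geo.omegaGL ⇑Q) := inferInstance
        obtain ⟨⟨y, hy⟩, hyo⟩ := exists_prime_orderOf_dvd_card' (G := Cfsg.Geo.omegaGL ⇑Q) r
          (hΩ.trans (Subgroup.relIndex_dvd_card _ _))
        set T₀ := Matrix.toLin' (y : Mx) with hT₀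
        have hy1 : y ^ r = 1 := by
          have h := pow_orderOf_eq_one (⟨y, hy⟩ : Cfsg.Geo.omegaGL ⇑Q)
          rw [hyo] at h
          simpa using congrArg Subtype.val h
        have hT₀r : T₀ ^ r = 1 := by
          show (Matrix.toLinAlgEquiv' (y : Mx)) ^ r = 1
          rw [← map_pow, ← Units.val_pow_eq_pow_val, hy1, Units.val_one, map_one]
        obtain ⟨R₀, hR₀, L₀, J0, hR₀n, hK₀n, -, -, hsup, hdim, -, -, -, -, hR₀d, hR₀t, -⟩ :=
          OrthFree.structure_of hS hQ hT₀r (OmegaElem.preserves hy)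
        rw [hV] at hdim
        have hJ0 : 1 ≤ J0 := Nat.pos_of_ne_zero fun e => by
          rw [e, mul_zero, add_zero] at hdim
          have htop := LinearMap.ker_eq_top.1
            (Submodule.eq_top_of_finrank_eq (show finrank F (LinearMap.ker (T₀ - 1)) = finrank F (ι → F) by
              rw [hV]; omega))
          have hy' : y = 1 := Units.ext (Matrix.toLin'.injective (by
            rw [Units.val_one, Matrix.toLin'_one]; exact sub_eq_zero.1 htop))
          have : (⟨y, hy⟩ : Cfsg.Geo.omegaGL ⇑Q) = 1 := Subtype.ext hy'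
          rw [this, orderOf_one] at hyo
          exact hr.ne_one hyo.symm
        have hcJ := Nat.mul_le_mul_left (OrthFree.cc i) hJ0
        obtain ⟨L, hL, hh, hLc⟩ := OrthSingDerange.exists_repl hS ht 1
        obtain ⟨T, hTr, hTQ, hker, -⟩ := OrthFree.exists_elem hS hQ hL hh hLc (by
          rcases lt_or_ge (OrthFree.cc i * 1) (2 * d) with hlt | hge
          · exact Or.inl (by rw [hV]; exact hlt)
          · refine Or.inr ⟨by rw [hV]; omega, ?_⟩
            obtain rfl : J0 = 1 := by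
              have := OrthFree.cc_pos hi0
              by_contra hne
              have := Nat.mul_le_mul_left (OrthFree.cc i) (show 2 ≤ J0 by omega)
              omega
            rw [← hR₀t]
            rw [Submodule.finrank_eq_zero.1 (show finrank F (LinearMap.ker (T₀ - 1)) = 0 by omega), bot_sup_eq] at hsup
            rw [hsup])
        rw [hV, mul_one] at hker
        have hcc := OrthFree.cc_pos hi0
        obtain ⟨J, hJ, hJT⟩ := key T hTr hTQ fun e => by
          rw [e, sub_self, LinearMap.ker_zero, finrank_top, hV] at hker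
          omega
        have hKn : Nd Q (LinearMap.ker (T - 1)) := by
          have := OrthFree.nd_fixed hS hTr hTQ (W := ⊤) (fun _ _ => trivial) (nd_top hQ)
          rwa [top_inf_eq] at this
        set Kf := LinearMap.ker (T - 1)
        obtain ⟨hXn, hXd, -⟩ := nd_split hQ hKn (nd_top hQ) le_top
        rw [top_inf_eq] at hXn hXd
        rw [finrank_top, hV] at hXd
        have hTK : ∀ v ∈ Kf, T v ∈ Kf := fun v hv => by rwa [show T v = v from sub_eq_zero.1 hv]
        have hTX := OrthFree.perp_invariant hTQ (OrthFree.injective_of_pow hr.pos hTr) hTK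
        have hJK : ∀ v ∈ Kf, J v ∈ Kf := fun v hv => by
          show (T - 1) (J v) = 0
          rw [LinearMap.sub_apply, Module.End.one_apply, hJT, show T v = v from sub_eq_zero.1 hv, sub_self]
        obtain ⟨h, hh', hho⟩ : ∃ h, OrthFree.cc i = 2 * h ∧ Odd h := by
          by_cases hie : Even i
          · refine ⟨i / 2, by rw [OrthFree.cc, if_pos hie]; obtain ⟨a, ha⟩ := hie; omega, Nat.odd_iff.2 ?_⟩
            obtain ⟨a, ha⟩ := hie
            by_contra hne
            exact h4 ⟨a / 2, by omega⟩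
          · exact ⟨i, by rw [OrthFree.cc, if_neg hie], Nat.not_even_iff_odd.1 hie⟩
        obtain ⟨v, hv0, hv⟩ := no_free h2 hns (res_nondeg hXn) (h := h) (by omega) hho
          (hJ.res (hJ.perp_inv hJK)) (T := T.restrict hTX) (fun v => hTQ v)
          (fun v => Subtype.ext (hJT v)) hro (LinearMap.ext fun v => Subtype.ext (by
            rw [Module.End.pow_restrict r, LinearMap.restrict_apply]
            simp [hTr]))
        refine hv0 (Subtype.ext ?_)
        exact Submodule.disjoint_def.1 (nd_isCompl hQ hKn).disjoint _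
          (sub_eq_zero.2 (congrArg Subtype.val hv)) v.2
  · rintro rfl x hx ⟨z, hz⟩ hns'
    obtain ⟨hz2, hT⟩ := OrthDerangeTwo.scalar_sq hQ (by omega) hV hx hz
    set T := Matrix.toLin' (x : Mx) with hTdef
    have hTQ : ∀ v, Q (T v) = Q v := OmegaElem.preserves hx
    obtain ⟨J, s, hJ, hs, β, hβ, hTJ, hTs⟩ : ∃ (J : Module.End F (ι → F)) (s : orthGroup Q), Str Q δ J ∧
        orthDet Q s = -1 ∧ ∃ β : F, β * β = 1 ∧ (∀ v, T (J v) = β • J (T v)) ∧
          ∀ v, T ((s : (ι → F) ≃ₗ[F] (ι → F)) (J (((s⁻¹ : orthGroup Q) : (ι → F) ≃ₗ[F] (ι → F)) v))) =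
            β • (s : (ι → F) ≃ₗ[F] (ι → F)) (J (((s⁻¹ : orthGroup Q) : (ι → F) ≃ₗ[F] (ι → F)) (T v))) := by
      rcases mul_self_eq_one_iff.1 hz2 with rfl | rfl
      · rw [one_smul] at hT
        obtain ⟨a, ha, -⟩ := InvolOmega.type_of_mem hq hodd hQ (by omega) hx hT
        have ha1 : 1 ≤ a := Nat.pos_of_ne_zero fun e => by
          rw [e, mul_zero] at ha
          obtain ⟨-, hK', hsup⟩ := InvolOmega.spaces h2 hQ hT hTQ
          rw [Submodule.finrank_eq_zero.1 ha, bot_sup_eq] at hsup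
          refine hns' 1 (Matrix.toLin'.injective ?_)
          rw [one_smul, Matrix.toLin'_one]
          exact sub_eq_zero.1 (LinearMap.ker_eq_top.1 hsup)
        obtain ⟨J, s, hJ, hs, h1, h3⟩ := exists_commute h2 hQ hV hT hTQ ha ha1 δ
        have h3' : ∀ v, T (((s⁻¹ : orthGroup Q) : (ι → F) ≃ₗ[F] (ι → F)) v) =
            ((s⁻¹ : orthGroup Q) : (ι → F) ≃ₗ[F] (ι → F)) (T v) := fun v => by
          obtain ⟨w, rfl⟩ := (s : (ι → F) ≃ₗ[F] (ι → F)).surjective v
          have hi : ∀ y, ((s⁻¹ : orthGroup Q) : (ι → F) ≃ₗ[F] (ι → F)) ((s : (ι → F) ≃ₗ[F] (ι → F)) y) = y :=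
            fun y => (s : (ι → F) ≃ₗ[F] (ι → F)).symm_apply_apply y
          rw [h3, hi, hi]
        exact ⟨J, s, hJ, hs, 1, one_mul 1, fun v => by rw [one_smul, h1],
          fun v => by rw [one_smul, h3, h1, h3']⟩
      · have hT2 : ∀ v, T (T v) = -v := fun v => by
          rw [← Module.End.mul_apply, ← pow_two, hT, LinearMap.smul_apply, Module.End.one_apply, neg_one_smul]
        obtain ⟨J, s, hJ, hs, h1, h3⟩ := exists_anticommute h2 hq hodd hQ hV (by omega) hT2 hTQ δ
        exact ⟨J, s, hJ, hs, -1, by ring, fun v => by rw [neg_one_smul, h1], fun v => by rw [neg_one_smul, h3]⟩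
    obtain ⟨g, hg, hgJ⟩ := exists_omega h2 hns hQ hV (by omega) hJ₀ hJ hs
    refine ⟨GeomClasses.orthToGL Q g, toGL_mem h2 hg, mem_normalizer hjK hspan hβ ?_⟩
    set G := GeomClasses.orthToGL Q g
    have hGv : ∀ v, (G : Mx) *ᵥ v = (g : (ι → F) ≃ₗ[F] (ι → F)) v := fun v => GeomClasses.orthToGL_mulVec Q g v
    have hxv : ∀ v, (x : Mx) *ᵥ v = T v := fun v => (Matrix.toLin'_apply _ v).symm
    have hinv : ∀ w, (G : Mx) *ᵥ (((G⁻¹ : GL ι F) : Mx) *ᵥ w) = w := fun w => by
      rw [Matrix.mulVec_mulVec, ← Units.val_mul, mul_inv_cancel, Units.val_one, Matrix.one_mulVec]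
    obtain ⟨J', hJ'T, hgJ'⟩ : ∃ J' : (ι → F) → (ι → F), (∀ v, T (J' v) = β • J' (T v)) ∧
        ∀ v, (g : (ι → F) ≃ₗ[F] (ι → F)) (J₀ v) = J' ((g : (ι → F) ≃ₗ[F] (ι → F)) v) := by
      rcases hgJ with h | h
      · exact ⟨J, hTJ, h⟩
      · exact ⟨fun v => (s : (ι → F) ≃ₗ[F] (ι → F)) (J (((s⁻¹ : orthGroup Q) : (ι → F) ≃ₗ[F] (ι → F)) v)), hTs, h⟩
    refine Cfsg.Agent.Forms.matrix_ext_mulVec fun v => Matrix.mulVec_injective_iff_isUnit.2 G.isUnit ?_
    have hGj : ∀ w, (G : Mx) *ᵥ (j *ᵥ w) = J' ((G : Mx) *ᵥ w) := fun w => by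
      rw [hGv, hGv, ← hgJ', hJ₀def, Matrix.toLin'_apply]
    simp only [Units.val_mul, Matrix.smul_mulVec, Matrix.mulVec_smul, ← Matrix.mulVec_mulVec]
    rw [hinv, hGj, hGj, hinv, hxv, hxv, hJ'T]

end Main

end Cfsg.Agent.Linear.QuadStrBridge
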