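import Cfsg.Agent.Linear.QuadStr
import Cfsg.Agent.Linear.InvolOmega
import Cfsg.Agent.Linear.InvolMinusOne
import Cfsg.Agent.Linear.OrthSingDerange
import Cfsg.Agent.GeomClasses.SympIsotropicOdd

/-!
# Structures commuting with given isometries
-/

set_option autoImplicit false
set_option linter.unusedSectionVars false

namespace Cfsg.Agent.Linear.QuadStrElem

open Polynomial Module Cfsg.Agent.Forms Cfsg.Agent.Linear.OrthSpaces Cfsg.Agent.Linear.QuadStr

universe u

variable {F : Type*} [Field F] [Fintype F] {V : Type u} [AddCommGroup V] [Module F V] [FiniteDimensional F V]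
  {Q : QuadraticForm F V}

local notation "BQ" => QuadraticMap.polarBilin Q

variable {δ : F}

theorem reflection_det (v : V) (hv : Q v ≠ 0) : orthDet Q (reflection Q v) = -1 :=
  Units.ext (orthDet_reflection Q hv)

theorem reflection_inv (v : V) : (reflection Q v)⁻¹ = reflection Q v :=
  inv_eq_of_mul_eq_one_right (reflection_mul_self Q v)

/-- An involution with even eigenspaces commutes with structures of both classes. -/
theorem exists_commute (h2 : (2 : F) ≠ 0) (hB : (BQ).Nondegenerate) {w : ℕ} (hd : finrank F V = 2 * w)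
    {T : Module.End F V} (hT : T ^ 2 = 1) (hTQ : ∀ v, Q (T v) = Q v) {a : ℕ}
    (hR : finrank F (LinearMap.ker (T + 1)) = 2 * a) (ha : 1 ≤ a) (δ : F) :
    ∃ (J : Module.End F V) (s : orthGroup Q), Str Q δ J ∧ orthDet Q s = -1 ∧
      (∀ v, T (J v) = J (T v)) ∧ (∀ v, T ((s : V ≃ₗ[F] V) v) = (s : V ≃ₗ[F] V) (T v)) := by
  obtain ⟨hN, hK, -⟩ := InvolOmega.spaces h2 hB hT hTQ
  set R := LinearMap.ker (T + 1)
  obtain ⟨hXn, hXd, -⟩ := nd_split hB hN (nd_top hB) le_top
  rw [top_inf_eq] at hXn hXd
  rw [finrank_top, hd, hR] at hXd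
  obtain ⟨J₁, h₁⟩ := exists_str h2 δ a (res_nondeg hN) hR
  obtain ⟨J₂, h₂⟩ := exists_str h2 δ (w - a) (res_nondeg hXn) (by omega)
  obtain ⟨J, hJ, hl, hr⟩ := glue hB hN h₁ h₂
  obtain ⟨e, he, he0⟩ : ∃ e ∈ R, Q e ≠ 0 := by
    by_contra hcon
    push Not at hcon
    have := sing_le hN le_rfl hcon
    omega
  have hTR : ∀ x ∈ R, T x = -x := fun x hx => eq_neg_of_add_eq_zero_left hx
  have hTX : ∀ x ∈ perp BQ R, T x = x := fun x hx => by
    rw [← hK] at hx
    exact sub_eq_zero.1 hx
  refine ⟨J, reflection Q e, hJ, reflection_det e he0, fun v => ?_, fun v => ?_⟩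
  · obtain ⟨x, hx, y, hy, rfl⟩ := Submodule.mem_sup.1
      ((nd_isCompl hB hN).sup_eq_top ▸ Submodule.mem_top : v ∈ R ⊔ perp BQ R)
    rw [map_add, hl ⟨x, hx⟩, hr ⟨y, hy⟩, map_add, map_add, hTR _ (J₁ ⟨x, hx⟩).2, hTX _ (J₂ ⟨y, hy⟩).2, hTR x hx,
      hTX y hy, map_add, map_neg, hl ⟨x, hx⟩, hr ⟨y, hy⟩]
  · have hp : QuadraticMap.polar Q e (T v) = -QuadraticMap.polar Q e v := by
      have := OrthFree.polar_inv hTQ e v
      rw [hTR e he, QuadraticMap.polar_neg_left] at this
      linear_combination -this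
    rw [Forms.reflection_apply, Forms.reflection_apply, map_sub, map_smul, hp, hTR e he, mul_neg, neg_smul,
      smul_neg]

/-- An element of square minus one anticommutes with structures of both classes. -/
theorem exists_anticommute (h2 : (2 : F) ≠ 0) {q : ℕ} (hq : Fintype.card F = q) (hodd : Odd q)
    (hB : (BQ).Nondegenerate) {d : ℕ} (hd : finrank F V = 2 * d) (hd1 : 1 ≤ d) {T : Module.End F V}
    (hT : ∀ v, T (T v) = -v) (hTQ : ∀ v, Q (T v) = Q v) (δ : F) :
    ∃ (J : Module.End F V) (s : orthGroup Q), Str Q δ J ∧ orthDet Q s = -1 ∧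
      (∀ v, T (J v) = -J (T v)) ∧
      (∀ v, T ((s : V ≃ₗ[F] V) (J (((s⁻¹ : orthGroup Q) : V ≃ₗ[F] V) v))) =
        -((s : V ≃ₗ[F] V) (J (((s⁻¹ : orthGroup Q) : V ≃ₗ[F] V) (T v))))) := by
  classical
  obtain ⟨v, hv⟩ := InvolMinusOne.exists_frame hq hodd hB hT hTQ hd
  obtain ⟨b, hb⟩ := hv.exists_basis h2 one_ne_zero hd
  obtain ⟨x, y, hxy⟩ := Forms.exists_sq_add_sq_eq (a := (1 : F)) (b := 1) one_ne_zero one_ne_zero δ
  let i₀ : Fin d := ⟨0, hd1⟩
  let J : Module.End F V := b.constr F (Sum.elim (fun j => x • v j + y • T (v j)) (fun j => y • v j - x • T (v j)))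
  have hl : ∀ j, J (v j) = x • v j + y • T (v j) := fun j => by
    have := b.constr_basis F (Sum.elim (fun j => x • v j + y • T (v j)) (fun j => y • v j - x • T (v j))) (Sum.inl j)
    rwa [hb] at this
  have hr : ∀ j, J (T (v j)) = y • v j - x • T (v j) := fun j => by
    have := b.constr_basis F (Sum.elim (fun j => x • v j + y • T (v j)) (fun j => y • v j - x • T (v j))) (Sum.inr j)
    rwa [hb] at this
  have hJ : Str Q δ J := by
    refine ⟨fun u => ?_, fun u u' => ?_⟩
    · refine LinearMap.congr_fun (show J * J = δ • 1 from b.ext fun s => ?_) u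
      rw [hb]
      rcases s with j | j <;>
        simp only [Sum.elim_inl, Sum.elim_inr, Module.End.mul_apply, LinearMap.smul_apply, Module.End.one_apply, hl, hr,
          map_add, map_sub, map_smul] <;>
        match_scalars <;> first | ring1 | linear_combination hxy | linear_combination -hxy
    · refine LinearMap.congr_fun (LinearMap.congr_fun (show (BQ) ∘ₗ J = (BQ).compl₂ J from
        b.ext fun s => b.ext fun s' => ?_) u) u'
      rw [hb, hb]
      have e1 : ∀ j k, QuadraticMap.polar Q (v j) (v k) = if j = k then 2 else 0 := fun j k => by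
        have := hv.polar (Sum.inl j) (Sum.inl k)
        simpa using this
      have e2 : ∀ j k, QuadraticMap.polar Q (v j) (T (v k)) = 0 := fun j k => by
        have := hv.polar (Sum.inl j) (Sum.inr k)
        simpa using this
      have e3 : ∀ j k, QuadraticMap.polar Q (T (v j)) (v k) = 0 := fun j k => by
        have := hv.polar (Sum.inr j) (Sum.inl k)
        simpa using this
      have e4 : ∀ j k, QuadraticMap.polar Q (T (v j)) (T (v k)) = if j = k then 2 else 0 := fun j k => by
        have := hv.polar (Sum.inr j) (Sum.inr k)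
        simpa using this
      rcases s with j | j <;> rcases s' with k | k <;>
        simp only [Sum.elim_inl, Sum.elim_inr, LinearMap.comp_apply, LinearMap.compl₂_apply,
          QuadraticMap.polarBilin_apply_apply, hl, hr, QuadraticMap.polar_add_left, QuadraticMap.polar_add_right,
          QuadraticMap.polar_sub_left, QuadraticMap.polar_sub_right, QuadraticMap.polar_smul_left,
          QuadraticMap.polar_smul_right, e1, e2, e3, e4, smul_eq_mul] <;>
        ring
  set s := reflection Q (T (v i₀)) with hs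
  have hval : Q (T (v i₀)) = 1 := (hv.val i₀).2
  have hsl : ∀ j, (s : V ≃ₗ[F] V) (v j) = v j := fun j => by
    have h := hv.polar (Sum.inr i₀) (Sum.inl j)
    simp only [Sum.elim_inl, Sum.elim_inr, reduceCtorEq, if_false] at h
    rw [hs, Forms.reflection_apply, h, mul_zero, zero_smul, sub_zero]
  have hsr : ∀ j, (s : V ≃ₗ[F] V) (T (v j)) = (if j = i₀ then (-1 : F) else 1) • T (v j) := fun j => by
    have h := hv.polar (Sum.inr i₀) (Sum.inr j)
    simp only [Sum.elim_inr, Sum.inr.injEq] at h
    rw [hs, Forms.reflection_apply, h, hval, inv_one, one_mul]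
    by_cases hji : j = i₀
    · subst hji
      rw [if_pos rfl, if_pos rfl, mul_one, neg_smul, one_smul, two_smul]
      abel
    · rw [if_neg (Ne.symm hji), if_neg hji, zero_smul, sub_zero, one_smul]
  refine ⟨J, s, hJ, reflection_det _ (by rw [hval]; exact one_ne_zero), fun u => ?_, fun u => ?_⟩
  · refine LinearMap.congr_fun (show T * J = -(J * T) from b.ext fun t => ?_) u
    rw [hb]
    rcases t with j | j <;>
      simp only [Sum.elim_inl, Sum.elim_inr, Module.End.mul_apply, LinearMap.neg_apply, hl, hr, hT, map_add, map_sub,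
        map_smul, map_neg] <;>
      module
  · have hsi : s⁻¹ = s := by rw [hs]; exact reflection_inv _
    rw [hsi]
    refine LinearMap.congr_fun (show T * ((s : V ≃ₗ[F] V).toLinearMap * J * (s : V ≃ₗ[F] V).toLinearMap) =
      -((s : V ≃ₗ[F] V).toLinearMap * J * (s : V ≃ₗ[F] V).toLinearMap * T) from b.ext fun t => ?_) u
    rw [hb]
    rcases t with j | j <;>
      simp only [Sum.elim_inl, Sum.elim_inr, Module.End.mul_apply, LinearMap.neg_apply, LinearEquiv.coe_coe, hsl, hsr,
        hl, hr, hT, map_add, map_sub, map_smul, map_neg] <;>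
      split_ifs <;> module

/-- A free isometry of odd order cannot respect a structure in half dimension odd. -/
theorem no_free (h2 : (2 : F) ≠ 0) (hns : ¬ IsSquare δ) (hB : (BQ).Nondegenerate) {h : ℕ}
    (hd : finrank F V = 2 * h) (hh : Odd h) {J T : Module.End F V} (hJ : Str Q δ J)
    (hTQ : ∀ v, Q (T v) = Q v) (hcomm : ∀ v, T (J v) = J (T v)) {r : ℕ} (hr : Odd r) (hT : T ^ r = 1) :
    ∃ v, v ≠ 0 ∧ T v = v := by
  classical
  haveI := fact_field hns
  have hδ := delta_ne_zero hns
  let φ : QuadraticAlgebra F δ 0 →ₐ[F] Module.End F V := QuadraticAlgebra.lift ⟨J, LinearMap.ext fun v => by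
    simp [hJ.sq]⟩
  have hφ : ∀ (z : QuadraticAlgebra F δ 0) (v : V), φ z v = z.re • v + z.im • J v := fun z v => by
    simp [φ, QuadraticAlgebra.lift]
  letI : Module (QuadraticAlgebra F δ 0) V := Module.compHom V φ.toRingHom
  have hsm : ∀ (z : QuadraticAlgebra F δ 0) (v : V), z • v = z.re • v + z.im • J v := fun z v => hφ z v
  haveI : IsScalarTower F (QuadraticAlgebra F δ 0) V := ⟨fun c z v => by
    show φ (c • z) v = c • φ z v
    rw [map_smul]; rfl⟩
  haveI : Module.Finite (QuadraticAlgebra F δ 0) V := Module.Finite.of_restrictScalars_finite F _ V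
  have hKd : finrank (QuadraticAlgebra F δ 0) V = h := by
    have := Module.finrank_mul_finrank F (QuadraticAlgebra F δ 0) V
    rw [QuadraticAlgebra.finrank_eq_two, hd] at this
    omega
  let T' : Module.End (QuadraticAlgebra F δ 0) V :=
    { toFun := T
      map_add' := map_add T
      map_smul' := fun z v => by
        simp only [hsm, RingHom.id_apply, map_add, map_smul, hcomm] }
  let β : LinearMap.BilinForm (QuadraticAlgebra F δ 0) V :=
    LinearMap.mk₂ (QuadraticAlgebra F δ 0)
      (fun u v => (⟨QuadraticMap.polar Q u v, δ⁻¹ * QuadraticMap.polar Q (J u) v⟩ : QuadraticAlgebra F δ 0))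
      (fun u u' v => QuadraticAlgebra.ext (by simp) (by simp [mul_add]))
      (fun z u v => QuadraticAlgebra.ext
        (by
          simp only [hsm, smul_eq_mul, QuadraticAlgebra.re_mul, QuadraticMap.polar_add_left,
            QuadraticMap.polar_smul_left]
          field_simp)
        (by
          simp only [hsm, smul_eq_mul, QuadraticAlgebra.im_mul, map_add, map_smul, hJ.sq, QuadraticMap.polar_add_left,
            QuadraticMap.polar_smul_left]
          field_simp
          ring))
      (fun u v v' => QuadraticAlgebra.ext (by simp) (by simp [mul_add]))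
      (fun z u v => QuadraticAlgebra.ext
        (by
          simp only [hsm, smul_eq_mul, QuadraticAlgebra.re_mul, QuadraticMap.polar_add_right,
            QuadraticMap.polar_smul_right, ← hJ.sa u v]
          field_simp)
        (by
          simp only [hsm, smul_eq_mul, QuadraticAlgebra.im_mul, QuadraticMap.polar_add_right,
            QuadraticMap.polar_smul_right]
          rw [← hJ.sa (J u) v, hJ.sq, QuadraticMap.polar_smul_left, smul_eq_mul]
          field_simp
          ring))
  have hβn : β.Nondegenerate := by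
    refine ⟨fun u hu => hB.1 u fun v => congrArg QuadraticAlgebra.re (hu v), fun u hu => hB.2 u fun v =>
      congrArg QuadraticAlgebra.re (hu v)⟩
  let b := finBasisOfFinrankEq (QuadraticAlgebra F δ 0) V hKd
  set A := LinearMap.toMatrixAlgEquiv b T' with hA
  set G := LinearMap.BilinForm.toMatrix b β with hG
  have hinv : A.transpose * G * A = G := by
    have h := LinearMap.BilinForm.toMatrix_comp b b β T' T'
    rw [hA, hG]
    refine Eq.trans h.symm (congrArg _ (LinearMap.ext fun u => LinearMap.ext fun v => ?_))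
    refine QuadraticAlgebra.ext (OrthFree.polar_inv hTQ u v) ?_
    show δ⁻¹ * QuadraticMap.polar Q (J (T u)) (T v) = δ⁻¹ * QuadraticMap.polar Q (J u) v
    rw [← hcomm, OrthFree.polar_inv hTQ]
  have hdetG : G.det ≠ 0 := (LinearMap.BilinForm.nondegenerate_iff_det_ne_zero b).1 hβn
  have hAr : A.det ^ r = 1 := by
    have hTr : T' ^ r = 1 := LinearMap.ext fun v => by
      have : ∀ k : ℕ, ∀ w, (T' ^ k) w = (T ^ k) w := by
        intro k
        induction k with
        | zero => intro w; rfl
        | succ k ih => intro w; rw [pow_succ, pow_succ, Module.End.mul_apply, Module.End.mul_apply, ih]; rfl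
      rw [this, hT]; rfl
    rw [← Matrix.det_pow, hA, ← map_pow, hTr, map_one, Matrix.det_one]
  have hA2 : A.det * A.det = 1 := by
    have := congrArg Matrix.det hinv
    rw [Matrix.det_mul, Matrix.det_mul, Matrix.det_transpose] at this
    exact mul_right_cancel₀ hdetG (by linear_combination this)
  have hA1 : A.det = 1 := by
    obtain ⟨k, hk⟩ := hr
    rw [hk, pow_succ, pow_mul, pow_two, hA2, one_pow, one_mul] at hAr
    exact hAr
  have h0 : (A - 1).det = 0 := by
    have h1 : A.transpose * G * (A - 1) = (1 - A.transpose) * G := by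
      rw [mul_sub, hinv, mul_one, sub_mul, one_mul]
    have h3 := congrArg Matrix.det h1
    rw [Matrix.det_mul, Matrix.det_mul, Matrix.det_mul, Matrix.det_transpose, hA1, one_mul,
      show (1 : Matrix (Fin h) (Fin h) (QuadraticAlgebra F δ 0)) - A.transpose = -((A - 1).transpose) by
        rw [Matrix.transpose_sub, Matrix.transpose_one, neg_sub],
      Matrix.det_neg, Matrix.det_transpose, Fintype.card_fin, hh.neg_one_pow] at h3
    have h22 : (2 : QuadraticAlgebra F δ 0) ≠ 0 := fun e => h2 (by
      have := congrArg QuadraticAlgebra.re e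
      rw [QuadraticAlgebra.re_ofNat, QuadraticAlgebra.re_zero] at this
      exact this)
    exact (mul_eq_zero.1 (show (A - 1).det * (2 * G.det) = 0 by linear_combination h3)).resolve_right
      (mul_ne_zero h22 hdetG)
  have hlin : LinearMap.det (T' - 1) = 0 := by
    rw [← LinearMap.det_toMatrix b (T' - 1)]
    show (LinearMap.toMatrixAlgEquiv b (T' - 1)).det = 0
    rw [map_sub, map_one]
    exact h0
  obtain ⟨v, hv, hv0⟩ := (Submodule.ne_bot_iff _).1 (ne_of_gt (LinearMap.bot_lt_ker_of_det_eq_zero hlin))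
  exact ⟨v, hv0, sub_eq_zero.1 hv⟩

variable {q r i : ℕ} {S : Finset F[X]}

/-- A square root of `δ` modulo the nontrivial factors of `X ^ r - 1`. -/
theorem exists_sqrt_poly (h : OrthFree.Ctx F q r i S) (h2 : (2 : F) ≠ 0) (hie : Even i) (hδ : δ ≠ 0) :
    ∃ P : F[X], ∀ (M : Type u) [AddCommGroup M] [Module F M] [FiniteDimensional F M] (z : Module.End F M),
      z ^ r = 1 → ∀ v : M, (∀ w, (z - 1) w = 0 → w ∈ Submodule.span F (Set.range fun n : ℕ => (z ^ n) v) → w = 0) →
        aeval z P (aeval z P v) = δ • v := by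
  classical
  have hq2 : q % 2 = 1 := by
    rw [← h.hq]
    exact FiniteField.odd_card_of_char_ne_two fun e => h2 (by
      have : ((2 : ℕ) : F) = 0 := by
        haveI := ringChar.charP F
        rw [← e]; exact CharP.cast_eq_zero F (ringChar F)
      exact_mod_cast this)
  have hone : ∀ f ∈ S, ∃ P : F[X], f ∣ P * P - C δ := by
    intro f hf
    haveI := Fact.mk (h.hS.irred f hf)
    haveI : Module.Finite F (AdjoinRoot f) := (AdjoinRoot.powerBasis (h.hS.irred f hf).ne_zero).finite
    haveI : Finite (AdjoinRoot f) := Module.finite_of_finite F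
    letI : Fintype (AdjoinRoot f) := Fintype.ofFinite _
    have hcard : Fintype.card (AdjoinRoot f) = q ^ i := by
      rw [Module.card_eq_pow_finrank (K := F), h.hq, (AdjoinRoot.powerBasis (h.hS.irred f hf).ne_zero).finrank,
        AdjoinRoot.powerBasis_dim, h.hS.deg f hf]
    have hrc : ringChar (AdjoinRoot f) ≠ 2 := by
      intro e
      refine h2 ((algebraMap F (AdjoinRoot f)).injective ?_)
      haveI := ringChar.charP (AdjoinRoot f)
      have := CharP.cast_eq_zero (AdjoinRoot f) (ringChar (AdjoinRoot f))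
      rw [e] at this
      rw [map_ofNat, map_zero]
      exact_mod_cast this
    obtain ⟨a, ha⟩ := hie
    have hdvd : q - 1 ∣ q ^ i / 2 := by
      obtain ⟨k, hk⟩ : q * q - 1 ∣ q ^ i - 1 := by
        have := Nat.sub_dvd_pow_sub_pow (q * q) 1 a
        rwa [one_pow, ← pow_two, ← pow_mul, show 2 * a = i by omega, pow_two] at this
      obtain ⟨j, hj⟩ : ∃ j, q = 2 * j + 1 := ⟨q / 2, by omega⟩
      have h1 : q ^ i % 2 = 1 := by simp [Nat.pow_mod, hq2]
      have h3 : q * q - 1 = (q - 1) * (2 * (j + 1)) := by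
        rw [hj, Nat.add_sub_cancel]
        have : (2 * j + 1) * (2 * j + 1) = 2 * j * (2 * (j + 1)) + 1 := by ring
        omega
      rw [h3] at hk
      refine ⟨(j + 1) * k, Nat.div_eq_of_lt_le ?_ ?_⟩ <;>
      · have : (q - 1) * (2 * (j + 1)) * k = (q - 1) * ((j + 1) * k) * 2 := by ring
        omega
    obtain ⟨t, ht⟩ := hdvd
    obtain ⟨s, hs⟩ := (FiniteField.isSquare_iff hrc ((map_ne_zero (algebraMap F (AdjoinRoot f))).2 hδ)).2 (by
      rw [hcard, ht, pow_mul, ← map_pow, ← h.hq, FiniteField.pow_card_sub_one_eq_one δ hδ, map_one, one_pow])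
    obtain ⟨P, rfl⟩ := AdjoinRoot.mk_surjective s
    refine ⟨P, AdjoinRoot.mk_eq_zero.1 ?_⟩
    rw [map_sub, map_mul, ← hs, AdjoinRoot.mk_C, AdjoinRoot.algebraMap_eq, sub_self]
  have hco : ∀ f ∈ S, ∀ g ∈ S, f ≠ g → IsCoprime f g := fun f hf g hg hne =>
    (h.hS.irred f hf).coprime_iff_not_dvd.2 fun hd => hne (eq_of_monic_of_associated (h.hS.monic f hf)
      (h.hS.monic g hg) ((h.hS.irred f hf).associated_of_dvd (h.hS.irred g hg) hd))
  have hall : ∀ S' ⊆ S, ∃ P : F[X], ∏ f ∈ S', f ∣ P * P - C δ := by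
    intro S'
    induction S' using Finset.induction_on with
    | empty => exact fun _ => ⟨0, by simp⟩
    | insert f S' hfS' ih =>
      intro hsub
      obtain ⟨hf, hS'⟩ := Finset.insert_subset_iff.1 hsub
      obtain ⟨Pg, hPg⟩ := ih hS'
      obtain ⟨Pf, hPf⟩ := hone f hf
      have hc : IsCoprime f (∏ g ∈ S', g) := IsCoprime.prod_right fun g hg =>
        hco f hf g (hS' hg) fun e => hfS' (e ▸ hg)
      obtain ⟨a, b, hab⟩ := id hc
      refine ⟨Pf * (b * ∏ g ∈ S', g) + Pg * (a * f), ?_⟩
      rw [Finset.prod_insert hfS']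
      refine hc.mul_dvd ?_ ?_
      · obtain ⟨k, hk⟩ := hPf
        refine ⟨k + (Pg - Pf) * a * (2 * Pf + (Pg - Pf) * (a * f)), ?_⟩
        rw [show b * ∏ g ∈ S', g = 1 - a * f by linear_combination hab]
        linear_combination hk
      · obtain ⟨k, hk⟩ := hPg
        refine ⟨k + (Pf - Pg) * b * (2 * Pg + (Pf - Pg) * (b * ∏ g ∈ S', g)), ?_⟩
        rw [show a * f = 1 - b * ∏ g ∈ S', g by linear_combination hab]
        linear_combination hk
  obtain ⟨P, hP⟩ := hall S Finset.Subset.rfl
  refine ⟨P, fun M _ _ _ z hz v hfree => ?_⟩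
  have hprod : ∏ f ∈ S, f = ∑ l ∈ Finset.range r, (X : F[X]) ^ l := by
    have hm : (∏ f ∈ S, f).Monic := monic_prod_of_monic _ _ h.hS.monic
    have hX : (X : F[X]) ^ r - 1 = (X - 1) * ∑ l ∈ Finset.range r, X ^ l := (mul_geom_sum X r).symm
    have hd1 : ∀ f ∈ S, f ∣ ∑ l ∈ Finset.range r, (X : F[X]) ^ l := fun f hf => by
      refine (((h.hS.irred f hf).prime.dvd_or_dvd (hX ▸ h.hS.dvd f hf)).resolve_left fun hd => h.hS.eval_one f hf ?_)
      have h1 : Irreducible (X - 1 : F[X]) := by rw [← C_1]; exact irreducible_X_sub_C 1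
      have h1m : (X - 1 : F[X]).Monic := by rw [← C_1]; exact monic_X_sub_C 1
      rw [eq_of_monic_of_associated (h.hS.monic f hf) h1m ((h.hS.irred f hf).associated_of_dvd h1 hd)]
      simp
    haveI := Fact.mk h.hr
    refine (eq_of_monic_of_dvd_of_natDegree_le hm (monic_geom_sum_X h.hr.ne_zero)
      (Finset.prod_dvd_of_coprime (fun f hf g hg hne => hco f hf g hg hne) hd1) ?_).symm
    rw [natDegree_prod_of_monic _ _ h.hS.monic, Finset.sum_congr rfl h.hS.deg, Finset.sum_const, smul_eq_mul, h.hScard,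
      Nat.div_mul_cancel (by
        rw [h.hi]; exact ZMod.orderOf_dvd_card_sub_one fun e => h.hrq ((ZMod.natCast_eq_zero_iff q r).1 e))]
    refine natDegree_sum_le_of_forall_le _ _ fun l hl => ?_
    rw [natDegree_X_pow]
    rw [Finset.mem_range] at hl
    omega
  have hg : (∑ l ∈ Finset.range r, z ^ l) v = 0 := by
    refine hfree _ ?_ ?_
    · rw [← Module.End.mul_apply, mul_geom_sum, hz, sub_self, LinearMap.zero_apply]
    · rw [LinearMap.sum_apply]
      exact Submodule.sum_mem _ fun l _ => Submodule.subset_span ⟨l, rfl⟩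
  obtain ⟨k, hk⟩ := hP
  rw [hprod, mul_comm _ k] at hk
  have := congrArg (fun G => aeval z G v) hk
  simp only [map_sub, map_mul, map_sum, map_pow, aeval_X, aeval_C, LinearMap.sub_apply, Module.End.mul_apply, hg,
    map_zero, sub_eq_zero] at this
  rw [this, Module.algebraMap_end_apply]

theorem commute_aeval {A : Type*} [Ring A] [Algebra F A] {a b : A} (hab : Commute a b) (P : F[X]) :
    Commute a (aeval b P) := by
  induction P using Polynomial.induction_on with
  | C c => rw [aeval_C]; exact Algebra.commute_algebraMap_right c a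
  | add p p' hp hp' => rw [map_add]; exact hp.add_right hp'
  | monomial k c hk => rw [pow_succ, ← mul_assoc, map_mul, aeval_X]; exact hk.mul_right hab

/-- A group of isometries of `r`-power order centralises a structure when `4 ∣ i`. -/
theorem exists_centralised (h : OrthFree.Ctx F q r i S) (h2 : (2 : F) ≠ 0) (h4 : 4 ∣ i) (hns : ¬ IsSquare δ)
    {G : Type*} [Group G] [Finite G] (hG : IsPGroup r G) :
    ∀ (n : ℕ) {V : Type u} [AddCommGroup V] [Module F V] [FiniteDimensional F V] {Q : QuadraticForm F V}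
      (ρ : G →* Module.End F V), (QuadraticMap.polarBilin Q).Nondegenerate → finrank F V = n → Even n →
      (∀ g v, Q (ρ g v) = Q v) → ∃ J : Module.End F V, Str Q δ J ∧ ∀ g v, ρ g (J v) = J (ρ g v) := by
  classical
  have hδ := delta_ne_zero hns
  have hi4 : i / 2 % 2 = 0 ∧ i = 2 * (i / 2) := by obtain ⟨a, ha⟩ := h4; omega
  have hi0 := h.hi0
  obtain ⟨P, hP⟩ := exists_sqrt_poly.{u} h h2 (δ := δ) ⟨i / 2, by omega⟩ hδ
  haveI := Fact.mk h.hr
  intro n
  induction n using Nat.strong_induction_on with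
  | _ n ih =>
  intro V _ _ _ Q ρ hB hn hev hρ
  by_cases htriv : ∀ g, ρ g = 1
  · obtain ⟨w, hw⟩ := hev
    obtain ⟨J, hJ⟩ := exists_str h2 δ w hB (by omega)
    exact ⟨J, hJ, fun g v => by rw [htriv]; rfl⟩
  set f := ρ.toHomUnits with hf
  have hfG : IsPGroup r f.range := hG.of_surjective f.rangeRestrict f.rangeRestrict_surjective
  haveI : Nontrivial f.range := by
    rw [Subgroup.nontrivial_iff_ne_bot]
    intro e
    refine htriv fun g => ?_
    have hm : f g ∈ (⊥ : Subgroup (Module.End F V)ˣ) := e ▸ ⟨g, rfl⟩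
    rw [Subgroup.mem_bot] at hm
    simpa [hf] using congrArg Units.val hm
  haveI : Finite f.range := Finite.of_surjective _ f.rangeRestrict_surjective
  haveI := hfG.center_nontrivial
  obtain ⟨⟨⟨z₁, g₁, hg₁⟩, hzc⟩, hz⟩ := exists_prime_orderOf_dvd_card' (G := Subgroup.center f.range) r (by
    obtain ⟨k, hk⟩ := (IsPGroup.iff_card.1 (hfG.to_subgroup (Subgroup.center f.range)))
    rcases Nat.eq_zero_or_pos k with rfl | hk0
    · rw [pow_zero] at hk
      exact absurd (Finite.one_lt_card (α := Subgroup.center f.range)) (by omega)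
    · exact hk ▸ dvd_pow_self r (by omega))
  set z : Module.End F V := ρ g₁ with hzdef
  have hz1 : (z₁ : Module.End F V) = z := by rw [← hg₁]; rfl
  have hzr : z ^ r = 1 := by
    rw [← hz1, ← Units.val_pow_eq_pow_val]
    have := pow_orderOf_eq_one (⟨⟨z₁, g₁, hg₁⟩, hzc⟩ : Subgroup.center f.range)
    rw [hz] at this
    have := congrArg (fun x : Subgroup.center f.range => ((x : f.range) : (Module.End F V)ˣ)) this
    simp only [SubgroupClass.coe_pow, OneMemClass.coe_one] at this
    rw [this, Units.val_one]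
  have hz1' : z ≠ 1 := fun e => by
    have : (⟨⟨z₁, g₁, hg₁⟩, hzc⟩ : Subgroup.center f.range) = 1 :=
      Subtype.ext (Subtype.ext (Units.ext (hz1.trans e)))
    rw [this, orderOf_one] at hz
    exact h.hr.ne_one hz.symm
  have hzcomm : ∀ g, z * ρ g = ρ g * z := fun g => by
    have := congrArg (fun x : f.range => ((x : (Module.End F V)ˣ) : Module.End F V))
      (Subgroup.mem_center_iff.1 hzc ⟨f g, g, rfl⟩)
    simp only [Subgroup.coe_mul, Units.val_mul] at this
    rw [← hz1]
    exact this.symm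
  have hzQ : ∀ v, Q (z v) = Q v := hρ g₁
  obtain ⟨R, hR, L, JR, hRn, hKn, hRK, hRp, hsup, hdim, -, -, -, -, hRd, -, -⟩ :=
    OrthFree.structure_of h hB hzr hzQ
  set Kf := LinearMap.ker (z - 1) with hKf
  have hKg : ∀ g, ∀ v ∈ Kf, ρ g v ∈ Kf := fun g v hv => by
    show (z - 1) (ρ g v) = 0
    rw [LinearMap.sub_apply, ← Module.End.mul_apply, hzcomm, Module.End.mul_apply,
      show z v = v from sub_eq_zero.1 hv, Module.End.one_apply, sub_self]
  obtain ⟨hXn, hXd, -⟩ := nd_split hB hKn (nd_top hB) le_top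
  rw [top_inf_eq] at hXn hXd
  rw [finrank_top, hn] at hXd
  rw [hn] at hdim
  have hXR : R = perp (QuadraticMap.polarBilin Q) Kf := Submodule.eq_of_le_of_finrank_le hRp (by omega)
  subst hXR
  have hinj : ∀ g, Function.Injective (ρ g) := fun g a b hab => by
    have := congrArg (ρ g⁻¹) hab
    rwa [← Module.End.mul_apply, ← Module.End.mul_apply, ← map_mul, inv_mul_cancel, map_one, Module.End.one_apply,
      Module.End.one_apply] at this
  have hXg : ∀ g, ∀ v ∈ perp (QuadraticMap.polarBilin Q) Kf, ρ g v ∈ perp (QuadraticMap.polarBilin Q) Kf :=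
    fun g => OrthFree.perp_invariant (hρ g) (hinj g) (hKg g)
  have hJR0 : 0 < finrank F (perp (QuadraticMap.polarBilin Q) Kf) := by
    refine Nat.pos_of_ne_zero fun e => hz1' ?_
    have hK : finrank F Kf = finrank F V := by rw [hn]; omega
    have htop := Submodule.eq_top_of_finrank_eq hK
    refine sub_eq_zero.1 (LinearMap.ker_eq_top.1 ?_)
    rw [← hKf]; exact htop
  have hKev : Even (finrank F Kf) := by
    rw [OrthFree.cc, if_pos ⟨i / 2, by omega⟩] at hdim
    rw [Nat.even_iff] at hev ⊢
    have : i * JR % 2 = 0 := by rw [Nat.mul_mod, show i % 2 = 0 by omega, zero_mul, Nat.zero_mod]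
    omega
  -- the fixed part
  let ρK : G →* Module.End F Kf :=
    { toFun := fun g => (ρ g).restrict (hKg g)
      map_one' := LinearMap.ext fun v => Subtype.ext (by simp)
      map_mul' := fun g g' => LinearMap.ext fun v => Subtype.ext (by simp) }
  obtain ⟨J₁, h₁, h₁c⟩ := ih (finrank F Kf) (by omega) (Q := Q.comp Kf.subtype) ρK (res_nondeg hKn) rfl hKev
    fun g v => hρ g v
  -- the moved part
  set X' := perp (QuadraticMap.polarBilin Q) Kf with hX'
  set zX := z.restrict hR with hzX
  have hzXr : zX ^ r = 1 := LinearMap.ext fun v => Subtype.ext (by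
    rw [hzX, Module.End.pow_restrict r, LinearMap.restrict_apply]
    simp [hzr])
  have hfree : ∀ w, (zX - 1) w = 0 → w = 0 := fun w hw => Subtype.ext (by
    have hm : (w : V) ∈ X' ⊓ Kf := ⟨w.2, by
      show (z - 1) (w : V) = 0
      exact congrArg Subtype.val hw⟩
    rw [hRK, Submodule.mem_bot] at hm
    exact hm)
  set J₂ := aeval zX P with hJ₂
  have hsq : ∀ v, J₂ (J₂ v) = δ • v := fun v => hP X' zX hzXr v fun w hw _ => hfree w hw
  set Q₂ := Q.comp X'.subtype with hQ₂
  have hp₂ : ∀ u v : X', QuadraticMap.polar Q₂ (zX u) (zX v) = QuadraticMap.polar Q₂ u v :=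
    OrthFree.polar_inv fun v => hzQ v
  have hqh : r ∣ q ^ (i / 2) + 1 := by
    refine (ZMod.natCast_eq_zero_iff _ _).1 ?_
    have h1 : ((q : ZMod r) ^ (i / 2)) * (q : ZMod r) ^ (i / 2) = 1 := by
      rw [← pow_add, show i / 2 + i / 2 = i by omega, h.hi, pow_orderOf_eq_one]
    rcases mul_self_eq_one_iff.1 h1 with e | e
    · have hd : i ∣ i / 2 := by
        have := orderOf_dvd_of_pow_eq_one e
        rwa [← h.hi] at this
      have := Nat.le_of_dvd (by omega) hd
      omega
    · push_cast
      rw [e, neg_add_cancel]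
  obtain ⟨l, hl⟩ := hqh
  set Qp := q ^ (i / 2) with hQp
  have hadj : ∀ (P : F[X]) (u v : X'),
      QuadraticMap.polar Q₂ (aeval zX P u) v = QuadraticMap.polar Q₂ u (aeval (zX ^ Qp) P v) := by
    have hstep : ∀ u v : X', QuadraticMap.polar Q₂ (zX u) v = QuadraticMap.polar Q₂ u ((zX ^ Qp) v) := fun u v => by
      have e : zX ((zX ^ Qp) v) = v := by
        rw [← Module.End.mul_apply, ← pow_succ', hl, pow_mul, hzXr, one_pow, Module.End.one_apply]
      rw [← hp₂ u, e]
    intro P
    induction P using Polynomial.induction_on with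
    | C a =>
      intro u v
      simp only [aeval_C, Module.algebraMap_end_apply, QuadraticMap.polar_smul_left, QuadraticMap.polar_smul_right]
    | add A B hA hB' =>
      intro u v
      simp only [map_add, LinearMap.add_apply, QuadraticMap.polar_add_left, QuadraticMap.polar_add_right, hA, hB']
    | monomial k a ih' =>
      intro u v
      rw [pow_succ, ← mul_assoc]
      generalize Polynomial.C a * X ^ k = P at ih' ⊢
      simp only [map_mul, aeval_X, Module.End.mul_apply]
      rw [ih', hstep]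
      refine congrArg _ ?_
      have e := congrArg (fun G => aeval (zX ^ Qp) G v) (Polynomial.X_mul (p := P))
      simp only [map_mul, aeval_X, Module.End.mul_apply] at e
      exact e
  have hpowJ : J₂ ^ Qp = J₂ := by
    have h2' : J₂ ^ 2 = δ • 1 := LinearMap.ext fun v => by rw [pow_two, Module.End.mul_apply, hsq]; rfl
    have hq2 : q % 2 = 1 := by
      rw [← h.hq]
      exact FiniteField.odd_card_of_char_ne_two fun e => h2 (by
        have : ((2 : ℕ) : F) = 0 := by
          haveI := ringChar.charP F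
          rw [← e]; exact CharP.cast_eq_zero F (ringChar F)
        exact_mod_cast this)
    obtain ⟨t, ht⟩ : q - 1 ∣ Qp / 2 := by
      obtain ⟨a, ha⟩ : ∃ a, i / 2 = 2 * a := ⟨i / 2 / 2, by omega⟩
      obtain ⟨k, hk⟩ : q * q - 1 ∣ Qp - 1 := by
        have := Nat.sub_dvd_pow_sub_pow (q * q) 1 a
        rwa [one_pow, ← pow_two, ← pow_mul, ← ha, pow_two, ← hQp] at this
      obtain ⟨j, hj⟩ : ∃ j, q = 2 * j + 1 := ⟨q / 2, by omega⟩
      have h1 : Qp % 2 = 1 := by simp [hQp, Nat.pow_mod, hq2]
      have h3 : q * q - 1 = (q - 1) * (2 * (j + 1)) := by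
        rw [hj, Nat.add_sub_cancel]
        have : (2 * j + 1) * (2 * j + 1) = 2 * j * (2 * (j + 1)) + 1 := by ring
        omega
      rw [h3] at hk
      refine ⟨(j + 1) * k, Nat.div_eq_of_lt_le ?_ ?_⟩ <;>
      · have : (q - 1) * (2 * (j + 1)) * k = (q - 1) * ((j + 1) * k) * 2 := by ring
        omega
    have hQodd : Qp % 2 = 1 := by simp [hQp, Nat.pow_mod, hq2]
    rw [show Qp = 2 * (Qp / 2) + 1 by omega, pow_succ, pow_mul, h2', ht, _root_.smul_pow, one_pow, pow_mul,
      ← h.hq, FiniteField.pow_card_sub_one_eq_one δ hδ, one_pow, one_smul, one_mul]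
  have h₂ : Str Q₂ δ J₂ := ⟨hsq, fun u v => by
    rw [hJ₂, hadj, hQp, GeomClasses.SympIsotropicOdd.aeval_pow_card h.hq P zX, ← hQp, ← hJ₂, hpowJ]⟩
  have h₂c : ∀ g, ∀ v, (ρ g).restrict (hXg g) (J₂ v) = J₂ ((ρ g).restrict (hXg g) v) := fun g => by
    have hc : Commute zX ((ρ g).restrict (hXg g)) := LinearMap.ext fun v => Subtype.ext (by
      show z (ρ g (v : V)) = ρ g (z (v : V))
      rw [← Module.End.mul_apply, hzcomm, Module.End.mul_apply])
    intro v
    have hcp : Commute J₂ ((ρ g).restrict (hXg g)) := by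
      rw [hJ₂]
      exact (commute_aeval hc.symm P).symm
    exact (LinearMap.congr_fun hcp.eq v).symm
  obtain ⟨J, hJ, hl', hr'⟩ := glue hB hKn h₁ h₂
  refine ⟨J, hJ, fun g v => ?_⟩
  obtain ⟨a, ha, b, hb, rfl⟩ := Submodule.mem_sup.1
    ((nd_isCompl hB hKn).sup_eq_top ▸ Submodule.mem_top : v ∈ Kf ⊔ X')
  rw [map_add, hl' ⟨a, ha⟩, hr' ⟨b, hb⟩, map_add, map_add, map_add,
    show ρ g a = ((ρK g ⟨a, ha⟩ : Kf) : V) from rfl, show ρ g b = (((ρ g).restrict (hXg g) ⟨b, hb⟩ : X') : V) from rfl,
    hl', hr', ← h₁c, ← h₂c]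
  rfl

end Cfsg.Agent.Linear.QuadStrElem
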