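/-
Core library: a group generated by two quadratically acting elements whose product is split
semisimple modulo its `p`-part has a two-dimensional section which is not a `p`-group.
-/
import Mathlib.LinearAlgebra.Matrix.SpecialLinearGroup
import Mathlib.LinearAlgebra.Matrix.ToLin
import Mathlib.LinearAlgebra.Matrix.Charpoly.Coeff
import Mathlib.LinearAlgebra.FiniteDimensional.Basic
import Mathlib.FieldTheory.Finite.Basic
import Mathlib.Algebra.CharP.Algebra
import Mathlib.GroupTheory.PGroup
import Mathlib.LinearAlgebra.Eigenspace.Basic

set_option autoImplicit false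
set_option linter.style.haveILetI false
set_option linter.unusedSectionVars false

namespace Cfsg.Agent.Linear.QuadraticPair

open Polynomial

universe v

variable {K : Type*} [Field K] [Fintype K] {p : ℕ} [Fact p.Prime] [CharP K p]
  {G : Type*} [Group G] [Finite G]

/-- A nilpotent operator kills a nonzero vector. -/
theorem exists_ker_of_nilpotent {W : Type*} [AddCommGroup W] [Module K W] (N : Module.End K W) :
    ∀ (j : ℕ) (u : W), u ≠ 0 → (N ^ j) u = 0 → ∃ v : W, v ≠ 0 ∧ N v = 0 := by
  intro j
  induction j with
  | zero => exact fun u hu h => absurd (by simpa using h) hu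
  | succ j ih =>
    intro u hu h
    by_cases h1 : N u = 0
    · exact ⟨u, hu, h1⟩
    · exact ih (N u) h1 (by rw [← Module.End.mul_apply, ← pow_succ, h])

/-- An eigenvector for a root of a split polynomial killing a vector. -/
theorem exists_eigen_of_prod {W : Type*} [AddCommGroup W] [Module K W] (T : Module.End K W) :
    ∀ (s : Multiset K) (u : W), u ≠ 0 → aeval T ((s.map fun c => X - C c).prod) u = 0 →
      ∃ (c : K) (v : W), v ≠ 0 ∧ T v = c • v := by
  intro s
  induction s using Multiset.induction with
  | empty => exact fun u hu h => absurd (by simpa using h) hu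
  | @cons c s ih =>
    intro u hu h
    rw [Multiset.map_cons, Multiset.prod_cons, map_mul, Module.End.mul_apply] at h
    by_cases h1 : aeval T ((s.map fun c => X - C c).prod) u = 0
    · exact ih u hu h1
    · refine ⟨c, _, h1, sub_eq_zero.1 ?_⟩
      simpa [sub_eq_zero] using h

/-- An operator whose order is a `p`-power times a divisor of `q - 1` has an eigenvector. -/
theorem exists_eigen {W : Type*} [AddCommGroup W] [Module K W] [Nontrivial W] (T : Module.End K W)
    {e k : ℕ} (hT : T ^ (p ^ e * k) = 1) (hk : k ∣ Fintype.card K - 1) :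
    ∃ (c : K) (v : W), v ≠ 0 ∧ T v = c • v := by
  haveI : CharP (Module.End K W) p :=
    charP_of_injective_algebraMap (algebraMap K (Module.End K W)).injective p
  have hnil : (T ^ k - 1) ^ (p ^ e) = 0 := by
    rw [sub_pow_char_pow_of_commute (p := p) (n := e) (h := Commute.one_right (T ^ k)), ← pow_mul, one_pow, mul_comm k, hT,
      sub_self]
  obtain ⟨u, hu⟩ := exists_ne (0 : W)
  obtain ⟨v, hv, hv0⟩ := exists_ker_of_nilpotent (T ^ k - 1) (p ^ e) u hu (by rw [hnil]; rfl)
  rw [LinearMap.sub_apply, Module.End.one_apply, sub_eq_zero] at hv0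
  have hq : (T ^ (Fintype.card K - 1)) v = v := by
    obtain ⟨d, hd⟩ := hk
    rw [hd, pow_mul]
    clear hd
    induction d with
    | zero => rfl
    | succ d ih => rw [pow_succ, Module.End.mul_apply, hv0, ih]
  refine exists_eigen_of_prod T (X ^ Fintype.card K - X : K[X]).roots v hv ?_
  have hdeg : (X ^ Fintype.card K - X : K[X]).natDegree = Fintype.card K :=
    FiniteField.X_pow_card_sub_X_natDegree_eq K Fintype.one_lt_card
  rw [prod_multiset_X_sub_C_of_monic_of_roots_card_eq
    (monic_X_pow_sub (by rw [degree_X]; exact_mod_cast Fintype.one_lt_card))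
    (by rw [FiniteField.roots_X_pow_card_sub_X, hdeg]; rfl), map_sub, map_pow, aeval_X,
    LinearMap.sub_apply, sub_eq_zero]
  conv_lhs => rw [← Nat.sub_add_cancel (Fintype.card_pos (α := K))]
  rw [pow_succ', Module.End.mul_apply]
  exact congrArg T hq

/-- The induction. -/
theorem exists_sl_two (s t : G) (hgen : Subgroup.closure {s, t} = (⊤ : Subgroup G)) {e k : ℕ}
    (hord : (s * t) ^ (p ^ e * k) = 1) (hk : k ∣ Fintype.card K - 1) :
    ∀ (n : ℕ) (W : Type v) [AddCommGroup W] [Module K W] [FiniteDimensional K W],
      Module.finrank K W = n → ∀ ρ : G →* Module.End K W, (ρ s - 1) ^ 2 = 0 → (ρ t - 1) ^ 2 = 0 →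
        ¬ (∀ g, ∃ j : ℕ, ρ g ^ (p ^ j) = 1) →
          ∃ φ : G →* Matrix.SpecialLinearGroup (Fin 2) K, ¬ IsPGroup p φ.range := by
  intro n
  induction n using Nat.strong_induction_on with
  | _ n ih =>
    intro W _ _ _ hn ρ hs ht hnp
    have hp : p.Prime := Fact.out
    haveI : Nontrivial W := by
      by_contra hc
      rw [not_nontrivial_iff_subsingleton] at hc
      exact hnp fun g => ⟨0, LinearMap.ext fun w => Subsingleton.elim _ _⟩
    haveI : CharP (Module.End K W) p :=
      charP_of_injective_algebraMap (algebraMap K (Module.End K W)).injective p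
    have hinv_of : ∀ P : Submodule K W, (∀ w ∈ P, ρ s w ∈ P) → (∀ w ∈ P, ρ t w ∈ P) →
        ∀ g, ∀ w ∈ P, ρ g w ∈ P := by
      intro P hPs hPt g
      have hg : g ∈ Subgroup.closure {s, t} := hgen ▸ Subgroup.mem_top g
      induction hg using Subgroup.closure_induction with
      | mem x hx =>
        rcases hx with rfl | rfl
        exacts [hPs, hPt]
      | one => intro w hw; rw [map_one]; exact hw
      | mul x y _ _ hx hy => intro w hw; rw [map_mul]; exact hx _ (hy w hw)
      | inv x _ hx =>
        intro w hw
        have e : x⁻¹ = x ^ (orderOf x - 1) := by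
          rw [inv_eq_iff_mul_eq_one, ← pow_succ', Nat.sub_add_cancel (orderOf_pos x),
            pow_orderOf_eq_one]
        rw [e, map_pow]
        clear e
        induction orderOf x - 1 with
        | zero => exact hw
        | succ m hm => rw [pow_succ', Module.End.mul_apply]; exact hx _ hm
    by_cases hred : ∃ P : Submodule K W, P ≠ ⊥ ∧ P ≠ ⊤ ∧ ∀ g, ∀ w ∈ P, ρ g w ∈ P
    · obtain ⟨P, hP0, hP1, hP⟩ := hred
      let ρ₁ : G →* Module.End K P :=
        { toFun := fun g => (ρ g).restrict (hP g)
          map_one' := LinearMap.ext fun w => Subtype.ext (by simp)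
          map_mul' := fun g h => LinearMap.ext fun w => Subtype.ext (by simp) }
      let ρ₂ : G →* Module.End K (W ⧸ P) :=
        { toFun := fun g => P.mapQ P (ρ g) (hP g)
          map_one' := Submodule.linearMap_qext _ (LinearMap.ext fun w => by simp)
          map_mul' := fun g h => Submodule.linearMap_qext _ (LinearMap.ext fun w => by simp) }
      have hquad : ∀ x, (ρ x - 1) ^ 2 = 0 → (ρ₁ x - 1) ^ 2 = 0 ∧ (ρ₂ x - 1) ^ 2 = 0 := by
        intro x hx
        refine ⟨LinearMap.ext fun w => Subtype.ext ?_,
          Submodule.linearMap_qext _ (LinearMap.ext fun w => ?_)⟩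
        · have := LinearMap.congr_fun hx (w : W)
          simpa [sq, ρ₁, mul_sub, sub_mul, LinearMap.sub_apply] using this
        · have := congrArg P.mkQ (LinearMap.congr_fun hx w)
          simpa [sq, ρ₂, mul_sub, sub_mul, LinearMap.sub_apply] using this
      by_cases h1 : ∀ g, ∃ j : ℕ, ρ₁ g ^ (p ^ j) = 1
      · refine ih (Module.finrank K (W ⧸ P)) ?_ (W ⧸ P) rfl ρ₂ (hquad s hs).2 (hquad t ht).2
          fun h2 => hnp fun g => ?_
        · have hPpos : 0 < Module.finrank K P := by
            haveI := Submodule.nontrivial_iff_ne_bot.2 hP0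
            exact Module.finrank_pos
          have := P.finrank_quotient_add_finrank
          omega
        · obtain ⟨i, hi⟩ := h1 g
          obtain ⟨j, hj⟩ := h2 g
          refine ⟨i + j + 1, ?_⟩
          set x := g ^ p ^ (i + j)
          have e1 : ρ₁ x = 1 := by
            rw [map_pow, pow_add, pow_mul, hi, one_pow]
          have e2 : ρ₂ x = 1 := by
            rw [map_pow, add_comm i j, pow_add, pow_mul, hj, one_pow]
          have hsq : (ρ x - 1) ^ 2 = 0 := by
            refine LinearMap.ext fun w => ?_
            have hmem : ρ x w - w ∈ P := by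
              have := LinearMap.congr_fun e2 (Submodule.Quotient.mk w)
              simpa [ρ₂, Submodule.Quotient.eq] using this
            have hfix : ρ x (ρ x w - w) = ρ x w - w :=
              congrArg Subtype.val (LinearMap.congr_fun e1 ⟨_, hmem⟩)
            rw [sq, Module.End.mul_apply, LinearMap.sub_apply, LinearMap.sub_apply,
              Module.End.one_apply, Module.End.one_apply, hfix, sub_self]
            rfl
          have : (ρ x - 1) ^ p = 0 := pow_eq_zero_of_le hp.two_le hsq
          rw [sub_pow_char_of_commute (p := p) (h := Commute.one_right (ρ x)), one_pow, sub_eq_zero] at this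
          rw [pow_succ, pow_mul, ← map_pow, ← map_pow, map_pow]
          exact this
      · exact ih (Module.finrank K P) (hn ▸ Submodule.finrank_lt hP1) P rfl ρ₁ (hquad s hs).1
          (hquad t ht).1 h1
    · push Not at hred
      obtain ⟨c, v, hv, hcv⟩ := exists_eigen (ρ (s * t)) (e := e) (k := k)
        (by rw [← map_pow, hord, map_one]) hk
      rw [map_mul, Module.End.mul_apply] at hcv
      have hsq : ∀ x, (ρ x - 1) ^ 2 = 0 → ∀ w, ρ x (ρ x w) = ρ x w + ρ x w - w := by
        intro x hx w
        have := LinearMap.congr_fun hx w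
        rw [sq, Module.End.mul_apply, LinearMap.sub_apply, LinearMap.sub_apply,
          Module.End.one_apply, Module.End.one_apply, map_sub, LinearMap.zero_apply] at this
        linear_combination (norm := module) this
      let P : Submodule K W := Submodule.span K {v, ρ t v}
      have hv1 : v ∈ P := Submodule.subset_span (by simp)
      have hv2 : ρ t v ∈ P := Submodule.subset_span (by simp)
      have hPt : ∀ w ∈ P, ρ t w ∈ P := by
        intro w hw
        obtain ⟨a, b, rfl⟩ := Submodule.mem_span_pair.1 hw
        rw [map_add, map_smul, map_smul, hsq t ht]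
        exact add_mem (P.smul_mem _ hv2) (P.smul_mem _ (sub_mem (add_mem hv2 hv2) hv1))
      have hsv : c • ρ s v = c • v + c • v - ρ t v := by
        rw [← map_smul, ← hcv, hsq s hs, hcv]
      have hsb : ρ s (ρ t v) ∈ P := by rw [hcv]; exact P.smul_mem _ hv1
      have hc : c ≠ 0 := by
        rintro rfl
        rw [zero_smul] at hcv
        have h := congrArg (ρ t⁻¹) (show ρ t v = 0 by
          have h' := congrArg (ρ s⁻¹) hcv
          rwa [← Module.End.mul_apply, ← map_mul, inv_mul_cancel, map_one, map_zero,
            Module.End.one_apply] at h')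
        rw [← Module.End.mul_apply, ← map_mul, inv_mul_cancel, map_one, map_zero,
          Module.End.one_apply] at h
        exact hv h
      have hPs : ∀ w ∈ P, ρ s w ∈ P := by
        intro w hw
        obtain ⟨a, b, rfl⟩ := Submodule.mem_span_pair.1 hw
        rw [map_add, map_smul, map_smul]
        refine add_mem (P.smul_mem _ ?_) (P.smul_mem _ hsb)
        rw [← inv_smul_smul₀ hc (ρ s v), hsv]
        exact P.smul_mem _ (sub_mem (add_mem (P.smul_mem _ hv1) (P.smul_mem _ hv1)) hv2)
      have hPtop : P = ⊤ := by
        by_contra hne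
        obtain ⟨g, w, hw, hw'⟩ := hred P (fun h => hv (by simpa [h] using hv1)) hne
        exact hw' (hinv_of P hPs hPt g w hw)
      have hle : n ≤ 2 := by
        classical
        rw [← hn, ← finrank_top K W, ← hPtop]
        have h := finrank_span_finset_le_card (R := K) ({v, ρ t v} : Finset W)
        rw [Finset.coe_insert, Finset.coe_singleton] at h
        exact h.trans Finset.card_le_two
      have hpos : 0 < n := hn ▸ Module.finrank_pos
      let B := Module.finBasisOfFinrankEq K W hn
      let M : G →* Matrix (Fin n) (Fin n) K :=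
        ((LinearMap.toMatrixAlgEquiv B : Module.End K W →ₐ[K] Matrix (Fin n) (Fin n) K) :
          Module.End K W →* Matrix (Fin n) (Fin n) K).comp ρ
      have hM2 : ∀ x, (ρ x - 1) ^ 2 = 0 → (M x - 1) ^ 2 = 0 := by
        intro x hx
        have := congrArg (LinearMap.toMatrixAlgEquiv B) hx
        simpa [M] using this
      rcases (show n = 1 ∨ n = 2 by omega) with rfl | rfl
      · exfalso
        have h1 : ∀ x, (ρ x - 1) ^ 2 = 0 → ρ x = 1 := by
          intro x hx
          have h2 := congrFun (congrFun (hM2 x hx) 0) 0
          rw [sq, Matrix.mul_apply, Fintype.sum_subsingleton _ (0 : Fin 1)] at h2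
          refine (LinearMap.toMatrixAlgEquiv B).injective (Matrix.ext fun i j => ?_)
          rw [Subsingleton.elim i 0, Subsingleton.elim j 0, map_one]
          exact sub_eq_zero.1 (mul_self_eq_zero.1 (by simpa [M] using h2))
        refine hnp fun g => ⟨0, ?_⟩
        rw [pow_zero, pow_one]
        have hg : g ∈ ρ.ker := by
          have hle' : Subgroup.closure {s, t} ≤ ρ.ker := (Subgroup.closure_le _).2 (by
            rintro x (rfl | rfl)
            exacts [h1 _ hs, h1 _ ht])
          exact hle' (hgen ▸ Subgroup.mem_top g)
        exact hg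
      · have hdet1 : ∀ x, (M x - 1) ^ 2 = 0 → (M x).det = 1 := by
          intro x hx
          set N := M x - 1 with hN
          have hnil : IsNilpotent N := ⟨2, hx⟩
          have htr : N.trace = 0 := (Matrix.isNilpotent_trace_of_isNilpotent hnil).eq_zero
          have hd : N.det = 0 := by
            have := congrArg Matrix.det hx
            rw [Matrix.det_pow, Matrix.det_zero] at this
            exact pow_eq_zero_iff (two_ne_zero) |>.1 this
          have hMx : M x = 1 + N := by rw [hN]; abel
          rw [Matrix.trace_fin_two] at htr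
          rw [Matrix.det_fin_two] at hd
          rw [hMx, Matrix.det_fin_two]
          simp only [Matrix.add_apply, Matrix.one_apply_eq, Matrix.one_apply_ne (zero_ne_one' (Fin 2)),
            Matrix.one_apply_ne (one_ne_zero' (Fin 2)), zero_add]
          linear_combination htr + hd
        have hdet : ∀ g, (M g).det = 1 := by
          intro g
          have hle' : Subgroup.closure {s, t} ≤
              ((Matrix.detMonoidHom : Matrix (Fin 2) (Fin 2) K →* K).comp M).ker :=
            (Subgroup.closure_le _).2 (by
              rintro x (rfl | rfl)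
              exacts [hdet1 _ (hM2 _ hs), hdet1 _ (hM2 _ ht)])
          exact hle' (hgen ▸ Subgroup.mem_top g)
        let φ : G →* Matrix.SpecialLinearGroup (Fin 2) K :=
          { toFun := fun g => ⟨M g, hdet g⟩
            map_one' := Subtype.ext (map_one M)
            map_mul' := fun g h => Subtype.ext (map_mul M g h) }
        refine ⟨φ, fun hP => hnp fun g => ?_⟩
        obtain ⟨j, hj⟩ := hP ⟨φ g, g, rfl⟩
        refine ⟨j, (LinearMap.toMatrixAlgEquiv B).injective ?_⟩
        have h2 : φ (g ^ p ^ j) = 1 := by
          rw [map_pow]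
          exact congrArg Subtype.val hj
        have h3 : M (g ^ p ^ j) = 1 := congrArg Subtype.val h2
        rw [map_pow, map_one]
        rwa [map_pow] at h3

end Cfsg.Agent.Linear.QuadraticPair
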