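import Cfsg.Agent.KnownB.NilChain
import Cfsg.Agent.Linear.RegUniTop
import Mathlib

/-!
# The regular unipotent classes of `SL_n(q)`
-/

set_option autoImplicit false
set_option linter.unusedSectionVars false

namespace Cfsg.Agent.Linear.RegUniClasses

open Matrix Polynomial

variable {F : Type*} [Field F] {n : ℕ}

local notation "Mat" => Matrix (Fin n) (Fin n) F

/-- The determinant of a scalar plus a nilpotent matrix. -/
theorem det_scalar_add_nilpotent {M : Mat} (hM : IsNilpotent M) (a : F) : (a • (1 : Mat) + M).det = a ^ n := by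
  have h := Matrix.isNilpotent_charpoly_sub_pow_of_isNilpotent hM.neg
  rw [Fintype.card_fin] at h
  have h0 : (-M).charpoly = X ^ n := sub_eq_zero.1 h.eq_zero
  have h1 := congrArg (eval a) h0
  rw [Matrix.eval_charpoly, eval_pow, eval_X, sub_neg_eq_add, Matrix.scalar_apply,
    ← Matrix.smul_one_eq_diagonal] at h1
  exact h1

theorem pow_card_eq_zero {M : Mat} (hM : IsNilpotent M) : M ^ n = 0 := by
  have h := Matrix.isNilpotent_charpoly_sub_pow_of_isNilpotent hM
  rw [Fintype.card_fin] at h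
  have h0 := M.aeval_self_charpoly
  rwa [sub_eq_zero.1 h.eq_zero, map_pow, aeval_X] at h0

/-- A regular nilpotent matrix. -/
def IsReg (N : Mat) : Prop := N ^ n = 0 ∧ N.rank = n - 1

local notation "E" => (Matrix.toLinAlgEquiv' : Mat ≃ₐ[F] Module.End F (Fin n → F))

theorem IsReg.endo {N : Mat} (h : IsReg N) (hn : 1 ≤ n) :
    E N ^ n = 0 ∧ Module.finrank F (LinearMap.ker (E N)) ≤ 1 ∧ ∃ v, (E N ^ (n - 1)) v ≠ 0 := by
  have hnil : E N ^ n = 0 := by rw [← map_pow, h.1, map_zero]
  have h1 : Module.finrank F (LinearMap.ker (E N)) ≤ 1 := by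
    have h' := LinearMap.finrank_range_add_finrank_ker (Matrix.mulVecLin N)
    rw [show Module.finrank F (LinearMap.range (Matrix.mulVecLin N)) = n - 1 from h.2,
      Module.finrank_fin_fun] at h'
    show Module.finrank F (LinearMap.ker (Matrix.mulVecLin N)) ≤ 1
    omega
  refine ⟨hnil, h1, ?_⟩
  by_contra hall
  push Not at hall
  have hker := KnownB.finrank_ker_pow (E N) (Module.finrank_fin_fun F) hnil h1 (show n - 1 ≤ n by omega)
  rw [LinearMap.ker_eq_top.mpr (LinearMap.ext hall), finrank_top, Module.finrank_fin_fun] at hker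
  omega

/-- Regular nilpotent matrices are conjugate. -/
theorem exists_conj {N N' : Mat} (h : IsReg N) (h' : IsReg N') (hn : 1 ≤ n) :
    ∃ P : GL (Fin n) F, P.1 * N = N' * P.1 := by
  obtain ⟨hnil, -, v, hv⟩ := h.endo hn
  obtain ⟨hnil', -, v', hv'⟩ := h'.endo hn
  obtain ⟨b, hb⟩ := KnownB.exists_pow_basis (E N) (Module.finrank_fin_fun F) hnil hv
  obtain ⟨b', hb'⟩ := KnownB.exists_pow_basis (E N') (Module.finrank_fin_fun F) hnil' hv'
  let e := b.equiv b' (Equiv.refl _)
  let P : GL (Fin n) F :=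
    ⟨(E).symm e.toLinearMap, (E).symm e.symm.toLinearMap,
      by rw [← map_mul, ← map_one (E).symm]; congr 1; exact LinearMap.ext fun x => by simp,
      by rw [← map_mul, ← map_one (E).symm]; congr 1; exact LinearMap.ext fun x => by simp⟩
  refine ⟨P, (E).injective ?_⟩
  show E ((E).symm e.toLinearMap * N) = E (N' * (E).symm e.toLinearMap)
  rw [map_mul, map_mul, AlgEquiv.apply_symm_apply]
  refine b.ext fun i => ?_
  have hei : ∀ j, e (b j) = b' j := fun j => b.equiv_apply j b' (Equiv.refl _)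
  rw [Module.End.mul_apply, Module.End.mul_apply]
  show e (E N (b i)) = E N' (e (b i))
  rw [hei, hb, hb', ← Module.End.mul_apply, ← pow_succ', ← Module.End.mul_apply, ← pow_succ']
  by_cases hi : (i : ℕ) + 1 < n
  · rw [← hb ⟨(i : ℕ) + 1, hi⟩, ← hb' ⟨(i : ℕ) + 1, hi⟩]
    exact hei _
  · rw [show (i : ℕ) + 1 = n by omega, hnil, hnil', LinearMap.zero_apply, LinearMap.zero_apply, map_zero]

/-- The determinants of the centraliser of a regular nilpotent matrix are `n`-th powers. -/
theorem det_of_commute {N : Mat} (h : IsReg N) (hn : 1 ≤ n) {g : GL (Fin n) F} (hc : g.1 * N = N * g.1) :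
    ∃ a : Fˣ, Matrix.GeneralLinearGroup.det g = a ^ n := by
  obtain ⟨hnil, hk, v, hv⟩ := h.endo hn
  set L := E N
  set G := E g.1 with hG
  have hGL : Commute G L := Commute.map hc _
  have happ : ∀ (k : ℕ) x, G ((L ^ k) x) = (L ^ k) (G x) := fun k x => LinearMap.congr_fun (hGL.pow_right k).eq x
  set w := (L ^ (n - 1)) v
  have hrange : LinearMap.range L = LinearMap.ker (L ^ (n - 1)) := by
    have := KnownB.range_pow_eq_ker_pow L (Module.finrank_fin_fun F) hnil hk hn
    rwa [pow_one] at this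
  have hwker : w ∈ LinearMap.ker L := by
    rw [LinearMap.mem_ker, ← Module.End.mul_apply, ← pow_succ', Nat.sub_add_cancel hn, hnil]; rfl
  have hker1 : Module.finrank F (LinearMap.ker L) = 1 := by
    refine le_antisymm hk ?_
    have : Nontrivial (LinearMap.ker L) := ⟨⟨⟨w, hwker⟩, 0, fun e => hv (congrArg Subtype.val e)⟩⟩
    exact Module.finrank_pos
  have hGw : G w ∈ LinearMap.ker L := by
    rw [LinearMap.mem_ker, ← pow_one L, ← happ, pow_one, LinearMap.mem_ker.1 hwker, map_zero]
  obtain ⟨a, ha⟩ := (finrank_eq_one_iff_of_nonzero' (⟨w, hwker⟩ : LinearMap.ker L)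
    (fun e => hv (congrArg Subtype.val e))).1 hker1 ⟨G w, hGw⟩
  have ha' : a • w = G w := congrArg Subtype.val ha
  set M := G - a • (1 : Module.End F (Fin n → F))
  have hML : Commute M L := hGL.sub_left ((Commute.one_left L).smul_left a)
  have hMv : M v ∈ LinearMap.range L := by
    rw [hrange, LinearMap.mem_ker]
    show (L ^ (n - 1)) (G v - a • v) = 0
    rw [map_sub, map_smul, ← happ, ha', sub_self]
  obtain ⟨b, hb⟩ := KnownB.exists_pow_basis L (Module.finrank_fin_fun F) hnil hv
  have hMrange : ∀ x, M x ∈ LinearMap.range L := by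
    intro x
    have hx : x ∈ Submodule.span F (Set.range b) := by rw [b.span_eq]; trivial
    induction hx using Submodule.span_induction with
    | mem y hy =>
      obtain ⟨i, rfl⟩ := hy
      rw [hb, ← Module.End.mul_apply, (hML.pow_right i).eq, Module.End.mul_apply]
      obtain ⟨z, hz⟩ := hMv
      refine ⟨(L ^ (i : ℕ)) z, ?_⟩
      rw [← hz, ← Module.End.mul_apply, ← Module.End.mul_apply, ← pow_succ', ← pow_succ]
    | zero => simp
    | add y z _ _ hy hz => rw [map_add]; exact add_mem hy hz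
    | smul c y _ hy => rw [map_smul]; exact Submodule.smul_mem _ _ hy
  have hMpow : ∀ (k : ℕ) x, (M ^ k) x ∈ LinearMap.range (L ^ k) := by
    intro k
    induction k with
    | zero => intro x; exact ⟨x, by simp⟩
    | succ k ih =>
      intro x
      obtain ⟨y, hy⟩ := ih x
      obtain ⟨z, hz⟩ := hMrange y
      refine ⟨z, ?_⟩
      rw [pow_succ' M, Module.End.mul_apply, ← hy, ← Module.End.mul_apply, (hML.pow_right k).eq, Module.End.mul_apply,
        ← hz, ← Module.End.mul_apply, ← pow_succ]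
  have hMnil : IsNilpotent ((E).symm M) := by
    refine ⟨n, ?_⟩
    rw [← map_pow, ← map_zero (E).symm]
    congr 1
    refine LinearMap.ext fun x => ?_
    obtain ⟨y, hy⟩ := hMpow n x
    rw [← hy, hnil]; rfl
  have hg : g.1 = a • (1 : Mat) + (E).symm M := by
    rw [map_sub, map_smul, map_one, add_sub_cancel, hG, AlgEquiv.symm_apply_apply]
  have hdet : g.1.det = a ^ n := by rw [hg, det_scalar_add_nilpotent hMnil]
  have ha0 : a ≠ 0 := fun h0 => GeneralLinearGroup.det_ne_zero g (by rw [hdet, h0, zero_pow (by omega)])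
  exact ⟨Units.mk0 a ha0, Units.ext (by rw [Units.val_pow_eq_pow_val]; exact hdet)⟩

/-- Regular nilpotent matrices exist. -/
theorem exists_isReg (hn : 1 ≤ n) : ∃ N : Mat, IsReg N := by
  haveI : NeZero n := ⟨by omega⟩
  obtain ⟨hnil, hne⟩ := RegUniGen.uU_regular (F := F) (n := n)
  set N := (RegUniGen.uU F n).1 - 1
  refine ⟨N, pow_card_eq_zero hnil, ?_⟩
  have hnil' : E N ^ n = 0 := by rw [← map_pow, pow_card_eq_zero hnil, map_zero]
  obtain ⟨v, hv⟩ : ∃ v, (E N ^ (n - 1)) v ≠ 0 := by
    by_contra! hall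
    exact hne ((E).injective (by rw [map_pow, map_zero]; exact LinearMap.ext hall))
  obtain ⟨b, hb⟩ := KnownB.exists_pow_basis (E N) (Module.finrank_fin_fun F) hnil' hv
  show Module.finrank F (LinearMap.range (E N)) = n - 1
  have hsum := LinearMap.finrank_range_add_finrank_ker (E N)
  rw [Module.finrank_fin_fun] at hsum
  have hlast : b ⟨n - 1, by omega⟩ ∈ LinearMap.ker (E N) := by
    rw [LinearMap.mem_ker, hb, ← Module.End.mul_apply, ← pow_succ', Nat.sub_add_cancel hn, hnil']; rfl
  have hk : 1 ≤ Module.finrank F (LinearMap.ker (E N)) := by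
    have : Nontrivial (LinearMap.ker (E N)) := ⟨⟨⟨_, hlast⟩, 0, fun e => b.ne_zero _ (congrArg Subtype.val e)⟩⟩
    exact Module.finrank_pos
  have hr : n - 1 ≤ Module.finrank F (LinearMap.range (E N)) := by
    have hli : LinearIndependent F fun i : Fin (n - 1) =>
        (⟨b ⟨(i : ℕ) + 1, by omega⟩, b ⟨(i : ℕ), by omega⟩, by
          rw [hb, hb, ← Module.End.mul_apply, ← pow_succ']⟩ : LinearMap.range (E N)) := by
      refine LinearIndependent.of_comp (LinearMap.range (E N)).subtype ?_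
      exact b.linearIndependent.comp (fun i : Fin (n - 1) => (⟨(i : ℕ) + 1, by omega⟩ : Fin n))
        fun i j h => Fin.ext (by simpa using congrArg Fin.val h)
    simpa using hli.fintype_card_le_finrank
  omega

theorem IsReg.conj {N : Mat} (h : IsReg N) (Q : GL (Fin n) F) : IsReg (Q.1 * N * (Q⁻¹).1) := by
  refine ⟨by rw [Units.conj_pow, h.1, mul_zero, zero_mul], ?_⟩
  rw [Matrix.rank_mul_eq_left_of_isUnit_det _ _ ((Matrix.isUnit_iff_isUnit_det _).1 (Q⁻¹).isUnit),
    Matrix.rank_mul_eq_right_of_isUnit_det _ _ ((Matrix.isUnit_iff_isUnit_det _).1 Q.isUnit)]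
  exact h.2

theorem card_quotient_pow [Fintype F] :
    Nat.card (Fˣ ⧸ (powMonoidHom n : Fˣ →* Fˣ).range) = Nat.gcd n (Fintype.card F - 1) := by
  rw [← Subgroup.index_eq_card]
  have h1 := (powMonoidHom n : Fˣ →* Fˣ).range.index_mul_card
  have h2 := (powMonoidHom n : Fˣ →* Fˣ).ker.index_mul_card
  rw [Subgroup.index_ker, IsCyclic.card_powMonoidHom_ker, Nat.card_units, Nat.card_eq_fintype_card (α := F)] at h2
  rw [Nat.card_units, Nat.card_eq_fintype_card (α := F), ← h2, mul_comm, Nat.gcd_comm] at h1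
  exact Nat.eq_of_mul_eq_mul_left Nat.card_pos h1

/-- The number of regular unipotent classes. -/
theorem card_classes [Fintype F] (hn : 2 ≤ n) :
    Nat.card {C : ConjClasses (Matrix.SpecialLinearGroup (Fin n) F) // ∃ u : Matrix.SpecialLinearGroup (Fin n) F,
      ConjClasses.mk u = C ∧ ((u : Mat) - 1) ^ n = 0 ∧ ((u : Mat) - 1).rank = n - 1} =
      Nat.gcd n (Fintype.card F - 1) := by
  classical
  obtain ⟨N0, hN0⟩ := exists_isReg (F := F) (n := n) (by omega)
  have hn1 : 1 ≤ n := by omega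
  haveI : Nonempty (Fin n) := ⟨⟨0, by omega⟩⟩
  choose Q hQ using (Matrix.GeneralLinearGroup.det_surjective : Function.Surjective (Matrix.GeneralLinearGroup.det : GL (Fin n) F →* Fˣ))
  let R := (powMonoidHom n : Fˣ →* Fˣ).range
  let U : Fˣ ⧸ R → Matrix.SpecialLinearGroup (Fin n) F := fun x =>
    ⟨1 + (Q x.out).1 * N0 * ((Q x.out)⁻¹).1, by
      have := det_scalar_add_nilpotent ⟨n, (hN0.conj (Q x.out)).1⟩ (1 : F)
      rwa [one_smul, one_pow] at this⟩
  let f : Fˣ ⧸ R → {C : ConjClasses (Matrix.SpecialLinearGroup (Fin n) F) //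
      ∃ u : Matrix.SpecialLinearGroup (Fin n) F,
      ConjClasses.mk u = C ∧ ((u : Mat) - 1) ^ n = 0 ∧ ((u : Mat) - 1).rank = n - 1} := fun x =>
    ⟨ConjClasses.mk (U x), U x, rfl, by
      rw [show (U x : Mat) - 1 = (Q x.out).1 * N0 * ((Q x.out)⁻¹).1 from add_sub_cancel_left _ _]
      exact hN0.conj _⟩
  have hf : Function.Bijective f := by
    refine ⟨fun x y e => ?_, fun C => ?_⟩
    · obtain ⟨g, hg⟩ := isConj_iff.1 (ConjClasses.mk_eq_mk_iff_isConj.1 (congrArg Subtype.val e))
      rw [mul_inv_eq_iff_eq_mul] at hg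
      have hg' : g.1 * ((Q x.out).1 * N0 * ((Q x.out)⁻¹).1) = (Q y.out).1 * N0 * ((Q y.out)⁻¹).1 * g.1 := by
        have := congrArg (fun s : Matrix.SpecialLinearGroup (Fin n) F => (s : Mat)) hg
        have this' : g.1 * (1 + (Q x.out).1 * N0 * ((Q x.out)⁻¹).1) =
            (1 + (Q y.out).1 * N0 * ((Q y.out)⁻¹).1) * g.1 := this
        rw [mul_add, add_mul, mul_one, one_mul] at this'
        exact add_left_cancel this'
      let z : GL (Fin n) F := (Q y.out)⁻¹ * Matrix.SpecialLinearGroup.toGL g * Q x.out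
      obtain ⟨a, ha⟩ := det_of_commute hN0 hn1 (g := z) (by
        show ((Q y.out)⁻¹).1 * g.1 * (Q x.out).1 * N0 = N0 * (((Q y.out)⁻¹).1 * g.1 * (Q x.out).1)
        calc ((Q y.out)⁻¹).1 * g.1 * (Q x.out).1 * N0
            = ((Q y.out)⁻¹).1 * (g.1 * ((Q x.out).1 * N0 * ((Q x.out)⁻¹).1)) * (Q x.out).1 := by
              simp only [mul_assoc, Units.inv_mul, mul_one]
          _ = _ := by
              rw [hg']
              simp only [mul_assoc, Units.inv_mul_cancel_left])
      have hgdet : Matrix.GeneralLinearGroup.det (Matrix.SpecialLinearGroup.toGL g) = 1 := Units.ext (by simp)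
      rw [show z = _ from rfl, map_mul, map_mul, map_inv, hgdet, mul_one, hQ, hQ] at ha
      rw [← QuotientGroup.out_eq' x, ← QuotientGroup.out_eq' y, eq_comm, QuotientGroup.eq]
      exact ⟨a, by rw [powMonoidHom_apply, ← ha]⟩
    · obtain ⟨u, hu, hureg⟩ := C.2
      obtain ⟨P, hP⟩ := exists_conj hN0 (show IsReg ((u : Mat) - 1) from hureg) hn1
      refine ⟨(Matrix.GeneralLinearGroup.det P : Fˣ ⧸ R), Subtype.ext ?_⟩
      show ConjClasses.mk _ = C.1
      rw [← hu, ConjClasses.mk_eq_mk_iff_isConj, isConj_iff]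
      set x : Fˣ ⧸ R := (Matrix.GeneralLinearGroup.det P : Fˣ ⧸ R)
      obtain ⟨⟨r, a, ha⟩, hr⟩ := QuotientGroup.mk_out_eq_mul R (Matrix.GeneralLinearGroup.det P)
      rw [powMonoidHom_apply] at ha
      let gm : Mat := (a : F) • (P.1 * ((Q x.out)⁻¹).1)
      have hdg : gm.det = 1 := by
        rw [Matrix.det_smul, Matrix.det_mul, Fintype.card_fin, ← Units.val_pow_eq_pow_val, ha]
        have h1 : ((Q x.out)⁻¹).1.det = (((x.out)⁻¹ : Fˣ) : F) := by
          rw [← hQ x.out, ← map_inv, hQ]; rfl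
        rw [h1, show (r : F) * (P.1.det * ((x.out)⁻¹ : Fˣ)) =
          (((Matrix.GeneralLinearGroup.det P * r) * (x.out)⁻¹ : Fˣ) : F) by
            push_cast; rw [Matrix.GeneralLinearGroup.val_det_apply]; ring]
        rw [← show x.out = _ from hr, mul_inv_cancel]; rfl
      refine ⟨⟨gm, hdg⟩, ?_⟩
      refine mul_inv_eq_iff_eq_mul.2 (Subtype.ext ?_)
      show gm * (1 + (Q x.out).1 * N0 * ((Q x.out)⁻¹).1) = (u : Mat) * gm
      simp only [gm]
      rw [mul_add, mul_one, smul_mul_assoc, mul_smul_comm,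
        show P.1 * ((Q x.out)⁻¹).1 * ((Q x.out).1 * N0 * ((Q x.out)⁻¹).1) = P.1 * N0 * ((Q x.out)⁻¹).1 by
          simp only [mul_assoc, Units.inv_mul_cancel_left],
        hP, ← smul_add]
      congr 1
      rw [← mul_assoc, sub_mul, one_mul, sub_mul, mul_assoc (u : Mat)]
      abel
  rw [← Nat.card_eq_of_bijective f hf, card_quotient_pow]

end Cfsg.Agent.Linear.RegUniClasses
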