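import Cfsg.Agent.Linear.SL2Subfield
import Cfsg.Agent.Linear.Transvection
import Cfsg.Agent.Linear.Card
import Mathlib

/-!
# Two unitriangular matrices generating `SL₂(q)`, `q` odd
-/

set_option linter.unusedSectionVars false
set_option autoImplicit false

namespace Cfsg.Agent.Linear.SL2TwoGen

open Subgroup Cfsg.Agent.Dickson

/-- The field with nine elements. -/
abbrev F9 := QuadraticAlgebra (ZMod 3) (-1) 0

/-- The element with a given number. -/
def dec9 (n : ℕ) : F9 := ⟨(n % 3 : ℕ), (n / 3 % 3 : ℕ)⟩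

/-- The number of an element. -/
def enc9 (x : F9) : ℕ := x.re.val + 3 * x.im.val

/-- The matrix with a given number. -/
def decM (n : ℕ) : Matrix (Fin 2) (Fin 2) F9 :=
  !![dec9 n, dec9 (n / 9); dec9 (n / 81), dec9 (n / 729)]

/-- The number of a matrix. -/
def encM (M : Matrix (Fin 2) (Fin 2) F9) : ℕ :=
  enc9 (M 0 0) + 9 * enc9 (M 0 1) + 81 * enc9 (M 1 0) + 729 * enc9 (M 1 1)

/-- The `120` elements of the exceptional group. -/
def list120 : List ℕ := [387, 392, 394, 477, 481, 485, 603, 607, 611, 693, 698, 700, 730, 757, 784, 811, 841, 871, 892, 925, 949, 1460, 1487, 1514, 1541, 1574, 1598, 1622, 1652, 1682, 2193, 2202, 2211, 2436, 2446, 2456, 2679, 2690, 2698, 3013, 3025, 3073, 3103, 3118, 3133, 3183, 3203, 3220, 3338, 3352, 3393, 3417, 3436, 3482, 3509, 3519, 3541, 3743, 3776, 3782, 3833, 3836, 3875, 3903, 3940, 3950, 3994, 4001, 4032, 4155, 4166, 4201, 4309, 4338, 4352, 4377, 4386, 4395, 4620, 4631, 4639, 4863, 4873, 4883, 5197, 5236, 5239, 5287, 5293, 5335, 5358, 5396, 5404, 5450, 5461, 5490, 5610,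 5620, 5657, 5765, 5796, 5812, 5927, 5942, 5993, 6017, 6038, 6050, 6096, 6115, 6134, 6250, 6272, 6309, 6330, 6350, 6394, 6421, 6435, 6461]

theorem length_list120 : list120.length = 120 := by decide +kernel

theorem one_mem_list : encM 1 ∈ list120 ∧ decM (encM 1) = 1 := by decide +kernel

theorem closed_list : ∀ n ∈ list120,
    (encM (decM n * !![1, 0; 1, 1]) ∈ list120 ∧
      decM (encM (decM n * !![1, 0; 1, 1])) = decM n * !![1, 0; 1, 1]) ∧
    (encM (decM n * !![1, ⟨0, 1⟩; 0, 1]) ∈ list120 ∧
      decM (encM (decM n * !![1, ⟨0, 1⟩; 0, 1])) = decM n * !![1, ⟨0, 1⟩; 0, 1]) := by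
  decide +kernel

variable {F : Type*} [Field F]

/-- The generated subgroup. -/
def gen (lam : F) : Subgroup (SL2 F) := Subgroup.closure {lel 1, uel lam}

theorem card_gen_le [Fintype F] [CharP F 3] {lam : F} (hlam : lam ^ 2 = -1) : Nat.card (gen lam) ≤ 120 := by
  classical
  have h30 : (3 : F) = 0 := by exact_mod_cast CharP.cast_eq_zero F 3
  haveI : Fact (Nat.Prime 3) := ⟨Nat.prime_three⟩
  letI : Algebra (ZMod 3) F := ZMod.algebra F 3
  let φ : F9 →+* F := (QuadraticAlgebra.lift (R := ZMod 3) (a := -1) (b := 0) (A := F)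
    ⟨lam, by rw [zero_smul, add_zero, neg_one_smul]; linear_combination hlam⟩).toRingHom
  have hφI : φ ⟨0, 1⟩ = lam := by
    change (QuadraticAlgebra.lift (R := ZMod 3) (a := -1) (b := 0) (A := F) ⟨lam, _⟩) ⟨0, 1⟩ = lam
    simp [QuadraticAlgebra.lift]
  let T : Finset (Matrix (Fin 2) (Fin 2) F) := (list120.map fun n => (decM n).map φ).toFinset
  have hT : T.card ≤ 120 := by
    refine (List.toFinset_card_le _).trans ?_
    rw [List.length_map, length_list120]
  have hmem : ∀ g ∈ gen lam, g.1 ∈ T := by
    intro g hg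
    induction hg using Subgroup.closure_induction_right with
    | one =>
      refine List.mem_toFinset.2 (List.mem_map.2 ⟨_, one_mem_list.1, ?_⟩)
      rw [one_mem_list.2, Matrix.map_one φ (map_zero φ) (map_one φ)]
      rfl
    | mul_right x _ y hy ih =>
      obtain ⟨n, hn, hx⟩ := List.mem_map.1 (List.mem_toFinset.1 ih)
      rcases hy with rfl | rfl
      · refine List.mem_toFinset.2 (List.mem_map.2 ⟨_, (closed_list n hn).1.1, ?_⟩)
        rw [(closed_list n hn).1.2, Matrix.map_mul, hx]
        change x.1 * _ = x.1 * _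
        congr 1
        ext i j
        fin_cases i <;> fin_cases j <;> simp [lel]
      · refine List.mem_toFinset.2 (List.mem_map.2 ⟨_, (closed_list n hn).2.1, ?_⟩)
        rw [(closed_list n hn).2.2, Matrix.map_mul, hx]
        change x.1 * _ = x.1 * _
        congr 1
        ext i j
        fin_cases i <;> fin_cases j <;> simp [uel, hφI]
    | mul_inv_cancel x _ y hy ih =>
      obtain ⟨n, hn, hx⟩ := List.mem_map.1 (List.mem_toFinset.1 ih)
      rcases hy with rfl | rfl
      · obtain ⟨h1, h2⟩ := (closed_list n hn).1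
        obtain ⟨h3, h4⟩ := (closed_list _ h1).1
        refine List.mem_toFinset.2 (List.mem_map.2 ⟨_, h3, ?_⟩)
        rw [h4, h2, Matrix.map_mul, Matrix.map_mul, hx]
        rw [show (lel (1 : F))⁻¹ = lel 1 * lel 1 from inv_eq_of_mul_eq_one_right (by
          rw [← lel_add, ← lel_add, show (1 : F) + (1 + 1) = 0 by linear_combination h30, lel_zero])]
        change x.1 * _ * _ = x.1 * ((lel (1 : F)).1 * (lel (1 : F)).1)
        rw [Matrix.mul_assoc]
        congr 1
        have e : (!![1, 0; 1, 1] : Matrix (Fin 2) (Fin 2) F9).map φ = (lel (1 : F)).1 := by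
          ext i j
          fin_cases i <;> fin_cases j <;> simp [lel]
        rw [e]
      · obtain ⟨h1, h2⟩ := (closed_list n hn).2
        obtain ⟨h3, h4⟩ := (closed_list _ h1).2
        refine List.mem_toFinset.2 (List.mem_map.2 ⟨_, h3, ?_⟩)
        rw [h4, h2, Matrix.map_mul, Matrix.map_mul, hx]
        rw [show (uel lam)⁻¹ = uel lam * uel lam from inv_eq_of_mul_eq_one_right (by
          rw [← uel_add, ← uel_add, show lam + (lam + lam) = 0 by linear_combination lam * h30, uel_zero])]
        change x.1 * _ * _ = x.1 * ((uel lam).1 * (uel lam).1)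
        rw [Matrix.mul_assoc]
        congr 1
        have e : (!![1, ⟨0, 1⟩; 0, 1] : Matrix (Fin 2) (Fin 2) F9).map φ = (uel lam).1 := by
          ext i j
          fin_cases i <;> fin_cases j <;> simp [uel, hφI]
        rw [e]
  refine le_trans ?_ hT
  rw [← Nat.card_eq_finsetCard]
  exact Nat.card_le_card_of_injective (fun g : gen lam => (⟨g.1.1, hmem _ g.2⟩ : T))
    fun a b h => Subtype.ext (Subtype.ext (congrArg (fun z : T => z.1) h))

theorem pow_five_coeff {g : SL2 F} (hns : ¬ IsScal g) (h : g ^ 5 = 1 ∨ g ^ 5 = -1) :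
    (tr g ^ 2 - tr g - 1) * (tr g ^ 2 + tr g - 1) = 0 := by
  set t := tr g with ht
  have hd := det_eq g
  have hsq : g.1 * g.1 = t • g.1 - 1 := by
    ext i j
    fin_cases i <;> fin_cases j <;> simp [Matrix.mul_apply, Fin.sum_univ_two, ht, tr]
    · linear_combination -hd
    · ring
    · ring
    · linear_combination -hd
  have h5 : (g ^ 5).1 = (t ^ 4 - 3 * t ^ 2 + 1) • g.1 - (t ^ 3 - 2 * t) • (1 : Matrix (Fin 2) (Fin 2) F) := by
    rw [Matrix.SpecialLinearGroup.coe_pow]
    simp only [pow_succ, pow_zero, one_mul, hsq, sub_mul, smul_mul_assoc, smul_sub, smul_smul]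
    module
  obtain ⟨e, he⟩ : ∃ e : F, (g ^ 5).1 = e • (1 : Matrix (Fin 2) (Fin 2) F) := by
    rcases h with h | h
    · exact ⟨1, by rw [h]; simp⟩
    · exact ⟨-1, by rw [h]; simp⟩
  rw [he] at h5
  by_contra hne
  have hk : t ^ 4 - 3 * t ^ 2 + 1 ≠ 0 := fun h0 => hne (by linear_combination h0)
  refine hns ⟨?_, ?_, ?_⟩
  · have := congrFun (congrFun h5 0) 1
    simpa [hk] using this
  · have := congrFun (congrFun h5 1) 0
    simpa [hk] using this
  · have e0 := congrFun (congrFun h5 0) 0
    have e1 := congrFun (congrFun h5 1) 1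
    simp at e0 e1
    exact mul_left_cancel₀ hk (by linear_combination e1 - e0)

theorem pow_two_coeff {g : SL2 F} (hns : ¬ IsScal g) (h : g * g = 1 ∨ g * g = -1) : tr g = 0 := by
  have hd := det_eq g
  by_contra hne
  refine hns ?_
  have e : ∀ c : F, (g * g).1 = c • (1 : Matrix (Fin 2) (Fin 2) F) → IsScal g := by
    intro c hc
    have e01 := congrFun (congrFun hc 0) 1
    have e10 := congrFun (congrFun hc 1) 0
    have e00 := congrFun (congrFun hc 0) 0
    have e11 := congrFun (congrFun hc 1) 1
    simp [Matrix.mul_apply, Fin.sum_univ_two] at e01 e10 e00 e11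
    simp [tr] at hne
    refine ⟨mul_left_cancel₀ hne (by linear_combination e01), mul_left_cancel₀ hne (by linear_combination e10),
      mul_left_cancel₀ hne (by linear_combination e00 - e11)⟩
  rcases h with h | h
  · exact e 1 (by rw [h]; simp)
  · exact e (-1) (by rw [h]; simp)

theorem main [Fintype F] (h2 : (2 : F) ≠ 0) {lam : F} (hlam : lam ≠ 0)
    (hgen : Subfield.closure ({lam} : Set F) = ⊤) :
    gen lam = ⊤ ∨ (Fintype.card F = 9 ∧ lam ^ 2 = -1 ∧ Nat.card (gen lam) = 120) := by
  classical
  obtain ⟨p, hchar⟩ := CharP.exists F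
  obtain ⟨k, hp', hpk⟩ := FiniteField.card F p
  haveI : Fact p.Prime := ⟨hp'⟩
  have hp : p ≠ 2 := by rintro rfl; exact h2 (CharP.cast_eq_zero F 2)
  set H := gen lam with hH
  have hu : uel lam ∈ H := Subgroup.subset_closure (Set.mem_insert_of_mem _ rfl)
  have hl : lel (1 : F) ∈ H := Subgroup.subset_closure (Set.mem_insert _ _)
  let ub : H := ⟨uel lam, hu⟩
  let lc : H := ⟨lel 1, hl⟩
  obtain ⟨P, hP⟩ := exists_sylow_mem (p := p) (x := ub) (by simp [ub, tr]; norm_num)
  obtain ⟨Q, hQ⟩ := exists_sylow_mem (p := p) (x := lc) (by simp [lc, tr]; norm_num)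
  have hub1 : ub ≠ 1 := fun e => hlam (by
    simpa [ub] using congrArg (fun g : H => (g : SL2 F) 0 1) e)
  have hS : 1 < Nat.card (Sylow p H) := by
    haveI : Nontrivial (Sylow p H) := ⟨⟨Q, P, fun e => one_ne_zero (α := F) (by
      simpa [lc] using ((mem_P_iff hp hlam (ub := ub) rfl hP lc).mp (e ▸ hQ)).1)⟩⟩
    exact Finite.one_lt_card
  rcases card_sylow_cases hp hS hlam (ub := ub) rfl hP with hN | ⟨hp3, -, hg, -, z0, hz0, h4, -, -, h10⟩
  · left
    obtain ⟨K, hKu, hKl, hc⟩ := SL2Subfield.exists_subfield hp hlam one_ne_zero (ub := ub) (lc := lc)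
      rfl rfl hP hQ hN
    rw [one_mul] at hc
    have hK : K = ⊤ := eq_top_iff.2 (hgen ▸ Subfield.closure_le.2 (Set.singleton_subset_iff.2 hc))
    refine Cfsg.Agent.Linear.eq_top_of_transvection_mem fun i j hij c => ?_
    fin_cases i <;> fin_cases j
    · exact absurd rfl hij
    · have h : uel c ∈ H := (hKu c).2 (hK ▸ Subfield.mem_top _)
      convert h using 1
      apply ext2 <;> simp [Cfsg.Agent.Linear.transvection_val, Matrix.transvection]
    · have h : lel c ∈ H := (hKl c).2 (hK ▸ Subfield.mem_top _)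
      convert h using 1
      apply ext2 <;> simp [Cfsg.Agent.Linear.transvection_val, Matrix.transvection]
    · exact absurd rfl hij
  · right
    subst hp3
    have h30 : (3 : F) = 0 := by exact_mod_cast CharP.cast_eq_zero F 3
    have hne1 : ∀ e : F, lam = e → e ^ 3 = e → False := by
      intro e he he3
      let L : Subfield F := RingHom.eqLocusField (frobenius F 3) (RingHom.id F)
      have hL : L = ⊤ := eq_top_iff.2 (hgen ▸ Subfield.closure_le.2 (Set.singleton_subset_iff.2 (by
        show lam ^ 3 = lam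
        rw [he, he3])))
      have hc : Fintype.card F ≤ 3 := by
        have hX : (Polynomial.X ^ 3 - Polynomial.X : Polynomial F) ≠ 0 :=
          FiniteField.X_pow_card_sub_X_ne_zero F (by norm_num)
        have := Polynomial.card_le_degree_of_subset_roots (p := (Polynomial.X ^ 3 - Polynomial.X : Polynomial F))
          (Z := Finset.univ) (fun x _ => by
            show x ∈ (_ : Polynomial F).roots
            rw [Polynomial.mem_roots hX, Polynomial.IsRoot, Polynomial.eval_sub, Polynomial.eval_pow,
              Polynomial.eval_X, sub_eq_zero]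
            exact (hL ▸ Subfield.mem_top x : x ∈ L))
        rwa [FiniteField.X_pow_card_sub_X_natDegree_eq F (by norm_num), Finset.card_univ] at this
      have hle := Subgroup.card_le_card_group H
      rw [hg, Cfsg.Agent.Linear.card_SL_two (F := F)] at hle
      have : Fintype.card F * (Fintype.card F ^ 2 - 1) ≤ 3 * (3 ^ 2 - 1) :=
        Nat.mul_le_mul hc (Nat.sub_le_sub_right (Nat.pow_le_pow_left hc 2) 1)
      omega
    have hl1 : lam ≠ 1 := fun e => hne1 1 e (one_pow 3)
    have hl2 : lam ≠ -1 := fun e => hne1 (-1) e (by ring)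
    -- orders of semisimple elements
    have hord : ∀ z : H, IsSS z → tr (z : SL2 F) ≠ 0 →
        (tr (z : SL2 F) ^ 2 - tr (z : SL2 F) - 1) * (tr (z : SL2 F) ^ 2 + tr (z : SL2 F) - 1) = 0 := by
      intro z hz ht0
      have hns := hz.not_scal
      by_cases hsat : z ∈ sat z0
      · exfalso
        obtain ⟨x, w, ⟨hw, -⟩, hxw⟩ := hsat
        have hw4 : w ^ 4 = 1 := by
          have := pow_card_eq_one' (G := cz z0) (x := ⟨w, hw⟩)
          rw [h4] at this
          exact congrArg Subtype.val this
        have hz4 : (z : SL2 F) ^ 4 = 1 := by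
          have h : z ^ 4 = 1 := by rw [← hxw, conj_pow, hw4]; group
          simpa using congrArg Subtype.val h
        refine ht0 (pow_two_coeff hns (eq_one_or_of_sq hp ?_))
        rw [← hz4]; simp [pow_succ, mul_assoc]
      · have hc := h10 z hz hsat
        have h1 := pow_card_eq_one' (G := cz z) (x := ⟨z, self_mem_cz z⟩)
        rw [hc] at h1
        have hz10 : (z : SL2 F) ^ 10 = 1 := by simpa using congrArg (fun y : cz z => ((y : H) : SL2 F)) h1
        exact pow_five_coeff hns (eq_one_or_of_sq hp (by rw [← pow_add]; exact hz10))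
    have htz : ∀ (z : H) (t : F), tr (z : SL2 F) = t → t ≠ 2 → t ≠ -2 → t ≠ 0 →
        (t ^ 2 - t - 1) * (t ^ 2 + t - 1) = 0 := fun z t h a b c => h ▸ hord z ⟨h ▸ a, h ▸ b⟩ (h ▸ c)
    have hA := htz (ub * lc) (lam - 1) (by simp [ub, lc, tr, mul_apply2]; linear_combination h30)
      (fun e => hlam (by linear_combination e + h30)) (fun e => hl2 (by linear_combination e))
      (fun e => hl1 (sub_eq_zero.1 e))
    have hB := htz (ub⁻¹ * lc) (-lam - 1) (by simp [ub, lc, tr, mul_apply2]; linear_combination h30)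
      (fun e => hlam (by linear_combination -e - h30)) (fun e => hl1 (by linear_combination -e))
      (fun e => hl2 (by linear_combination -e))
    have hsq : lam ^ 2 = -1 := by
      by_contra hne
      have hne' : lam ^ 2 + 1 ≠ 0 := fun e => hne (eq_neg_of_add_eq_zero_left e)
      have a1 : (lam ^ 2 + 1) * (lam ^ 2 - lam - 1) = 0 := by
        linear_combination hA +
          (lam * (lam ^ 2 - lam - 1)) * h30
      have a2 : (lam ^ 2 + 1) * (lam ^ 2 + lam - 1) = 0 := by
        linear_combination hB - (lam * (lam ^ 2 + lam - 1)) * h30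
      have b1 := (mul_eq_zero.1 a1).resolve_left hne'
      have b2 := (mul_eq_zero.1 a2).resolve_left hne'
      exact hlam ((mul_eq_zero.1 (show (2 : F) * lam = 0 by linear_combination b2 - b1)).resolve_left h2)
    have hcard9 : Fintype.card F = 9 := by
      let L : Subfield F := RingHom.eqLocusField (iterateFrobenius F 3 2) (RingHom.id F)
      have hL : L = ⊤ := eq_top_iff.2 (hgen ▸ Subfield.closure_le.2 (Set.singleton_subset_iff.2 (by
        show lam ^ 3 ^ 2 = lam
        rw [show (3 : ℕ) ^ 2 = 2 * 4 + 1 from rfl, pow_succ, pow_mul, hsq]; ring)))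
      have hc : Fintype.card F ≤ 9 := by
        have hX : (Polynomial.X ^ 9 - Polynomial.X : Polynomial F) ≠ 0 :=
          FiniteField.X_pow_card_sub_X_ne_zero F (by norm_num)
        have := Polynomial.card_le_degree_of_subset_roots (p := (Polynomial.X ^ 9 - Polynomial.X : Polynomial F))
          (Z := Finset.univ) (fun x _ => by
            show x ∈ (_ : Polynomial F).roots
            rw [Polynomial.mem_roots hX, Polynomial.IsRoot, Polynomial.eval_sub, Polynomial.eval_pow,
              Polynomial.eval_X, sub_eq_zero]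
            exact (hL ▸ Subfield.mem_top x : x ∈ L))
        rwa [FiniteField.X_pow_card_sub_X_natDegree_eq F (by norm_num), Finset.card_univ] at this
      have hne3 : Fintype.card F ≠ 3 := by
        intro h3
        have := FiniteField.pow_card lam
        rw [h3, pow_succ, hsq] at this
        exact h2 ((mul_eq_zero.1 (show (2 : F) * lam = 0 by linear_combination -this)).resolve_right hlam)
      have hk : (k : ℕ) = 2 := by
        have h1 : 1 ≤ (k : ℕ) := k.pos
        have h3 : (k : ℕ) < 3 := by
          by_contra h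
          have : 3 ^ 3 ≤ 3 ^ (k : ℕ) := Nat.pow_le_pow_right (by norm_num) (by omega)
          omega
        have h4' : (k : ℕ) ≠ 1 := fun h => hne3 (by rw [hpk, h, pow_one])
        omega
      rw [hpk, hk]; norm_num
    exact ⟨hcard9, hsq, hg⟩

theorem set_eq (lam : F) :
    Subgroup.closure {g : SL2 F | (g : Matrix (Fin 2) (Fin 2) F) = !![1, 0; 1, 1] ∨
      (g : Matrix (Fin 2) (Fin 2) F) = !![1, lam; 0, 1]} = gen lam := by
  refine congrArg Subgroup.closure (Set.ext fun g => ?_)
  simp only [Set.mem_setOf_eq, Set.mem_insert_iff, Set.mem_singleton_iff]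
  exact or_congr ⟨fun h => Subtype.ext h, fun h => congrArg Subtype.val h⟩
    ⟨fun h => Subtype.ext h, fun h => congrArg Subtype.val h⟩

end Cfsg.Agent.Linear.SL2TwoGen
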