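import Cfsg.Agent.Linear.SymType4Class
import Cfsg.Agent.Forms.HermSemisimple
import Cfsg.Agent.Forms.UnitaryOrder
import Cfsg.Agent.GeomClasses.UnitaryBasic
import Cfsg.Agent.S2389

/-!
The linear, unitary and symplectic groups in dimension four around a group of symplectic type.
-/

set_option autoImplicit false
set_option linter.unusedSectionVars false

namespace Cfsg.Agent.Linear.SymType4

open Matrix

variable {ι : Type} {F : Type*} [Fintype ι] [DecidableEq ι] [Field F]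

local notation "Mx" => Matrix ι ι F

/-! ### Scalars -/

/-- The scalar matrix. -/
def sc (c : Fˣ) : GL ι F := Units.map (algebraMap F (Matrix ι ι F)).toMonoidHom c

theorem sc_val (c : Fˣ) : ((sc c : GL ι F) : Mx) = (c : F) • (1 : Mx) := by
  rw [sc, Units.coe_map, RingHom.toMonoidHom_eq_coe, MonoidHom.coe_coe, Algebra.algebraMap_eq_smul_one]

theorem sc_comm (c : Fˣ) (x : GL ι F) : Commute (sc c) x :=
  Units.ext (by rw [Units.val_mul, Units.val_mul, sc_val, smul_mul_assoc, one_mul, mul_smul_comm, mul_one])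

theorem sc_det (hι : Fintype.card ι = 4) (c : Fˣ) : ((sc c : GL ι F) : Mx).det = (c : F) ^ 4 := by
  rw [sc_val, Matrix.det_smul, Matrix.det_one, hι, mul_one]

theorem sc_mem_normalizer [Finite F] {R : Subgroup (GL ι F)} (c : Fˣ) : sc c ∈ Cfsg.Geo.subgroupNormalizer R :=
  Subgroup.mem_normalizer_fintype fun x hx => by
    rw [(sc_comm c x).eq, mul_inv_cancel_right]
    exact hx

theorem exists_sc_of_scalar {x : GL ι F} [Nonempty ι] {z : F} (h : (x : Mx) = z • (1 : Mx)) :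
    ∃ c : Fˣ, (c : F) = z ∧ x = sc c := by
  have hz : z ≠ 0 := fun e => x.isUnit.ne_zero (by rw [h, e, zero_smul])
  exact ⟨Units.mk0 z hz, rfl, Units.ext (by rw [h, sc_val]; rfl)⟩

theorem sc_val_mul (c : Fˣ) (x : GL ι F) : ((sc c * x : GL ι F) : Mx) = (c : F) • (x : Mx) := by
  rw [Units.val_mul, sc_val, smul_mul_assoc, one_mul]

theorem Adj.sc_mem {G : Subgroup (GL ι F)} (A : Adj G) (c : Fˣ) (h : A.σ c * c = 1) : sc c ∈ G := by
  rw [A.mem, sc_val, A.smul, A.one, smul_mul_smul_comm, mul_one, h, one_smul]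

theorem Adj.sigma_of_mem [Nonempty ι] {G : Subgroup (GL ι F)} (A : Adj G) {x : GL ι F} (hx : x ∈ G) {z : F}
    (h : (x : Mx) = z • (1 : Mx)) : A.σ z * z = 1 := by
  have h1 := (A.mem x).1 hx
  rw [h, A.smul, A.one, smul_mul_smul_comm, mul_one] at h1
  simpa using congrFun (congrFun h1 (Classical.arbitrary ι)) (Classical.arbitrary ι)

/-- Conjugating a multiple of an element conjugate into the normalizer. -/
theorem conj_into [Finite F] {R : Subgroup (GL ι F)} {g x y h : GL ι F} (c : Fˣ) (hx : x = sc c * y)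
    (hg : g⁻¹ * y * g = h) (hh : h ∈ Cfsg.Geo.subgroupNormalizer R) : g⁻¹ * x * g ∈ Cfsg.Geo.subgroupNormalizer R := by
  rw [show g⁻¹ * x * g = sc c * h by
    rw [hx, ← hg, ← mul_assoc g⁻¹, ← (sc_comm c g⁻¹).eq]; group]
  exact mul_mem (sc_mem_normalizer c) hh

/-! ### Obstructions -/

namespace Dat

variable {R : Subgroup (GL ι F)} (S : Dat R)
include S

theorem nonscalar_conj {x g : GL ι F} (hns : ∀ c : F, (x : Mx) ≠ c • 1) (c : F) : ((g⁻¹ * x * g : GL ι F) : Mx) ≠ c • 1 :=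
  fun h => hns c (by
    rw [show x = g * (g⁻¹ * x * g) * g⁻¹ by group, Units.val_mul, Units.val_mul, h, mul_smul_comm, mul_one,
      smul_mul_assoc, ← Units.val_mul, mul_inv_cancel, Units.val_one])

theorem pow_conj {x g : GL ι F} {r : ℕ} {z : F} (hxr : ((x ^ r : GL ι F) : Mx) = z • 1) :
    (((g⁻¹ * x * g) ^ r : GL ι F) : Mx) = z • 1 := by
  have e : (g⁻¹ * x * g) ^ r = g⁻¹ * x ^ r * g := by
    have := conj_pow (i := r) (a := g⁻¹) (b := x)
    simpa using this
  rw [e, Units.val_mul, Units.val_mul, hxr, mul_smul_comm, mul_one, smul_mul_assoc, ← Units.val_mul, inv_mul_cancel,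
    Units.val_one]

theorem conj_quadratic {r : ℕ} [Fact r.Prime] (hr : 5 ≤ r) {x : GL ι F} {z : F} (hxr : ((x ^ r : GL ι F) : Mx) = z • 1)
    (hns : ∀ c : F, (x : Mx) ≠ c • 1) {α β : F} (hq : (x : Mx) * (x : Mx) = α • (x : Mx) + β • 1) (g : GL ι F) :
    g⁻¹ * x * g ∉ Cfsg.Geo.subgroupNormalizer R := by
  refine S.not_mem_of_quadratic hr (S.pow_conj hxr) (S.nonscalar_conj hns) (α := α) (β := β) ?_
  rw [← Units.val_mul, show g⁻¹ * x * g * (g⁻¹ * x * g) = g⁻¹ * (x * x) * g by group, Units.val_mul, Units.val_mul,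
    Units.val_mul x x, hq, mul_add, add_mul, mul_smul_comm, mul_smul_comm, smul_mul_assoc, smul_mul_assoc, mul_one,
    ← Units.val_mul, ← Units.val_mul, ← Units.val_mul, inv_mul_cancel, Units.val_one]

theorem conj_hyperplane {x : GL ι F} {z : F} (hxr : ((x ^ 3 : GL ι F) : Mx) = z • 1) (hns : ∀ c : F, (x : Mx) ≠ c • 1)
    {lam : F} {a b : ι → F} (hh : (x : Mx) = lam • 1 + vecMulVec a b) (g : GL ι F) :
    g⁻¹ * x * g ∉ Cfsg.Geo.subgroupNormalizer R := by
  refine S.not_mem_of_hyperplane (S.pow_conj hxr) (S.nonscalar_conj hns) (lam := lam)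
    (a := ((g⁻¹ : GL ι F) : Mx) *ᵥ a) (b := b ᵥ* (g : Mx)) ?_
  rw [Units.val_mul, Units.val_mul, hh, mul_add, add_mul, mul_smul_comm, mul_one, smul_mul_assoc, ← Units.val_mul,
    inv_mul_cancel, Units.val_one, Matrix.mul_vecMulVec, Matrix.vecMulVec_mul]

theorem conj_large [Finite F] {r : ℕ} [Fact r.Prime] (hr : 7 ≤ r)
    (hZ : Nat.card (Subgroup.center R) ∈ ({2, 4} : Set ℕ)) (hR : Nat.card R = 16 * Nat.card (Subgroup.center R))
    {x : GL ι F} {z : F} (hxr : ((x ^ r : GL ι F) : Mx) = z • 1) (hns : ∀ c : F, (x : Mx) ≠ c • 1) (g : GL ι F) :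
    g⁻¹ * x * g ∉ Cfsg.Geo.subgroupNormalizer R := fun hg => by
  obtain ⟨u, hu, hmove⟩ := S.exists_moved (S.nonscalar_conj (g := g) hns)
  exact hmove (S.centralises_of_seven hr (S.pow_conj hxr) hg hZ hR u hu)

/-- A derangement of order at least seven in any group of matrices of determinant one. -/
theorem exists_large [Fintype F] {r : ℕ} [Fact r.Prime] (hr : 7 ≤ r)
    (hZ : Nat.card (Subgroup.center R) ∈ ({2, 4} : Set ℕ)) (hR : Nat.card R = 16 * Nat.card (Subgroup.center R))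
    (T : Subgroup (GL ι F)) (hT : ∀ t ∈ T, (t : Mx).det = 1)
    (hΩ : r ∣ (Cfsg.Geo.subgroupNormalizer R).relIndex T) :
    ∃ x ∈ T, (∃ z : F, ((x ^ r : GL ι F) : Mx) = z • (1 : Mx)) ∧ (∀ z : F, (x : Mx) ≠ z • (1 : Mx)) ∧
      ∀ g ∈ T, g⁻¹ * x * g ∉ Cfsg.Geo.subgroupNormalizer R := by
  classical
  haveI := S.nonempty
  haveI : Finite T := inferInstance
  obtain ⟨⟨x, hx⟩, hxo⟩ := exists_prime_orderOf_dvd_card' (G := T) r (hΩ.trans (Subgroup.relIndex_dvd_card _ _))
  rw [← Subgroup.orderOf_coe] at hxo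
  have hxr : ((x ^ r : GL ι F) : Mx) = (1 : F) • 1 := by rw [← hxo, pow_orderOf_eq_one, one_smul, Units.val_one]
  have hns : ∀ c : F, (x : Mx) ≠ c • 1 := fun c hc => by
    have h4 : c ^ 4 = 1 := by
      have := hT x hx
      rwa [hc, Matrix.det_smul, Matrix.det_one, mul_one, S.dim] at this
    have hr' : c ^ r = 1 := by
      rw [Units.val_pow_eq_pow_val, hc, smul_pow, one_pow] at hxr
      simpa using congrFun (congrFun hxr (Classical.arbitrary ι)) (Classical.arbitrary ι)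
    have h := pow_gcd_eq_one.2 ⟨h4, hr'⟩
    have hcop : Nat.gcd 4 r = 1 := Nat.Coprime.symm
      ((Nat.Prime.coprime_iff_not_dvd (Fact.out : r.Prime)).2 fun hd => by have := Nat.le_of_dvd (by norm_num) hd; omega)
    rw [hcop, pow_one] at h
    have h1 : x = 1 := Units.ext (by rw [hc, h, one_smul, Units.val_one])
    have ho : orderOf x = r := hxo
    rw [h1, orderOf_one] at ho
    omega
  exact ⟨x, hx, ⟨1, hxr⟩, hns, fun g _ => S.conj_large hr hZ hR hxr hns g⟩

end Dat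

/-- An element commuting with an anticommuting pair cannot have a cyclic image of `y - 1` of rank at most two. -/
theorem no_pair (h2 : (2 : F) ≠ 0) {y : Mx} {A B : GL ι F} (hAB : A * B = -(B * A)) (hA : Commute y (A : Mx))
    (hB : Commute y (B : Mx)) {u v : ι → F} (hv : v = (y - 1) *ᵥ u) (hv0 : v ≠ 0)
    (hspan : ∀ w, ∃ α β : F, (y - 1) *ᵥ w = α • v + β • (y *ᵥ v)) : False := by
  have hc : ∀ (M : Mx), Commute y M → ∀ w, M *ᵥ ((y - 1) *ᵥ w) = (y - 1) *ᵥ (M *ᵥ w) := fun M hM w => by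
    rw [mulVec_mulVec, mulVec_mulVec, (hM.sub_left (Commute.one_left M)).eq]
  have hy : ∀ (M : Mx), Commute y M → ∀ w, M *ᵥ (y *ᵥ w) = y *ᵥ (M *ᵥ w) := fun M hM w => by
    rw [mulVec_mulVec, mulVec_mulVec, hM.eq]
  obtain ⟨α, β, hAv⟩ := hspan ((A : Mx) *ᵥ u)
  obtain ⟨γ, δ, hBv⟩ := hspan ((B : Mx) *ᵥ u)
  rw [← hc _ hA, ← hv] at hAv
  rw [← hc _ hB, ← hv] at hBv
  have e1 : (A : Mx) *ᵥ ((B : Mx) *ᵥ v) = (B : Mx) *ᵥ ((A : Mx) *ᵥ v) := by
    rw [hBv, mulVec_add, mulVec_smul, mulVec_smul, hy _ hA, hAv, mulVec_add, mulVec_smul, mulVec_smul, mulVec_add,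
      mulVec_smul, mulVec_smul, hy _ hB, hBv, mulVec_add, mulVec_smul, mulVec_smul]
    module
  rw [mulVec_mulVec, mulVec_mulVec, ← Units.val_mul, ← Units.val_mul, hAB, Units.val_neg, neg_mulVec, neg_eq_iff_add_eq_zero,
    ← two_smul F] at e1
  have h := congrArg (((B * A)⁻¹ : GL ι F) : Mx).mulVec ((smul_eq_zero.1 e1).resolve_left h2)
  rw [mulVec_mulVec, ← Units.val_mul, inv_mul_cancel, Units.val_one, one_mulVec, mulVec_zero] at h
  exact hv0 h

/-! ### The linear group -/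

section Linear

variable [Fintype F]

theorem linear_conj {x y : GL (Fin 4) F} {m : ℕ} (hm : (m : F) ≠ 0) (hx : x ^ m = 1) (hy : y ^ m = 1)
    (hc : (x : Matrix (Fin 4) (Fin 4) F).charpoly = (y : Matrix (Fin 4) (Fin 4) F).charpoly) :
    ∃ g ∈ Cfsg.Geo.specialLinear (Fin 4) F, g⁻¹ * x * g = y := by
  obtain ⟨e, hdet, he⟩ := Forms.exists_conj_of_charpoly_eq hm 4 (Matrix.toLin' (y : Matrix (Fin 4) (Fin 4) F))
    (Matrix.toLin' (x : Matrix (Fin 4) (Fin 4) F))
    (by rw [← Matrix.toLin'_pow, ← Units.val_pow_eq_pow_val, hy, Units.val_one, Matrix.toLin'_one]; rfl)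
    (by rw [← Matrix.toLin'_pow, ← Units.val_pow_eq_pow_val, hx, Units.val_one, Matrix.toLin'_one]; rfl)
    (by rw [Matrix.charpoly_toLin', Matrix.charpoly_toLin', hc])
  have hd : (LinearMap.toMatrix' (e : Module.End F (Fin 4 → F))).det = 1 := by rw [LinearMap.det_toMatrix', hdet]
  refine ⟨Matrix.GeneralLinearGroup.mkOfDetNeZero _ (by rw [hd]; exact one_ne_zero), Units.ext hd, ?_⟩
  rw [mul_assoc, inv_mul_eq_iff_eq_mul]
  refine Units.ext (Matrix.toLin'.injective ?_)
  rw [Units.val_mul, Units.val_mul]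
  change Matrix.toLin' (_ * LinearMap.toMatrix' (e : Module.End F (Fin 4 → F))) =
    Matrix.toLin' (LinearMap.toMatrix' (e : Module.End F (Fin 4 → F)) * _)
  rw [Matrix.toLin'_mul, Matrix.toLin'_mul, Matrix.toLin'_toMatrix']
  exact LinearMap.ext fun w => (he w).symm

theorem det_of_special {ι : Type} [Fintype ι] [DecidableEq ι] {x : GL ι F} (h : x ∈ Cfsg.Geo.specialLinear ι F) :
    (x : Matrix ι ι F).det = 1 :=
  congrArg Units.val h

end Linear

/-! ### The unitary group -/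

section Unitary

variable [Fintype F] {n q : ℕ} (hF : Fintype.card F = q ^ 2)
include hF

/-- The adjoint of the hermitian form. -/
noncomputable def adjGU : Adj (Cfsg.GU n F q) where
  σ := Forms.frobQ hF
  τ M := (M.map (Forms.frobQ hF)).transpose
  add M N := by rw [Matrix.map_add _ (map_add _), Matrix.transpose_add]
  smul c M := by ext i j; simp [Matrix.transpose_apply, mul_pow]
  one := by rw [Matrix.map_one _ (map_zero _) (map_one _), Matrix.transpose_one]
  mul M N := by rw [Matrix.map_mul, Matrix.transpose_mul]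
  mem g := by
    have hq0 : q ≠ 0 := fun h => by rw [h] at hF; simp at hF
    have key : ∀ u v : Fin n → F, Cfsg.hermForm n F q ((g : Matrix (Fin n) (Fin n) F) *ᵥ u) ((g : Matrix (Fin n) (Fin n) F) *ᵥ v) =
        u ⬝ᵥ (((g : Matrix (Fin n) (Fin n) F).transpose * (g : Matrix (Fin n) (Fin n) F).map (Forms.frobQ hF)) *ᵥ
          (⇑(Forms.frobQ hF) ∘ v)) := fun u v => by
      have e : ∀ w w' : Fin n → F, Cfsg.hermForm n F q w w' = w ⬝ᵥ (⇑(Forms.frobQ hF) ∘ w') := fun w w' => by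
        simp [Cfsg.hermForm, dotProduct]
      have e2 : ⇑(Forms.frobQ hF) ∘ ((g : Matrix (Fin n) (Fin n) F) *ᵥ v) =
          (g : Matrix (Fin n) (Fin n) F).map (Forms.frobQ hF) *ᵥ (⇑(Forms.frobQ hF) ∘ v) :=
        funext fun i => (RingHom.map_mulVec (Forms.frobQ hF) _ v i)
      rw [e, e2, ← Matrix.mulVec_mulVec, Matrix.dotProduct_mulVec u, Matrix.vecMul_transpose]
    have hflip : ((g : Matrix (Fin n) (Fin n) F).map (Forms.frobQ hF)).transpose * (g : Matrix (Fin n) (Fin n) F) =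
        ((g : Matrix (Fin n) (Fin n) F).transpose * (g : Matrix (Fin n) (Fin n) F).map (Forms.frobQ hF)).transpose := by
      rw [Matrix.transpose_mul, Matrix.transpose_transpose]
    refine ⟨fun h => ?_, fun h => ?_⟩
    · rw [hflip, ← Matrix.transpose_one]
      congr 1
      refine Matrix.ext fun i k => ?_
      have h1 := h (Pi.single i 1) (Pi.single k 1)
      change Cfsg.hermForm n F q ((g : Matrix (Fin n) (Fin n) F) *ᵥ Pi.single i 1) ((g : Matrix (Fin n) (Fin n) F) *ᵥ Pi.single k 1) = _ at h1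
      have hs : ⇑(Forms.frobQ hF) ∘ (Pi.single k 1 : Fin n → F) = Pi.single k 1 := funext fun j => by
        by_cases hj : j = k
        · subst hj; simp
        · simp [hj, zero_pow hq0]
      rw [key, hs, single_dotProduct, one_mul, Matrix.mulVec_single_one, Matrix.col_apply] at h1
      rw [h1]
      simp [Cfsg.hermForm, Matrix.one_apply, Pi.single_apply, ite_pow, zero_pow hq0, eq_comm]
    · intro u v
      show Cfsg.hermForm n F q ((g : Matrix (Fin n) (Fin n) F) *ᵥ u) ((g : Matrix (Fin n) (Fin n) F) *ᵥ v) = Cfsg.hermForm n F q u v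
      rw [hflip] at h
      have h' := congrArg Matrix.transpose h
      rw [Matrix.transpose_transpose, Matrix.transpose_one] at h'
      rw [key, h', Matrix.one_mulVec]
      simp [Cfsg.hermForm, dotProduct]

theorem unitary_conj (hn : 0 < n) {x y : GL (Fin n) F} (hxU : x ∈ Cfsg.GU n F q) (hyU : y ∈ Cfsg.GU n F q) {m : ℕ}
    (hm : (m : F) ≠ 0) (hx : x ^ m = 1) (hy : y ^ m = 1)
    (hc : (x : Matrix (Fin n) (Fin n) F).charpoly = (y : Matrix (Fin n) (Fin n) F).charpoly) :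
    ∃ g ∈ Cfsg.GU n F q ⊓ Cfsg.Geo.specialLinear (Fin n) F, g⁻¹ * x * g = y := by
  set σ := Forms.frobQ hF
  have hσ2 : ∀ c, σ (σ c) = c := Forms.frobQ_frobQ hF
  let B : (Fin n → F) →ₗ[F] (Fin n → F) →ₛₗ[σ] F := (Forms.hermB n hF).flip
  have hBapp : ∀ u v, B u v = Cfsg.hermForm n F q u v := fun u v => rfl
  have hB : Forms.NondegHerm σ B := ⟨fun u v => (Forms.hermB_isSymm hF).eq v u,
    fun u hu => (Forms.hermB_nondegenerate (n := n) hF).2 u fun v => hu v⟩
  let T : GL (Fin n) F → ((Fin n → F) ≃ₗ[F] (Fin n → F)) := fun k => Forms.glEquiv (Fin n) F k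
  have hT : ∀ k v, T k v = (k : Matrix (Fin n) (Fin n) F) *ᵥ v := fun k v => rfl
  have hTiso : ∀ k ∈ Cfsg.GU n F q, ∀ u v, B (T k u) (T k v) = B u v := by
    intro k hk u v
    rw [hBapp, hBapp, hT, hT]
    exact hk u v
  have hTlin : ∀ k : GL (Fin n) F, (T k : Module.End F (Fin n → F)) = Matrix.toLin' (k : Matrix (Fin n) (Fin n) F) :=
    fun k => rfl
  have hTpow : ∀ k : GL (Fin n) F, k ^ m = 1 → (T k : Module.End F (Fin n → F)) ^ m = 1 := by
    intro k hk
    rw [hTlin, ← Matrix.toLin'_pow, ← Units.val_pow_eq_pow_val, hk, Units.val_one, Matrix.toLin'_one]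
    rfl
  obtain ⟨⟨e, he, hiso⟩, hz⟩ := Forms.exists_herm_conj hσ2 (Forms.frobQ_ne_id hF) hm n B B hB hB (T y) (T x)
    (hTiso y hyU) (hTiso x hxU) (hTpow y hy) (hTpow x hx)
    (by rw [hTlin, hTlin, Matrix.charpoly_toLin', Matrix.charpoly_toLin', hc])
  set d := LinearMap.det (e : Module.End F (Fin n → F)) with hd
  have hdd : d * σ d = 1 := by
    refine Forms.det_norm_one hF (e : Module.End F (Fin n → F)) fun u v => ?_
    exact hiso v u
  have hd0 : d ≠ 0 := fun h0 => by rw [h0, zero_mul] at hdd; exact zero_ne_one hdd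
  obtain ⟨c, hc0, hcd⟩ := Forms.exists_div_sigma hσ2 (Forms.frobQ_ne_id hF) (x := d⁻¹)
    (by rw [map_inv₀, ← mul_inv, hdd, inv_one])
  obtain ⟨z, hzb, hziso, hzd⟩ := hz hn c hc0
  let E := e.trans z
  have hEdet : (LinearMap.toMatrix' (E : Module.End F (Fin n → F))).det = 1 := by
    rw [LinearMap.det_toMatrix', LinearEquiv.coe_trans, LinearMap.det_comp, hzd, hcd, ← hd,
      inv_mul_cancel₀ hd0]
  refine ⟨Matrix.GeneralLinearGroup.mkOfDetNeZero _ (by rw [hEdet]; exact one_ne_zero), ⟨?_, Units.ext hEdet⟩, ?_⟩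
  · intro u v
    change Cfsg.hermForm n F q (LinearMap.toMatrix' (E : Module.End F (Fin n → F)) *ᵥ u)
      (LinearMap.toMatrix' (E : Module.End F (Fin n → F)) *ᵥ v) = _
    rw [LinearMap.toMatrix'_mulVec, LinearMap.toMatrix'_mulVec, ← hBapp]
    change B (z (e u)) (z (e v)) = Cfsg.hermForm n F q u v
    rw [hziso, hiso, hBapp]
  · rw [mul_assoc, inv_mul_eq_iff_eq_mul]
    refine Units.ext (Matrix.toLin'.injective ?_)
    rw [Units.val_mul, Units.val_mul]
    change Matrix.toLin' (_ * LinearMap.toMatrix' (E : Module.End F (Fin n → F))) =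
      Matrix.toLin' (LinearMap.toMatrix' (E : Module.End F (Fin n → F)) * _)
    rw [Matrix.toLin'_mul, Matrix.toLin'_mul, Matrix.toLin'_toMatrix', ← hTlin, ← hTlin]
    refine LinearMap.ext fun w => ?_
    change T x (z (e w)) = z (e (T y w))
    rw [he, hzb]

end Unitary

/-! ### The symplectic group -/

section Symplectic

variable {m : ℕ}

theorem mem_spGL {g : GL (Fin m ⊕ Fin m) F} :
    g ∈ Cfsg.spGL m F ↔ (g : Matrix (Fin m ⊕ Fin m) (Fin m ⊕ Fin m) F) ∈ Matrix.symplecticGroup (Fin m) F := by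
  rw [Forms.mem_symplectic_iff]
  rfl

/-- The adjoint of the alternating form. -/
noncomputable def adjSp : Adj (Cfsg.spGL m F) where
  σ := RingHom.id F
  τ M := -(Matrix.J (Fin m) F * M.transpose * Matrix.J (Fin m) F)
  add M N := by rw [Matrix.transpose_add, mul_add, add_mul, neg_add]
  smul c M := by rw [Matrix.transpose_smul, mul_smul_comm, smul_mul_assoc, RingHom.id_apply, smul_neg]
  one := by rw [Matrix.transpose_one, mul_one, Matrix.J_squared, neg_neg]
  mul M N := by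
    rw [Matrix.transpose_mul, neg_mul_neg]
    rw [show Matrix.J (Fin m) F * N.transpose * Matrix.J (Fin m) F * (Matrix.J (Fin m) F * M.transpose * Matrix.J (Fin m) F) =
      Matrix.J (Fin m) F * N.transpose * (Matrix.J (Fin m) F * Matrix.J (Fin m) F) * M.transpose * Matrix.J (Fin m) F by
        simp only [mul_assoc], Matrix.J_squared]
    simp only [mul_assoc, neg_mul, one_mul, mul_neg]
  mem g := by
    rw [mem_spGL, SymplecticGroup.mem_iff']
    refine ⟨fun h => ?_, fun h => ?_⟩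
    · rw [neg_mul, show ∀ a b c d : Matrix (Fin m ⊕ Fin m) (Fin m ⊕ Fin m) F, a * b * c * d = a * (b * c * d) from
        fun a b c d => by simp only [mul_assoc], h, Matrix.J_squared, neg_neg]
    · rw [neg_mul, show ∀ a b c d : Matrix (Fin m ⊕ Fin m) (Fin m ⊕ Fin m) F, a * b * c * d = a * (b * c * d) from
        fun a b c d => by simp only [mul_assoc]] at h
      have h' := congrArg (Matrix.J (Fin m) F * ·) h
      simp only [mul_neg, mul_one, ← mul_assoc, Matrix.J_squared, neg_mul, neg_neg, one_mul] at h'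
      exact h'

theorem symplectic_conj [Fintype F] {p : ℕ} [Fact p.Prime] [CharP F p] {x y : GL (Fin m ⊕ Fin m) F}
    (hxS : x ∈ Cfsg.spGL m F) (hyS : y ∈ Cfsg.spGL m F) {k : ℕ} (hk : (k : F) ≠ 0) (hx : x ^ k = 1) (hy : y ^ k = 1)
    (hc : (x : Matrix (Fin m ⊕ Fin m) (Fin m ⊕ Fin m) F).charpoly = (y : Matrix (Fin m ⊕ Fin m) (Fin m ⊕ Fin m) F).charpoly) :
    ∃ g ∈ Cfsg.spGL m F, g⁻¹ * x * g = y := by
  let X : Matrix.symplecticGroup (Fin m) F := ⟨x, mem_spGL.1 hxS⟩
  let Y : Matrix.symplecticGroup (Fin m) F := ⟨y, mem_spGL.1 hyS⟩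
  have hord : ∀ (a : GL (Fin m ⊕ Fin m) F) (ha : a ∈ Cfsg.spGL m F), a ^ k = 1 →
      (orderOf (⟨a, mem_spGL.1 ha⟩ : Matrix.symplecticGroup (Fin m) F)).Coprime p := by
    intro a ha hak
    refine Nat.Coprime.coprime_dvd_left (orderOf_dvd_of_pow_eq_one (Subtype.ext ?_))
      (Nat.Coprime.symm ((Nat.Prime.coprime_iff_not_dvd Fact.out).2 fun h => hk ((CharP.cast_eq_zero_iff F p k).2 h)))
    rw [SubmonoidClass.coe_pow, OneMemClass.coe_one, ← Units.val_pow_eq_pow_val, hak, Units.val_one]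
  obtain ⟨c, hc'⟩ := isConj_iff.1 (Cfsg.Agent.S2389.result p m Y X (hord y hyS hy) (hord x hxS hx) hc.symm)
  have hdet : ((c : Matrix (Fin m ⊕ Fin m) (Fin m ⊕ Fin m) F)).det ≠ 0 := (SymplecticGroup.symplectic_det c.2).ne_zero
  refine ⟨Matrix.GeneralLinearGroup.mkOfDetNeZero _ hdet, mem_spGL.2 c.2, ?_⟩
  rw [mul_assoc, inv_mul_eq_iff_eq_mul]
  refine Units.ext ?_
  have h := congrArg Subtype.val (mul_inv_eq_iff_eq_mul.1 hc')
  simp only [Units.val_mul]
  exact h.symm

end Symplectic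

end Cfsg.Agent.Linear.SymType4
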