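import Cfsg.Agent.Linear.SymType4Elems
import Cfsg.Agent.Forms.SemisimpleConj

/-!
Characteristic polynomials of elements of order two, three and five in dimension four.
-/

set_option autoImplicit false
set_option linter.unusedSectionVars false

namespace Cfsg.Agent.Linear.SymType4

open Matrix Polynomial UniqueFactorizationMonoid

variable {ι : Type} {F : Type*} [Fintype ι] [DecidableEq ι] [Field F]

local notation "Mx" => Matrix ι ι F

theorem adj_zero {G : Subgroup (GL ι F)} (A : Adj G) : A.τ (0 : Mx) = 0 := by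
  simpa using A.smul 0 (1 : Mx)

/-- An irreducible factor of the characteristic polynomial divides every annihilating polynomial. -/
theorem factor_dvd {y : Mx} {f P : F[X]} (hf : Irreducible f) (hdvd : f ∣ y.charpoly) (hP : aeval y P = 0) : f ∣ P := by
  classical
  set e := Fintype.equivFin ι
  set A := Matrix.reindexAlgEquiv F F e y with hA
  have hA' : A = Matrix.reindex e e y := rfl
  rw [← Matrix.charpoly_reindex e y, ← hA', ← Matrix.charpoly_toLin'] at hdvd
  obtain ⟨v, hv, hfv⟩ := Forms.exists_ker_of_dvd_charpoly (Matrix.toLin' A) hf hdvd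
  by_contra hnd
  obtain ⟨a, b, hab⟩ := (hf.coprime_iff_not_dvd).2 hnd
  have hPA : aeval (Matrix.toLin' A) P = 0 := by
    rw [show (Matrix.toLin' A : Module.End F (Fin (Fintype.card ι) → F)) = Matrix.toLinAlgEquiv' A from rfl,
      Polynomial.aeval_algHom_apply, hA, Polynomial.aeval_algHom_apply, hP, map_zero, map_zero]
  have h := congrArg (fun q => aeval (Matrix.toLin' A) q v) hab
  simp only [map_add, map_mul, hPA, mul_zero, map_one, LinearMap.add_apply, Module.End.mul_apply, hfv, map_zero,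
    LinearMap.zero_apply, add_zero, Module.End.one_apply] at h
  exact hv h.symm

/-- A monic polynomial is the product of powers of the possible irreducible factors. -/
theorem exists_prod_pows [DecidableEq F] {P : F[X]} (hP : P.Monic) (L : List F[X])
    (hL : ∀ f : F[X], Irreducible f → f.Monic → f ∣ P → f ∈ L) (hnd : L.Nodup) :
    ∃ e : F[X] → ℕ, P = (L.map fun f => f ^ e f).prod := by
  refine ⟨fun f => (normalizedFactors P).count f, ?_⟩
  have hsub : (normalizedFactors P).toFinset ⊆ L.toFinset := fun f hf => by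
    rw [Multiset.mem_toFinset] at hf
    rw [List.mem_toFinset]
    have hirr := irreducible_of_normalized_factor f hf
    refine hL f hirr ?_ (dvd_of_mem_normalizedFactors hf)
    rw [← normalize_normalized_factor f hf]
    exact monic_normalize hirr.ne_zero
  have h : (normalizedFactors P).prod = P := by rw [prod_normalizedFactors_eq hP.ne_zero, hP.normalize_eq_self]
  rw [Finset.prod_multiset_count_of_subset _ _ hsub] at h
  exact h.symm.trans (List.prod_toFinset _ hnd)

/-- An element of order prime to the characteristic is semisimple. -/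
theorem aeval_of_pow {y : Mx} {m : ℕ} (hm : (m : F) ≠ 0) (hy : y ^ m = 1) {P : F[X]} {k : ℕ}
    (h : aeval y (P ^ k) = 0) : aeval y P = 0 := by
  rcases Nat.eq_zero_or_pos k with rfl | hk
  · rw [pow_zero, map_one] at h
    rw [← mul_one (aeval y P), h, mul_zero]
  have hdvd : minpoly F y ∣ X ^ m - 1 := minpoly.dvd F y (by simp [hy])
  have hsq : Squarefree (minpoly F y) :=
    (separable_X_pow_sub_C (1 : F) hm one_ne_zero).squarefree.squarefree_of_dvd (by rwa [map_one])
  have h1 := (hsq.dvd_pow_iff_dvd hk.ne').1 (minpoly.dvd F y h)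
  obtain ⟨q, hq⟩ := h1
  rw [hq, map_mul, minpoly.aeval, zero_mul]

/-- Annihilated by the product of the distinct factors of the characteristic polynomial. -/
theorem aeval_of_charpoly {y : Mx} {m : ℕ} (hm : (m : F) ≠ 0) (hy : y ^ m = 1) {P : F[X]} (k : ℕ)
    (h : y.charpoly ∣ P ^ k) : aeval y P = 0 := by
  refine aeval_of_pow hm hy (k := k) ?_
  obtain ⟨q, hq⟩ := h
  rw [hq, map_mul, Matrix.aeval_self_charpoly, zero_mul]

theorem natDegree_charpoly (hι : Fintype.card ι = 4) (y : Mx) : y.charpoly.natDegree = 4 := by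
  rw [Matrix.charpoly_natDegree_eq_dim, hι]

theorem det_eq_eval (hι : Fintype.card ι = 4) (y : Mx) : y.det = y.charpoly.eval 0 := by
  rw [Matrix.det_eq_sign_charpoly_coeff, hι, coeff_zero_eq_eval_zero]
  norm_num

/-- Involutions. -/
theorem charpoly_two [DecidableEq F] (hι : Fintype.card ι = 4) (h2 : (2 : F) ≠ 0) {y : Mx} (hy : y * y = 1)
    (h1 : y ≠ 1) (h1' : y ≠ -1) :
    ∃ b : ℕ, (b = 1 ∨ b = 2 ∨ b = 3) ∧ y.charpoly = (X - C 1) ^ (4 - b) * (X + C 1) ^ b ∧
      y.det = (-1) ^ b ∧ y.trace = 4 - 2 * (b : F) := by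
  haveI : Nonempty ι := Fintype.card_pos_iff.1 (by omega)
  have hirr : Irreducible (X - C (1 : F)) := irreducible_X_sub_C 1
  have hirr' : Irreducible (X + C (1 : F)) := by simpa using irreducible_X_sub_C (-1 : F)
  have hne : (X - C (1 : F)) ≠ X + C 1 := fun h => h2 (by
    have := congrArg (fun p => p.coeff 0) h
    simp at this
    linear_combination -this)
  have hann : aeval y ((X - C (1 : F)) * (X + C 1)) = 0 := by
    simp [mul_add, sub_mul, hy]
  have hm : ((2 : ℕ) : F) ≠ 0 := by simpa using h2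
  have hy2 : y ^ 2 = 1 := by rw [pow_two, hy]
  obtain ⟨e, he⟩ := exists_prod_pows (Matrix.charpoly_monic y) [X - C 1, X + C 1] (fun f hf hmon hfd => by
    rcases hf.prime.dvd_or_dvd (factor_dvd hf hfd hann) with h | h
    · simp [eq_of_monic_of_associated hmon (monic_X_sub_C 1) (hf.associated_of_dvd hirr h)]
    · simp [eq_of_monic_of_associated hmon (monic_X_add_C 1) (hf.associated_of_dvd hirr' h)]) (List.nodup_cons.2 ⟨by simpa using hne, List.nodup_singleton _⟩)
  simp only [List.map_cons, List.map_nil, List.prod_cons, List.prod_nil, mul_one] at he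
  set a := e (X - C 1)
  set b := e (X + C 1)
  have hdeg : a + b = 4 := by
    have h := natDegree_charpoly hι y
    rw [he, ((monic_X_sub_C (1 : F)).pow a).natDegree_mul ((monic_X_add_C (1 : F)).pow b),
      natDegree_pow, natDegree_pow, natDegree_X_sub_C, natDegree_X_add_C, mul_one, mul_one] at h
    exact h
  have hb0 : b ≠ 0 := fun h => h1 (by
    have h3 := aeval_of_charpoly hm hy2 (P := X - C (1 : F)) a (by rw [he, h, pow_zero, mul_one])
    simpa [sub_eq_zero] using h3)
  have ha0 : a ≠ 0 := fun h => h1' (by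
    have h3 := aeval_of_charpoly hm hy2 (P := X + C (1 : F)) b (by rw [he, h, pow_zero, one_mul])
    exact eq_neg_of_add_eq_zero_left (by simpa using h3))
  refine ⟨b, by omega, ?_, ?_, ?_⟩
  · rw [he, show 4 - b = a by omega]
  · rw [det_eq_eval hι, he]
    simp only [eval_mul, eval_pow, eval_sub, eval_add, eval_X, eval_C, zero_sub, zero_add, one_pow, mul_one]
    rw [show a = 4 - b by omega]
    rcases (show b = 1 ∨ b = 2 ∨ b = 3 by omega) with h | h | h <;> rw [h] <;> norm_num
  · rw [Matrix.trace_eq_neg_charpoly_nextCoeff, he, Monic.nextCoeff_mul ((monic_X_sub_C 1).pow a) ((monic_X_add_C 1).pow b),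
      Monic.nextCoeff_pow (monic_X_sub_C 1), Monic.nextCoeff_pow (monic_X_add_C 1), nextCoeff_X_sub_C, nextCoeff_X_add_C]
    have hab : (a : F) + (b : F) = 4 := by exact_mod_cast congrArg (Nat.cast : ℕ → F) hdeg
    simp only [nsmul_eq_mul]
    linear_combination hab

/-- The trace separates the three kinds of involution. -/
theorem two_sep (h2 : (2 : F) ≠ 0) {b b' : ℕ} (hb : b = 1 ∨ b = 2 ∨ b = 3) (hb' : b' = 1 ∨ b' = 2 ∨ b' = 3)
    (h : (4 : F) - 2 * (b : F) = 4 - 2 * (b' : F)) : b = b' := by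
  have h1 : (b : F) = (b' : F) := mul_left_cancel₀ h2 (by linear_combination -h)
  rcases hb with rfl | rfl | rfl <;> rcases hb' with rfl | rfl | rfl <;> first
    | rfl
    | (exfalso; norm_num at h1; done)
    | (exfalso; norm_num at h1; first
        | exact h2 (by linear_combination h1)
        | exact h2 (by linear_combination -h1)
        | exact one_ne_zero (show (1 : F) = 0 by linear_combination h1)
        | exact one_ne_zero (show (1 : F) = 0 by linear_combination -h1))

/-- A scalar square that is a non-square: `X² - z` is irreducible. -/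
theorem charpoly_sq [DecidableEq F] (hι : Fintype.card ι = 4) {z : F} (hnsq : ∀ c : F, c * c ≠ z) {y : Mx}
    (hy : y * y = z • (1 : Mx)) : y.charpoly = (X ^ 2 - C z) ^ 2 ∧ y.det = z ^ 2 := by
  have hmon : (X ^ 2 - C z).Monic := monic_X_pow_sub_C z two_ne_zero
  have hdeg : (X ^ 2 - C z).natDegree = 2 := natDegree_X_pow_sub_C
  have hirr : Irreducible (X ^ 2 - C z) := by
    rw [hmon.irreducible_iff_roots_eq_zero_of_degree_le_three (by omega) (by omega), Multiset.eq_zero_iff_forall_notMem]
    intro c hc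
    rw [mem_roots hmon.ne_zero] at hc
    simp only [IsRoot, eval_sub, eval_pow, eval_X, eval_C] at hc
    exact hnsq c (by linear_combination hc)
  have hann : aeval y (X ^ 2 - C z) = 0 := by simp [pow_two, hy, Algebra.algebraMap_eq_smul_one]
  obtain ⟨e, he⟩ := exists_prod_pows (Matrix.charpoly_monic y) [X ^ 2 - C z] (fun f hf hmon' hfd => by
    simp [eq_of_monic_of_associated hmon' hmon (hf.associated_of_dvd hirr (factor_dvd hf hfd hann))]) (List.nodup_singleton _)
  simp only [List.map_cons, List.map_nil, List.prod_cons, List.prod_nil, mul_one] at he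
  have h := natDegree_charpoly hι y
  rw [he, natDegree_pow, hdeg] at h
  have he' : y.charpoly = (X ^ 2 - C z) ^ 2 := by rw [he, show e (X ^ 2 - C z) = 2 by omega]
  refine ⟨he', ?_⟩
  rw [det_eq_eval hι, he']
  simp

/-- The two types of elements of order three: `X² + X + 1` irreducible. -/
theorem charpoly_three [DecidableEq F] (hι : Fintype.card ι = 4) (h3 : (3 : F) ≠ 0) (hroot : ∀ c : F, c ^ 3 = 1 → c = 1)
    {y : Mx} (hy : y ^ 3 = 1) (h1 : y ≠ 1) :
    (y * y + y + 1 = 0 ∧ y.charpoly = (X ^ 2 + X + 1) ^ 2) ∨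
      (y * y + y + 1 ≠ 0 ∧ y.charpoly = (X - C 1) ^ 2 * (X ^ 2 + X + 1)) := by
  set Φ : F[X] := X ^ 2 + X + 1 with hΦ
  have hmon : Φ.Monic := by simp only [hΦ]; monicity!
  have hdeg : Φ.natDegree = 2 := by simp only [hΦ]; compute_degree!
  have hirr : Irreducible Φ := by
    rw [hmon.irreducible_iff_roots_eq_zero_of_degree_le_three (by omega) (by omega), Multiset.eq_zero_iff_forall_notMem]
    intro c hc
    rw [mem_roots hmon.ne_zero] at hc
    simp only [hΦ, IsRoot, eval_add, eval_pow, eval_X, eval_one] at hc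
    have hc1 := hroot c (by linear_combination (c - 1) * hc)
    exact h3 (by rw [hc1] at hc; linear_combination hc)
  have hne : X - C (1 : F) ≠ Φ := fun h => by
    have := congrArg natDegree h
    rw [natDegree_X_sub_C, hdeg] at this
    omega
  have hm : ((3 : ℕ) : F) ≠ 0 := by simpa using h3
  have hann : aeval y ((X - C (1 : F)) * Φ) = 0 := by
    rw [show (X - C (1 : F)) * Φ = X ^ 3 - 1 by simp only [hΦ, map_one]; ring]
    simp [hy]
  obtain ⟨e, he⟩ := exists_prod_pows (Matrix.charpoly_monic y) [X - C 1, Φ] (fun f hf hmon' hfd => by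
    rcases hf.prime.dvd_or_dvd (factor_dvd hf hfd hann) with h | h
    · simp [eq_of_monic_of_associated hmon' (monic_X_sub_C 1) (hf.associated_of_dvd (irreducible_X_sub_C 1) h)]
    · simp [eq_of_monic_of_associated hmon' hmon (hf.associated_of_dvd hirr h)]) (List.nodup_cons.2 ⟨by simpa using hne, List.nodup_singleton _⟩)
  simp only [List.map_cons, List.map_nil, List.prod_cons, List.prod_nil, mul_one] at he
  set a := e (X - C 1)
  set b := e Φ
  have hab : a + 2 * b = 4 := by
    have h := natDegree_charpoly hι y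
    rw [he, ((monic_X_sub_C (1 : F)).pow a).natDegree_mul (hmon.pow b),
      natDegree_pow, natDegree_pow, natDegree_X_sub_C, hdeg] at h
    omega
  have hb0 : b ≠ 0 := fun h => h1 (by
    have h4 := aeval_of_charpoly hm hy (P := X - C (1 : F)) a (by rw [he, h, pow_zero, mul_one])
    simpa [sub_eq_zero] using h4)
  rcases (show b = 1 ∨ b = 2 by omega) with hb | hb
  · refine Or.inr ⟨fun h => ?_, by rw [he, hb, pow_one, show a = 2 by omega]⟩
    have h4 : aeval y Φ = 0 := by simp [hΦ, pow_two, h]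
    have hdvd : X - C (1 : F) ∣ Φ := factor_dvd (irreducible_X_sub_C 1)
      (by rw [he, show a = 2 by omega]; exact dvd_mul_of_dvd_left (dvd_pow_self _ two_ne_zero) _) h4
    exact hne (eq_of_monic_of_associated (monic_X_sub_C 1) hmon ((irreducible_X_sub_C 1).associated_of_dvd hirr hdvd))
  · refine Or.inl ⟨?_, by rw [he, hb, show a = 0 by omega, pow_zero, one_mul]⟩
    have h4 := aeval_of_charpoly hm hy (P := Φ) 2 (by rw [he, hb, show a = 0 by omega, pow_zero, one_mul])
    simpa [hΦ, pow_two] using h4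

/-- The two types of unitary elements of order three: a cube root of one in the fixed field. -/
theorem charpoly_three_unitary [DecidableEq F] (hι : Fintype.card ι = 4) (h3 : (3 : F) ≠ 0) {ω : F} (hω : ω ^ 3 = 1)
    (hω1 : ω ≠ 1) {G : Subgroup (GL ι F)} (A : Adj G) (hσ : A.σ ω = ω) {g : GL ι F} (hg : g ∈ G)
    (hy : (g : Mx) ^ 3 = 1) (h1 : (g : Mx) ≠ 1) (hdet : (g : Mx).det = 1) :
    ((g : Mx) * (g : Mx) + (g : Mx) + 1 = 0 ∧ (g : Mx).charpoly = (X ^ 2 + X + 1) ^ 2) ∨
      ((g : Mx) * (g : Mx) + (g : Mx) + 1 ≠ 0 ∧ (g : Mx).charpoly = (X - C 1) ^ 2 * (X ^ 2 + X + 1)) := by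
  haveI : Nonempty ι := Fintype.card_pos_iff.1 (by omega)
  set y := (g : Mx) with hyd
  have hω2 : ω * ω + ω + 1 = 0 :=
    (mul_eq_zero.1 (show (ω - 1) * (ω * ω + ω + 1) = 0 by linear_combination hω)).resolve_left (sub_ne_zero.2 hω1)
  have hω0 : ω ≠ 0 := fun h => by rw [h] at hω; simp at hω
  have hω12 : ω * ω ≠ 1 := fun h => hω1 (by linear_combination hω - ω * h)
  have hωω : ω * ω ≠ ω := fun h => hω1 (mul_left_cancel₀ hω0 (by rw [h, mul_one]))
  have hfac : (X - C ω) * (X - C (ω * ω)) = X ^ 2 + X + 1 := by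
    have e1 : C ω + C (ω * ω) = -(1 : F[X]) := by rw [← C_add, show ω + ω * ω = -1 by linear_combination hω2, C_neg, C_1]
    have e2 : C ω * C (ω * ω) = (1 : F[X]) := by rw [← C_mul, show ω * (ω * ω) = 1 by linear_combination hω, C_1]
    linear_combination -X * e1 + e2
  have hm : ((3 : ℕ) : F) ≠ 0 := by simpa using h3
  have hann : aeval y ((X - C (1 : F)) * ((X - C ω) * (X - C (ω * ω)))) = 0 := by
    rw [hfac, show (X - C (1 : F)) * (X ^ 2 + X + 1) = X ^ 3 - 1 by simp only [map_one]; ring]
    simp [hy]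
  obtain ⟨e, he⟩ := exists_prod_pows (Matrix.charpoly_monic y) [X - C 1, X - C ω, X - C (ω * ω)] (fun f hf hmon' hfd => by
    rcases hf.prime.dvd_or_dvd (factor_dvd hf hfd hann) with h | h
    · simp [eq_of_monic_of_associated hmon' (monic_X_sub_C 1) (hf.associated_of_dvd (irreducible_X_sub_C 1) h)]
    rcases hf.prime.dvd_or_dvd h with h | h
    · simp [eq_of_monic_of_associated hmon' (monic_X_sub_C ω) (hf.associated_of_dvd (irreducible_X_sub_C ω) h)]
    · simp [eq_of_monic_of_associated hmon' (monic_X_sub_C _) (hf.associated_of_dvd (irreducible_X_sub_C _) h)])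
    (by
      have inj : ∀ u v : F, u ≠ v → X - C u ≠ X - C v := fun u v huv h => huv (C_injective (sub_right_inj.1 h))
      exact List.nodup_cons.2 ⟨by
        simp only [List.mem_cons, List.not_mem_nil, or_false, not_or]
        exact ⟨inj _ _ hω1.symm, inj _ _ hω12.symm⟩, List.nodup_cons.2 ⟨by
        simp only [List.mem_singleton]
        exact inj _ _ hωω.symm, List.nodup_singleton _⟩⟩)
  simp only [List.map_cons, List.map_nil, List.prod_cons, List.prod_nil, mul_one] at he
  set a := e (X - C 1)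
  set b := e (X - C ω)
  set c := e (X - C (ω * ω))
  have habc : a + (b + c) = 4 := by
    have h := natDegree_charpoly hι y
    rw [he, ((monic_X_sub_C (1 : F)).pow a).natDegree_mul (((monic_X_sub_C ω).pow b).mul ((monic_X_sub_C _).pow c)),
      ((monic_X_sub_C ω).pow b).natDegree_mul ((monic_X_sub_C _).pow c), natDegree_pow, natDegree_pow, natDegree_pow,
      natDegree_X_sub_C, natDegree_X_sub_C, natDegree_X_sub_C] at h
    omega
  have hyτ : A.τ y * y = 1 := (A.mem g).1 hg
  -- a quadratic relation forces the identity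
  have hquad : ∀ v w : F, A.σ v = v → A.σ w = w → v ≠ w → v * w ≠ 0 → aeval y ((X - C (1 : F)) * (X - C v)) = 0 →
      v * w = 1 → False := by
    intro v w hv _ hne hvw0 h hvw
    have h' : y * y - (1 + v) • y + v • (1 : Mx) = 0 := by
      rw [← h]
      simp [sub_mul, mul_sub, Algebra.algebraMap_eq_smul_one, add_smul]
      abel
    have h2 := congrArg A.τ h'
    rw [A.add, A.sub, A.mul, A.smul, A.smul, A.one, map_add, map_one, hv,
      adj_zero A] at h2
    have h3 := congrArg (fun M => M * y * y) h2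
    simp only [add_mul, sub_mul, smul_mul_assoc, mul_assoc, zero_mul] at h3
    have e1 : A.τ y * (A.τ y * (y * y)) = 1 := by rw [← mul_assoc (A.τ y) y y, hyτ, one_mul, hyτ]
    have e2 : A.τ y * (y * y) = y := by rw [← mul_assoc, hyτ, one_mul]
    rw [e1, e2, one_mul] at h3
    have h4 : (1 - v * v) • (1 : Mx) + ((1 + v) * (v - 1)) • y = 0 := by
      linear_combination (norm := module) h3 - v • h'
    have hv1 : 1 - v * v ≠ 0 := fun e => hne (by
      have : v * (w - v) = 0 := by linear_combination hvw + e - (1 : F) * 0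
      exact ((sub_eq_zero.1 ((mul_eq_zero.1 this).resolve_left (fun e' => hvw0 (by rw [e', zero_mul]))))).symm)
    refine h1 ?_
    have h5 : (1 - v * v) • ((1 : Mx) - y) = 0 := by linear_combination (norm := module) h4
    exact (sub_eq_zero.1 ((smul_eq_zero.1 h5).resolve_left hv1)).symm
  have hσ2 : A.σ (ω * ω) = ω * ω := by rw [map_mul, hσ]
  have hc0 : c ≠ 0 := fun h => hquad ω (ω * ω) hσ hσ2 hωω.symm (mul_ne_zero hω0 (mul_ne_zero hω0 hω0))
    (aeval_of_charpoly hm hy (a + b) (by
      rw [he, h, pow_zero, mul_one, mul_pow]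
      exact mul_dvd_mul (pow_dvd_pow _ (Nat.le_add_right a b)) (pow_dvd_pow _ (Nat.le_add_left b a)))) (by linear_combination hω)
  have hb0 : b ≠ 0 := fun h => hquad (ω * ω) ω hσ2 hσ hωω (mul_ne_zero (mul_ne_zero hω0 hω0) hω0)
    (aeval_of_charpoly hm hy (a + c) (by
      rw [he, h, pow_zero, one_mul, mul_pow]
      exact mul_dvd_mul (pow_dvd_pow _ (Nat.le_add_right a c)) (pow_dvd_pow _ (Nat.le_add_left c a)))) (by linear_combination hω)
  have hd : ω ^ (b + 2 * c) = 1 := by
    have h := det_eq_eval hι y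
    rw [hdet, he] at h
    simp only [eval_mul, eval_pow, eval_sub, eval_X, eval_C, zero_sub] at h
    rw [neg_pow, neg_pow ω, neg_pow (ω * ω), one_pow, mul_one] at h
    have hs : (-1 : F) ^ a * ((-1) ^ b * (-1) ^ c) = 1 := by rw [← pow_add, ← pow_add, habc]; norm_num
    rw [pow_add, pow_mul, pow_two, h]
    linear_combination -(ω ^ b * (ω * ω) ^ c) * hs
  have hbc : b = c ∧ b ≤ 2 := by
    rcases (show (b = 1 ∧ c = 1) ∨ (b = 2 ∧ c = 2) ∨ (b = 1 ∧ c = 2) ∨ (b = 1 ∧ c = 3) ∨ (b = 2 ∧ c = 1) ∨ (b = 3 ∧ c = 1) by omega)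
      with ⟨h, h'⟩ | ⟨h, h'⟩ | ⟨h, h'⟩ | ⟨h, h'⟩ | ⟨h, h'⟩ | ⟨h, h'⟩
    · omega
    · omega
    all_goals
      exfalso
      rw [h, h'] at hd
      first
        | exact hω12 (by linear_combination hd - (ω ^ 2) * hω)
        | exact hω1 (by linear_combination hd - (ω ^ 4 + ω) * hω)
        | exact hω1 (by linear_combination hd - ω * hω)
        | exact hω12 (by linear_combination hd - ω ^ 2 * hω)
  have hann' : aeval y (X ^ 2 + X + 1 : F[X]) = y * y + y + 1 := by simp [pow_two]
  rcases (show b = 1 ∨ b = 2 by omega) with hb | hb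
  · refine Or.inr ⟨fun h => ?_, by rw [he, ← hbc.1, hb, pow_one, pow_one, hfac, show a = 2 by omega]⟩
    have hdvd : X - C (1 : F) ∣ X ^ 2 + X + 1 := factor_dvd (irreducible_X_sub_C 1)
      (by rw [he, show a = 2 by omega]; exact dvd_mul_of_dvd_left (dvd_pow_self _ two_ne_zero) _) (by rw [hann', h])
    rw [dvd_iff_isRoot] at hdvd
    simp [IsRoot] at hdvd
    exact h3 (by linear_combination hdvd)
  · refine Or.inl ⟨?_, by rw [he, ← hbc.1, hb, show a = 0 by omega, pow_zero, one_mul, ← mul_pow, hfac]⟩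
    rw [← hann']
    exact aeval_of_charpoly hm hy 2 (by rw [he, ← hbc.1, hb, show a = 0 by omega, pow_zero, one_mul, ← mul_pow, hfac])

/-- Elements of order five when the fifth cyclotomic polynomial is irreducible. -/
theorem charpoly_five [DecidableEq F] [Fintype F] {p : ℕ} [Fact p.Prime] [CharP F p] (hF : Fintype.card F = p)
    (hι : Fintype.card ι = 4) (hord : orderOf (p : ZMod 5) = 4) {y : Mx} (hy : y ^ 5 = 1) (h1 : y ≠ 1) :
    y.charpoly = cyclotomic 5 F := by
  haveI : Fact (Nat.Prime 5) := ⟨Nat.prime_five⟩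
  have hp5 : ¬ p ∣ 5 := fun h => by
    rw [(Nat.prime_dvd_prime_iff_eq Fact.out Nat.prime_five).1 h, ZMod.natCast_self] at hord
    rw [show orderOf (0 : ZMod 5) = 0 from orderOf_eq_zero (by
      rw [isOfFinOrder_iff_pow_eq_one]; rintro ⟨k, hk, h⟩; simp [hk.ne'] at h)] at hord
    exact absurd hord (by norm_num)
  have hm : ((5 : ℕ) : F) ≠ 0 := fun h => hp5 ((CharP.cast_eq_zero_iff F p 5).1 h)
  have hdeg : (cyclotomic 5 F).natDegree = 4 := by rw [natDegree_cyclotomic, Nat.totient_prime Nat.prime_five]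
  have hirr : Irreducible (cyclotomic 5 F) :=
    Polynomial.irreducible_of_dvd_cyclotomic_of_natDegree (f := 1) (p := p) (n := 5)
      (by simp [hF]) ((Nat.Prime.coprime_iff_not_dvd Fact.out).2 hp5) dvd_rfl (by
        rw [hdeg, ← orderOf_units, ZMod.coe_unitOfCoprime]
        simpa using hord.symm)
  have hne : X - C (1 : F) ≠ cyclotomic 5 F := fun h => by
    have := congrArg natDegree h
    rw [natDegree_X_sub_C, hdeg] at this
    omega
  have hann : aeval y (cyclotomic 5 F * (X - C 1)) = 0 := by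
    rw [map_one C, cyclotomic_prime_mul_X_sub_one]; simp [hy]
  obtain ⟨e, he⟩ := exists_prod_pows (Matrix.charpoly_monic y) [X - C 1, cyclotomic 5 F] (fun f hf hmon hfd => by
    rcases hf.prime.dvd_or_dvd (factor_dvd hf hfd hann) with h | h
    · simp [eq_of_monic_of_associated hmon (cyclotomic.monic 5 F) (hf.associated_of_dvd hirr h)]
    · simp [eq_of_monic_of_associated hmon (monic_X_sub_C 1) (hf.associated_of_dvd (irreducible_X_sub_C 1) h)]) (List.nodup_cons.2 ⟨by simpa using hne, List.nodup_singleton _⟩)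
  simp only [List.map_cons, List.map_nil, List.prod_cons, List.prod_nil, mul_one] at he
  have hab : e (X - C 1) + 4 * e (cyclotomic 5 F) = 4 := by
    have h := natDegree_charpoly hι y
    rw [he, ((monic_X_sub_C (1 : F)).pow _).natDegree_mul ((cyclotomic.monic 5 F).pow _),
      natDegree_pow, natDegree_pow, natDegree_X_sub_C, hdeg] at h
    omega
  rcases (show e (cyclotomic 5 F) = 0 ∨ e (cyclotomic 5 F) = 1 by omega) with h | h
  · refine absurd ?_ h1
    have h4 := aeval_of_charpoly hm hy (P := X - C (1 : F)) 4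
      (by rw [he, h, pow_zero, mul_one, show e (X - C 1) = 4 by omega])
    simpa [sub_eq_zero] using h4
  · rw [he, h, show e (X - C 1) = 0 by omega, pow_zero, pow_one, one_mul]

/-- Unitary elements of order five. -/
theorem charpoly_five_unitary [DecidableEq F] (hι : Fintype.card ι = 4) (h5 : (5 : F) ≠ 0)
    (hroot : ∀ c : F, c ^ 5 = 1 → c = 1) {t₁ t₂ : F} (hs : t₁ + t₂ = -1) (hp : t₁ * t₂ = -1)
    {G : Subgroup (GL ι F)} (A : Adj G) (ht : A.σ t₁ = t₂) {g : GL ι F} (hg : g ∈ G) (hy : (g : Mx) ^ 5 = 1)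
    (h1 : (g : Mx) ≠ 1) :
    (g : Mx).charpoly = (X ^ 2 - C t₁ * X + C 1) * (X ^ 2 - C t₂ * X + C 1) := by
  haveI : Nonempty ι := Fintype.card_pos_iff.1 (by omega)
  set y := (g : Mx) with hyd
  set f₁ : F[X] := X ^ 2 - C t₁ * X + C 1 with hf₁
  set f₂ : F[X] := X ^ 2 - C t₂ * X + C 1 with hf₂
  have hm : ((5 : ℕ) : F) ≠ 0 := by simpa using h5
  have htne : t₁ ≠ t₂ := fun e => h5 (by subst e; linear_combination (4 : F) * hp - (2 * t₁ - 1) * hs)
  have hmon₁ : f₁.Monic := by simp only [hf₁]; monicity!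
  have hmon₂ : f₂.Monic := by simp only [hf₂]; monicity!
  have hdeg₁ : f₁.natDegree = 2 := by simp only [hf₁]; compute_degree!
  have hdeg₂ : f₂.natDegree = 2 := by simp only [hf₂]; compute_degree!
  have hprod : (X - C (1 : F)) * (f₁ * f₂) = X ^ 5 - 1 := by
    have e1 : C t₁ + C t₂ = -(1 : F[X]) := by rw [← C_add, hs, C_neg, C_1]
    have e2 : C t₁ * C t₂ = -(1 : F[X]) := by rw [← C_mul, hp, C_neg, C_1]
    simp only [hf₁, hf₂, map_one]
    linear_combination (X - 1) * X ^ 2 * e2 - (X - 1) * (X ^ 3 + X) * e1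
  have hirrf : ∀ t f, f = X ^ 2 - C t * X + C (1 : F) → f ∣ X ^ 5 - 1 → t ≠ 2 → f.Monic → f.natDegree = 2 → Irreducible f := by
    intro t f hf hdvd ht2 hmon hdeg
    rw [hmon.irreducible_iff_roots_eq_zero_of_degree_le_three (by omega) (by omega), Multiset.eq_zero_iff_forall_notMem]
    intro c hc
    rw [mem_roots hmon.ne_zero] at hc
    obtain ⟨q, hq⟩ := hdvd
    have hc5 : c ^ 5 - 1 = 0 := by
      have h := congrArg (Polynomial.eval c) hq
      rw [eval_mul, hc.eq_zero, zero_mul, eval_sub, eval_pow, eval_X, eval_one] at h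
      exact h
    have hc1 := hroot c (sub_eq_zero.1 hc5)
    subst hc1
    simp [hf] at hc
    exact ht2 (by linear_combination -hc)
  have ht2 : ∀ t t', t + t' = -1 → t * t' = (-1 : F) → t ≠ 2 := fun t t' hs hp e => h5 (by
    subst e; linear_combination (2 : F) * hs - hp)
  have hirr₁ := hirrf t₁ f₁ rfl ⟨(X - C 1) * f₂, by rw [← hprod]; ring⟩ (ht2 t₁ t₂ hs hp) hmon₁ hdeg₁
  have hirr₂ := hirrf t₂ f₂ rfl ⟨(X - C 1) * f₁, by rw [← hprod]; ring⟩
    (ht2 t₂ t₁ (by rw [add_comm]; exact hs) (by rw [mul_comm]; exact hp)) hmon₂ hdeg₂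
  have hne₁ : X - C (1 : F) ≠ f₁ := fun h => by
    have := congrArg natDegree h; rw [natDegree_X_sub_C, hdeg₁] at this; omega
  have hne₂ : X - C (1 : F) ≠ f₂ := fun h => by
    have := congrArg natDegree h; rw [natDegree_X_sub_C, hdeg₂] at this; omega
  have hne : f₁ ≠ f₂ := fun h => htne (by
    have := congrArg (fun q => q.coeff 1) h
    simpa [hf₁, hf₂, coeff_X_pow] using this)
  have hann : aeval y ((X - C (1 : F)) * (f₁ * f₂)) = 0 := by rw [hprod]; simp [hy]
  obtain ⟨e, he⟩ := exists_prod_pows (Matrix.charpoly_monic y) [X - C 1, f₁, f₂] (fun f hf hmon' hfd => by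
    rcases hf.prime.dvd_or_dvd (factor_dvd hf hfd hann) with h | h
    · simp [eq_of_monic_of_associated hmon' (monic_X_sub_C 1) (hf.associated_of_dvd (irreducible_X_sub_C 1) h)]
    rcases hf.prime.dvd_or_dvd h with h | h
    · simp [eq_of_monic_of_associated hmon' hmon₁ (hf.associated_of_dvd hirr₁ h)]
    · simp [eq_of_monic_of_associated hmon' hmon₂ (hf.associated_of_dvd hirr₂ h)]) (List.nodup_cons.2 ⟨by
        simp only [List.mem_cons, List.not_mem_nil, or_false, not_or]
        exact ⟨hne₁, hne₂⟩, List.nodup_cons.2 ⟨by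
        simp only [List.mem_singleton]
        exact hne, List.nodup_singleton _⟩⟩)
  simp only [List.map_cons, List.map_nil, List.prod_cons, List.prod_nil, mul_one] at he
  set a := e (X - C 1)
  set b := e f₁
  set c := e f₂
  have habc : a + (2 * b + 2 * c) = 4 := by
    have h := natDegree_charpoly hι y
    rw [he, ((monic_X_sub_C (1 : F)).pow a).natDegree_mul ((hmon₁.pow b).mul (hmon₂.pow c)),
      (hmon₁.pow b).natDegree_mul (hmon₂.pow c), natDegree_pow, natDegree_pow, natDegree_pow, natDegree_X_sub_C,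
      hdeg₁, hdeg₂] at h
    omega
  have hyτ : A.τ y * y = 1 := (A.mem g).1 hg
  have hquad : ∀ t t' : F, A.σ t = t' → t ≠ t' → aeval y ((X - C (1 : F)) * (X ^ 2 - C t * X + C 1)) = 0 → False := by
    intro t t' hst hne' h
    have h' : y * (y * y) - (1 + t) • (y * y) + (1 + t) • y - 1 = 0 := by
      rw [← h]
      simp [sub_mul, mul_add, mul_sub, pow_two, Algebra.algebraMap_eq_smul_one, add_smul]
      abel
    have h2 := congrArg A.τ h'
    rw [A.sub, A.add, A.sub, A.smul, A.smul, A.mul, A.mul, A.one, map_add, map_one, hst,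
      adj_zero A] at h2
    have h3 := congrArg (fun M => M * y * y * y) h2
    simp only [add_mul, sub_mul, smul_mul_assoc, mul_assoc, zero_mul, one_mul] at h3
    have e1 : A.τ y * (A.τ y * (A.τ y * (y * (y * y)))) = 1 := by
      rw [← mul_assoc (A.τ y) y (y * y), hyτ, one_mul, ← mul_assoc (A.τ y) y y, hyτ, one_mul, hyτ]
    have e2 : A.τ y * (A.τ y * (y * (y * y))) = y := by
      rw [← mul_assoc (A.τ y) y (y * y), hyτ, one_mul, ← mul_assoc (A.τ y) y y, hyτ, one_mul]
    have e3 : A.τ y * (y * (y * y)) = y * y := by rw [← mul_assoc (A.τ y) y (y * y), hyτ, one_mul]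
    rw [e1, e2, e3] at h3
    have h4 : (t - t') • (y * y - y) = 0 := by linear_combination (norm := module) -h' - h3
    have h5' : y * y - y = 0 := (smul_eq_zero.1 h4).resolve_left (sub_ne_zero.2 hne')
    refine h1 ?_
    have h6 := congrArg (fun M => A.τ y * M) h5'
    simp only [mul_sub, ← mul_assoc, hyτ, one_mul, mul_zero] at h6
    exact sub_eq_zero.1 h6
  have ht' : A.σ t₂ = t₁ := by
    have h := congrArg A.σ hs
    rw [map_add, map_neg, map_one, ht] at h
    linear_combination h - hs
  have hc0 : c ≠ 0 := fun h => hquad t₁ t₂ ht htne (aeval_of_charpoly hm hy (a + b) (by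
    rw [he, h, pow_zero, mul_one, mul_pow, ← hf₁]
    exact mul_dvd_mul (pow_dvd_pow _ (Nat.le_add_right a b)) (pow_dvd_pow _ (Nat.le_add_left b a))))
  have hb0 : b ≠ 0 := fun h => hquad t₂ t₁ ht' htne.symm (aeval_of_charpoly hm hy (a + c) (by
    rw [he, h, pow_zero, one_mul, mul_pow, ← hf₂]
    exact mul_dvd_mul (pow_dvd_pow _ (Nat.le_add_right a c)) (pow_dvd_pow _ (Nat.le_add_left c a))))
  rw [he, show a = 0 by omega, show b = 1 by omega, show c = 1 by omega, pow_zero, pow_one, pow_one, one_mul]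

end Cfsg.Agent.Linear.SymType4
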