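import Cfsg.Agent.Linear.SymType4Data
import Mathlib.GroupTheory.Perm.Cycle.Type

/-!
Elements of odd prime order that normalise a group of symplectic type in dimension four.
-/

set_option autoImplicit false
set_option linter.unusedSectionVars false

namespace Cfsg.Agent.Linear.SymType4

open Matrix Module

variable {ι : Type} {F : Type*} [Fintype ι] [DecidableEq ι] [Field F]

local notation "Mx" => Matrix ι ι F

namespace Dat

variable {R : Subgroup (GL ι F)} (S : Dat R)
include S

theorem commute_pair {u x : GL ι F} {v : GL ι F} (hu : Commute u x) (hv : Commute v x) : Commute (u * v) x :=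
  hu.mul_left hv

/-- An element commuting with the centralizer of `x` is `1` or `x` up to congruence. -/
theorem cg_of_centralizes {x e : GL ι F} (hx : x ∈ R) (hns : ¬ Cg 1 x) (he : e ∈ R)
    (h : ∀ w ∈ R, Commute w x → Commute e w) : Cg 1 e ∨ Cg x e := by
  obtain ⟨a, ha, hxa⟩ := S.exists_anti hx hns
  have key : ∀ f : GL ι F, (∀ w ∈ R, Commute w x → Commute f w) → Commute f a → ∀ y ∈ R, Commute f y := by
    intro f hf hfa y hy
    rcases S.comm y hy x hx with hyx | hyx
    · exact hf y hy hyx
    · have h1 := hf (a * y) (mul_mem ha hy) (S.commute_mul_of_anti (by rw [hxa, neg_neg]) hyx)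
      simpa using hfa.inv_right.mul_right h1
  rcases S.comm e he a ha with hea | hea
  · exact Or.inl (S.eq_scalar (key e h hea))
  · refine Or.inr ?_
    have h1 : Cg 1 (e * x) := S.eq_scalar (key _ (fun w hw hwx => (h w hw hwx).mul_left hwx.symm)
      (S.commute_mul_of_anti hea hxa))
    have h2 : Cg (1 * x) (e * x * x) := h1.mul_right x
    rw [one_mul, mul_assoc] at h2
    refine h2.trans ?_
    have h3 := (S.sq_cg hx).symm.mul_left e
    rwa [mul_one] at h3

/-- An element anticommuting with `x` and commuting with `y`. -/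
theorem exists_split {x y : GL ι F} (hx : x ∈ R) (hy : y ∈ R) (hnx : ¬ Cg 1 x) (hny : ¬ Cg 1 y) (hxy : ¬ Cg y x) :
    ∃ a ∈ R, x * a = -(a * x) ∧ Commute y a := by
  by_contra hall
  push Not at hall
  obtain ⟨a₀, ha₀, hxa₀⟩ := S.exists_anti hx hnx
  have hya₀ := S.anti_of_not_commute hy ha₀ (hall a₀ ha₀ hxa₀)
  rcases S.cg_of_centralizes hx hnx hy (fun c hc hcx => by
    by_contra hyc
    have hyc' := S.anti_of_not_commute hy hc hyc
    refine hall (a₀ * c) (mul_mem ha₀ hc) ?_ ?_
    · rw [← mul_assoc, hxa₀, neg_mul, mul_assoc, ← hcx.eq, mul_assoc]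
    · show y * (a₀ * c) = a₀ * c * y
      rw [← mul_assoc, hya₀, neg_mul, mul_assoc, hyc', mul_neg, neg_neg, mul_assoc]) with h | h
  · exact hny h
  · exact hxy h.symm

theorem anti_symm {x y : GL ι F} (h : x * y = -(y * x)) : y * x = -(x * y) := by rw [h, neg_neg]

/-- The common centralizer of two commuting independent elements. -/
theorem cg_of_centralizes_two {x y e : GL ι F} (hx : x ∈ R) (hy : y ∈ R) (hnx : ¬ Cg 1 x) (hny : ¬ Cg 1 y)
    (hxy : ¬ Cg y x) (hc : Commute x y) (he : e ∈ R) (hex : Commute e x) (hey : Commute e y) :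
    Cg 1 e ∨ Cg x e ∨ Cg y e ∨ Cg (x * y) e := by
  classical
  haveI := S.nonempty
  obtain ⟨a, ha, hxa, hya⟩ := S.exists_split hx hy hnx hny hxy
  obtain ⟨b, hb, hyb, hxb⟩ := S.exists_split hy hx hny hnx (fun h => hxy h.symm)
  by_contra hcon
  push Not at hcon
  obtain ⟨h1, h2, h3, h4⟩ := hcon
  have hxyns : ¬ Cg 1 (x * y) := fun h => hxy (by
    have h' := (h.mul_left x)
    rw [mul_one, ← mul_assoc] at h'
    have h'' : Cg x y := h'.trans (by simpa using ((S.sq_cg hx).symm.mul_right y))
    exact h''.symm)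
  let base : Fin 5 → GL ι F := ![1, x, y, x * y, e]
  let tr : Fin 4 → GL ι F := ![1, a, b, a * b]
  have hbR : ∀ i, base i ∈ R := fun i => by
    fin_cases i
    · exact one_mem _
    · exact hx
    · exact hy
    · exact mul_mem hx hy
    · exact he
  have htR : ∀ i, tr i ∈ R := fun i => by
    fin_cases i
    · exact one_mem _
    · exact ha
    · exact hb
    · exact mul_mem ha hb
  have hbc : ∀ i, Commute (base i) x ∧ Commute (base i) y := fun i => by
    fin_cases i
    · exact ⟨Commute.one_left _, Commute.one_left _⟩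
    · exact ⟨Commute.refl _, hc⟩
    · exact ⟨hc.symm, Commute.refl _⟩
    · exact ⟨(Commute.refl x).mul_left hc.symm, hc.mul_left (Commute.refl y)⟩
    · exact ⟨hex, hey⟩
  have hts : ∀ i, (Commute (tr i) x ↔ i = 0 ∨ i = 2) ∧ (Commute (tr i) y ↔ i = 0 ∨ i = 1) := fun i => by
    have hax : ¬ Commute a x := fun h => S.not_both h.symm hxa
    have hby : ¬ Commute b y := fun h => S.not_both h.symm hyb
    fin_cases i
    · simp [tr]
    · simpa [tr] using And.intro hax hya.symm
    · simpa [tr] using And.intro hxb.symm hby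
    · refine ⟨iff_of_false (fun h => ?_) (by decide), iff_of_false (fun h => ?_) (by decide)⟩
      · exact hax (by simpa [tr] using h.mul_left hxb.symm.inv_left)
      · exact hby (by simpa [tr] using hya.symm.inv_left.mul_left h)
  have hbd : ∀ i j, i ≠ j → ¬ Cg (base i) (base j) := by
    intro i j hij
    fin_cases i <;> fin_cases j <;> simp only [base, Fin.reduceFinMk, Matrix.cons_val, ne_eq, not_true, Fin.isValue] at hij ⊢
    all_goals first
      | exact hnx | exact hny | exact hxyns | exact h1 | exact h2 | exact h3 | exact h4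
      | exact fun h => hnx h.symm | exact fun h => hny h.symm | exact fun h => hxyns h.symm
      | exact fun h => h1 h.symm | exact fun h => h2 h.symm | exact fun h => h3 h.symm | exact fun h => h4 h.symm
      | exact hxy | exact fun h => hxy h.symm
      | exact fun h => hny (Cg.of_mul_left x (by simpa using h))
      | exact fun h => hny (Cg.of_mul_left x (by simpa using h.symm))
      | exact fun h => hnx (Cg.of_mul_left y (by simpa [← hc.eq] using h))
      | exact fun h => hnx (Cg.of_mul_left y (by simpa [← hc.eq] using h.symm))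
  have hfam := S.card_le (f := fun k : Fin 5 × Fin 4 => base k.1 * tr k.2) (fun k => mul_mem (hbR _) (htR _))
    (by
      rintro ⟨i, s⟩ ⟨j, t⟩ hne hcg
      dsimp only at hcg
      have hst : ∀ z, Commute (base i) z → Commute (base j) z → (Commute (tr s) z ↔ Commute (tr t) z) := by
        intro z hi hj
        have e1 : ∀ u v : GL ι F, Commute u z → (Commute (u * v) z ↔ Commute v z) := fun u v hu =>
          ⟨fun h => by simpa using hu.inv_left.mul_left h, fun h => hu.mul_left h⟩
        rw [← e1 _ (tr s) hi, ← e1 _ (tr t) hj]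
        exact ⟨fun h => hcg.commute h, fun h => hcg.symm.commute h⟩
      have ex := hst x (hbc i).1 (hbc j).1
      have ey := hst y (hbc i).2 (hbc j).2
      rw [(hts s).1, (hts t).1] at ex
      rw [(hts s).2, (hts t).2] at ey
      obtain rfl : s = t := by revert ex ey; fin_cases s <;> fin_cases t <;> simp
      refine hbd i j (fun h => hne (by rw [h])) ?_
      simpa using hcg.mul_right (tr s)⁻¹)
  simp at hfam

/-! ### The action of a normalising element -/

variable {g : GL ι F}

theorem conj_mem (hg : g ∈ Cfsg.Geo.subgroupNormalizer R) {x : GL ι F} (hx : x ∈ R) : g * x * g⁻¹ ∈ R :=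
  (Subgroup.mem_normalizer_iff.1 hg x).1 hx

theorem pow_commute {r : ℕ} {z : F} (hgr : ((g ^ r : GL ι F) : Mx) = z • 1) (u : GL ι F) : Commute (g ^ r) u :=
  Units.ext (by rw [Units.val_mul, Units.val_mul, hgr, smul_mul_assoc, one_mul, mul_smul_comm, mul_one])

/-- A shift by a fixed element of `R` is trivial. -/
theorem shift {r : ℕ} (hr : Odd r) {z : F} (hgr : ((g ^ r : GL ι F) : Mx) = z • 1) {u e : GL ι F}
    (he : e ∈ R) (hge : Commute g e) (h : g * u * g⁻¹ = e * u) : Commute g u := by
  have hk : ∀ k : ℕ, g ^ k * u * (g ^ k)⁻¹ = e ^ k * u := by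
    intro k
    induction k with
    | zero => simp
    | succ k ih =>
      calc g ^ (k + 1) * u * (g ^ (k + 1))⁻¹ = g * (g ^ k * u * (g ^ k)⁻¹) * g⁻¹ := by rw [pow_succ']; group
        _ = g * (e ^ k * u) * g⁻¹ := by rw [ih]
        _ = e ^ k * (g * u * g⁻¹) := by
          rw [← mul_assoc g, (hge.pow_right k).eq]
          simp only [mul_assoc]
        _ = e ^ (k + 1) * u := by rw [h, ← mul_assoc, ← pow_succ]
  have h1 := hk r
  rw [(S.pow_commute hgr u).eq, mul_inv_cancel_right] at h1
  have her : e ^ r = 1 := by simpa using h1.symm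
  have he1 : e = 1 := by
    obtain ⟨j, rfl⟩ := hr
    rw [pow_succ, pow_mul, pow_two] at her
    rcases S.sq e he with h2 | h2 <;> rw [h2] at her
    · rwa [one_pow, one_mul] at her
    · rcases neg_one_pow_eq_or (GL ι F) j with h3 | h3 <;> rw [h3] at her
      · rwa [one_mul] at her
      · rw [neg_one_mul, neg_eq_iff_eq_neg] at her
        subst her
        exfalso
        rw [neg_one_mul, neg_neg] at h2
        exact S.neg_ne 1 h2.symm
  rw [he1, one_mul, mul_inv_eq_iff_eq_mul] at h
  exact h

theorem commute_of_cg_conj {r : ℕ} (hr : Odd r) {z : F} (hgr : ((g ^ r : GL ι F) : Mx) = z • 1)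
    (hg : g ∈ Cfsg.Geo.subgroupNormalizer R) {u : GL ι F} (hu : u ∈ R) (h : Cg u (g * u * g⁻¹)) : Commute g u := by
  have he : g * u * g⁻¹ * u⁻¹ ∈ R := mul_mem (conj_mem S hg hu) (inv_mem hu)
  refine S.shift hr hgr he ?_ (by group)
  have h1 : Cg 1 (g * u * g⁻¹ * u⁻¹) := by simpa using h.mul_right u⁻¹
  exact (h1.commute (Commute.one_left g)).symm

/-- If `g` fixes two commuting independent elements it centralises `R`. -/
theorem centralises_of_two {r : ℕ} (hr : Odd r) {z : F} (hgr : ((g ^ r : GL ι F) : Mx) = z • 1)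
    (hg : g ∈ Cfsg.Geo.subgroupNormalizer R) {x y : GL ι F} (hx : x ∈ R) (hy : y ∈ R) (hnx : ¬ Cg 1 x)
    (hny : ¬ Cg 1 y) (hxy : ¬ Cg y x) (hc : Commute x y) (hgx : Commute g x) (hgy : Commute g y)
    (u : GL ι F) (hu : u ∈ R) : Commute g u := by
  have he : g * u * g⁻¹ * u⁻¹ ∈ R := mul_mem (conj_mem S hg hu) (inv_mem hu)
  have hcomm : ∀ w ∈ R, Commute g w → Commute (g * u * g⁻¹ * u⁻¹) w := by
    intro w hw hgw
    rcases S.comm u hu w hw with h | h
    · exact ((hgw.mul_left h).mul_left hgw.inv_left).mul_left (Commute.inv_left h)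
    · have h1 : g * u * g⁻¹ * w = -(w * (g * u * g⁻¹)) := by
        rw [mul_assoc (g * u), hgw.inv_left.eq, ← mul_assoc, mul_assoc g u w, h, mul_neg, neg_mul, ← mul_assoc,
          hgw.eq, mul_assoc, mul_assoc, mul_assoc]
      have h2 : u⁻¹ * w = -(w * u⁻¹) := by
        rw [inv_mul_eq_iff_eq_mul, mul_neg, ← mul_assoc, h, neg_mul, neg_neg, mul_inv_cancel_right]
      exact S.commute_mul_of_anti h1 h2
  have hec : Commute g (g * u * g⁻¹ * u⁻¹) := by
    rcases S.cg_of_centralizes_two hx hy hnx hny hxy hc he (hcomm x hx hgx) (hcomm y hy hgy) with h | h | h | h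
    · exact (h.commute (Commute.one_left g)).symm
    · exact (h.commute hgx.symm).symm
    · exact (h.commute hgy.symm).symm
    · exact (h.commute (hgx.mul_right hgy).symm).symm
  exact S.shift hr hgr he hec (by group)

/-- The elements of `R` commuting with `g` are congruent in number to `|R|`. -/
theorem card_fixed_modEq [Finite F] {r : ℕ} [Fact r.Prime] {z : F} (hgr : ((g ^ r : GL ι F) : Mx) = z • 1)
    (hg : g ∈ Cfsg.Geo.subgroupNormalizer R) :
    Nat.card R ≡ Nat.card (R ⊓ Subgroup.centralizer ({g} : Set (GL ι F)) : Subgroup (GL ι F)) [MOD r] := by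
  classical
  let f : Function.End R := fun x => ⟨g * x * g⁻¹, conj_mem S hg x.2⟩
  have hf : ∀ (k : ℕ) (x : R), ((f^[k] x : R) : GL ι F) = g ^ k * x * (g ^ k)⁻¹ := by
    intro k x
    induction k with
    | zero => show (x : GL ι F) = _; simp
    | succ k ih =>
      rw [Function.iterate_succ_apply', pow_succ']
      show g * _ * g⁻¹ = _
      rw [ih]; group
  have hfr : f ^ r ^ 1 = 1 := by
    refine funext fun x => Subtype.ext ?_
    rw [pow_one, show (f ^ r) x = f^[r] x from congrFun (hom_coe_pow (fun g : Function.End R => g) rfl (fun _ _ => rfl) f r) x, hf,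
      (S.pow_commute hgr _).eq, mul_inv_cancel_right]
    rfl
  haveI : Fintype R := Fintype.ofFinite R
  have h := Equiv.Perm.card_fixedPoints_modEq (f := f) hfr
  rw [Fintype.card_eq_nat_card, Fintype.card_eq_nat_card] at h
  let e : ↥(Function.fixedPoints f) ≃ ↥(R ⊓ Subgroup.centralizer ({g} : Set (GL ι F)) : Subgroup (GL ι F)) :=
    { toFun := fun x => ⟨x.1.1, x.1.2, Subgroup.mem_centralizer_singleton_iff.2 (by
        have h1 : g * (x.1 : GL ι F) * g⁻¹ = x.1 := congrArg Subtype.val (show f x.1 = x.1 from x.2)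
        exact (mul_inv_eq_iff_eq_mul.1 h1).symm)⟩
      invFun := fun x => ⟨⟨x.1, x.2.1⟩, show f _ = _ from Subtype.ext (by
        show g * (x.1 : GL ι F) * g⁻¹ = x.1
        rw [← Subgroup.mem_centralizer_singleton_iff.1 x.2.2, mul_inv_cancel_right])⟩
      left_inv := fun x => rfl
      right_inv := fun x => rfl }
  rwa [Nat.card_congr e] at h

/-- Distinct powers move a moved element to non-congruent elements. -/
theorem not_cg_orbit {r : ℕ} [Fact r.Prime] (hr : Odd r) {z : F} (hgr : ((g ^ r : GL ι F) : Mx) = z • 1)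
    (hg : g ∈ Cfsg.Geo.subgroupNormalizer R) {u : GL ι F} (hu : u ∈ R) (hmove : ¬ Commute g u)
    (i j : Fin r) (hij : i ≠ j) : ¬ Cg (g ^ (i : ℕ) * u * (g ^ (i : ℕ))⁻¹) (g ^ (j : ℕ) * u * (g ^ (j : ℕ))⁻¹) := by
  intro h
  wlog hlt : (i : ℕ) < j generalizing i j
  · exact this j i hij.symm h.symm (lt_of_le_of_ne (not_lt.1 hlt) fun e => hij (Fin.ext e.symm))
  obtain ⟨d, hd⟩ : ∃ d, (j : ℕ) = i + d := ⟨j - i, by omega⟩
  have h1 : Cg u (g ^ d * u * (g ^ d)⁻¹) := by
    have := (h.mul_left (g ^ (i : ℕ))⁻¹).mul_right (g ^ (i : ℕ))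
    rw [hd, pow_add] at this
    simpa [mul_assoc] using this
  have hgd : g ^ d ∈ Cfsg.Geo.subgroupNormalizer R := pow_mem hg d
  have hc := S.commute_of_cg_conj hr (g := g ^ d) (z := z ^ d) (r := r)
    (by rw [← pow_mul, mul_comm, pow_mul, Units.val_pow_eq_pow_val, hgr, smul_pow, one_pow]) hgd hu h1
  -- `g` is a power of `g ^ d` times a central one
  have hcop : Nat.Coprime d r := ((Fact.out : r.Prime).coprime_iff_not_dvd.2 fun hdvd => by
    have := Nat.le_of_dvd (by omega) hdvd
    have := j.2
    omega).symm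
  obtain ⟨a, ha⟩ := Nat.exists_mul_mod_eq_one_of_coprime hcop (Fact.out : r.Prime).one_lt
  refine hmove ?_
  have e : g ^ (d * a) = g * (g ^ r) ^ (d * a / r) := by
    rw [← pow_mul, ← pow_succ']
    congr 1
    have := Nat.div_add_mod (d * a) r
    omega
  have h2 : Commute (g ^ (d * a)) u := by rw [pow_mul]; exact hc.pow_left a
  rw [e] at h2
  simpa using h2.mul_left (((S.pow_commute hgr u).pow_left (d * a / r)).inv_left)

/-- Elements of order at least seven centralise `R`. -/
theorem centralises_of_seven [Finite F] {r : ℕ} [Fact r.Prime] (hr : 7 ≤ r) {z : F}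
    (hgr : ((g ^ r : GL ι F) : Mx) = z • 1) (hg : g ∈ Cfsg.Geo.subgroupNormalizer R)
    (hZ : Nat.card (Subgroup.center R) ∈ ({2, 4} : Set ℕ)) (hR : Nat.card R = 16 * Nat.card (Subgroup.center R))
    (u : GL ι F) (hu : u ∈ R) : Commute g u := by
  classical
  have hrp : r.Prime := Fact.out
  have hodd : Odd r := hrp.odd_of_ne_two (by omega)
  -- a fixed non-scalar element
  obtain ⟨x, hx, hgx, hnx⟩ : ∃ x ∈ R, Commute g x ∧ ¬ Cg 1 x := by
    by_contra hall
    push Not at hall
    have h := S.card_fixed_modEq hgr hg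
    have e : Nat.card (R ⊓ Subgroup.centralizer ({g} : Set (GL ι F)) : Subgroup (GL ι F)) =
        Nat.card (Subgroup.center R) := by
      refine Nat.card_congr
        { toFun := fun x => ⟨⟨x.1, x.2.1⟩, S.scalar_mem_center x.2.1
            (hall x.1 x.2.1 (Subgroup.mem_centralizer_singleton_iff.1 x.2.2).symm)⟩
          invFun := fun x => ⟨x.1.1, x.1.2, Subgroup.mem_centralizer_singleton_iff.2 (by
            have h1 : Cg 1 (x.1 : GL ι F) := S.eq_scalar fun y hy =>
              (congrArg Subtype.val (Subgroup.mem_center_iff.1 x.2 ⟨y, hy⟩)).symm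
            exact (h1.commute (Commute.one_left g)).eq)⟩
          left_inv := fun x => rfl
          right_inv := fun x => rfl }
    rw [e, hR] at h
    have hd : r ∣ 16 * Nat.card (Subgroup.center R) - Nat.card (Subgroup.center R) :=
      (Nat.modEq_iff_dvd' (by omega)).1 h.symm
    rcases hZ with h2 | h4
    · rw [h2] at hd
      have : r ∣ 2 * 3 * 5 := hd
      rcases hrp.dvd_mul.1 this with h' | h'
      · rcases hrp.dvd_mul.1 h' with h'' | h'' <;> have := Nat.le_of_dvd (by norm_num) h'' <;> omega
      · have := Nat.le_of_dvd (by norm_num) h'; omega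
    · rw [Set.mem_singleton_iff.1 h4] at hd
      have : r ∣ 2 * (2 * (3 * 5)) := hd
      rcases hrp.dvd_mul.1 this with h' | h'
      · have := Nat.le_of_dvd (by norm_num) h'; omega
      rcases hrp.dvd_mul.1 h' with h' | h'
      · have := Nat.le_of_dvd (by norm_num) h'; omega
      rcases hrp.dvd_mul.1 h' with h' | h' <;> (have := Nat.le_of_dvd (by norm_num) h'; omega)
  obtain ⟨a, ha, hxa⟩ := S.exists_anti hx hnx
  -- the centralizer of `x` is fixed
  have hfix : ∀ w ∈ R, Commute w x → Commute g w := by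
    intro w hw hwx
    by_contra hmove
    let base : Fin r ⊕ Fin 2 → GL ι F := Sum.elim (fun k => g ^ (k : ℕ) * w * (g ^ (k : ℕ))⁻¹) ![1, x]
    let tr : Fin 2 → GL ι F := ![1, a]
    have hbR : ∀ i, base i ∈ R := by
      rintro (k | k)
      · exact conj_mem S (pow_mem hg _) hw
      · fin_cases k
        · exact one_mem _
        · exact hx
    have hbc : ∀ i, Commute (base i) x := by
      rintro (k | k)
      · exact (((hgx.pow_left _).mul_left hwx).mul_left (hgx.pow_left _).inv_left)
      · fin_cases k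
        · exact Commute.one_left _
        · exact Commute.refl _
    have hfixed : ∀ k : Fin 2, Commute g (![1, x] k) := fun k => by
      fin_cases k
      · exact Commute.one_right g
      · exact hgx
    have hmixed : ∀ (k : Fin r) (l : Fin 2), ¬ Cg (g ^ (k : ℕ) * w * (g ^ (k : ℕ))⁻¹) (![1, x] l) := fun k l h => by
      have h1 : Commute g (g ^ (k : ℕ) * w * (g ^ (k : ℕ))⁻¹) := (h.symm.commute (hfixed l).symm).symm
      refine hmove ?_
      have := (((Commute.refl g).pow_right (k : ℕ)).inv_right.mul_right h1).mul_right ((Commute.refl g).pow_right (k : ℕ))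
      simpa [mul_assoc] using this
    have hbd : ∀ i j, i ≠ j → ¬ Cg (base i) (base j) := by
      rintro (k | k) (l | l) hne
      · exact S.not_cg_orbit hodd hgr hg hw hmove k l (fun e => hne (by rw [e]))
      · exact hmixed k l
      · exact fun h => hmixed l k h.symm
      · fin_cases k <;> fin_cases l <;> simp at hne ⊢
        · exact fun h => hnx h
        · exact fun h => hnx h.symm
    have h16 := S.card_le (f := fun k : (Fin r ⊕ Fin 2) × Fin 2 => base k.1 * tr k.2)
      (fun k => mul_mem (hbR _) (by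
        rcases k with ⟨i, s⟩
        fin_cases s
        · exact one_mem _
        · exact ha))
      (by
        rintro ⟨i, s⟩ ⟨j, t⟩ hne hcg
        dsimp only at hcg
        have e1 : ∀ (i : Fin r ⊕ Fin 2) (s : Fin 2), Commute (base i * tr s) x ↔ s = 0 := fun i s => by
          fin_cases s
          · simpa [tr] using hbc i
          · refine iff_of_false (fun h => S.not_both (?_ : Commute x a) hxa) (by decide)
            simpa [tr] using ((hbc i).inv_left.mul_left h).symm
        have h2 : s = 0 ↔ t = 0 := by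
          rw [← e1 i s, ← e1 j t]
          exact ⟨fun h => hcg.commute h, fun h => hcg.symm.commute h⟩
        obtain rfl : s = t := by revert h2; fin_cases s <;> fin_cases t <;> simp
        refine hbd i j (fun h => hne (by rw [h])) ?_
        simpa using hcg.mul_right (tr s)⁻¹)
    simp only [Fintype.card_prod, Fintype.card_sum, Fintype.card_fin] at h16
    omega
  have he : g * u * g⁻¹ * u⁻¹ ∈ R := mul_mem (conj_mem S hg hu) (inv_mem hu)
  refine S.shift hodd hgr he ?_ (by group)
  rcases S.cg_of_centralizes hx hnx he (fun w hw hwx => by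
    have hgw := hfix w hw hwx
    rcases S.comm u hu w hw with h | h
    · exact ((hgw.mul_left h).mul_left hgw.inv_left).mul_left (Commute.inv_left h)
    · have h1 : g * u * g⁻¹ * w = -(w * (g * u * g⁻¹)) := by
        rw [mul_assoc (g * u), hgw.inv_left.eq, ← mul_assoc, mul_assoc g u w, h, mul_neg, neg_mul, ← mul_assoc,
          hgw.eq, mul_assoc, mul_assoc, mul_assoc]
      have h2 : u⁻¹ * w = -(w * u⁻¹) := by
        rw [inv_mul_eq_iff_eq_mul, mul_neg, ← mul_assoc, h, neg_mul, neg_neg, mul_inv_cancel_right]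
      exact S.commute_mul_of_anti h1 h2) with h | h
  · exact (h.commute (Commute.one_left g)).symm
  · exact (h.commute hgx.symm).symm

theorem scalar_of_centralises {u : GL ι F} (h : ∀ y ∈ R, Commute u y) : ∃ c : F, (u : Mx) = c • 1 := by
  obtain ⟨c, hc⟩ := S.eq_scalar h
  exact ⟨c, by rw [hc, Units.val_one]⟩

theorem exists_moved (hns : ∀ c : F, (g : Mx) ≠ c • 1) : ∃ u ∈ R, ¬ Commute g u := by
  by_contra hall
  push Not at hall
  obtain ⟨c, hc⟩ := S.scalar_of_centralises hall
  exact hns c hc

/-! ### Obstructions -/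

/-- A quadratic element of order at least five is not in the normalizer. -/
theorem not_mem_of_quadratic {r : ℕ} [Fact r.Prime] (hr : 5 ≤ r) {z : F} (hgr : ((g ^ r : GL ι F) : Mx) = z • 1)
    (hns : ∀ c : F, (g : Mx) ≠ c • 1) {α β : F} (hq : (g : Mx) * (g : Mx) = α • (g : Mx) + β • 1) :
    g ∉ Cfsg.Geo.subgroupNormalizer R := by
  intro hg
  have hodd : Odd r := (Fact.out : r.Prime).odd_of_ne_two (by omega)
  obtain ⟨u, hu, hmove⟩ := S.exists_moved hns
  have hlin := S.linearIndependent (f := fun k : Fin r => g ^ (k : ℕ) * u * (g ^ (k : ℕ))⁻¹)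
    (fun k => conj_mem S (pow_mem hg _) hu) (fun i j => S.not_cg_orbit hodd hgr hg hu hmove i j)
  have hinv : ((g⁻¹ : GL ι F) : Mx) ∈ Submodule.span F {1, (g : Mx)} := by
    rcases eq_or_ne β 0 with rfl | hβ
    · exfalso
      refine hns α ?_
      rw [zero_smul, add_zero] at hq
      have := congrArg (((g⁻¹ : GL ι F) : Mx) * ·) hq
      simpa [← mul_assoc, mul_smul_comm] using this
    · have e : ((g⁻¹ : GL ι F) : Mx) = β⁻¹ • (g : Mx) - (β⁻¹ * α) • 1 := by
        have h1 : (g : Mx) * (β⁻¹ • (g : Mx) - (β⁻¹ * α) • 1) = 1 := by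
          rw [mul_sub, mul_smul_comm, mul_smul_comm, mul_one, hq, smul_add, smul_smul, smul_smul,
            inv_mul_cancel₀ hβ, one_smul]
          module
        calc ((g⁻¹ : GL ι F) : Mx) = ((g⁻¹ : GL ι F) : Mx) * ((g : Mx) * (β⁻¹ • (g : Mx) - (β⁻¹ * α) • 1)) := by
              rw [h1, mul_one]
          _ = _ := by rw [← mul_assoc, ← Units.val_mul, inv_mul_cancel, Units.val_one, one_mul]
      rw [e]
      exact sub_mem (Submodule.smul_mem _ _ (Submodule.subset_span (by simp)))
        (Submodule.smul_mem _ _ (Submodule.subset_span (by simp)))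
  set W : Submodule F Mx := Submodule.span F {(u : Mx), (g : Mx) * u, (u : Mx) * g, (g : Mx) * u * g} with hW
  have hgl : ∀ M ∈ W, (g : Mx) * M ∈ W := by
    intro M hM
    induction hM using Submodule.span_induction with
    | mem v hv =>
      rcases hv with rfl | rfl | rfl | rfl
      · exact Submodule.subset_span (by simp)
      · rw [← mul_assoc, hq, add_mul, smul_mul_assoc, smul_mul_assoc, one_mul]
        exact add_mem (Submodule.smul_mem _ _ (Submodule.subset_span (by simp)))
          (Submodule.smul_mem _ _ (Submodule.subset_span (by simp)))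
      · rw [← mul_assoc]; exact Submodule.subset_span (by simp)
      · rw [← mul_assoc, ← mul_assoc, hq, add_mul, add_mul]
        simp only [smul_mul_assoc, one_mul]
        exact add_mem (Submodule.smul_mem _ _ (Submodule.subset_span (by simp)))
          (Submodule.smul_mem _ _ (Submodule.subset_span (by simp)))
    | zero => simp
    | add a b _ _ ha hb => rw [mul_add]; exact add_mem ha hb
    | smul c a _ ha => rw [mul_smul_comm]; exact Submodule.smul_mem _ _ ha
  have hgr' : ∀ M ∈ W, M * (g : Mx) ∈ W := by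
    intro M hM
    induction hM using Submodule.span_induction with
    | mem v hv =>
      rcases hv with rfl | rfl | rfl | rfl
      · exact Submodule.subset_span (by simp)
      · exact Submodule.subset_span (by simp)
      · rw [mul_assoc, hq, mul_add, mul_smul_comm, mul_smul_comm, mul_one]
        exact add_mem (Submodule.smul_mem _ _ (Submodule.subset_span (by simp)))
          (Submodule.smul_mem _ _ (Submodule.subset_span (by simp)))
      · rw [mul_assoc, hq, mul_add, mul_smul_comm, mul_smul_comm, mul_one]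
        exact add_mem (Submodule.smul_mem _ _ (Submodule.subset_span (by simp)))
          (Submodule.smul_mem _ _ (Submodule.subset_span (by simp)))
    | zero => simp
    | add a b _ _ ha hb => rw [add_mul]; exact add_mem ha hb
    | smul c a _ ha => rw [smul_mul_assoc]; exact Submodule.smul_mem _ _ ha
  have hginv : ∀ M ∈ W, M * ((g⁻¹ : GL ι F) : Mx) ∈ W := by
    intro M hM
    obtain ⟨c, d, hcd⟩ := Submodule.mem_span_pair.1 hinv
    rw [← hcd, mul_add, mul_smul_comm, mul_smul_comm, mul_one]
    exact add_mem (Submodule.smul_mem _ _ hM) (Submodule.smul_mem _ _ (hgr' M hM))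
  have horb : ∀ k : ℕ, ((g ^ k * u * (g ^ k)⁻¹ : GL ι F) : Mx) ∈ W := by
    intro k
    induction k with
    | zero => simpa using Submodule.subset_span (by simp)
    | succ k ih =>
      rw [show g ^ (k + 1) * u * (g ^ (k + 1))⁻¹ = g * (g ^ k * u * (g ^ k)⁻¹) * g⁻¹ by rw [pow_succ']; group,
        Units.val_mul, Units.val_mul]
      exact hginv _ (hgl _ ih)
  have hle : Submodule.span F (Set.range fun k : Fin r => ((g ^ (k : ℕ) * u * (g ^ (k : ℕ))⁻¹ : GL ι F) : Mx)) ≤ W :=
    Submodule.span_le.2 (by rintro _ ⟨k, rfl⟩; exact horb k)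
  have h1 := Submodule.finrank_mono hle
  rw [finrank_span_eq_card hlin, Fintype.card_fin] at h1
  classical
  have h2 : finrank F W ≤ 4 := by
    have e : ({(u : Mx), (g : Mx) * u, (u : Mx) * g, (g : Mx) * u * g} : Set Mx) =
        (({(u : Mx), (g : Mx) * u, (u : Mx) * g, (g : Mx) * u * g} : Finset Mx) : Set Mx) := by push_cast; rfl
    rw [hW, e]
    exact (finrank_span_finset_le_card _).trans Finset.card_le_four
  omega

/-- An element of order three that is a scalar on a hyperplane is not in the normalizer. -/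
theorem not_mem_of_hyperplane {z : F} (hgr : ((g ^ 3 : GL ι F) : Mx) = z • 1) (hns : ∀ c : F, (g : Mx) ≠ c • 1)
    {lam : F} {a b : ι → F} (hh : (g : Mx) = lam • 1 + vecMulVec a b) :
    g ∉ Cfsg.Geo.subgroupNormalizer R := by
  intro hg
  haveI : Fact (Nat.Prime 3) := ⟨Nat.prime_three⟩
  obtain ⟨u, hu, hmove⟩ := S.exists_moved hns
  set v : ℕ → GL ι F := fun k => g ^ k * u * (g ^ k)⁻¹ with hv
  have hvR : ∀ k, v k ∈ R := fun k => conj_mem S (pow_mem hg k) hu
  have hnc : ∀ i j : Fin 3, i ≠ j → ¬ Cg (v i) (v j) := fun i j => S.not_cg_orbit ⟨1, rfl⟩ hgr hg hu hmove i j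
  let K : Submodule F (ι → F) := LinearMap.ker ((Matrix.replicateRow Unit b).mulVecLin)
  have hK : ∀ w ∈ K, (g : Mx) *ᵥ w = lam • w := fun w hw => by
    have h0 : b ⬝ᵥ w = 0 := by
      have := congrFun (LinearMap.mem_ker.1 hw) ()
      simpa [Matrix.mulVec, Matrix.replicateRow] using this
    rw [hh, add_mulVec, smul_mulVec, one_mulVec, vecMulVec_mulVec, h0]
    simp
  have hdim : finrank F (ι → F) = 4 := by rw [Module.finrank_pi, S.dim]
  have hK3 : 3 ≤ finrank F K := by
    have h1 := LinearMap.finrank_range_add_finrank_ker ((Matrix.replicateRow Unit b).mulVecLin)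
    have h2 := Submodule.finrank_le (LinearMap.range ((Matrix.replicateRow Unit b).mulVecLin))
    rw [hdim] at h1
    rw [Module.finrank_pi, Fintype.card_unit] at h2
    have : finrank F K = finrank F (LinearMap.ker ((Matrix.replicateRow Unit b).mulVecLin)) := rfl
    omega
  let U : (ι → F) ≃ₗ[F] (ι → F) := LinearEquiv.ofLinear (Matrix.mulVecLin (u : Mx)) (Matrix.mulVecLin ((u⁻¹ : GL ι F) : Mx))
    (by rw [← Matrix.mulVecLin_mul, ← Units.val_mul, mul_inv_cancel, Units.val_one, Matrix.mulVecLin_one])
    (by rw [← Matrix.mulVecLin_mul, ← Units.val_mul, inv_mul_cancel, Units.val_one, Matrix.mulVecLin_one])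
  let W : Submodule F (ι → F) := K ⊓ K.comap U.toLinearMap
  have hW2 : 2 ≤ finrank F W := by
    have h1 := Submodule.finrank_sup_add_finrank_inf_eq K (K.comap U.toLinearMap)
    have h2 : finrank F (K.comap U.toLinearMap) = finrank F K := by
      rw [Submodule.comap_equiv_eq_map_symm]
      exact LinearEquiv.finrank_map_eq _ _
    have h3 := Submodule.finrank_le (K ⊔ K.comap U.toLinearMap)
    rw [hdim] at h3
    show 2 ≤ finrank F (K ⊓ K.comap U.toLinearMap : Submodule F (ι → F))
    omega
  have hlam : lam ≠ 0 := fun h => by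
    obtain ⟨w, hw, hw0⟩ := K.exists_mem_ne_zero_of_ne_bot (fun hb => by rw [hb, finrank_bot] at hK3; omega)
    refine hw0 ?_
    have h1 := hK w hw
    rw [h, zero_smul] at h1
    have h2 := congrArg (((g⁻¹ : GL ι F) : Mx) *ᵥ ·) h1
    simpa [mulVec_mulVec] using h2
  -- all three conjugates agree on `W`
  have hagree : ∀ k, ∀ w ∈ W, (v k : Mx) *ᵥ w = (u : Mx) *ᵥ w := by
    intro k
    induction k with
    | zero => intro w _; simp [hv]
    | succ k ih =>
      intro w hw
      obtain ⟨hw1, hw2⟩ := hw
      have hginv : ((g⁻¹ : GL ι F) : Mx) *ᵥ w = lam⁻¹ • w := by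
        have h1 := congrArg (((g⁻¹ : GL ι F) : Mx) *ᵥ ·) (hK w hw1)
        simp only [mulVec_mulVec, mulVec_smul] at h1
        rw [← Units.val_mul, inv_mul_cancel, Units.val_one, one_mulVec] at h1
        conv_rhs => rw [h1]
        rw [smul_smul, inv_mul_cancel₀ hlam, one_smul]
      rw [show v (k + 1) = g * v k * g⁻¹ by simp only [hv]; rw [pow_succ']; group, Units.val_mul, Units.val_mul,
        ← mulVec_mulVec, hginv, ← mulVec_mulVec, mulVec_smul, ih w ⟨hw1, hw2⟩, mulVec_smul,
        hK _ (show (u : Mx) *ᵥ w ∈ K from hw2), smul_smul, inv_mul_cancel₀ hlam, one_smul]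
  -- the two quotients fix `W`
  let A : Fin 2 → GL ι F := fun i => u⁻¹ * v (i + 1)
  have hAR : ∀ i, A i ∈ R := fun i => mul_mem (inv_mem hu) (hvR _)
  have hAns : ∀ i, ¬ Cg 1 (A i) := fun i h => by
    refine hnc 0 i.succ (Fin.succ_ne_zero i).symm ?_
    simpa [hv, A] using h.mul_left u
  have hAW : ∀ i, ∀ w ∈ W, (A i : Mx) *ᵥ w = w := fun i w hw => by
    rw [Units.val_mul, ← mulVec_mulVec, hagree _ w hw, mulVec_mulVec, ← Units.val_mul, inv_mul_cancel,
      Units.val_one, one_mulVec]
  haveI := S.nonempty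
  obtain ⟨w₀, hw₀, hw₀0⟩ := W.exists_mem_ne_zero_of_ne_bot (fun hb => by rw [hb, finrank_bot] at hW2; omega)
  have h22 := S.two
  have hinvol : ∀ i, A i * A i = 1 := fun i => (S.sq _ (hAR i)).resolve_right fun h => by
    have h1 := congrArg (fun M : GL ι F => (M : Mx) *ᵥ w₀) h
    simp only [Units.val_mul, ← mulVec_mulVec, hAW i w₀ hw₀, Units.val_neg, Units.val_one, neg_mulVec, one_mulVec] at h1
    rw [eq_neg_iff_add_eq_zero, ← two_smul F] at h1
    exact hw₀0 ((smul_eq_zero.1 h1).resolve_left h22)
  -- fixed spaces have dimension two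
  have hfix : ∀ i, LinearMap.ker (((A i : Mx) - 1).mulVecLin) = W := by
    intro i
    have hle : W ≤ LinearMap.ker (((A i : Mx) - 1).mulVecLin) := fun w hw => by
      simp [LinearMap.mem_ker, sub_mulVec, hAW i w hw]
    refine (Submodule.eq_of_le_of_finrank_le hle (le_trans ?_ hW2)).symm
    obtain ⟨y, hy, hAy⟩ := S.exists_anti (hAR i) (hAns i)
    let Y : (ι → F) ≃ₗ[F] (ι → F) := LinearEquiv.ofLinear (Matrix.mulVecLin (y : Mx)) (Matrix.mulVecLin ((y⁻¹ : GL ι F) : Mx))
      (by rw [← Matrix.mulVecLin_mul, ← Units.val_mul, mul_inv_cancel, Units.val_one, Matrix.mulVecLin_one])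
      (by rw [← Matrix.mulVecLin_mul, ← Units.val_mul, inv_mul_cancel, Units.val_one, Matrix.mulVecLin_one])
    set P := LinearMap.ker (((A i : Mx) - 1).mulVecLin) with hP
    have hdisj : P ⊓ P.map Y.toLinearMap = ⊥ := by
      rw [eq_bot_iff]
      rintro _ ⟨hw, ⟨w, hw', rfl⟩⟩
      have h1 : (A i : Mx) *ᵥ w = w := sub_eq_zero.1 (by simpa [hP, LinearMap.mem_ker, sub_mulVec] using hw')
      have h2 : (A i : Mx) *ᵥ ((y : Mx) *ᵥ w) = (y : Mx) *ᵥ w :=
        sub_eq_zero.1 (by simpa [hP, Y, LinearMap.mem_ker, sub_mulVec] using hw)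
      rw [mulVec_mulVec, ← Units.val_mul, hAy, Units.val_neg, neg_mulVec, Units.val_mul, ← mulVec_mulVec, h1,
        eq_comm, eq_neg_iff_add_eq_zero, ← two_smul F] at h2
      simpa [Submodule.mem_bot, Y] using (smul_eq_zero.1 h2).resolve_left h22
    have h3 := Submodule.finrank_sup_add_finrank_inf_eq P (P.map Y.toLinearMap)
    rw [hdisj, finrank_bot, LinearEquiv.finrank_map_eq] at h3
    have h4 := Submodule.finrank_le (P ⊔ P.map Y.toLinearMap)
    rw [hdim] at h4
    omega
  have hAB : Commute (A 0) (A 1) := by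
    by_contra hne
    have h1 := congrArg (fun M : GL ι F => (M : Mx) *ᵥ w₀) (S.anti_of_not_commute (hAR 0) (hAR 1) hne)
    simp only [Units.val_mul, ← mulVec_mulVec, hAW _ w₀ hw₀, Units.val_neg, neg_mulVec] at h1
    rw [eq_neg_iff_add_eq_zero, ← two_smul F] at h1
    exact hw₀0 ((smul_eq_zero.1 h1).resolve_left h22)
  have heq : A 0 = A 1 := by
    refine Units.ext (Matrix.toLin'.injective (LinearMap.ext fun x => ?_))
    have hmem : ∀ i, x + (A i : Mx) *ᵥ x ∈ W := fun i => by
      rw [← hfix i, LinearMap.mem_ker]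
      simp [sub_mulVec, mulVec_add, mulVec_mulVec, ← Units.val_mul, hinvol, add_comm]
    have e0 := hAW 1 _ (hmem 0)
    have e1 := hAW 0 _ (hmem 1)
    rw [mulVec_add, mulVec_mulVec, ← Units.val_mul, hAB.symm.eq] at e0
    rw [mulVec_add, mulVec_mulVec, ← Units.val_mul] at e1
    have : (2 : F) • ((A 0 : Mx) *ᵥ x) = (2 : F) • ((A 1 : Mx) *ᵥ x) := by
      linear_combination (norm := module) e1 - e0
    simpa [Matrix.toLin'_apply] using smul_right_injective (ι → F) h22 this
  have h3 := mul_left_cancel heq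
  exact hnc 1 2 (by decide) (by
    have : v ((1 : Fin 3) : ℕ) = v ((2 : Fin 3) : ℕ) := by simpa using h3
    rw [this]
    exact Cg.refl _)

/-- For a group of minus type an element of order three in the normalizer centralises an anticommuting pair. -/
theorem exists_pair_three [Finite F] {z : F} (hgr : ((g ^ 3 : GL ι F) : Mx) = z • 1)
    (hns : ∀ c : F, (g : Mx) ≠ c • 1) (hg : g ∈ Cfsg.Geo.subgroupNormalizer R)
    (hm : ∀ a ∈ R, ∀ b ∈ R, a * a = 1 → b * b = 1 → Commute a b → Cg 1 a ∨ Cg 1 b ∨ Cg a b)
    (hZ : Nat.card (Subgroup.center R) = 2) (hR : Nat.card R = 16 * 2) :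
    ∃ A ∈ R, ∃ B ∈ R, A * B = -(B * A) ∧ Commute g A ∧ Commute g B := by
  classical
  haveI : Fact (Nat.Prime 3) := ⟨Nat.prime_three⟩
  have hodd : Odd 3 := ⟨1, rfl⟩
  obtain ⟨u, hu, hmove⟩ := S.exists_moved hns
  -- a fixed non-scalar element
  obtain ⟨x, hx, hgx, hnx⟩ : ∃ x ∈ R, Commute g x ∧ ¬ Cg 1 x := by
    by_contra hall
    push Not at hall
    -- then every orbit multiplies to a scalar
    have horb : ∀ v ∈ R, ¬ Cg 1 v → Cg 1 (v * (g * v * g⁻¹) * (g * (g * v * g⁻¹) * g⁻¹)) := by
      intro v hv _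
      have h1 := conj_mem S hg hv
      have h2 := conj_mem S hg h1
      have hw := mul_mem (mul_mem hv h1) h2
      refine hall _ hw (S.commute_of_cg_conj hodd hgr hg hw ?_)
      have e3 : g * (g * (g * v * g⁻¹) * g⁻¹) * g⁻¹ = v := by
        rw [show g * (g * (g * v * g⁻¹) * g⁻¹) * g⁻¹ = g ^ 3 * v * (g ^ 3)⁻¹ by simp [pow_succ, _root_.mul_inv_rev, mul_assoc], (S.pow_commute hgr v).eq,
          mul_inv_cancel_right]
      rw [show g * (v * (g * v * g⁻¹) * (g * (g * v * g⁻¹) * g⁻¹)) * g⁻¹ =
        g * v * g⁻¹ * (g * (g * v * g⁻¹) * g⁻¹) * (g * (g * (g * v * g⁻¹) * g⁻¹) * g⁻¹) by group, e3]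
      rcases S.comm v hv _ (mul_mem h1 h2) with h | h
      · rw [mul_assoc v, h]; exact Cg.refl _
      · exact ⟨-1, by rw [mul_assoc v, h, Units.val_neg, neg_one_smul, neg_neg]⟩
    -- so all non-scalar elements have square minus one
    have hsq : ∀ v ∈ R, ¬ Cg 1 v → v * v = -1 := by
      intro v hv hnv
      refine (S.sq v hv).resolve_left fun h1 => ?_
      have hv' := conj_mem S hg hv
      have hv'' := conj_mem S hg hv'
      have hmv : ¬ Commute g v := fun h => hnv (hall v hv h)
      have hnc := S.not_cg_orbit (r := 3) hodd hgr hg hv hmv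
      have hw := horb v hv hnv
      obtain ⟨c, hc⟩ := hw
      have hsq' : g * v * g⁻¹ * (g * v * g⁻¹) = 1 := by
        rw [show g * v * g⁻¹ * (g * v * g⁻¹) = g * (v * v) * g⁻¹ by group, h1]; group
      by_cases hcm : Commute v (g * v * g⁻¹)
      · rcases hm v hv _ hv' h1 hsq' hcm with h | h | h
        · exact hnv h
        · exact hnv (by simpa [mul_assoc] using (h.mul_left g⁻¹).mul_right g)
        · exact hnc 0 1 (by decide) (by simpa [pow_one, mul_assoc] using h)
      · have han := S.anti_of_not_commute hv hv' hcm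
        have hsqmul : ∀ p w : GL ι F, p * p = 1 → w * w = 1 → p * w = -(w * p) → p * w * (p * w) = -1 := by
          intro p w hp hw hpw
          rw [show p * w * (p * w) = p * (w * p) * w by simp only [mul_assoc], show w * p = -(p * w) by rw [hpw, neg_neg],
            mul_neg, neg_mul, ← mul_assoc p p, hp, one_mul, hw]
        have h5 := hsqmul v _ h1 hsq' han
        -- the third conjugate is congruent to the product and has square one
        have hthird : ∀ P Q : GL ι F, P * P = -1 → Cg 1 (P * Q) → Cg P Q := by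
          intro P Q hP hPQ
          have h7 := hPQ.mul_left P
          rw [mul_one, ← mul_assoc, hP, neg_one_mul] at h7
          exact h7.trans ⟨-1, by simp⟩
        have h6 : Cg (v * (g * v * g⁻¹)) (g * (g * v * g⁻¹) * g⁻¹) := hthird _ _ h5 ⟨c, hc⟩
        obtain ⟨d, hd⟩ := h6
        have h9 : g * (g * v * g⁻¹) * g⁻¹ * (g * (g * v * g⁻¹) * g⁻¹) = 1 := by
          rw [show g * (g * v * g⁻¹) * g⁻¹ * (g * (g * v * g⁻¹) * g⁻¹) = g * (g * v * g⁻¹ * (g * v * g⁻¹)) * g⁻¹ by group, hsq']
          group
        have hd0 : d ≠ 0 := fun h => by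
          rw [h, zero_smul] at hd
          haveI := S.nonempty
          exact Units.ne_zero _ hd
        have h10 := congrArg Units.val h9
        rw [Units.val_mul, hd, smul_mul_assoc, mul_smul_comm, smul_smul, ← Units.val_mul, h5, Units.val_neg, Units.val_one, smul_neg] at h10
        -- so `d * d = -1`; but `d = ± 1`
        haveI := S.nonempty
        have hdd : d * d = -1 := by
          have := congrFun (congrFun h10 (Classical.arbitrary ι)) (Classical.arbitrary ι)
          simp at this
          linear_combination -this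
        obtain ⟨e, he, hes⟩ : ∃ e : R, ((e : GL ι F) : Mx) = d • (1 : Mx) ∧ e ∈ Subgroup.center R := by
          have hmem : (v * (g * v * g⁻¹))⁻¹ * (g * (g * v * g⁻¹) * g⁻¹) ∈ R := mul_mem (inv_mem (mul_mem hv hv')) hv''
          have he : (((v * (g * v * g⁻¹))⁻¹ * (g * (g * v * g⁻¹) * g⁻¹) : GL ι F) : Mx) = d • (1 : Mx) := by
            rw [Units.val_mul, hd, mul_smul_comm, ← Units.val_mul, inv_mul_cancel, Units.val_one]
          exact ⟨⟨_, hmem⟩, he, S.scalar_mem_center hmem ⟨d, by rw [he, Units.val_one]⟩⟩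
        have hcard2 := pow_card_eq_one' (x := (⟨e, hes⟩ : Subgroup.center R))
        rw [hZ] at hcard2
        have h11 := congrArg (fun q : Subgroup.center R => (((q : R) : GL ι F) : Mx)) hcard2
        simp only [SubmonoidClass.coe_pow, Units.val_pow_eq_pow_val, he, smul_pow, one_pow, OneMemClass.coe_one, Units.val_one] at h11
        have h12 : d ^ 2 = 1 := by
          have := congrFun (congrFun h11 (Classical.arbitrary ι)) (Classical.arbitrary ι)
          simpa using this
        exact S.two (by linear_combination -h12 + hdd)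
    -- then distinct classes anticommute, which is absurd
    obtain ⟨a, ha, b, hb, hab⟩ : ∃ a ∈ R, ∃ b ∈ R, a * b = -(b * a) := by
      obtain ⟨a, ha, hga⟩ := S.exists_moved hns
      have hna : ¬ Cg 1 a := fun h => hga (h.commute (Commute.one_left g)).symm
      obtain ⟨b, hb, hab⟩ := S.exists_anti ha hna
      exact ⟨a, ha, b, hb, hab⟩
    have hanti : ∀ p ∈ R, ∀ q ∈ R, Commute p q → Cg 1 p ∨ Cg 1 q ∨ Cg p q := by
      intro p hp q hq hpq
      by_contra hcon
      push Not at hcon
      obtain ⟨hnp, hnq, hnpq⟩ := hcon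
      have hns' : ¬ Cg 1 (p * q) := fun h => hnpq (by
        have h1 := h.mul_left p
        rw [mul_one, ← mul_assoc, hsq p hp hnp, neg_one_mul] at h1
        exact h1.trans ⟨-1, by simp⟩)
      have h1 := hsq _ (mul_mem hp hq) hns'
      rw [mul_assoc, ← mul_assoc q p, ← hpq.eq, mul_assoc p q, hsq q hq hnq, mul_neg, mul_one, mul_neg, hsq p hp hnp, neg_neg] at h1
      exact S.neg_ne 1 h1.symm
    have hna : ¬ Cg 1 a := fun h => S.not_both (h.commute (Commute.one_left b)) hab
    have hnb : ¬ Cg 1 b := fun h => S.not_both (h.commute (Commute.one_left a)).symm hab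
    -- an element commuting with both
    obtain ⟨w, hw, hwa, hwb, hnw⟩ : ∃ w ∈ R, Commute w a ∧ Commute w b ∧ ¬ Cg 1 w := by
      by_contra hnone
      push Not at hnone
      have hbig := S.big
      rw [hR, hZ] at hbig
      -- every element is one of `1, a, b, a b` up to a central one
      have hcover : ∀ v : R, ∃ k : Fin 4, ∃ e : Subgroup.center R, ((![1, a, b, a * b] k : GL ι F) * ((e : R) : GL ι F)) = (v : GL ι F) := by
        intro v
        have hcases : ∀ t ∈ R, Commute (t⁻¹ * (v : GL ι F)) a → Commute (t⁻¹ * (v : GL ι F)) b →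
            ∀ k : Fin 4, (![1, a, b, a * b] k : GL ι F) = t →
            ∃ k : Fin 4, ∃ e : Subgroup.center R, ((![1, a, b, a * b] k : GL ι F) * ((e : R) : GL ι F)) = (v : GL ι F) := by
          intro t ht h1 h2 k hk
          have hm' := hnone _ (mul_mem (inv_mem ht) v.2) h1 h2
          exact ⟨k, ⟨⟨_, mul_mem (inv_mem ht) v.2⟩, S.scalar_mem_center _ hm'⟩, by rw [hk, mul_inv_cancel_left]⟩
        have cm : ∀ {t z : GL ι F}, t * z = -(z * t) → t⁻¹ * z = -(z * t⁻¹) := fun h => by
          rw [inv_mul_eq_iff_eq_mul, mul_neg, ← mul_assoc, h, neg_mul, neg_neg, mul_inv_cancel_right]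
        rcases S.comm _ v.2 a ha with h1 | h1 <;> rcases S.comm _ v.2 b hb with h2 | h2
        · exact hcases 1 (one_mem _) (by rw [inv_one, one_mul]; exact h1) (by rw [inv_one, one_mul]; exact h2) 0 rfl
        · exact hcases a ha (Commute.mul_left (Commute.refl a).inv_left h1)
            (S.commute_mul_of_anti (cm hab) h2) 1 rfl
        · exact hcases b hb (S.commute_mul_of_anti (cm (anti_symm S hab)) h1)
            (Commute.mul_left (Commute.refl b).inv_left h2) 2 rfl
        · exact hcases (a * b) (mul_mem ha hb)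
            (S.commute_mul_of_anti (cm (S.anti_mul_right (Commute.refl a) (anti_symm S hab))) h1)
            (S.commute_mul_of_anti (cm (S.anti_mul_left hab (Commute.refl b))) h2) 3 rfl
      choose k e hke using hcover
      have := Nat.card_le_card_of_injective (fun v : R => (k v, e v)) (fun v w h => by
        simp only [Prod.mk.injEq] at h
        exact Subtype.ext (by rw [← hke v, ← hke w, h.1, h.2]))
      rw [Nat.card_prod, Nat.card_fin, hZ, hR] at this
      omega
    rcases hanti w hw a ha hwa with h | h | h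
    · exact hnw h
    · exact hna h
    · exact S.not_both (h.commute hwb) hab
  -- a second fixed element
  obtain ⟨y, hy, hgy, hny, hyx⟩ : ∃ y ∈ R, Commute g y ∧ ¬ Cg 1 y ∧ ¬ Cg y x := by
    by_contra hall
    push Not at hall
    have h := S.card_fixed_modEq hgr hg
    have e : Nat.card (R ⊓ Subgroup.centralizer ({g} : Set (GL ι F)) : Subgroup (GL ι F)) = 2 * 2 := by
      refine le_antisymm ?_ ?_
      · have hcov : ∀ v : (R ⊓ Subgroup.centralizer ({g} : Set (GL ι F)) : Subgroup (GL ι F)),
            ∃ k : Fin 2, ∃ e : Subgroup.center R, ((![1, x] k : GL ι F) * ((e : R) : GL ι F)) = (v : GL ι F) := fun v => by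
          by_cases hv : Cg 1 (v : GL ι F)
          · exact ⟨0, ⟨⟨v, v.2.1⟩, S.scalar_mem_center _ hv⟩, one_mul _⟩
          · have h1 := hall _ v.2.1 (Subgroup.mem_centralizer_singleton_iff.1 v.2.2).symm hv
            refine ⟨1, ⟨⟨x⁻¹ * v, mul_mem (inv_mem hx) v.2.1⟩, S.scalar_mem_center _ ?_⟩, mul_inv_cancel_left x _⟩
            simpa using h1.symm.mul_left x⁻¹
        choose k e hke using hcov
        have := Nat.card_le_card_of_injective (fun v => (k v, e v)) (fun v w h => by
          simp only [Prod.mk.injEq] at h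
          exact Subtype.ext (by rw [← hke v, ← hke w, h.1, h.2]))
        rwa [Nat.card_prod, Nat.card_fin, hZ] at this
      · have hmemf : ∀ k : Fin 2 × Subgroup.center R, (![1, x] k.1 : GL ι F) * ((k.2 : R) : GL ι F) ∈
            (R ⊓ Subgroup.centralizer ({g} : Set (GL ι F)) : Subgroup (GL ι F)) := fun k => by
          have hc1 : Cg 1 ((k.2 : R) : GL ι F) := S.eq_scalar fun y hy =>
            (congrArg Subtype.val (Subgroup.mem_center_iff.1 k.2.2 ⟨y, hy⟩)).symm
          have hck : Commute g ((k.2 : R) : GL ι F) := (hc1.commute (Commute.one_left g)).symm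
          rcases k with ⟨i, e⟩
          fin_cases i
          · exact ⟨mul_mem (one_mem _) e.1.2, Subgroup.mem_centralizer_singleton_iff.2 ((Commute.one_right g).mul_right hck).eq.symm⟩
          · exact ⟨mul_mem hx e.1.2, Subgroup.mem_centralizer_singleton_iff.2 (hgx.mul_right hck).eq.symm⟩
        have := Nat.card_le_card_of_injective (fun k => (⟨_, hmemf k⟩ : (R ⊓ Subgroup.centralizer ({g} : Set (GL ι F)) : Subgroup (GL ι F))))
          (by
            rintro ⟨i, e⟩ ⟨j, e'⟩ h
            have h' := congrArg Subtype.val h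
            dsimp only at h'
            have hij : i = j := by
              by_contra hne
              refine hnx ?_
              have hc : ∀ w : Subgroup.center R, Cg 1 ((w : R) : GL ι F) := fun w => S.eq_scalar fun y hy =>
                (congrArg Subtype.val (Subgroup.mem_center_iff.1 w.2 ⟨y, hy⟩)).symm
              fin_cases i <;> fin_cases j <;> simp at h' hne
              · have h2 := (hc e')
                have h3 : Cg (x * 1) (x * ((e' : R) : GL ι F)) := h2.mul_left x
                rw [← h', mul_one] at h3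
                exact (hc e).trans h3.symm
              · have h3 : Cg (x * 1) (x * ((e : R) : GL ι F)) := (hc e).mul_left x
                rw [h', mul_one] at h3
                exact (hc e').trans h3.symm
            subst hij
            exact Prod.ext rfl (Subtype.ext (Subtype.ext (mul_left_cancel h'))))
        rwa [Nat.card_prod, Nat.card_fin, hZ] at this
    rw [e, hR] at h
    norm_num [Nat.ModEq] at h
  rcases S.comm x hx y hy with h | h
  · exact absurd (S.centralises_of_two hodd hgr hg hx hy hnx hny hyx h hgx hgy u hu) hmove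
  · exact ⟨x, hx, y, hy, h, hgx, hgy⟩

end Dat

end Cfsg.Agent.Linear.SymType4
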