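import Mathlib
import Cfsg.Prelude.Def_GeometricClasses
import Cfsg.Agent.Components.IsolatedRankTwo

/-!
Absolutely irreducible 2-groups of symplectic type in dimension four: squares and commutators are
signs, and non-congruent elements are linearly independent.
-/

set_option autoImplicit false

namespace Cfsg.Agent.Linear.SymType4

open Matrix
open scoped commutatorElement

variable {ι : Type} {F : Type*} [Fintype ι] [DecidableEq ι] [Field F]

local notation "Mx" => Matrix ι ι F

/-- `y` is a multiple of `x`. -/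
def Cg (x y : GL ι F) : Prop := ∃ c : F, (y : Mx) = c • (x : Mx)

/-- The properties of `R` used below. -/
structure Dat (R : Subgroup (GL ι F)) : Prop where
  two : (2 : F) ≠ 0
  dim : Fintype.card ι = 4
  sq : ∀ x ∈ R, x * x = 1 ∨ x * x = -1
  comm : ∀ x ∈ R, ∀ y ∈ R, x * y = y * x ∨ x * y = -(y * x)
  irr : ∀ M : Mx, (∀ x ∈ R, M * (x : Mx) = (x : Mx) * M) → ∃ c : F, M = c • (1 : Mx)
  big : 4 * Nat.card (Subgroup.center R) < Nat.card R

theorem Cg.symm {x y : GL ι F} (h : Cg x y) : Cg y x := by
  obtain ⟨c, hc⟩ := h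
  rcases eq_or_ne c 0 with rfl | hc0
  · rcases isEmpty_or_nonempty ι with h | h
    · exact ⟨0, Subsingleton.elim _ _⟩
    · exact absurd (by rw [hc, zero_smul]) y.isUnit.ne_zero
  · exact ⟨c⁻¹, by rw [hc, smul_smul, inv_mul_cancel₀ hc0, one_smul]⟩

theorem Cg.refl (x : GL ι F) : Cg x x := ⟨1, (one_smul _ _).symm⟩

theorem Cg.trans {x y z : GL ι F} (h : Cg x y) (h' : Cg y z) : Cg x z := by
  obtain ⟨c, hc⟩ := h
  obtain ⟨d, hd⟩ := h'
  exact ⟨d * c, by rw [hd, hc, smul_smul]⟩

theorem Cg.mul_left {x y : GL ι F} (z : GL ι F) (h : Cg x y) : Cg (z * x) (z * y) := by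
  obtain ⟨c, hc⟩ := h
  exact ⟨c, by rw [Units.val_mul, Units.val_mul, hc, mul_smul_comm]⟩

theorem Cg.of_mul_left {x y : GL ι F} (z : GL ι F) (h : Cg (z * x) (z * y)) : Cg x y := by
  simpa using h.mul_left z⁻¹

theorem Cg.mul_right {x y : GL ι F} (z : GL ι F) (h : Cg x y) : Cg (x * z) (y * z) := by
  obtain ⟨c, hc⟩ := h
  exact ⟨c, by rw [Units.val_mul, Units.val_mul, hc, smul_mul_assoc]⟩

/-- Congruent elements commute with the same elements. -/
theorem Cg.commute {x y z : GL ι F} (h : Cg x y) (hx : Commute x z) : Commute y z := by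
  obtain ⟨c, hc⟩ := h
  refine Units.ext ?_
  rw [Units.val_mul, Units.val_mul, hc, smul_mul_assoc, mul_smul_comm, ← Units.val_mul, ← Units.val_mul, hx.eq]

namespace Dat

variable {R : Subgroup (GL ι F)} (S : Dat R)
include S

theorem nonempty : Nonempty ι := Fintype.card_pos_iff.1 (by rw [S.dim]; norm_num)

theorem neg_ne (x : GL ι F) : -x ≠ x := fun h => by
  have h1 := congrArg Units.val h
  rw [Units.val_neg, neg_eq_iff_add_eq_zero, ← two_smul F] at h1
  haveI := S.nonempty
  exact x.isUnit.ne_zero ((smul_eq_zero.1 h1).resolve_left S.two)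

/-- Two elements do not both commute and anticommute. -/
theorem not_both {x y : GL ι F} (h : Commute x y) : x * y ≠ -(y * x) := fun h' =>
  S.neg_ne (y * x) (h'.symm.trans h.eq)

theorem anti_of_not_commute {x y : GL ι F} (hx : x ∈ R) (hy : y ∈ R) (h : ¬ Commute x y) :
    x * y = -(y * x) :=
  (S.comm x hx y hy).resolve_left h

theorem sq_cg {x : GL ι F} (hx : x ∈ R) : Cg 1 (x * x) := by
  rcases S.sq x hx with h | h <;> rw [h]
  · exact Cg.refl 1
  · exact ⟨-1, by simp⟩

/-- Products: the sign of a product is the product of the signs. -/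
theorem commute_mul_of_anti {x y z : GL ι F} (hx : x * z = -(z * x)) (hy : y * z = -(z * y)) :
    Commute (x * y) z := by
  show x * y * z = z * (x * y)
  rw [mul_assoc, hy, mul_neg, ← mul_assoc x z, hx, neg_mul, neg_neg, mul_assoc]

theorem anti_mul_left {x y z : GL ι F} (hx : x * z = -(z * x)) (hy : Commute y z) :
    x * y * z = -(z * (x * y)) := by
  rw [mul_assoc, hy.eq, ← mul_assoc x z, hx, neg_mul, mul_assoc]

theorem anti_mul_right {x y z : GL ι F} (hx : Commute x z) (hy : y * z = -(z * y)) :
    x * y * z = -(z * (x * y)) := by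
  rw [mul_assoc, hy, mul_neg, ← mul_assoc x z, hx.eq, mul_assoc]

theorem eq_scalar {x : GL ι F} (hx : ∀ y ∈ R, Commute x y) : Cg 1 x := by
  obtain ⟨c, hc⟩ := S.irr x fun y hy => by rw [← Units.val_mul, (hx y hy).eq, Units.val_mul]
  exact ⟨c, by rw [hc, Units.val_one]⟩

/-- An element of `R` not congruent to another one differs in commutation with some element. -/
theorem exists_sep {x y : GL ι F} (hx : x ∈ R) (hy : y ∈ R) (h : ¬ Cg x y) :
    ∃ z ∈ R, ¬ (Commute x z ↔ Commute y z) := by
  by_contra hall
  push Not at hall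
  refine h (Cg.of_mul_left x⁻¹ ?_)
  rw [inv_mul_cancel]
  refine S.eq_scalar fun z hz => ?_
  by_cases hc : Commute x z
  · exact hc.inv_left.mul_left ((hall z hz).1 hc)
  · have h1 := S.anti_of_not_commute hx hz hc
    have h2 := S.anti_of_not_commute hy hz fun h' => hc ((hall z hz).2 h')
    have h3 : x⁻¹ * z = -(z * x⁻¹) := by
      rw [inv_mul_eq_iff_eq_mul, mul_neg, ← mul_assoc, h1, neg_mul, mul_inv_cancel_right, neg_neg]
    exact S.commute_mul_of_anti h3 h2

/-- Pairwise non-congruent elements are linearly independent. -/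
theorem linearIndependent {κ : Type*} {f : κ → GL ι F} (hf : ∀ k, f k ∈ R)
    (hd : ∀ k l, k ≠ l → ¬ Cg (f k) (f l)) : LinearIndependent F fun k => (f k : Mx) := by
  classical
  haveI := S.nonempty
  rw [linearIndependent_iff']
  intro s
  induction s using Finset.strongInduction with
  | H s ih =>
  intro g hg k hk
  by_contra hgk
  have hex : ∃ l ∈ s, l ≠ k ∧ g l ≠ 0 := by
    by_contra hnone
    push Not at hnone
    rw [Finset.sum_eq_single_of_mem k hk fun l hl hne => by rw [hnone l hl hne, zero_smul]] at hg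
    exact (f k).isUnit.ne_zero ((smul_eq_zero.1 hg).resolve_left hgk)
  obtain ⟨l, hl, hlk, hgl⟩ := hex
  obtain ⟨z, hz, hsep⟩ := S.exists_sep (hf k) (hf l) (hd k l (Ne.symm hlk))
  let e : κ → F := fun m => if Commute (f m) z then 1 else -1
  have he : ∀ m, (z : Mx) * (f m : Mx) * ((z⁻¹ : GL ι F) : Mx) = e m • (f m : Mx) := by
    intro m
    simp only [e]
    split_ifs with hc
    · rw [one_smul, ← Units.val_mul, ← Units.val_mul, ← hc.eq, mul_inv_cancel_right]
    · rw [← Units.val_mul, ← Units.val_mul,
        show z * f m = -(f m * z) by rw [S.anti_of_not_commute (hf m) hz hc, neg_neg], neg_mul,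
        mul_inv_cancel_right, Units.val_neg, neg_one_smul]
  have hg' : ∑ m ∈ s, (g m * e m) • (f m : Mx) = 0 := by
    have := congrArg (fun M => (z : Mx) * M * ((z⁻¹ : GL ι F) : Mx)) hg
    simpa only [Finset.mul_sum, Finset.sum_mul, mul_smul_comm, smul_mul_assoc, he, smul_smul, mul_zero,
      zero_mul] using this
  have hkl : e k ≠ e l := by
    simp only [e]
    have h2 := S.two
    split_ifs with h1 h1' h1'
    · exact absurd ⟨fun _ => h1', fun _ => h1⟩ hsep
    · intro h; exact h2 (by linear_combination h)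
    · intro h; exact h2 (by linear_combination -h)
    · exact absurd ⟨fun h => absurd h h1, fun h => absurd h h1'⟩ hsep
  -- remove `l`
  have h0 : ∑ m ∈ s.erase l, (g m * (e m - e l)) • (f m : Mx) = 0 := by
    rw [Finset.sum_erase _ (by rw [sub_self, mul_zero, zero_smul])]
    simp only [mul_sub, sub_smul, Finset.sum_sub_distrib, hg']
    simp only [mul_comm _ (e l), ← smul_smul, ← Finset.smul_sum, hg, smul_zero, sub_self]
  have := ih (s.erase l) (Finset.erase_ssubset hl) (fun m => g m * (e m - e l)) h0 k
    (Finset.mem_erase.2 ⟨Ne.symm hlk, hk⟩)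
  exact mul_ne_zero hgk (sub_ne_zero.2 hkl) this

/-- There are at most sixteen pairwise non-congruent elements. -/
theorem card_le {κ : Type*} [Fintype κ] {f : κ → GL ι F} (hf : ∀ k, f k ∈ R)
    (hd : ∀ k l, k ≠ l → ¬ Cg (f k) (f l)) : Fintype.card κ ≤ 16 := by
  have := (S.linearIndependent hf hd).fintype_card_le_finrank
  rwa [Module.finrank_matrix, Module.finrank_self, mul_one, Fintype.card_eq_nat_card,
    ← Fintype.card_eq_nat_card, S.dim] at this

theorem exists_anti {x : GL ι F} (hx : x ∈ R) (hns : ¬ Cg 1 x) : ∃ y ∈ R, x * y = -(y * x) := by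
  by_contra hall
  push Not at hall
  exact hns (S.eq_scalar fun y hy => (S.comm x hx y hy).resolve_right (hall y hy))

/-- A non-scalar element of `R` has trace zero. -/
theorem trace_zero {x : GL ι F} (hx : x ∈ R) (hns : ¬ Cg 1 x) : (x : Mx).trace = 0 := by
  obtain ⟨y, hy, hxy⟩ := S.exists_anti hx hns
  have h1 : ((y⁻¹ * x * y : GL ι F) : Mx).trace = (x : Mx).trace := by
    rw [Units.val_mul, Units.val_mul]
    exact Matrix.trace_units_conj' y (x : Mx)
  rw [mul_assoc, hxy, mul_neg, inv_mul_cancel_left, Units.val_neg, Matrix.trace_neg] at h1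
  exact (mul_eq_zero.1 (show (2 : F) * (x : Mx).trace = 0 by linear_combination -h1)).resolve_left S.two

theorem scalar_mem_center {x : GL ι F} (hx : x ∈ R) (h : Cg 1 x) : (⟨x, hx⟩ : R) ∈ Subgroup.center R :=
  Subgroup.mem_center_iff.2 fun y => Subtype.ext (h.commute (Commute.one_left (y : GL ι F))).eq.symm

end Dat

/-! ### The groups of symplectic type -/

section OfType

variable [Finite F] {R : Subgroup (GL ι F)}

/-- The structure of an absolutely irreducible group of symplectic type of order `16 |Z|`. -/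
theorem dat_of_type (h2 : (2 : F) ≠ 0) (hι : Fintype.card ι = 4) (hRs : Cfsg.Geo.IsSymplecticTypeGroup 2 R)
    (hirr : Cfsg.Geo.ActsAbsolutelyIrreducibly (Cfsg.Geo.matrixSet R))
    {zc : ℕ} (hzc : zc = 2 ∨ zc = 4) (hZ : Nat.card (Subgroup.center R) = zc) (hcard : Nat.card R = 16 * zc) :
    Dat R := by
  classical
  haveI : Nonempty ι := Fintype.card_pos_iff.1 (by omega)
  haveI : Fact (Nat.Prime 2) := ⟨Nat.prime_two⟩
  have hexp : ∀ x : R, x ^ 4 = 1 := fun x => by
    have h := Monoid.pow_exponent_eq_one x
    rwa [hRs.exponent_eq, Nat.gcd_self] at h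
  set Z := Subgroup.center R with hZdef
  have hsc : ∀ z ∈ Z, ∃ c : F, ((z : GL ι F) : Mx) = c • (1 : Mx) := fun z hz =>
    hirr.2 _ (by
      rintro _ ⟨y, hy, rfl⟩
      show ((z : GL ι F) : Mx) * (y : Mx) = (y : Mx) * ((z : GL ι F) : Mx)
      rw [← Units.val_mul, ← Units.val_mul]
      exact congrArg (fun u : R => ((u : GL ι F) : Mx)) (Subgroup.mem_center_iff.1 hz ⟨y, hy⟩).symm)
  have hscal : ∀ (z : R) (c : F), ((z : GL ι F) : Mx) = c • (1 : Mx) → z ∈ Z := fun z c hz =>
    Subgroup.mem_center_iff.2 fun y => Subtype.ext (Units.ext (by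
      simp [hz]))
  -- an element of the centre with square one is a sign
  have hsq1 : ∀ z ∈ Z, z * z = 1 → (z : GL ι F) = 1 ∨ (z : GL ι F) = -1 := fun z hz hz1 => by
    obtain ⟨c, hc⟩ := hsc z hz
    have h := congrArg (fun u : R => ((u : GL ι F) : Mx)) hz1
    simp only [Subgroup.coe_mul, Units.val_mul, hc, Subgroup.coe_one, Units.val_one, smul_mul_assoc, one_mul,
      smul_smul] at h
    have hcc : c * c = 1 := by
      have := congrFun (congrFun h (Classical.arbitrary ι)) (Classical.arbitrary ι)
      simpa using this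
    rcases mul_self_eq_one_iff.1 hcc with rfl | rfl
    · exact Or.inl (Units.ext (by rw [hc, one_smul, Units.val_one]))
    · exact Or.inr (Units.ext (by rw [hc, neg_one_smul, Units.val_neg, Units.val_one]))
  set W := Subgroup.upperCentralSeriesStep Z with hWdef
  have hW : ∀ y ∈ W, ∀ x, ⁅y, x⁆ ∈ Z := fun y hy x => hy x
  have hZW : Z ≤ W := fun z hz x => by
    rw [commutatorElement_eq_one_iff_mul_comm.2 (Subgroup.mem_center_iff.1 hz x).symm]
    exact one_mem _
  -- commutator identities modulo the centre
  have hmul : ∀ y ∈ W, ∀ x, ⁅y * y, x⁆ = ⁅y, x⁆ * ⁅y, x⁆ := fun y hy x => by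
    have hc := Subgroup.mem_center_iff.1 (hW y hy x) y
    calc ⁅y * y, x⁆ = y * ⁅y, x⁆ * (x * y⁻¹ * x⁻¹) := by simp only [commutatorElement_def]; group
      _ = ⁅y, x⁆ * y * (x * y⁻¹ * x⁻¹) := by rw [hc]
      _ = _ := by simp only [commutatorElement_def]; group
  have hc4 : ∀ z ∈ Z, z * z * (z * z) = 1 := fun z _ => by rw [← hexp z]; simp [pow_succ, mul_assoc]
  -- characteristic abelian subgroups are small
  have hchar : ∀ A : Subgroup R, A.Characteristic → IsMulCommutative A → Nat.card A ≤ 4 := fun A hA hAc => by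
    haveI := hRs.cyclic_of_characteristic A hA hAc
    rw [← IsCyclic.exponent_eq_card]
    refine Nat.le_of_dvd (by norm_num) (Monoid.exponent_dvd_of_forall_pow_eq_one fun a => Subtype.ext ?_)
    exact hexp a
  have hW2 : ∀ y ∈ W, y * y ∈ Z := by
    have hcase : zc = 2 ∨ zc = 4 := hzc
    rcases hcase with hz | hz
    · intro y hy
      refine Subgroup.mem_center_iff.2 fun x => ?_
      have h1 : ⁅y, x⁆ * ⁅y, x⁆ = 1 := by
        have := pow_card_eq_one' (x := (⟨⁅y, x⁆, hW y hy x⟩ : Z))
        rw [hZ, hz, pow_two] at this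
        exact congrArg Subtype.val this
      exact (commutatorElement_eq_one_iff_mul_comm.1 ((hmul y hy x).trans h1)).symm
    · set A := (Subgroup.closure {w : R | ∃ y ∈ W, w = y * y}) ⊔ Z with hA
      have hgen : A = Subgroup.closure ({w : R | ∃ y ∈ W, w = y * y} ∪ (Z : Set R)) := by
        rw [Subgroup.closure_union, Subgroup.closure_eq]
      have hAc : IsMulCommutative A := by
        rw [hgen]
        refine Subgroup.isMulCommutative_closure fun a ha b hb => ?_
        rcases ha with ⟨y, hy, rfl⟩ | ha
        · rcases hb with ⟨y', hy', rfl⟩ | hb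
          · refine commutatorElement_eq_one_iff_mul_comm.1 ?_
            rw [hmul y hy]
            have e : ⁅y, y' * y'⁆ = ⁅y, y'⁆ * ⁅y, y'⁆ := by
              have h3 := hmul y' hy' y
              rw [← commutatorElement_inv y y', ← commutatorElement_inv y (y' * y'), ← _root_.mul_inv_rev, _root_.inv_inj] at h3
              exact h3
            rw [e]
            exact hc4 _ (hW y hy y')
          · exact (Subgroup.mem_center_iff.1 hb _)
        · exact (Subgroup.mem_center_iff.1 ha _).symm
      have hAch : A.Characteristic := by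
        haveI : Z.Characteristic := Subgroup.centerCharacteristic
        refine Subgroup.characteristic_iff_map_le.2 fun φ => ?_
        rw [hA, Subgroup.map_sup, MonoidHom.map_closure, Subgroup.characteristic_iff_map_eq.1 inferInstance φ]
        refine sup_le_sup_right (Subgroup.closure_mono ?_) _
        rintro _ ⟨_, ⟨y, hy, rfl⟩, rfl⟩
        refine ⟨φ y, ?_, map_mul _ y y⟩
        have := (Subgroup.characteristic_iff_map_le.1 (inferInstance : W.Characteristic) φ)
        exact this ⟨y, hy, rfl⟩
      have hAZ : Z = A := Subgroup.eq_of_le_of_card_ge le_sup_right (by rw [hZ, hz]; exact hchar A hAch hAc)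
      intro y hy
      rw [hAZ, hA]
      exact Subgroup.mem_sup_left (Subgroup.subset_closure ⟨y, hy, rfl⟩)
  have hWpm : ∀ y ∈ W, ∀ x : R, Commute (y : GL ι F) x ∨ (y : GL ι F) * x = -((x : GL ι F) * y) := fun y hy x => by
    have h1 : ⁅y, x⁆ * ⁅y, x⁆ = 1 := by
      rw [← hmul y hy]
      exact commutatorElement_eq_one_iff_mul_comm.2 (Subgroup.mem_center_iff.1 (hW2 y hy) x).symm
    have e : (y : GL ι F) * x = ((⁅y, x⁆ : R) : GL ι F) * ((x : GL ι F) * y) := by
      simp [commutatorElement_def, mul_assoc]
    rcases hsq1 _ (hW y hy x) h1 with h | h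
    · exact Or.inl (by rw [Commute, SemiconjBy, e, h, one_mul])
    · exact Or.inr (by rw [e, h, neg_one_mul])
  -- fixed points of `R` on a normal subgroup modulo a smaller one
  have hmeet : ∀ N A : Subgroup R, N.Normal → A.Normal → A ≤ N → A ≠ N → ∃ c ∈ N, c ∉ A ∧ ∀ x, ⁅c, x⁆ ∈ A := by
    intro N A hN hA hle hne
    haveI := hA
    haveI : (N.map (QuotientGroup.mk' A)).Normal := hN.map _ (QuotientGroup.mk'_surjective A)
    have hbot : N.map (QuotientGroup.mk' A) ≠ ⊥ := fun h => hne (le_antisymm hle (by
      rw [Subgroup.map_eq_bot_iff, QuotientGroup.ker_mk'] at h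
      exact h))
    obtain ⟨_, ⟨⟨c, hc, rfl⟩, hcc⟩, hc1⟩ := (Subgroup.bot_or_exists_ne_one _).resolve_left
      (Components.IsolatedRankTwo.normal_inf_center_ne_bot (hRs.pGroup.to_quotient A) hbot)
    refine ⟨c, hc, fun h => hc1 ((QuotientGroup.eq_one_iff c).2 h), fun x => ?_⟩
    rw [← QuotientGroup.eq_one_iff, ← QuotientGroup.mk'_apply, map_commutatorElement, commutatorElement_eq_one_iff_mul_comm]
    exact (Subgroup.mem_center_iff.1 hcc _).symm
  set C := Subgroup.centralizer (W : Set R) with hCdef
  -- the centre of the second centre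
  have hCW : C ⊓ W = Z := by
    refine le_antisymm (fun a ha => ?_) (le_inf (Subgroup.center_le_centralizer _) hZW)
    by_contra haZ
    set A := C ⊓ W with hA
    have hAch : A.Characteristic := Subgroup.characteristic_iff_map_le.2 fun φ =>
      (Subgroup.map_inf_le C W φ.toMonoidHom).trans (inf_le_inf (Subgroup.characteristic_iff_map_le.1 inferInstance φ)
        (Subgroup.characteristic_iff_map_le.1 inferInstance φ))
    have hAc : IsMulCommutative A := ⟨⟨fun u v => Subtype.ext
      (Subgroup.mem_centralizer_iff.1 u.2.1 v v.2.2).symm⟩⟩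
    have hAle := hchar A hAch hAc
    have hZA : Z ≤ A := le_inf (Subgroup.center_le_centralizer _) hZW
    have hne : Z ≠ A := fun h => haZ (h ▸ ha)
    have hlt : zc < Nat.card A := hZ ▸ (Subgroup.card_le_of_le hZA).lt_of_ne
      (fun h => hne (Subgroup.eq_of_le_of_card_ge hZA h.ge))
    have hdvd := hZ ▸ Subgroup.card_dvd_of_le hZA
    have hz : zc = 2 := by omega
    have hA4 : Nat.card A = 4 := by
      rw [hz] at hdvd hlt
      omega
    -- `a` anticommutes with some element
    obtain ⟨x, hx⟩ : ∃ x : R, ¬ Commute (a : GL ι F) x := by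
      by_contra hall
      push Not at hall
      exact haZ (Subgroup.mem_center_iff.2 fun x => Subtype.ext (hall x).eq.symm)
    set C1 := Subgroup.centralizer ({a} : Set R) with hC1
    have hmem1 : ∀ y : R, y ∈ C1 ↔ Commute (a : GL ι F) y := fun y => by
      rw [hC1, Subgroup.mem_centralizer_singleton_iff]
      exact ⟨fun h => (congrArg Subtype.val h).symm, fun h => Subtype.ext h.eq.symm⟩
    have hidx : C1.index = 2 := by
      refine Subgroup.index_eq_two_iff.2 ⟨x, fun b => ?_⟩
      rw [hmem1, hmem1]
      rcases hWpm a ha.2 b with hb | hb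
      · refine Or.inr ⟨hb, fun h => hx ?_⟩
        have := (Commute.inv_right hb).mul_right h
        rwa [Subgroup.coe_mul, inv_mul_cancel_left] at this
      · refine Or.inl ⟨?_, fun h => ?_⟩
        · have hxa := (hWpm a ha.2 x).resolve_left hx
          show (a : GL ι F) * ((b * x : R) : GL ι F) = _ * (a : GL ι F)
          rw [Subgroup.coe_mul, ← mul_assoc, hb, neg_mul, mul_assoc _ (a : GL ι F), hxa, mul_neg, neg_neg, mul_assoc]
        · have h2' : -((b : GL ι F) * a) = (b : GL ι F) * a := hb.symm.trans h.eq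
          have h3 := congrArg Units.val h2'
          rw [Units.val_neg, neg_eq_iff_add_eq_zero, ← two_smul F] at h3
          exact Units.ne_zero _ ((smul_eq_zero.1 h3).resolve_left h2)
    have hC1card : Nat.card C1 = 16 := by
      have := C1.card_mul_index
      rw [hidx, hcard, hz] at this
      omega
    -- `A` is generated by `a`
    have hAgen : ∀ u ∈ A, u ∈ Z ∨ u * a⁻¹ ∈ Z := fun u hu => by
      by_contra hcon
      push Not at hcon
      have hi : Function.Injective (fun k : Fin 3 × Z => (![1, a, u] k.1 * k.2 : R)) := by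
        have key : ∀ v w : R, ∀ s t : Z, v * s = w * t → w⁻¹ * v ∈ Z := fun v w s t h => by
          have e : w⁻¹ * v = t * (s : R)⁻¹ := by
            rw [eq_mul_inv_iff_mul_eq, mul_assoc, h, inv_mul_cancel_left]
          rw [e]; exact mul_mem t.2 (inv_mem s.2)
        have hau : a⁻¹ * u ∈ Z → u * a⁻¹ ∈ Z := fun h => by
          have := Subgroup.mem_center_iff.1 h a
          rw [mul_inv_cancel_left] at this
          rwa [this, mul_inv_cancel_right]
        rintro ⟨i, s⟩ ⟨j, t⟩ h
        have hk := key _ _ _ _ h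
        have hij : i = j := by
          fin_cases i <;> fin_cases j <;> simp_all [Subgroup.inv_mem_iff]
          all_goals exact hau (by first | exact hk | simpa using inv_mem hk)
        subst hij
        rw [Prod.mk.injEq]
        exact ⟨rfl, Subtype.ext (mul_left_cancel h)⟩
      have hle' : ∀ k : Fin 3 × Z, (![1, a, u] k.1 * k.2 : R) ∈ A := fun k => by
        refine mul_mem ?_ (hZA k.2.2)
        rcases k with ⟨i, s⟩
        fin_cases i
        · exact one_mem _
        · exact ha
        · exact hu
      have := Nat.card_le_card_of_injective (fun k : Fin 3 × Z => (⟨_, hle' k⟩ : A))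
        (fun k l h => hi (congrArg Subtype.val h))
      rw [Nat.card_prod, Nat.card_fin, hZ, hz, hA4] at this
      omega
    have hC1A : ∀ y ∈ C1, ∀ u ∈ A, Commute (u : GL ι F) y := fun y hy u hu => by
      rcases hAgen u hu with h | h
      · exact congrArg Subtype.val (Subgroup.mem_center_iff.1 h y).symm
      · have h1 : Commute ((u * a⁻¹ : R) : GL ι F) y := congrArg Subtype.val (Subgroup.mem_center_iff.1 h y).symm
        have := h1.mul_left ((hmem1 y).1 hy)
        rwa [← Subgroup.coe_mul, inv_mul_cancel_right] at this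
    haveI : A.Normal := @Subgroup.normal_of_characteristic _ _ A hAch
    have hAC1 : A ≤ C1 := fun u hu => (hmem1 u).2 (by
      rcases hAgen u hu with h | h
      · exact (congrArg Subtype.val (Subgroup.mem_center_iff.1 h a) : _)
      · have h1 : Commute (a : GL ι F) ((u * a⁻¹ : R) : GL ι F) := congrArg Subtype.val (Subgroup.mem_center_iff.1 h a)
        have := h1.mul_right (Commute.refl (a : GL ι F))
        rwa [← Subgroup.coe_mul, inv_mul_cancel_right] at this)
    obtain ⟨b, hb, hbA, hbx⟩ := hmeet C1 A (Subgroup.normal_of_index_eq_two hidx) inferInstance hAC1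
      (fun h => by rw [h, hC1card] at hA4; omega)
    -- conjugates of `b`
    have hbb : ∀ x, ⁅b * b, x⁆ = ⁅b, x⁆ * ⁅b, x⁆ := fun x => by
      have hc : b * ⁅b, x⁆ = ⁅b, x⁆ * b := Subtype.ext (hC1A b hb _ (hbx x)).eq.symm
      calc ⁅b * b, x⁆ = b * ⁅b, x⁆ * (x * b⁻¹ * x⁻¹) := by simp only [commutatorElement_def]; group
        _ = ⁅b, x⁆ * b * (x * b⁻¹ * x⁻¹) := by rw [hc]
        _ = _ := by simp only [commutatorElement_def]; group
    have hbbW : b * b ∈ W := fun x => by rw [hbb]; exact hW2 _ (hbx x).2
    have hbbC : b * b ∈ C := by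
      refine Subgroup.mem_centralizer_iff.2 fun w hw => Subtype.ext ?_
      have hwbb : Commute (w : GL ι F) ((b : GL ι F) * b) := by
        rcases hWpm w hw b with h | h
        · exact h.mul_right h
        · show _ * _ = _ * _
          rw [← mul_assoc, h, neg_mul, mul_assoc, h, mul_neg, neg_neg, mul_assoc]
      simpa only [Subgroup.coe_mul] using hwbb.eq
    have haa : a * a ≠ 1 := fun h => by
      have hc4A : 4 ∣ 2 := by
        rw [← hA4]
        haveI := hRs.cyclic_of_characteristic A hAch hAc
        rw [← IsCyclic.exponent_eq_card]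
        refine Monoid.exponent_dvd_of_forall_pow_eq_one fun u => Subtype.ext ?_
        show (u : R) ^ 2 = 1
        rcases hAgen u u.2 with hu | hu
        · have := pow_card_eq_one' (x := (⟨u, hu⟩ : Z))
          rw [hZ, hz] at this
          exact congrArg Subtype.val this
        · have := pow_card_eq_one' (x := (⟨u * a⁻¹, hu⟩ : Z))
          rw [hZ, hz] at this
          have h7 : ((u : R) * a⁻¹) ^ 2 = 1 := congrArg Subtype.val this
          have hc : Commute ((u : R) * a⁻¹) a := Subgroup.mem_center_iff.1 hu a |>.symm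
          rw [← inv_mul_cancel_right (u : R) a, hc.mul_pow, h7, one_mul, pow_two, h]
      omega
    have hbbZ : b * b ∈ Z := by
      rcases hAgen (b * b) ⟨hbbC, hbbW⟩ with h | h
      · exact h
      · exfalso
        have h1 := pow_card_eq_one' (x := (⟨b * b * a⁻¹, h⟩ : Z))
        rw [hZ, hz] at h1
        have h2' : (b * b * a⁻¹) ^ 2 = 1 := congrArg Subtype.val h1
        have hc : Commute (b * b * a⁻¹) a := (Subgroup.mem_center_iff.1 h a).symm
        have h3 : (b * b) ^ 2 = a ^ 2 := by
          rw [← inv_mul_cancel_right (b * b) a, hc.mul_pow, h2', one_mul]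
        rw [← pow_two, ← pow_mul, hexp, pow_two] at h3
        exact haa h3.symm
    -- `b` is in the second centre
    have hbW : b ∈ W := fun y => by
      have h1 : ⁅b, y⁆ * ⁅b, y⁆ = 1 := by
        rw [← hbb]
        exact commutatorElement_eq_one_iff_mul_comm.2 (Subgroup.mem_center_iff.1 hbbZ y).symm
      rcases hAgen _ (hbx y) with h | h
      · exact h
      · exfalso
        have hc : Commute (⁅b, y⁆ * a⁻¹) a := (Subgroup.mem_center_iff.1 h a).symm
        have h4 := pow_card_eq_one' (x := (⟨⁅b, y⁆ * a⁻¹, h⟩ : Z))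
        rw [hZ, hz] at h4
        have h5 : (⁅b, y⁆ * a⁻¹) ^ 2 = 1 := congrArg Subtype.val h4
        rw [← pow_two, ← inv_mul_cancel_right ⁅b, y⁆ a, hc.mul_pow, h5, one_mul, pow_two] at h1
        exact haa h1
    have hbC : b ∉ C := fun h => hbA ⟨h, hbW⟩
    obtain ⟨w, hw, hwb⟩ : ∃ w ∈ W, ¬ Commute (b : GL ι F) w := by
      by_contra hall
      push Not at hall
      exact hbC (Subgroup.mem_centralizer_iff.2 fun w hw => Subtype.ext (hall w hw).eq.symm)
    have hWC1 : W ≤ C1 := fun w hw => (hmem1 w).2
      (show (a : GL ι F) * w = w * a from congrArg Subtype.val (Subgroup.mem_centralizer_iff.1 ha.1 w hw).symm)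
    -- the second centre is all of the centralizer of `a`
    have hCg : ∀ v u : R, v ∈ C1 → u ∈ A → v * u⁻¹ ∈ A → v ∈ A := fun v u _ hu h => by
      simpa using mul_mem h hu
    have hWeq : W = C1 := by
      refine Subgroup.eq_of_le_of_card_ge hWC1 ?_
      let f : Fin 4 × A → W := fun k => ⟨![1, b, w, b * w] k.1 * k.2, mul_mem (by
        rcases k with ⟨i, s⟩
        fin_cases i
        · exact one_mem _
        · exact hbW
        · exact hw
        · exact mul_mem hbW hw) k.2.2.2⟩
      have hf : Function.Injective f := by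
        rintro ⟨i, s⟩ ⟨j, t⟩ h
        have h' : ![1, b, w, b * w] i * (s : R) = ![1, b, w, b * w] j * t := congrArg Subtype.val h
        have key : ∀ k : Fin 4, (Commute ((![1, b, w, b * w] k : R) : GL ι F) w ↔ k = 0 ∨ k = 2) ∧
            (Commute ((![1, b, w, b * w] k : R) : GL ι F) b ↔ k = 0 ∨ k = 1) := by
          intro k
          have hwb' : ¬ Commute (w : GL ι F) b := fun h => hwb h.symm
          fin_cases k <;> refine ⟨?_, ?_⟩
          · simp
          · simp
          · simpa using hwb
          · simp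
          · simp
          · simpa using hwb'
          · simp only [Fin.reduceFinMk, Matrix.cons_val, Subgroup.coe_mul, Fin.reduceEq, or_self, iff_false]
            intro h
            have := h.mul_left (Commute.refl (w : GL ι F)).inv_left
            rw [mul_inv_cancel_right] at this
            exact hwb this
          · simp only [Fin.reduceFinMk, Matrix.cons_val, Subgroup.coe_mul, Fin.reduceEq, or_self, iff_false]
            intro h
            have := (Commute.refl (b : GL ι F)).inv_left.mul_left h
            rw [inv_mul_cancel_left] at this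
            exact hwb' this
        have hC : ∀ (v : R) (u : A) (z : R), z ∈ C1 → (Commute ((v * u : R) : GL ι F) z ↔ Commute (v : GL ι F) z) := by
          intro v u z hz
          have hu := hC1A z hz u u.2
          refine ⟨fun h => ?_, fun h => by rw [Subgroup.coe_mul]; exact h.mul_left hu⟩
          have := h.mul_left hu.inv_left
          rwa [Subgroup.coe_mul, mul_inv_cancel_right] at this
        have hw1 := hWC1 hw
        have hb1 := hWC1 hbW
        have e1 := (hC _ s w hw1).symm.trans ((iff_of_eq (by rw [h'])).trans (hC _ t w hw1))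
        have e2 := (hC _ s b hb1).symm.trans ((iff_of_eq (by rw [h'])).trans (hC _ t b hb1))
        rw [(key i).1, (key j).1] at e1
        rw [(key i).2, (key j).2] at e2
        obtain rfl : i = j := by revert e1 e2; fin_cases i <;> fin_cases j <;> simp
        exact Prod.ext rfl (Subtype.ext (mul_left_cancel h'))
      have := Nat.card_le_card_of_injective f hf
      rw [Nat.card_prod, Nat.card_fin, hA4] at this
      rw [hC1card]
      exact this
    -- so every element is in the second centre
    refine hx ?_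
    have hxW : x ∈ W := by
      intro y
      -- commutators of `x` with `C1` and with `x` itself are central
      have hx1 : ∀ c ∈ C1, ⁅x, c⁆ ∈ Z := fun c hc => by
        rw [← hWeq] at hc
        rw [← commutatorElement_inv]
        exact inv_mem (hW c hc x)
      by_cases hy : y ∈ C1
      · exact hx1 y hy
      · have hxy : x⁻¹ * y ∈ C1 := by
          refine (Subgroup.mul_mem_iff_of_index_two hidx).2 (iff_of_false (fun h => hx ((hmem1 x).1 ?_)) hy)
          simpa using inv_mem h
        have e : ⁅x, y⁆ = x * ⁅x, x⁻¹ * y⁆ * x⁻¹ := by simp only [commutatorElement_def]; group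
        rw [e, Subgroup.mem_center_iff.1 (hx1 _ hxy) x, mul_inv_cancel_right]
        exact hx1 _ hxy
    exact congrArg Subtype.val (Subgroup.mem_centralizer_iff.1 ha.1 x hxW).symm
  -- every element is congruent to one of `W` up to the centralizer
  have hfull : ∀ U : Subgroup R, Z ≤ U → U ≤ W → (∀ u ∈ U, (∀ v ∈ U, Commute (u : GL ι F) v) → u ∈ Z) →
      ∀ x : R, ∃ u ∈ U, ∀ v ∈ U, Commute ((u * x : R) : GL ι F) v := by
    intro U
    induction hn : Nat.card U using Nat.strong_induction_on generalizing U with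
    | _ n ih =>
    intro hZU hUW hUc x
    by_cases hU : ∀ u ∈ U, u ∈ Z
    · refine ⟨1, one_mem _, fun v hv => ?_⟩
      rw [one_mul]
      exact congrArg Subtype.val (Subgroup.mem_center_iff.1 (hU v hv) x)
    push Not at hU
    obtain ⟨a, ha, haZ⟩ := hU
    obtain ⟨b, hb, hab⟩ : ∃ b ∈ U, ¬ Commute (a : GL ι F) b := by
      by_contra hall
      push Not at hall
      exact haZ (hUc a ha hall)
    set U' := U ⊓ Subgroup.centralizer ({a, b} : Set R) with hU'
    have hmemU' : ∀ u, u ∈ U' ↔ u ∈ U ∧ Commute (u : GL ι F) a ∧ Commute (u : GL ι F) b := fun u => by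
      rw [hU', Subgroup.mem_inf, Subgroup.mem_centralizer_iff]
      refine and_congr_right fun _ => ⟨fun h => ⟨?_, ?_⟩, fun h v hv => ?_⟩
      · exact (congrArg Subtype.val (h a (Or.inl rfl))).symm
      · exact (congrArg Subtype.val (h b (Or.inr rfl))).symm
      · rcases hv with rfl | rfl
        · exact Subtype.ext h.1.eq.symm
        · exact Subtype.ext h.2.eq.symm
    -- correct by one of `1, a, b, a b`
    have hadj : ∀ y : R, ∃ t ∈ U, (t = 1 ∨ t = a ∨ t = b ∨ t = a * b) ∧
        Commute ((t * y : R) : GL ι F) a ∧ Commute ((t * y : R) : GL ι F) b := by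
      intro y
      have han : (a : GL ι F) * b = -((b : GL ι F) * a) := (hWpm a (hUW ha) b).resolve_left hab
      have hba : (b : GL ι F) * a = -((a : GL ι F) * b) := by rw [han, neg_neg]
      have hya : Commute (y : GL ι F) a ∨ (y : GL ι F) * a = -((a : GL ι F) * y) := by
        rcases hWpm a (hUW ha) y with h | h
        · exact Or.inl h.symm
        · exact Or.inr (by rw [h, neg_neg])
      have hyb : Commute (y : GL ι F) b ∨ (y : GL ι F) * b = -((b : GL ι F) * y) := by
        rcases hWpm b (hUW hb) y with h | h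
        · exact Or.inl h.symm
        · exact Or.inr (by rw [h, neg_neg])
      have cm : ∀ {u v z : GL ι F}, u * z = -(z * u) → v * z = -(z * v) → Commute (u * v) z := fun hu hv => by
        show _ * _ * _ = _
        rw [mul_assoc, hv, mul_neg, ← mul_assoc, hu, neg_mul, neg_neg, mul_assoc]
      have al : ∀ {u v z : GL ι F}, u * z = -(z * u) → Commute v z → u * v * z = -(z * (u * v)) := fun hu hv => by
        rw [mul_assoc, hv.eq, ← mul_assoc, hu, neg_mul, mul_assoc]
      have ar : ∀ {u v z : GL ι F}, Commute u z → v * z = -(z * v) → u * v * z = -(z * (u * v)) := fun hu hv => by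
        rw [mul_assoc, hv, mul_neg, ← mul_assoc, hu.eq, mul_assoc]
      rcases hya with h1 | h1 <;> rcases hyb with h2' | h2'
      · exact ⟨1, one_mem _, Or.inl rfl, by rw [one_mul]; exact h1, by rw [one_mul]; exact h2'⟩
      · refine ⟨a, ha, Or.inr (Or.inl rfl), ?_, ?_⟩ <;> rw [Subgroup.coe_mul]
        · exact (Commute.refl _).mul_left h1
        · exact cm han h2'
      · refine ⟨b, hb, Or.inr (Or.inr (Or.inl rfl)), ?_, ?_⟩ <;> rw [Subgroup.coe_mul]
        · exact cm hba h1
        · exact (Commute.refl _).mul_left h2'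
      · refine ⟨a * b, mul_mem ha hb, Or.inr (Or.inr (Or.inr rfl)), ?_, ?_⟩ <;>
          rw [Subgroup.coe_mul, Subgroup.coe_mul]
        · exact cm (ar (Commute.refl _) hba) h1
        · exact cm (al han (Commute.refl _)) h2'
    have hlt : Nat.card U' < n := by
      rw [← hn]
      refine lt_of_le_of_ne (Subgroup.card_le_of_le inf_le_left) fun h => hab ?_
      have := (Subgroup.eq_of_le_of_card_ge inf_le_left h.ge).ge ha
      exact ((hmemU' a).1 this).2.2
    obtain ⟨t, ht, -, hta, htb⟩ := hadj x
    obtain ⟨u, hu, huv⟩ := ih _ hlt U' rfl (le_inf hZU (Subgroup.center_le_centralizer _)) (inf_le_left.trans hUW)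
      (fun u hu hall => hUc u ((hmemU' u).1 hu).1 fun v hv => by
        obtain ⟨t, ht, ht', hva, hvb⟩ := hadj v
        have h1 := hall (t * v) ((hmemU' _).2 ⟨mul_mem ht hv, hva, hvb⟩)
        have h2' : Commute (u : GL ι F) t := by
          obtain ⟨-, hua, hub⟩ := (hmemU' u).1 hu
          rcases ht' with rfl | rfl | rfl | rfl
          · exact Commute.one_right _
          · exact hua
          · exact hub
          · exact hua.mul_right hub
        have := h2'.inv_right.mul_right h1
        rwa [Subgroup.coe_mul, inv_mul_cancel_left] at this) (t * x)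
    refine ⟨u * t, mul_mem ((hmemU' u).1 hu).1 ht, fun v hv => ?_⟩
    rw [mul_assoc]
    obtain ⟨s, hs, hs', hva, hvb⟩ := hadj v
    obtain ⟨-, hua, hub⟩ := (hmemU' u).1 hu
    have h1 := huv (s * v) ((hmemU' _).2 ⟨mul_mem hs hv, hva, hvb⟩)
    have hua' : Commute ((u * (t * x) : R) : GL ι F) a := by rw [Subgroup.coe_mul]; exact hua.mul_left hta
    have hub' : Commute ((u * (t * x) : R) : GL ι F) b := by rw [Subgroup.coe_mul]; exact hub.mul_left htb
    have h2' : Commute ((u * (t * x) : R) : GL ι F) s := by
      rcases hs' with rfl | rfl | rfl | rfl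
      · exact Commute.one_right _
      · exact hua'
      · exact hub'
      · exact hua'.mul_right hub'
    have := h2'.inv_right.mul_right h1
    rwa [show ((s * v : R) : GL ι F) = (s : GL ι F) * (v : GL ι F) from rfl, inv_mul_cancel_left] at this
  have hCZ : C = Z := by
    by_contra hne
    obtain ⟨c, hc, hcZ, hcx⟩ := hmeet C Z inferInstance inferInstance (Subgroup.center_le_centralizer _) (Ne.symm hne)
    exact hcZ (hCW ▸ (⟨hc, fun x => hcx x⟩ : c ∈ C ⊓ W))
  have hWtop : ∀ x : R, x ∈ W := by
    intro x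
    obtain ⟨u, hu, huv⟩ := hfull W hZW le_rfl (fun u hu hall => hCW ▸ ⟨Subgroup.mem_centralizer_iff.2
      fun v hv => Subtype.ext (hall v hv).eq.symm, hu⟩) x
    have h : u * x ∈ C := Subgroup.mem_centralizer_iff.2 fun v hv => Subtype.ext (huv v hv).eq.symm
    rw [hCZ] at h
    simpa using mul_mem (inv_mem hu) (hZW h)
  refine ⟨h2, hι, fun x hx => ?_, fun x hx y hy => ?_, fun M hM => hirr.2 M (by rintro _ ⟨y, hy, rfl⟩; exact hM y hy), ?_⟩
  · have h := hW2 ⟨x, hx⟩ (hWtop _)
    have h1 : (⟨x, hx⟩ * ⟨x, hx⟩ : R) * (⟨x, hx⟩ * ⟨x, hx⟩) = 1 := by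
      rw [← hexp ⟨x, hx⟩]; simp [pow_succ, mul_assoc]
    exact hsq1 _ h h1
  · exact (hWpm ⟨x, hx⟩ (hWtop _) ⟨y, hy⟩).imp_left Commute.eq
  · rw [hZ, hcard]
    rcases hzc with rfl | rfl <;> norm_num

end OfType

end Cfsg.Agent.Linear.SymType4
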