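import Cfsg.Agent.Linear.SymType4Crit

/-!
Frames of groups of symplectic type in dimension four, and elements that normalise them.
-/

set_option autoImplicit false
set_option linter.unusedSectionVars false

namespace Cfsg.Agent.Linear.SymType4

open Matrix

variable {ι : Type} {F : Type*} [Fintype ι] [DecidableEq ι] [Field F]

local notation "Mx" => Matrix ι ι F

/-! ### Adjoints -/

/-- An isometry group given by an adjoint. -/
structure Adj (G : Subgroup (GL ι F)) where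
  σ : F →+* F
  τ : Mx → Mx
  add : ∀ M N, τ (M + N) = τ M + τ N
  smul : ∀ (c : F) M, τ (c • M) = σ c • τ M
  one : τ 1 = 1
  mul : ∀ M N, τ (M * N) = τ N * τ M
  mem : ∀ g : GL ι F, g ∈ G ↔ τ (g : Mx) * (g : Mx) = 1

namespace Adj

variable {G : Subgroup (GL ι F)} (A : Adj G)
include A

theorem of_mem {x : GL ι F} (hx : x ∈ G) : A.τ (x : Mx) = ((x⁻¹ : GL ι F) : Mx) := by
  calc A.τ (x : Mx) = A.τ (x : Mx) * ((x : Mx) * ((x⁻¹ : GL ι F) : Mx)) := by
        rw [← Units.val_mul, mul_inv_cancel, Units.val_one, mul_one]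
    _ = _ := by rw [← mul_assoc, (A.mem x).1 hx, one_mul]

theorem neg (M : Mx) : A.τ (-M) = -A.τ M := by
  rw [← neg_one_smul F M, A.smul, map_neg, map_one, neg_one_smul]

theorem sub (M N : Mx) : A.τ (M - N) = A.τ M - A.τ N := by
  rw [sub_eq_add_neg, A.add, A.neg, ← sub_eq_add_neg]

end Adj

/-! ### Frames -/

/-- Two commuting pairs of anticommuting elements generating `R` up to scalars. -/
structure Frame (R : Subgroup (GL ι F)) where
  A1 : GL ι F
  B1 : GL ι F
  A2 : GL ι F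
  B2 : GL ι F
  hA1 : A1 ∈ R
  hB1 : B1 ∈ R
  hA2 : A2 ∈ R
  hB2 : B2 ∈ R
  a1 : A1 * A1 = 1
  b1 : B1 * B1 = 1
  a2 : A2 * A2 = -1
  b2 : B2 * B2 = -1
  ab1 : A1 * B1 = -(B1 * A1)
  ab2 : A2 * B2 = -(B2 * A2)
  c11 : Commute A1 A2
  c12 : Commute A1 B2
  c21 : Commute B1 A2
  c22 : Commute B1 B2
  cent : ∀ M : Mx, Commute M (A1 : Mx) → Commute M (B1 : Mx) → Commute M (A2 : Mx) → Commute M (B2 : Mx) →
    ∃ c : F, M = c • (1 : Mx)
  gen : ∀ x ∈ R, ∃ w ∈ Subgroup.closure {A1, B1, A2, B2}, Cg 1 (w⁻¹ * x)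

namespace Dat

variable {R : Subgroup (GL ι F)} (S : Dat R)
include S

/-- If the centre is small enough, an element commutes with an anticommuting pair. -/
theorem exists_common [Finite F] {a b : GL ι F} (ha : a ∈ R) (hb : b ∈ R) (hab : a * b = -(b * a)) :
    ∃ w ∈ R, Commute w a ∧ Commute w b ∧ ¬ Cg 1 w := by
  by_contra hnone
  push Not at hnone
  have hbig := S.big
  have hba : b * a = -(a * b) := S.anti_symm hab
  have hcover : ∀ v : R, ∃ k : Fin 4, ∃ e : Subgroup.center R,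
      ((![1, a, b, a * b] k : GL ι F) * ((e : R) : GL ι F)) = (v : GL ι F) := by
    intro v
    have hcases : ∀ t ∈ R, Commute (t⁻¹ * (v : GL ι F)) a → Commute (t⁻¹ * (v : GL ι F)) b →
        ∀ k : Fin 4, (![1, a, b, a * b] k : GL ι F) = t →
        ∃ k : Fin 4, ∃ e : Subgroup.center R, ((![1, a, b, a * b] k : GL ι F) * ((e : R) : GL ι F)) = (v : GL ι F) := by
      intro t ht h1 h2 k hk
      have hm' := hnone _ (mul_mem (inv_mem ht) v.2) h1 h2
      exact ⟨k, ⟨⟨_, mul_mem (inv_mem ht) v.2⟩, S.scalar_mem_center _ hm'⟩, by rw [hk, mul_inv_cancel_left]⟩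
    have cm : ∀ {t z : GL ι F}, t * z = -(z * t) → t⁻¹ * z = -(z * t⁻¹) := fun h => by
      rw [inv_mul_eq_iff_eq_mul, mul_neg, ← mul_assoc, h, neg_mul, neg_neg, mul_inv_cancel_right]
    rcases S.comm _ v.2 a ha with h1 | h1 <;> rcases S.comm _ v.2 b hb with h2 | h2
    · exact hcases 1 (one_mem _) (by rw [inv_one, one_mul]; exact h1) (by rw [inv_one, one_mul]; exact h2) 0 rfl
    · exact hcases a ha (Commute.mul_left (Commute.refl a).inv_left h1) (S.commute_mul_of_anti (cm hab) h2) 1 rfl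
    · exact hcases b hb (S.commute_mul_of_anti (cm hba) h1) (Commute.mul_left (Commute.refl b).inv_left h2) 2 rfl
    · exact hcases (a * b) (mul_mem ha hb)
        (S.commute_mul_of_anti (cm (S.anti_mul_right (Commute.refl a) hba)) h1)
        (S.commute_mul_of_anti (cm (S.anti_mul_left hab (Commute.refl b))) h2) 3 rfl
  choose k e hke using hcover
  have := Nat.card_le_card_of_injective (fun v : R => (k v, e v)) (fun v w h => by
    simp only [Prod.mk.injEq] at h
    exact Subtype.ext (by rw [← hke v, ← hke w, h.1, h.2]))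
  rw [Nat.card_prod, Nat.card_fin] at this
  omega

/-- Either `R` has a scalar of square minus one, or it is of minus type: then a frame exists. -/
theorem exists_frame [Finite F]
    (hcase : (∃ e ∈ R, Cg 1 e ∧ e * e = -1) ∨
      ∀ a ∈ R, ∀ b ∈ R, a * a = 1 → b * b = 1 → Commute a b → Cg 1 a ∨ Cg 1 b ∨ Cg a b) :
    Nonempty (Frame R) := by
  have h22 := S.two
  haveI := S.nonempty
  have hns1 : ∀ {a b : GL ι F}, a * b = -(b * a) → ¬ Cg 1 a := fun {a b} hab h =>
    S.not_both (h.commute (Commute.one_left b)) hab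
  have hsqe : ∀ {e w : GL ι F}, Cg 1 e → e * e = -1 → e * w * (e * w) = -(w * w) := fun {e w} he hee => by
    have hc : Commute e w := he.commute (Commute.one_left w)
    rw [mul_assoc e, ← mul_assoc w e, ← hc.eq, mul_assoc e w, ← mul_assoc e e, hee, neg_one_mul]
  obtain ⟨A1, hA1, hA1ns, ha1⟩ : ∃ a ∈ R, ¬ Cg 1 a ∧ a * a = 1 := by
    obtain ⟨v, hv, hnv⟩ : ∃ v ∈ R, ¬ Cg 1 v := by
      by_contra hall
      push Not at hall
      have hle : Nat.card R ≤ Nat.card (Subgroup.center R) :=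
        Nat.card_le_card_of_injective (fun v : R => (⟨v, S.scalar_mem_center v.2 (hall v v.2)⟩ : Subgroup.center R))
          (fun v w h => by simpa using congrArg Subtype.val h)
      have := S.big
      omega
    by_contra hall
    push Not at hall
    have hsq : ∀ w ∈ R, ¬ Cg 1 w → w * w = -1 := fun w hw hnw => (S.sq w hw).resolve_left (hall w hw hnw)
    rcases hcase with ⟨e, he, hec, hee⟩ | hm
    · refine hall (e * v) (mul_mem he hv) (fun h => hnv ?_) ?_
      · exact (show Cg (e * 1) (e * v) by rw [mul_one]; exact hec.symm.trans h).of_mul_left e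
      · rw [hsqe hec hee, hsq v hv hnv, neg_neg]
    · obtain ⟨b, hb, hvb⟩ := S.exists_anti hv hnv
      obtain ⟨w, hw, hwv, hwb, hnw⟩ := S.exists_common hv hb hvb
      have hns' : ¬ Cg 1 (w * v) := fun h => S.not_both
        ((hwb.inv_left.mul_left (h.commute (Commute.one_left b))) : Commute (w⁻¹ * (w * v)) b) (by rwa [inv_mul_cancel_left])
      refine hall (w * v) (mul_mem hw hv) hns' ?_
      rw [show w * v * (w * v) = w * (v * w) * v by simp only [mul_assoc], ← hwv.eq, ← mul_assoc, hsq w hw hnw,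
        mul_assoc, hsq v hv hnv, neg_one_mul, neg_neg]
  obtain ⟨B, hB, hAB⟩ := S.exists_anti hA1 hA1ns
  obtain ⟨B1, hB1, hb1, hab1⟩ : ∃ b ∈ R, b * b = 1 ∧ A1 * b = -(b * A1) := by
    rcases S.sq B hB with h | h
    · exact ⟨B, hB, h, hAB⟩
    · refine ⟨A1 * B, mul_mem hA1 hB, ?_, ?_⟩
      · rw [show A1 * B * (A1 * B) = A1 * (B * A1) * B by simp only [mul_assoc], S.anti_symm hAB, mul_neg, neg_mul,
          ← mul_assoc, ha1, one_mul, h, neg_neg]
      · rw [← mul_assoc, ha1, one_mul, mul_assoc A1 B, S.anti_symm hAB, mul_neg, ← mul_assoc, ha1, one_mul, neg_neg]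
  -- squares in the centralizer of the first pair
  have hfix : ∀ w ∈ R, Commute w A1 → Commute w B1 → ¬ Cg 1 w →
      ∃ w' ∈ R, Commute w' A1 ∧ Commute w' B1 ∧ w' * w' = -1 ∧ Cg w w' := by
    intro w hw h1 h2 hnw
    rcases S.sq w hw with h | h
    · rcases hcase with ⟨e, he, hec, hee⟩ | hm
      · refine ⟨e * w, mul_mem he hw, (hec.commute (Commute.one_left A1)).mul_left h1,
          (hec.commute (Commute.one_left B1)).mul_left h2, by rw [hsqe hec hee, h], ?_⟩
        simpa using hec.mul_right w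
      · exfalso
        rcases hm A1 hA1 w hw ha1 h h1.symm with h' | h' | h'
        · exact hns1 hab1 h'
        · exact hnw h'
        · exact S.not_both (h'.symm.commute h2) hab1
    · exact ⟨w, hw, h1, h2, h, Cg.refl w⟩
  obtain ⟨w, hw, hwA, hwB, hnw⟩ := S.exists_common hA1 hB1 hab1
  obtain ⟨A2, hA2, c11, c21, ha2, hwA2⟩ := hfix w hw hwA hwB hnw
  have hA2ns : ¬ Cg 1 A2 := fun h => hnw (h.trans hwA2.symm)
  obtain ⟨v, hv, hAv⟩ := S.exists_anti hA2 hA2ns
  obtain ⟨v', hv', hv'A, hv'B, hAv'⟩ : ∃ v' ∈ R, Commute v' A1 ∧ Commute v' B1 ∧ A2 * v' = -(v' * A2) := by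
    have hba := S.anti_symm hab1
    have hmove : ∀ t, Commute A2 t → A2 * (t * v) = -(t * v * A2) := fun t ht => by
      rw [← mul_assoc, ht.eq, mul_assoc, hAv, mul_neg, ← mul_assoc]
    rcases S.comm v hv A1 hA1 with h1 | h1 <;> rcases S.comm v hv B1 hB1 with h2 | h2
    · exact ⟨v, hv, h1, h2, hAv⟩
    · exact ⟨A1 * v, mul_mem hA1 hv, (Commute.refl A1).mul_left h1, S.commute_mul_of_anti hab1 h2, hmove _ c11⟩
    · exact ⟨B1 * v, mul_mem hB1 hv, S.commute_mul_of_anti hba h1, (Commute.refl B1).mul_left h2, hmove _ c21⟩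
    · exact ⟨A1 * B1 * v, mul_mem (mul_mem hA1 hB1) hv,
        S.commute_mul_of_anti (S.anti_mul_right (Commute.refl A1) hba) h1,
        S.commute_mul_of_anti (S.anti_mul_left hab1 (Commute.refl B1)) h2, hmove _ (c11.mul_right c21)⟩
  obtain ⟨B2, hB2, c12, c22, hb2, hvB2⟩ := hfix v' hv' hv'A hv'B (hns1 (S.anti_symm hAv'))
  have hab2 : A2 * B2 = -(B2 * A2) := by
    refine S.anti_of_not_commute hA2 hB2 fun h => S.not_both ?_ hAv'
    exact (hvB2.symm.commute h.symm).symm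
  have hns11 : ¬ Cg 1 A1 := hns1 hab1
  have hns12 : ¬ Cg A2 A1 := fun h => S.not_both (h.commute c21) hab1
  -- commuting with the four
  have hfour : ∀ y ∈ R, Commute y A1 → Commute y B1 → Commute y A2 → Commute y B2 → Cg 1 y := by
    intro y hy h1 h2 h3 h4
    rcases S.cg_of_centralizes_two hA1 hA2 hns11 hA2ns hns12 c11.symm hy h1 h3 with h | h | h | h
    · exact h
    · exact absurd hab1 (S.not_both (h.symm.commute h2))
    · exact absurd hab2 (S.not_both (h.symm.commute h4))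
    · exact absurd (S.anti_mul_left hab1 c21) (S.not_both (h.symm.commute h2))
  set C := Subgroup.closure ({A1, B1, A2, B2} : Set (GL ι F)) with hC
  have mA1 : A1 ∈ C := Subgroup.subset_closure (by simp)
  have mB1 : B1 ∈ C := Subgroup.subset_closure (by simp)
  have mA2 : A2 ∈ C := Subgroup.subset_closure (by simp)
  have mB2 : B2 ∈ C := Subgroup.subset_closure (by simp)
  have hCR : C ≤ R := (Subgroup.closure_le R).2 (by
    intro z hz
    rcases hz with rfl | rfl | rfl | rfl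
    exacts [hA1, hB1, hA2, hB2])
  -- correction by one of four elements
  have hcorr : ∀ {a b : GL ι F}, a ∈ C → b ∈ C → a * b = -(b * a) → ∀ y ∈ R,
      ∃ t ∈ C, (∀ z, Commute a z → Commute b z → Commute t z) ∧ Commute (t * y) a ∧ Commute (t * y) b := by
    intro a b ha hb hab y hy
    have hba := S.anti_symm hab
    rcases S.comm y hy a (hCR ha) with h1 | h1 <;> rcases S.comm y hy b (hCR hb) with h2 | h2
    · exact ⟨1, one_mem _, fun z _ _ => Commute.one_left z, by rw [one_mul]; exact h1, by rw [one_mul]; exact h2⟩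
    · exact ⟨a, ha, fun z hz _ => hz, (Commute.refl a).mul_left h1, S.commute_mul_of_anti hab h2⟩
    · exact ⟨b, hb, fun z _ hz => hz, S.commute_mul_of_anti hba h1, (Commute.refl b).mul_left h2⟩
    · exact ⟨a * b, mul_mem ha hb, fun z hz hz' => hz.mul_left hz',
        S.commute_mul_of_anti (S.anti_mul_right (Commute.refl a) hba) h1,
        S.commute_mul_of_anti (S.anti_mul_left hab (Commute.refl b)) h2⟩
  have hgen : ∀ x ∈ R, ∃ w ∈ C, Cg 1 (w⁻¹ * x) := by
    intro x hx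
    obtain ⟨t, ht, -, htA, htB⟩ := hcorr mA1 mB1 hab1 x hx
    obtain ⟨s, hs, hscomm, hsA, hsB⟩ := hcorr mA2 mB2 hab2 (t * x) (mul_mem (hCR ht) hx)
    refine ⟨(s * t)⁻¹, inv_mem (mul_mem hs ht), ?_⟩
    rw [inv_inv]
    refine hfour _ (mul_mem (hCR (mul_mem hs ht)) hx) ?_ ?_ ?_ ?_ <;> rw [mul_assoc]
    · exact (hscomm A1 c11 c12).mul_left htA
    · exact (hscomm B1 c21 c22).mul_left htB
    · exact hsA
    · exact hsB
  refine ⟨⟨A1, B1, A2, B2, hA1, hB1, hA2, hB2, ha1, hb1, ha2, hb2, hab1, hab2, c11.symm, c12.symm, c21.symm, c22.symm,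
    fun M m1 m2 m3 m4 => S.irr M fun x hx => ?_, hgen⟩⟩
  obtain ⟨w, hw, hwx⟩ := hgen x hx
  have hMw : Commute M (w : Mx) := by
    clear hwx
    induction hw using Subgroup.closure_induction with
    | mem z hz =>
      rcases hz with rfl | rfl | rfl | rfl
      exacts [m1, m2, m3, m4]
    | one => rw [Units.val_one]; exact Commute.one_right M
    | mul a b _ _ ha hb => rw [Units.val_mul]; exact ha.mul_right hb
    | inv a _ ha => exact ha.units_inv_right
  obtain ⟨c, hc⟩ := hwx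
  have hx' : (x : Mx) = c • (w : Mx) := by
    have h := congrArg ((w : Mx) * ·) hc
    simpa [← mul_assoc, mul_smul_comm] using h
  rw [hx', mul_smul_comm, hMw.eq, smul_mul_assoc]

end Dat

namespace Frame

variable {R : Subgroup (GL ι F)} (S : Dat R) (φ : Frame R)
include S

/-- An element mapping the frame into `R` normalises `R`. -/
theorem mem_normalizer [Finite F] {g : GL ι F} (h1 : g * φ.A1 * g⁻¹ ∈ R) (h2 : g * φ.B1 * g⁻¹ ∈ R)
    (h3 : g * φ.A2 * g⁻¹ ∈ R) (h4 : g * φ.B2 * g⁻¹ ∈ R) : g ∈ Cfsg.Geo.subgroupNormalizer R := by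
  refine Subgroup.mem_normalizer_fintype (S := (R : Set (GL ι F))) fun x hx => ?_
  obtain ⟨w, hw, hwx⟩ := φ.gen x hx
  have hwR : w ∈ R := (Subgroup.closure_le R).2 (by
    intro z hz
    rcases hz with rfl | rfl | rfl | rfl
    exacts [φ.hA1, φ.hB1, φ.hA2, φ.hB2]) hw
  have he : w⁻¹ * x ∈ R := mul_mem (inv_mem hwR) hx
  have hgw : g * w * g⁻¹ ∈ R := by
    clear hwx he hwR
    induction hw using Subgroup.closure_induction with
    | mem z hz =>
      rcases hz with rfl | rfl | rfl | rfl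
      exacts [h1, h2, h3, h4]
    | one => simp
    | mul a b _ _ ha hb => rw [show g * (a * b) * g⁻¹ = g * a * g⁻¹ * (g * b * g⁻¹) by group]; exact mul_mem ha hb
    | inv a _ ha => rw [show g * a⁻¹ * g⁻¹ = (g * a * g⁻¹)⁻¹ by group]; exact inv_mem ha
  have hc : Commute g (w⁻¹ * x) := (hwx.commute (Commute.one_left g)).symm
  rw [show g * x * g⁻¹ = g * w * g⁻¹ * (g * (w⁻¹ * x) * g⁻¹) by group, hc.eq, mul_inv_cancel_right]
  exact mul_mem hgw he

omit S

/-- The five anticommuting involutions. -/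
def gam (j : Fin 5) : GL ι F :=
  ![φ.A1, φ.B1, φ.A1 * φ.B1 * φ.A2, φ.A1 * φ.B1 * φ.B2, φ.A1 * φ.B1 * (φ.A2 * φ.B2)] j

theorem gam_mem (j : Fin 5) : φ.gam j ∈ R := by
  have h := mul_mem φ.hA1 φ.hB1
  fin_cases j
  · exact φ.hA1
  · exact φ.hB1
  · exact mul_mem h φ.hA2
  · exact mul_mem h φ.hB2
  · exact mul_mem h (mul_mem φ.hA2 φ.hB2)

theorem gam_props : (∀ j, φ.gam j * φ.gam j = 1) ∧ ∀ j k, j ≠ k → φ.gam j * φ.gam k = -(φ.gam k * φ.gam j) := by
  obtain ⟨A1, B1, A2, B2, -, -, -, -, a1, b1, a2, b2, ab1, ab2, c11, c12, c21, c22, -, -⟩ := φ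
  have ba : B1 * A1 = -(A1 * B1) := by rw [ab1, neg_neg]
  have ba2 : B2 * A2 = -(A2 * B2) := by rw [ab2, neg_neg]
  have a1' : ∀ X, A1 * (A1 * X) = X := fun X => by rw [← mul_assoc, a1, one_mul]
  have b1' : ∀ X, B1 * (B1 * X) = X := fun X => by rw [← mul_assoc, b1, one_mul]
  have a2' : ∀ X, A2 * (A2 * X) = -X := fun X => by rw [← mul_assoc, a2, neg_one_mul]
  have b2' : ∀ X, B2 * (B2 * X) = -X := fun X => by rw [← mul_assoc, b2, neg_one_mul]
  have ba' : ∀ X, B1 * (A1 * X) = -(A1 * (B1 * X)) := fun X => by rw [← mul_assoc, ba, neg_mul, mul_assoc]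
  have ba2' : ∀ X, B2 * (A2 * X) = -(A2 * (B2 * X)) := fun X => by rw [← mul_assoc, ba2, neg_mul, mul_assoc]
  have d11 : ∀ X, A2 * (A1 * X) = A1 * (A2 * X) := fun X => by rw [← mul_assoc, ← c11.eq, mul_assoc]
  have d12 : ∀ X, B2 * (A1 * X) = A1 * (B2 * X) := fun X => by rw [← mul_assoc, ← c12.eq, mul_assoc]
  have d21 : ∀ X, A2 * (B1 * X) = B1 * (A2 * X) := fun X => by rw [← mul_assoc, ← c21.eq, mul_assoc]
  have d22 : ∀ X, B2 * (B1 * X) = B1 * (B2 * X) := fun X => by rw [← mul_assoc, ← c22.eq, mul_assoc]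
  refine ⟨fun j => ?_, fun j k hjk => ?_⟩
  · fin_cases j <;>
      simp [gam, mul_assoc, a1, b1, a2, b2, ba, ba2, c11.eq.symm, c12.eq.symm, c21.eq.symm, c22.eq.symm, a1', b1', a2', b2', ba', ba2', d11, d12, d21, d22]
  · fin_cases j <;> fin_cases k <;> simp at hjk ⊢ <;>
      simp [gam, mul_assoc, a1, b1, a2, b2, ba, ba2, c11.eq.symm, c12.eq.symm, c21.eq.symm, c22.eq.symm, a1', b1', a2', b2', ba', ba2', d11, d12, d21, d22]

theorem adj_fix {G : Subgroup (GL ι F)} (A : Adj G) (hRG : R ≤ G) (j : Fin 5) :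
    A.τ (φ.gam j : Mx) = (φ.gam j : Mx) := by
  rw [A.of_mem (hRG (φ.gam_mem j)), inv_eq_of_mul_eq_one_right (φ.gam_props.1 j)]

/-- The reflection exchanging two of the five. -/
theorem reflect {j k : Fin 5} (hjk : j ≠ k) (l : Fin 5) :
    ((φ.gam j : Mx) - (φ.gam k : Mx)) * (φ.gam l : Mx) =
      -((φ.gam (Equiv.swap j k l) : Mx) * ((φ.gam j : Mx) - (φ.gam k : Mx))) := by
  obtain ⟨h1, h2⟩ := φ.gam_props
  have e1 : ∀ i, (φ.gam i : Mx) * (φ.gam i : Mx) = 1 := fun i => by rw [← Units.val_mul, h1, Units.val_one]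
  have e2 : ∀ i i', i ≠ i' → (φ.gam i : Mx) * (φ.gam i' : Mx) = -((φ.gam i' : Mx) * (φ.gam i : Mx)) := fun i i' h => by
    rw [← Units.val_mul, h2 i i' h, Units.val_neg, Units.val_mul]
  rcases eq_or_ne l j with rfl | hlj
  · rw [Equiv.swap_apply_left, sub_mul, mul_sub, e1, e1, e2 k l (Ne.symm hjk)]; abel
  rcases eq_or_ne l k with rfl | hlk
  · rw [Equiv.swap_apply_right, sub_mul, mul_sub, e1, e1, e2 j l hjk]; abel
  rw [Equiv.swap_apply_of_ne_of_ne hlj hlk, sub_mul, mul_sub, e2 j l (Ne.symm hlj), e2 k l (Ne.symm hlk)]; abel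

theorem reflect_sq {j k : Fin 5} (hjk : j ≠ k) :
    ((φ.gam j : Mx) - (φ.gam k : Mx)) * ((φ.gam j : Mx) - (φ.gam k : Mx)) = (2 : F) • 1 := by
  obtain ⟨h1, h2⟩ := φ.gam_props
  have e1 : ∀ i, (φ.gam i : Mx) * (φ.gam i : Mx) = 1 := fun i => by rw [← Units.val_mul, h1, Units.val_one]
  have e2 : (φ.gam j : Mx) * (φ.gam k : Mx) = -((φ.gam k : Mx) * (φ.gam j : Mx)) := by
    rw [← Units.val_mul, h2 j k hjk, Units.val_neg, Units.val_mul]
  rw [sub_mul, mul_sub, mul_sub, e1, e1, e2, two_smul]; abel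

include S

include φ in
/-- An element of order five in the normalizer. -/
theorem exists_five [Fintype F] (h5 : ¬ 5 ∣ Fintype.card F - 1) :
    ∃ h : GL ι F, h ∈ Cfsg.Geo.subgroupNormalizer R ∧ h ^ 5 = 1 ∧ Matrix.det (h : Mx) = 1 ∧
      (∀ c : F, (h : Mx) ≠ c • 1) ∧ ∀ G : Subgroup (GL ι F), Nonempty (Adj G) → R ≤ G → h ∈ G := by
  classical
  have h22 := S.two
  haveI := S.nonempty
  let v : Fin 5 → Fin 5 → Mx := fun j k => (φ.gam j : Mx) - (φ.gam k : Mx)
  let M : Mx := (4 : F)⁻¹ • (v 0 1 * v 1 2 * v 2 3 * v 3 4)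
  let M' : Mx := (4 : F)⁻¹ • (v 3 4 * v 2 3 * v 1 2 * v 0 1)
  have h40 : (4 : F) ≠ 0 := by rw [show (4 : F) = 2 * 2 by norm_num]; exact mul_ne_zero h22 h22
  have hcol : ∀ (P Q : Mx) (j k : Fin 5), j ≠ k → P * v j k * (v j k * Q) = (2 : F) • (P * Q) := fun P Q j k h => by
    rw [mul_assoc, ← mul_assoc (v j k), φ.reflect_sq h, smul_mul_assoc, one_mul, mul_smul_comm]
  have hsq : ∀ j k : Fin 5, j ≠ k → v j k * v j k = (2 : F) • 1 := fun j k h => φ.reflect_sq h
  have hMM' : M * M' = 1 := by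
    simp only [M, M', smul_mul_assoc, mul_smul_comm, smul_smul, mul_assoc]
    rw [← mul_assoc (v 3 4), hsq 3 4 (by decide)]
    simp only [smul_mul_assoc, one_mul, mul_smul_comm]
    rw [← mul_assoc (v 2 3), hsq 2 3 (by decide)]
    simp only [smul_mul_assoc, one_mul, mul_smul_comm]
    rw [← mul_assoc (v 1 2), hsq 1 2 (by decide)]
    simp only [smul_mul_assoc, one_mul, mul_smul_comm]
    rw [hsq 0 1 (by decide)]
    simp only [smul_smul]
    rw [show (4 : F)⁻¹ * 4⁻¹ * (2 * (2 * (2 * 2))) = 1 by field_simp; norm_num, one_smul]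
  have hM'M : M' * M = 1 := mul_eq_one_comm.1 hMM'
  obtain ⟨g, hgM, hgM'⟩ : ∃ g : GL ι F, (g : Mx) = M ∧ ((g⁻¹ : GL ι F) : Mx) = M' := ⟨⟨M, M', hMM', hM'M⟩, rfl, rfl⟩
  let σ : Equiv.Perm (Fin 5) := Equiv.swap 0 1 * Equiv.swap 1 2 * Equiv.swap 2 3 * Equiv.swap 3 4
  have hgl : ∀ l, g * φ.gam l = φ.gam (σ l) * g := by
    intro l
    refine Units.ext ?_
    rw [Units.val_mul, Units.val_mul, hgM]
    have step : ∀ (j k : Fin 5) (P : Mx) (l : Fin 5), j ≠ k →
        P * v j k * (φ.gam l : Mx) = -(P * (φ.gam (Equiv.swap j k l) : Mx) * v j k) := fun j k P l h => by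
      rw [mul_assoc, φ.reflect h l, mul_neg, ← mul_assoc]
    simp only [M, smul_mul_assoc, mul_smul_comm]
    congr 1
    rw [step 3 4 _ _ (by decide), step 2 3 _ _ (by decide), step 1 2 _ _ (by decide)]
    have := φ.reflect (show (0 : Fin 5) ≠ 1 by decide) (Equiv.swap 1 2 (Equiv.swap 2 3 (Equiv.swap 3 4 l)))
    simp only [neg_mul, neg_neg]
    rw [this, neg_mul, neg_mul, neg_mul, neg_neg]
    simp [σ, v, mul_assoc]
  have hσ : σ ^ 5 = 1 := by decide
  have hσ0 : σ 0 ≠ 0 := by decide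
  clear_value σ
  have hconj : ∀ l, g * φ.gam l * g⁻¹ = φ.gam (σ l) := fun l => by rw [hgl, mul_inv_cancel_right]
  have e0 : φ.gam 0 = φ.A1 := rfl
  have e1 : φ.gam 1 = φ.B1 := rfl
  have hA2e : φ.A2 = (φ.gam 0 * φ.gam 1)⁻¹ * φ.gam 2 := by simp [gam, mul_assoc]
  have hB2e : φ.B2 = (φ.gam 0 * φ.gam 1)⁻¹ * φ.gam 3 := by simp [gam, mul_assoc]
  have hgN : g ∈ Cfsg.Geo.subgroupNormalizer R := by
    refine φ.mem_normalizer S (show g * φ.gam 0 * g⁻¹ ∈ R by rw [hconj]; exact φ.gam_mem _)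
      (show g * φ.gam 1 * g⁻¹ ∈ R by rw [hconj]; exact φ.gam_mem _) ?_ ?_
    · rw [hA2e,
        show g * ((φ.gam 0 * φ.gam 1)⁻¹ * φ.gam 2) * g⁻¹ =
          (g * φ.gam 0 * g⁻¹ * (g * φ.gam 1 * g⁻¹))⁻¹ * (g * φ.gam 2 * g⁻¹) by group, hconj, hconj, hconj]
      exact mul_mem (inv_mem (mul_mem (φ.gam_mem _) (φ.gam_mem _))) (φ.gam_mem _)
    · rw [hB2e,
        show g * ((φ.gam 0 * φ.gam 1)⁻¹ * φ.gam 3) * g⁻¹ =
          (g * φ.gam 0 * g⁻¹ * (g * φ.gam 1 * g⁻¹))⁻¹ * (g * φ.gam 3 * g⁻¹) by group, hconj, hconj, hconj]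
      exact mul_mem (inv_mem (mul_mem (φ.gam_mem _) (φ.gam_mem _))) (φ.gam_mem _)
  have hpow : ∀ (m : ℕ) l, g ^ m * φ.gam l = φ.gam ((σ ^ m) l) * g ^ m := by
    intro m
    induction m with
    | zero => intro l; simp
    | succ m ih =>
      intro l
      rw [pow_succ, mul_assoc, hgl, ← mul_assoc, ih, mul_assoc, pow_succ σ]
      rfl
  have hcom : ∀ l, Commute ((g ^ 5 : GL ι F) : Mx) (φ.gam l : Mx) := fun l => by
    have h := congrArg Units.val (hpow 5 l)
    rw [hσ, Equiv.Perm.one_apply, Units.val_mul, Units.val_mul] at h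
    exact h
  obtain ⟨μ, hμ⟩ : ∃ μ : F, ((g ^ 5 : GL ι F) : Mx) = μ • 1 := by
    have e := hA2e.symm
    have e' := hB2e.symm
    refine φ.cent _ (by rw [← e0]; exact hcom 0) (by rw [← e1]; exact hcom 1) ?_ ?_
    · rw [← e, Units.val_mul]
      refine Commute.mul_right (Commute.units_inv_right ?_) (hcom 2)
      rw [Units.val_mul]; exact (hcom 0).mul_right (hcom 1)
    · rw [← e', Units.val_mul]
      refine Commute.mul_right (Commute.units_inv_right ?_) (hcom 3)
      rw [Units.val_mul]; exact (hcom 0).mul_right (hcom 1)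
  have hμ0 : μ ≠ 0 := fun h => by rw [h, zero_smul] at hμ; exact Units.ne_zero _ hμ
  -- the scalar making the order five
  set N := Fintype.card F - 1 with hN
  have hN2 : 1 < N := by
    have h1 : 2 ≤ Fintype.card F := Fintype.one_lt_card
    by_contra hle
    have hc : Fintype.card F = 2 := by omega
    have h2 : ((2 : ℕ) : F) = 0 := hc ▸ Nat.cast_card_eq_zero F
    exact h22 (by simpa using h2)
  obtain ⟨a, -, ha⟩ := Nat.exists_mul_mod_eq_one_of_coprime
    ((Nat.Prime.coprime_iff_not_dvd Nat.prime_five).2 h5) hN2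
  let ν : F := μ⁻¹ ^ a
  have hν0 : ν ≠ 0 := pow_ne_zero _ (inv_ne_zero hμ0)
  have hν5 : ν ^ 5 * μ = 1 := by
    have h1 : μ⁻¹ ^ N = 1 := FiniteField.pow_card_sub_one_eq_one _ (inv_ne_zero hμ0)
    have h2 : μ⁻¹ ^ (5 * a) = μ⁻¹ := by
      rw [← Nat.mod_add_div (5 * a) N, ha, pow_add, pow_mul, h1, one_pow, mul_one, pow_one]
    rw [show ν ^ 5 = μ⁻¹ ^ (5 * a) by simp only [ν]; rw [← pow_mul, mul_comm], h2, inv_mul_cancel₀ hμ0]
  let h : GL ι F := ⟨ν • M, ν⁻¹ • M', by rw [smul_mul_smul_comm, mul_inv_cancel₀ hν0, hMM', one_smul],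
    by rw [smul_mul_smul_comm, inv_mul_cancel₀ hν0, hM'M, one_smul]⟩
  have hh5 : h ^ 5 = 1 := Units.ext (by
    rw [Units.val_pow_eq_pow_val, show (h : Mx) = ν • M from rfl, smul_pow,
      show M ^ 5 = μ • 1 by rw [← hμ, Units.val_pow_eq_pow_val, hgM], smul_smul, hν5, one_smul, Units.val_one])
  have hhconj : ∀ x : GL ι F, h * x * h⁻¹ = g * x * g⁻¹ := fun x => Units.ext (by
    show ν • M * (x : Mx) * ν⁻¹ • M' = (g : Mx) * (x : Mx) * ((g⁻¹ : GL ι F) : Mx)
    rw [hgM, hgM']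
    rw [smul_mul_assoc, smul_mul_smul_comm, mul_inv_cancel₀ hν0, one_smul])
  refine ⟨h, ?_, hh5, ?_, ?_, ?_⟩
  · refine φ.mem_normalizer S ?_ ?_ ?_ ?_ <;> rw [hhconj]
    exacts [(Subgroup.mem_normalizer_iff.1 hgN _).1 φ.hA1, (Subgroup.mem_normalizer_iff.1 hgN _).1 φ.hB1,
      (Subgroup.mem_normalizer_iff.1 hgN _).1 φ.hA2, (Subgroup.mem_normalizer_iff.1 hgN _).1 φ.hB2]
  · have hd : (h : Mx).det ^ 5 = 1 := by
      rw [← Matrix.det_pow, ← Units.val_pow_eq_pow_val, hh5, Units.val_one, Matrix.det_one]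
    have hd0 : (h : Mx).det ≠ 0 := fun e => by rw [e] at hd; simp at hd
    have hd1 : (h : Mx).det ^ N = 1 := FiniteField.pow_card_sub_one_eq_one _ hd0
    have h1 := pow_gcd_eq_one.2 ⟨hd, hd1⟩
    rwa [((Nat.Prime.coprime_iff_not_dvd Nat.prime_five).2 h5).gcd_eq_one, pow_one] at h1
  · intro c hc
    have h1 : h * φ.gam 0 * h⁻¹ = φ.gam 0 := by
      rw [mul_inv_eq_iff_eq_mul]
      exact Units.ext (by rw [Units.val_mul, Units.val_mul, hc, smul_mul_assoc, one_mul, mul_smul_comm, mul_one])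
    rw [hhconj, hconj] at h1
    have hne : σ 0 ≠ 0 := hσ0
    have h3 := φ.gam_props.2 _ _ hne
    rw [h1] at h3
    exact S.neg_ne _ h3.symm
  · rintro G ⟨A⟩ hRG
    rw [A.mem]
    show A.τ (ν • M) * (ν • M) = 1
    have hv : ∀ j k, A.τ (v j k) = v j k := fun j k => by rw [A.sub, φ.adj_fix A hRG, φ.adj_fix A hRG]
    have hτM : A.τ M = M' := by
      show A.τ ((4 : F)⁻¹ • (v 0 1 * v 1 2 * v 2 3 * v 3 4)) = _
      rw [A.smul, A.mul, A.mul, A.mul, hv, hv, hv, hv, map_inv₀, map_ofNat, ← mul_assoc, ← mul_assoc]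
    -- the norm of `μ` is one
    have hμμ : A.σ μ * μ = 1 := by
      have hgG : A.τ ((g ^ 5 : GL ι F) : Mx) * ((g ^ 5 : GL ι F) : Mx) = 1 :=
        (A.mem _).1 (pow_mem ((A.mem g).2 (by rw [hgM, hτM, hM'M])) 5)
      rw [hμ, A.smul, A.one, smul_mul_smul_comm, mul_one] at hgG
      have := congrFun (congrFun hgG (Classical.arbitrary ι)) (Classical.arbitrary ι)
      simpa using this
    have hνν : A.σ ν * ν = 1 := by
      simp only [ν]
      rw [map_pow, map_inv₀, ← mul_pow, ← mul_inv, hμμ, inv_one, one_pow]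
    rw [A.smul, hτM, smul_mul_smul_comm, hM'M, hνν, one_smul]

/-- An element exchanging `I`, `J`, `I J`. -/
theorem triple {I J : Mx} (hI : I * I = -1) (hJ : J * J = -1) (hJI : J * I = -(I * J)) :
    ((-(2 : F)⁻¹) • (1 + I + J + I * J)) * ((-(2 : F)⁻¹) • (1 + I + J + I * J)) +
        (-(2 : F)⁻¹) • (1 + I + J + I * J) + 1 = 0 ∧
      ((-(2 : F)⁻¹) • (1 + I + J + I * J)) * I = J * ((-(2 : F)⁻¹) • (1 + I + J + I * J)) ∧
      ((-(2 : F)⁻¹) • (1 + I + J + I * J)) * J = I * J * ((-(2 : F)⁻¹) • (1 + I + J + I * J)) := by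
  have h22 := S.two
  have hI' : ∀ X, I * (I * X) = -X := fun X => by rw [← mul_assoc, hI, neg_one_mul]
  have hJ' : ∀ X, J * (J * X) = -X := fun X => by rw [← mul_assoc, hJ, neg_one_mul]
  have hJI' : ∀ X, J * (I * X) = -(I * (J * X)) := fun X => by rw [← mul_assoc, hJI, neg_mul, mul_assoc]
  refine ⟨?_, ?_, ?_⟩
  · simp only [smul_mul_assoc, mul_smul_comm, smul_smul, mul_add, add_mul, one_mul, mul_one, mul_assoc, hI, hJ, hJI, hI',
      hJ', hJI', mul_neg, neg_neg, smul_add, smul_neg]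
    match_scalars <;> field_simp <;> ring
  · simp only [smul_mul_assoc, mul_smul_comm, smul_smul, mul_add, add_mul, one_mul, mul_one, mul_assoc, hI, hJ, hJI, hI',
      hJ', hJI', mul_neg, neg_neg, smul_add, smul_neg]
    abel
  · simp only [smul_mul_assoc, mul_smul_comm, smul_smul, mul_add, add_mul, one_mul, mul_one, mul_assoc, hI, hJ, hJI, hI',
      hJ', hJI', mul_neg, neg_neg, smul_add, smul_neg]
    abel

/-- Elements of order three in the normalizer, when `R` has a scalar of square minus one. -/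
theorem exists_three [Finite F] {e : GL ι F} (he : e ∈ R) (hec : Cg 1 e) (hee : e * e = -1) :
    ∃ T U : GL ι F, T ∈ Cfsg.Geo.subgroupNormalizer R ∧ U ∈ Cfsg.Geo.subgroupNormalizer R ∧ Commute T U ∧
      T ^ 3 = 1 ∧ U ^ 3 = 1 ∧ (T : Mx) * (T : Mx) + (T : Mx) + 1 = 0 ∧ (U : Mx) * (U : Mx) + (U : Mx) + 1 = 0 ∧
      Commute U φ.A1 ∧ ¬ Commute T φ.A1 ∧
      ∀ G : Subgroup (GL ι F), Nonempty (Adj G) → R ≤ G → T ∈ G ∧ U ∈ G := by
  have h22 := S.two
  have hecm : ∀ x : GL ι F, Commute e x := fun x => hec.commute (Commute.one_left x)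
  have hsq : ∀ {x : GL ι F}, x * x = -1 → (x : Mx) * (x : Mx) = -1 := fun h => by
    rw [← Units.val_mul, h, Units.val_neg, Units.val_one]
  have hanti : ∀ {x y : GL ι F}, x * y = -(y * x) → (y : Mx) * (x : Mx) = -((x : Mx) * (y : Mx)) := fun h => by
    rw [← Units.val_mul, ← Units.val_mul, h, Units.val_neg, neg_neg]
  -- the general construction
  have build : ∀ I J : GL ι F, I ∈ R → J ∈ R → I * I = -1 → J * J = -1 → I * J = -(J * I) →
      ∃ T : GL ι F, T ^ 3 = 1 ∧ (T : Mx) * (T : Mx) + (T : Mx) + 1 = 0 ∧ T * I * T⁻¹ = J ∧ T * J * T⁻¹ = I * J ∧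
        (∀ x : GL ι F, Commute x I → Commute x J → Commute T x) ∧
        ∀ G : Subgroup (GL ι F), Nonempty (Adj G) → R ≤ G → T ∈ G := by
    intro I J hI hJ hII hJJ hIJ
    obtain ⟨t1, t2, t3⟩ := triple S (hsq hII) (hsq hJJ) (hanti hIJ)
    set M : Mx := (-(2 : F)⁻¹) • (1 + (I : Mx) + (J : Mx) + (I : Mx) * (J : Mx)) with hM
    have hM3 : M * (M * M) = 1 := by
      have h1 : M * (M * M + M + 1) = 0 := by rw [t1, mul_zero]
      rw [mul_add, mul_add, mul_one] at h1
      calc M * (M * M) = M * (M * M) + M * M + M - (M * M + M + 1) + 1 := by abel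
        _ = 1 := by rw [h1, t1, sub_zero, zero_add]
    let T : GL ι F := ⟨M, M * M, hM3, by rw [mul_assoc]; exact hM3⟩
    refine ⟨T, Units.ext ?_, t1, ?_, ?_, fun x hxI hxJ => ?_, ?_⟩
    · rw [Units.val_pow_eq_pow_val, pow_succ, pow_two, mul_assoc]
      exact hM3
    · rw [mul_inv_eq_iff_eq_mul]; exact Units.ext t2
    · rw [mul_inv_eq_iff_eq_mul]; exact Units.ext t3
    · refine Units.ext ?_
      show M * (x : Mx) = (x : Mx) * M
      have h1 : Commute (I : Mx) (x : Mx) := by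
        show (I : Mx) * (x : Mx) = (x : Mx) * (I : Mx)
        simpa using congrArg Units.val hxI.eq.symm
      have h2 : Commute (J : Mx) (x : Mx) := by
        show (J : Mx) * (x : Mx) = (x : Mx) * (J : Mx)
        simpa using congrArg Units.val hxJ.eq.symm
      exact (((((Commute.one_left (x : Mx)).add_left h1).add_left h2).add_left (h1.mul_left h2)).smul_left _).eq
    · rintro G ⟨A⟩ hRG
      rw [A.mem]
      show A.τ M * M = 1
      have hτ : A.τ M = M * M := by
        have hi : A.τ (I : Mx) = -(I : Mx) := by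
          rw [A.of_mem (hRG hI), inv_eq_of_mul_eq_one_right (show I * -I = 1 by rw [mul_neg, hII, neg_neg]), Units.val_neg]
        have hj : A.τ (J : Mx) = -(J : Mx) := by
          rw [A.of_mem (hRG hJ), inv_eq_of_mul_eq_one_right (show J * -J = 1 by rw [mul_neg, hJJ, neg_neg]), Units.val_neg]
        have e : M * M = -M - 1 := by
          rw [eq_sub_iff_add_eq, eq_neg_iff_add_eq_zero, add_right_comm]; exact t1
        rw [e, hM, A.smul, A.add, A.add, A.add, A.mul, A.one, hi, hj, map_neg, map_inv₀, map_ofNat, neg_mul_neg,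
          hanti hIJ]
        match_scalars <;> field_simp <;> ring
      rw [hτ, mul_assoc]
      exact hM3
  obtain ⟨A1, B1, A2, B2, hA1, hB1, hA2, hB2, a1, b1, a2, b2, ab1, ab2, c11, c12, c21, c22, cent, gen⟩ := φ
  have hsqe : ∀ {w : GL ι F}, e * w * (e * w) = -(w * w) := fun {w} => by
    rw [mul_assoc e, ← mul_assoc w e, ← (hecm w).eq, mul_assoc e w, ← mul_assoc e e, hee, neg_one_mul]
  have hIJ : e * A1 * (e * B1) = -(e * B1 * (e * A1)) := by
    rw [mul_assoc e A1, ← mul_assoc A1 e, ← (hecm A1).eq, mul_assoc e A1, ab1, mul_neg, mul_neg,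
      mul_assoc e B1, ← mul_assoc B1 e, ← (hecm B1).eq, mul_assoc e B1]
  obtain ⟨T, hT3, hTq, hT1, hT2, hTc, hTG⟩ := build (e * A1) (e * B1) (mul_mem he hA1) (mul_mem he hB1)
    (by rw [hsqe, a1]) (by rw [hsqe, b1]) hIJ
  obtain ⟨U, hU3, hUq, hU1, hU2, hUc, hUG⟩ := build A2 B2 hA2 hB2 a2 b2 ab2
  have hUA : Commute U A1 := hUc _ c11 c12
  have hUB : Commute U B1 := hUc _ c21 c22
  have hTA : Commute T A2 := hTc _ ((hecm A2).mul_left c11).symm ((hecm A2).mul_left c21).symm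
  have hTB : Commute T B2 := hTc _ ((hecm B2).mul_left c12).symm ((hecm B2).mul_left c22).symm
  have hpull : ∀ x : GL ι F, T * x * T⁻¹ = e⁻¹ * (T * (e * x) * T⁻¹) := fun x => by
    have h := (hecm T).inv_left.eq
    rw [show e⁻¹ * (T * (e * x) * T⁻¹) = e⁻¹ * T * (e * x) * T⁻¹ by group, h]
    group
  refine ⟨T, U, ?_, ?_, ?_, hT3, hU3, hTq, hUq, hUA, fun h => ?_, fun G hG hRG => ⟨hTG G hG hRG, hUG G hG hRG⟩⟩
  · refine Frame.mem_normalizer S ⟨A1, B1, A2, B2, hA1, hB1, hA2, hB2, a1, b1, a2, b2, ab1, ab2, c11, c12, c21, c22, cent, gen⟩ ?_ ?_ ?_ ?_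
    · show T * A1 * T⁻¹ ∈ R
      rw [hpull, hT1, inv_mul_cancel_left]
      exact hB1
    · show T * B1 * T⁻¹ ∈ R
      rw [hpull, hT2]
      exact mul_mem (inv_mem he) (mul_mem (mul_mem he hA1) (mul_mem he hB1))
    · show T * A2 * T⁻¹ ∈ R
      rw [hTA.eq, mul_inv_cancel_right]; exact hA2
    · show T * B2 * T⁻¹ ∈ R
      rw [hTB.eq, mul_inv_cancel_right]; exact hB2
  · refine Frame.mem_normalizer S ⟨A1, B1, A2, B2, hA1, hB1, hA2, hB2, a1, b1, a2, b2, ab1, ab2, c11, c12, c21, c22, cent, gen⟩ ?_ ?_ ?_ ?_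
    · show U * A1 * U⁻¹ ∈ R
      rw [hUA.eq, mul_inv_cancel_right]; exact hA1
    · show U * B1 * U⁻¹ ∈ R
      rw [hUB.eq, mul_inv_cancel_right]; exact hB1
    · show U * A2 * U⁻¹ ∈ R
      rw [hU1]; exact hB2
    · show U * B2 * U⁻¹ ∈ R
      rw [hU2]; exact mul_mem hA2 hB2
  · exact hTc U ((hecm U).mul_left hUA.symm).symm ((hecm U).mul_left hUB.symm).symm
  · -- `T` moves `A1` to `B1`
    have h1 : T * A1 * T⁻¹ = B1 := by rw [hpull, hT1, inv_mul_cancel_left]
    rw [h.eq, mul_inv_cancel_right] at h1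
    rw [← h1] at ab1
    exact S.neg_ne _ ab1.symm

/-- An involution of trace two in the normalizer. -/
theorem exists_swap [Finite F] {e : GL ι F} (he : e ∈ R) (hec : Cg 1 e) (hee : e * e = -1) :
    ∃ W : GL ι F, W ∈ Cfsg.Geo.subgroupNormalizer R ∧ W * W = 1 ∧ (W : Mx).trace = 2 ∧ ¬ Commute W φ.A1 ∧
      ∀ G : Subgroup (GL ι F), Nonempty (Adj G) → R ≤ G → W ∈ G := by
  have h22 := S.two
  have hecm : ∀ x : GL ι F, Commute e x := fun x => hec.commute (Commute.one_left x)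
  obtain ⟨A1, B1, A2, B2, hA1, hB1, hA2, hB2, a1, b1, a2, b2, ab1, ab2, c11, c12, c21, c22, cent, gen⟩ := φ
  set C := e * A2 with hC
  set D := e * B2 with hD
  have hsqe : ∀ {w : GL ι F}, e * w * (e * w) = -(w * w) := fun {w} => by
    rw [mul_assoc e, ← mul_assoc w e, ← (hecm w).eq, mul_assoc e w, ← mul_assoc e e, hee, neg_one_mul]
  have hC2 : C * C = 1 := by rw [hC, hsqe, a2, neg_neg]
  have hD2 : D * D = 1 := by rw [hD, hsqe, b2, neg_neg]
  have hCD : C * D = -(D * C) := by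
    rw [hC, hD, mul_assoc e A2, ← mul_assoc A2 e, ← (hecm A2).eq, mul_assoc e A2, ab2, mul_neg, mul_neg,
      mul_assoc e B2, ← mul_assoc B2 e, ← (hecm B2).eq, mul_assoc e B2]
  have hCR : C ∈ R := mul_mem he hA2
  have hDR : D ∈ R := mul_mem he hB2
  have cAC : Commute A1 C := (hecm A1).symm.mul_right c11
  have cBC : Commute B1 C := (hecm B1).symm.mul_right c21
  have cAD : Commute A1 D := (hecm A1).symm.mul_right c12
  have cBD : Commute B1 D := (hecm B1).symm.mul_right c22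
  have ba : B1 * A1 = -(A1 * B1) := by rw [ab1, neg_neg]
  have dc : D * C = -(C * D) := by rw [hCD, neg_neg]
  set a : Mx := (A1 : Mx)
  set b : Mx := (B1 : Mx)
  set c : Mx := (C : Mx)
  set d : Mx := (D : Mx)
  have v : ∀ {x y : GL ι F}, x = y → (x : Mx) = (y : Mx) := fun h => congrArg Units.val h
  have qa : a * a = 1 := by simpa using v a1
  have qb : b * b = 1 := by simpa using v b1
  have qc : c * c = 1 := by simpa using v hC2
  have qd : d * d = 1 := by simpa using v hD2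
  have qba : b * a = -(a * b) := by simpa using v ba
  have qdc : d * c = -(c * d) := by simpa using v dc
  have qca : c * a = a * c := by simpa using v cAC.eq.symm
  have qcb : c * b = b * c := by simpa using v cBC.eq.symm
  have qda : d * a = a * d := by simpa using v cAD.eq.symm
  have qdb : d * b = b * d := by simpa using v cBD.eq.symm
  have qa' : ∀ X, a * (a * X) = X := fun X => by rw [← mul_assoc, qa, one_mul]
  have qb' : ∀ X, b * (b * X) = X := fun X => by rw [← mul_assoc, qb, one_mul]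
  have qc' : ∀ X, c * (c * X) = X := fun X => by rw [← mul_assoc, qc, one_mul]
  have qd' : ∀ X, d * (d * X) = X := fun X => by rw [← mul_assoc, qd, one_mul]
  have qba' : ∀ X, b * (a * X) = -(a * (b * X)) := fun X => by rw [← mul_assoc, qba, neg_mul, mul_assoc]
  have qdc' : ∀ X, d * (c * X) = -(c * (d * X)) := fun X => by rw [← mul_assoc, qdc, neg_mul, mul_assoc]
  have qca' : ∀ X, c * (a * X) = a * (c * X) := fun X => by rw [← mul_assoc, qca, mul_assoc]
  have qcb' : ∀ X, c * (b * X) = b * (c * X) := fun X => by rw [← mul_assoc, qcb, mul_assoc]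
  have qda' : ∀ X, d * (a * X) = a * (d * X) := fun X => by rw [← mul_assoc, qda, mul_assoc]
  have qdb' : ∀ X, d * (b * X) = b * (d * X) := fun X => by rw [← mul_assoc, qdb, mul_assoc]
  set M : Mx := (2 : F)⁻¹ • (1 + a * c + b * d - a * c * (b * d)) with hM
  have hMM : M * M = 1 := by
    rw [hM]
    simp only [smul_mul_assoc, mul_smul_comm, smul_smul, mul_add, add_mul, mul_sub, sub_mul, one_mul, mul_one, mul_assoc,
      qa, qb, qc, qd, qba, qdc, qca, qcb, qda, qdb, qa', qb', qc', qd', qba', qdc', qca', qcb', qda', qdb',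
      mul_neg, neg_neg, smul_add, smul_neg, smul_sub]
    match_scalars <;> field_simp <;> ring
  have hMa : M * a = c * M := by
    rw [hM]
    simp only [smul_mul_assoc, mul_smul_comm, mul_add, add_mul, mul_sub, sub_mul, one_mul, mul_one, mul_assoc,
      qa, qb, qc, qd, qba, qdc, qca, qcb, qda, qdb, qa', qb', qc', qd', qba', qdc', qca', qcb', qda', qdb',
      mul_neg, neg_neg, smul_add, smul_neg, smul_sub]
    abel
  have hMb : M * b = d * M := by
    rw [hM]
    simp only [smul_mul_assoc, mul_smul_comm, mul_add, add_mul, mul_sub, sub_mul, one_mul, mul_one, mul_assoc,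
      qa, qb, qc, qd, qba, qdc, qca, qcb, qda, qdb, qa', qb', qc', qd', qba', qdc', qca', qcb', qda', qdb',
      mul_neg, neg_neg, smul_add, smul_neg, smul_sub]
    abel
  let W : GL ι F := ⟨M, M, hMM, hMM⟩
  have hWA : W * A1 * W⁻¹ = C := by rw [mul_inv_eq_iff_eq_mul]; exact Units.ext hMa
  have hWB : W * B1 * W⁻¹ = D := by rw [mul_inv_eq_iff_eq_mul]; exact Units.ext hMb
  have hWi : W⁻¹ = W := inv_eq_of_mul_eq_one_right (Units.ext hMM)
  have hWC : W * C * W⁻¹ = A1 := by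
    rw [← hWA, hWi]
    simp [mul_assoc, show W * W = 1 from Units.ext hMM, show ∀ X : GL ι F, W * (W * X) = X from fun X => by
      rw [← mul_assoc, show W * W = 1 from Units.ext hMM, one_mul]]
  have hWD : W * D * W⁻¹ = B1 := by
    rw [← hWB, hWi]
    simp [mul_assoc, show W * W = 1 from Units.ext hMM, show ∀ X : GL ι F, W * (W * X) = X from fun X => by
      rw [← mul_assoc, show W * W = 1 from Units.ext hMM, one_mul]]
  have heW : ∀ x : GL ι F, W * x * W⁻¹ = e⁻¹ * (W * (e * x) * W⁻¹) := fun x => by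
    have h := (hecm W).inv_left.eq
    rw [show e⁻¹ * (W * (e * x) * W⁻¹) = e⁻¹ * W * (e * x) * W⁻¹ by group, h]
    group
  refine ⟨W, ?_, Units.ext hMM, ?_, fun h => ?_, ?_⟩
  · refine Frame.mem_normalizer S ⟨A1, B1, A2, B2, hA1, hB1, hA2, hB2, a1, b1, a2, b2, ab1, ab2, c11, c12, c21, c22, cent, gen⟩ ?_ ?_ ?_ ?_
    · show W * A1 * W⁻¹ ∈ R
      rw [hWA]; exact hCR
    · show W * B1 * W⁻¹ ∈ R
      rw [hWB]; exact hDR
    · show W * A2 * W⁻¹ ∈ R
      rw [heW, ← hC, hWC]; exact mul_mem (inv_mem he) hA1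
    · show W * B2 * W⁻¹ ∈ R
      rw [heW, ← hD, hWD]; exact mul_mem (inv_mem he) hB1
  · show M.trace = 2
    have t1 : (a * c).trace = 0 := by
      rw [← Units.val_mul]
      exact S.trace_zero (mul_mem hA1 hCR) fun h => S.not_both (h.commute (Commute.one_left B1)) (S.anti_mul_left ab1 cBC.symm)
    have t2 : (b * d).trace = 0 := by
      rw [← Units.val_mul]
      exact S.trace_zero (mul_mem hB1 hDR) fun h => S.not_both (h.commute (Commute.one_left A1)) (S.anti_mul_left ba cAD.symm)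
    have t3 : (a * c * (b * d)).trace = 0 := by
      rw [← Units.val_mul, ← Units.val_mul, ← Units.val_mul]
      exact S.trace_zero (mul_mem (mul_mem hA1 hCR) (mul_mem hB1 hDR)) fun h => S.not_both (h.commute (Commute.one_left A1))
        (S.anti_mul_right ((Commute.refl A1).mul_left cAC.symm) (S.anti_mul_left ba cAD.symm))
    rw [hM, Matrix.trace_smul, Matrix.trace_sub, Matrix.trace_add, Matrix.trace_add, t1, t2, t3, Matrix.trace_one, S.dim]
    simp only [add_zero, sub_zero, smul_eq_mul]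
    rw [show ((4 : ℕ) : F) = 2 * 2 by norm_num, inv_mul_cancel_left₀ h22]
  · have h' : W * A1 = A1 * W := h.eq
    rw [h', mul_inv_cancel_right] at hWA
    rw [hWA] at ab1
    exact S.not_both cBC.symm ab1
  · rintro G ⟨A⟩ hRG
    rw [A.mem]
    show A.τ M * M = 1
    have hτ : ∀ {x : GL ι F}, x ∈ R → x * x = 1 → A.τ (x : Mx) = (x : Mx) := fun hx h => by
      rw [A.of_mem (hRG hx), inv_eq_of_mul_eq_one_right h]
    have hτM : A.τ M = M := by
      rw [hM, A.smul, A.sub, A.add, A.add]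
      simp only [A.mul]
      rw [A.one, hτ hA1 a1, hτ hB1 b1, hτ hCR hC2,
        hτ hDR hD2, map_inv₀, map_ofNat, qca, qdb]
      congr 2
      simp only [mul_assoc, qba', qdc', qdc, qba, qca', qda', qcb', qdb', qcb, qda, mul_neg, neg_neg]
    rw [hτM, hMM]

end Frame

end Cfsg.Agent.Linear.SymType4
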