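import Cfsg.Agent.Linear.SymType4Targets

/-!
Elements of prime order of `PSL_4(p)` and the normaliser of a group of symplectic type.
-/

set_option autoImplicit false
set_option linter.unusedSectionVars false

namespace Cfsg.Agent.Linear.SymType4

open Matrix

variable {F : Type*} [Field F] [Fintype F] {R : Subgroup (GL (Fin 4) F)}

local notation "M4" => Matrix (Fin 4) (Fin 4) F
local notation "SL4" => Cfsg.Geo.specialLinear (Fin 4) F

/-- The criterion of `S6000`. -/
theorem linear_iff {p : ℕ} [Fact p.Prime] [CharP F p] (hF : Fintype.card F = p) (hp4 : p % 4 = 1)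
    (hR : Cfsg.Geo.IsLinearSymplecticTypeData 2 R) (hR6 : Nat.card R = 2 ^ 6)
    (r : ℕ) [Fact r.Prime] (hΩ : r ∣ (Cfsg.Geo.subgroupNormalizer R).relIndex SL4) :
    (∀ x ∈ SL4, (∃ z : F, ((x ^ r : GL (Fin 4) F) : M4) = z • (1 : M4)) →
      (∀ z : F, (x : M4) ≠ z • (1 : M4)) →
      ∃ g ∈ SL4, g⁻¹ * x * g ∈ Cfsg.Geo.subgroupNormalizer R) ↔
      (r = 2 ∨ (r = 3 ∧ p % 3 = 2) ∨ (r = 5 ∧ orderOf (p : ZMod 5) = 4)) := by
  classical
  have hp : p.Prime := Fact.out
  have hr : r.Prime := Fact.out
  have hp2 : p ≠ 2 := fun h => by omega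
  have hp3 : p ≠ 3 := fun h => by omega
  have h22 : (2 : F) ≠ 0 := fun h => hp2 ((Nat.prime_dvd_prime_iff_eq hp Nat.prime_two).1
    ((CharP.cast_eq_zero_iff F p 2).1 (by exact_mod_cast h)))
  have h33 : (3 : F) ≠ 0 := fun h => hp3 ((Nat.prime_dvd_prime_iff_eq hp Nat.prime_three).1
    ((CharP.cast_eq_zero_iff F p 3).1 (by exact_mod_cast h)))
  have hZ : Nat.card (Subgroup.center R) = 4 := by
    obtain ⟨_, _, -, -, h⟩ := hR.field
    rcases h with ⟨h1, -⟩ | ⟨-, -, h1, -⟩ | ⟨-, -, -, h1, -⟩
    · exact absurd h1 (by decide)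
    · exact h1
    · rw [hR6] at h1; norm_num at h1
  have hι : Fintype.card (Fin 4) = 4 := Fintype.card_fin 4
  have S : Dat R := dat_of_type h22 hι hR.symplecticType hR.absIrred (zc := 4) (Or.inr rfl) hZ (by rw [hR6]; norm_num)
  obtain ⟨e, he, hec, hee⟩ := exists_i S hZ
  obtain ⟨φ⟩ := S.exists_frame (Or.inl ⟨e, he, hec, hee⟩)
  obtain ⟨i, hi⟩ := hec
  rw [Units.val_one] at hi
  have hii : i * i = -1 := by
    have h := congrArg Units.val hee
    rw [Units.val_mul, hi, smul_mul_smul_comm, mul_one, Units.val_neg, Units.val_one] at h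
    simpa using congrFun (congrFun h 0) 0
  have hec : Cg 1 e := ⟨i, by rw [hi, Units.val_one]⟩
  constructor
  · intro hall
    by_contra hcon
    push Not at hcon
    obtain ⟨hr2, hc3, hc5⟩ := hcon
    suffices h : ∃ x ∈ SL4, (∃ z : F, ((x ^ r : GL (Fin 4) F) : M4) = z • (1 : M4)) ∧
        (∀ z : F, (x : M4) ≠ z • (1 : M4)) ∧ ∀ g ∈ SL4, g⁻¹ * x * g ∉ Cfsg.Geo.subgroupNormalizer R by
      obtain ⟨x, hx, hz, hns, hbad⟩ := h
      obtain ⟨g, hg, hgx⟩ := hall x hx hz hns
      exact hbad g hg hgx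
    rcases lt_or_ge r 7 with hlt | hge
    · have hr35 : r = 3 ∨ r = 5 := by
        have h2 := hr.two_le
        interval_cases r <;> first | omega | exact absurd hr (by decide)
      rcases hr35 with rfl | rfl
      · -- three
        have hp31 : p % 3 = 1 := by
          have h0 : p % 3 ≠ 0 := fun h => hp3 ((Nat.prime_dvd_prime_iff_eq Nat.prime_three hp).1 (by omega)).symm
          have := hc3 rfl
          omega
        obtain ⟨u, hu⟩ := exists_prime_orderOf_dvd_card' (G := Fˣ) 3
          (by rw [Nat.card_units, Nat.card_eq_fintype_card, hF]; omega)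
        set ω : F := (u : F)
        have hω : ω ^ 3 = 1 := by rw [← Units.val_pow_eq_pow_val, ← hu, pow_orderOf_eq_one, Units.val_one]
        have hω1 : ω ≠ 1 := fun h => by
          rw [Units.val_eq_one.1 h, orderOf_one] at hu
          norm_num at hu
        have hdet : (Matrix.diagonal ![ω, ω, ω, 1]).det = 1 := by
          rw [Matrix.det_diagonal, Fin.prod_univ_four]
          simp only [Matrix.cons_val]
          linear_combination hω
        let x : GL (Fin 4) F := Matrix.GeneralLinearGroup.mkOfDetNeZero _ (by rw [hdet]; exact one_ne_zero)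
        have hxm : (x : M4) = Matrix.diagonal ![ω, ω, ω, 1] := rfl
        have hx3 : ((x ^ 3 : GL (Fin 4) F) : M4) = (1 : F) • 1 := by
          rw [Units.val_pow_eq_pow_val, hxm, Matrix.diagonal_pow, one_smul, ← Matrix.diagonal_one]
          congr 1
          funext j
          fin_cases j <;> simp [hω]
        have hns : ∀ c : F, (x : M4) ≠ c • 1 := fun c h => by
          have h0 := congrFun (congrFun h 0) 0
          have h3' := congrFun (congrFun h 3) 3
          simp [hxm] at h0 h3'
          exact hω1 (h0.trans h3'.symm)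
        refine ⟨x, Units.ext hdet, ⟨1, hx3⟩, hns, fun g _ => S.conj_hyperplane hx3 hns
          (lam := ω) (a := ![0, 0, 0, 1]) (b := ![0, 0, 0, 1 - ω]) ?_ g⟩
        rw [hxm]
        ext a b
        fin_cases a <;> fin_cases b <;> simp [Matrix.vecMulVec]
      · -- five
        obtain ⟨t, ht, -⟩ := exists_t (F := F) hp2 (hc5 rfl)
        set M : M4 := !![0, -1, 0, 0; 1, t, 0, 0; 0, 0, 0, -1; 0, 0, 1, t] with hM
        have hdet : M.det = 1 := by
          rw [hM, Matrix.det_succ_row_zero, Fin.sum_univ_four]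
          simp [Matrix.det_fin_three, Fin.succAbove]
        have hq : M * M = t • M + (-1 : F) • 1 := by
          rw [hM]
          ext a b
          fin_cases a <;> fin_cases b <;> simp [Matrix.mul_apply, Fin.sum_univ_four] <;> ring
        let x : GL (Fin 4) F := Matrix.GeneralLinearGroup.mkOfDetNeZero M (by rw [hdet]; exact one_ne_zero)
        have hxm : (x : M4) = M := rfl
        have h5 : M ^ 5 = 1 := by
          have e3 : M ^ 3 = (t * t - 1) • M + (-t) • 1 := by
            rw [pow_succ, pow_two, hq, add_mul, smul_mul_assoc, hq, smul_mul_assoc, one_mul]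
            module
          have e5 : M ^ 5 = (M * M) * M ^ 3 := by rw [← pow_two, ← pow_add]
          rw [e5, e3, hq]
          simp only [mul_add, add_mul, smul_mul_assoc, mul_smul_comm, one_mul, mul_one, hq]
          match_scalars
          · linear_combination (t * t - t - 1) * ht
          · linear_combination (1 - t) * ht
        have hns : ∀ c : F, (x : M4) ≠ c • 1 := fun c h => by
          have h1 := congrFun (congrFun h 1) 0
          simp [hxm, hM] at h1
        have hx5 : ((x ^ 5 : GL (Fin 4) F) : M4) = (1 : F) • 1 := by rw [Units.val_pow_eq_pow_val, hxm, h5, one_smul]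
        refine ⟨x, Units.ext hdet, ⟨1, hx5⟩, hns, fun g _ => S.conj_quadratic (r := 5) le_rfl hx5 hns (hxm ▸ hq) g⟩
    · exact S.exists_large hge (by rw [hZ]; exact Or.inr rfl) (by rw [hR6, hZ]; norm_num) _
        (fun t ht => det_of_special ht) hΩ
  · intro hcase x hx hxr hns
    obtain ⟨z, hz⟩ := hxr
    have hdetx : (x : M4).det = 1 := det_of_special hx
    have hz4 : z ^ 4 = 1 := by
      have h := congrArg Matrix.det hz
      rw [Units.val_pow_eq_pow_val, Matrix.det_pow, hdetx, one_pow, Matrix.det_smul, Matrix.det_one, mul_one, hι] at h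
      exact h.symm
    have hz0 : z ≠ 0 := fun h => by rw [h] at hz4; simp at hz4
    -- split off the scalar
    have split : ∀ w : Fˣ, ∀ y : GL (Fin 4) F, y = sc w⁻¹ * x → x = sc w * y ∧
        (y : M4).det = ((w⁻¹ : Fˣ) : F) ^ 4 ∧ ((y ^ r : GL (Fin 4) F) : M4) = (((w⁻¹ : Fˣ) : F) ^ r * z) • 1 ∧
        (∀ c : F, (y : M4) ≠ c • 1) := by
      intro w y hy
      have hxy : x = sc w * y := by rw [hy, ← mul_assoc, sc, sc, ← map_mul, mul_inv_cancel, map_one, one_mul]
      refine ⟨hxy, ?_, ?_, fun c hc => hns ((w : F) * c) ?_⟩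
      · rw [hy, Units.val_mul, Matrix.det_mul, sc_det hι, hdetx, mul_one]
      · rw [hy, (sc_comm _ x).mul_pow, Units.val_mul, hz, Units.val_pow_eq_pow_val, sc_val, smul_pow, one_pow,
          smul_mul_smul_comm, mul_one]
      · rw [hxy, sc_val_mul, hc, smul_smul]
    rcases hcase with rfl | ⟨rfl, hp32⟩ | ⟨rfl, hord⟩
    · -- two
      by_cases hsq : ∃ w : F, w * w = z
      · obtain ⟨w, hw⟩ := hsq
        have hw0 : w ≠ 0 := fun h => hz0 (by rw [← hw, h, zero_mul])
        obtain ⟨hxy, hdy, hy2, hyns⟩ := split (Units.mk0 w hw0) _ rfl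
        set y := sc (Units.mk0 w hw0)⁻¹ * x
        have hy : (y : M4) * (y : M4) = 1 := by
          rw [← pow_two, ← Units.val_pow_eq_pow_val, hy2, show ((Units.mk0 w hw0)⁻¹ : Fˣ).val = w⁻¹ by simp, ← hw]
          rw [show w⁻¹ ^ 2 * (w * w) = 1 by field_simp, one_smul]
        obtain ⟨h, hhN, hh2, hcp, -, -⟩ := φ.target_two S he hec hee hy
          (fun e => hyns 1 (by rw [e, one_smul])) (fun e => hyns (-1) (by rw [e, neg_one_smul]))
        obtain ⟨g, hg, hgh⟩ := linear_conj (m := 2) (by exact_mod_cast h22) (x := y) (y := h)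
          (Units.ext (by rw [Units.val_pow_eq_pow_val, pow_two, hy, Units.val_one])) (by rw [pow_two, hh2]) hcp.symm
        exact ⟨g, hg, conj_into _ hxy hgh hhN⟩
      · exfalso
        push Not at hsq
        have hxx : (x : M4) * (x : M4) = z • 1 := by rw [← pow_two, ← Units.val_pow_eq_pow_val, hz]
        obtain ⟨-, hd⟩ := charpoly_sq hι hsq hxx
        rw [hdetx] at hd
        rcases mul_self_eq_one_iff.1 (show z * z = 1 by rw [← pow_two]; exact hd.symm) with h | h
        · exact hsq 1 (by rw [h, mul_one])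
        · exact hsq i (by rw [h, hii])
    · -- three
      obtain ⟨hxy, hdy, hy3, hyns⟩ := split (Units.mk0 (z ^ 3) (pow_ne_zero 3 hz0)) _ rfl
      set y := sc (Units.mk0 (z ^ 3) (pow_ne_zero 3 hz0))⁻¹ * x
      have hy : (y : M4) ^ 3 = 1 := by
        rw [← Units.val_pow_eq_pow_val, hy3, show ((Units.mk0 (z ^ 3) (pow_ne_zero 3 hz0))⁻¹ : Fˣ).val = (z ^ 3)⁻¹ by simp]
        rw [show (z ^ 3)⁻¹ ^ 3 * z = 1 by
          field_simp
          linear_combination -(z ^ 4 + 1) * hz4, one_smul]
      have hroot : ∀ c : F, c ^ 3 = 1 → c = 1 := by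
        intro c hc
        have hc0 : c ≠ 0 := fun h => by rw [h] at hc; simp at hc
        have h := pow_gcd_eq_one.2 ⟨hc, FiniteField.pow_card_sub_one_eq_one c hc0⟩
        rw [hF, Nat.Coprime.gcd_eq_one ((Nat.Prime.coprime_iff_not_dvd Nat.prime_three).2 (by omega)), pow_one] at h
        exact h
      obtain ⟨h₁, h₂, hN1, hN2, h13, h23, h1ne, h2ne, hq1, hq2, -⟩ := φ.target_three S h33 he hec hee
      have hm : ((3 : ℕ) : F) ≠ 0 := by exact_mod_cast h33
      have hv : ∀ {h : GL (Fin 4) F}, h ^ 3 = 1 → (h : M4) ^ 3 = 1 := fun h => by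
        rw [← Units.val_pow_eq_pow_val, h, Units.val_one]
      obtain ⟨h, hhN, hh3, hcp⟩ : ∃ h : GL (Fin 4) F, h ∈ Cfsg.Geo.subgroupNormalizer R ∧ h ^ 3 = 1 ∧
          (y : M4).charpoly = (h : M4).charpoly := by
        rcases charpoly_three hι h33 hroot hy (fun e => hyns 1 (by rw [e, one_smul])) with ⟨-, hc⟩ | ⟨-, hc⟩
        · refine ⟨h₁, hN1, h13, hc.trans ?_⟩
          rcases charpoly_three hι h33 hroot (hv h13) (fun e => h1ne (Units.ext (e.trans Units.val_one.symm)))
            with ⟨-, hc'⟩ | ⟨hn, -⟩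
          · exact hc'.symm
          · exact absurd hq1 hn
        · refine ⟨h₂, hN2, h23, hc.trans ?_⟩
          rcases charpoly_three hι h33 hroot (hv h23) (fun e => h2ne (Units.ext (e.trans Units.val_one.symm)))
            with ⟨hn, -⟩ | ⟨-, hc'⟩
          · exact absurd hn hq2
          · exact hc'.symm
      obtain ⟨g, hg, hgh⟩ := linear_conj hm (x := y) (y := h)
        (Units.ext (by rw [Units.val_pow_eq_pow_val, hy, Units.val_one])) hh3 hcp
      exact ⟨g, hg, conj_into _ hxy hgh hhN⟩
    · -- five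
      obtain ⟨hxy, hdy, hy5, hyns⟩ := split (Units.mk0 z hz0) _ rfl
      set y := sc (Units.mk0 z hz0)⁻¹ * x
      have hy : (y : M4) ^ 5 = 1 := by
        rw [← Units.val_pow_eq_pow_val, hy5, show ((Units.mk0 z hz0)⁻¹ : Fˣ).val = z⁻¹ by simp]
        rw [show z⁻¹ ^ 5 * z = 1 by field_simp; linear_combination -hz4, one_smul]
      obtain ⟨-, h5, -, hp5⟩ := five_of_eq hord
      obtain ⟨h, hhN, hh5, -, hhns, -⟩ := φ.exists_five S (by rw [hF]; exact h5)
      have hm : ((5 : ℕ) : F) ≠ 0 := fun e => hp5 (by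
        rw [(Nat.prime_dvd_prime_iff_eq hp Nat.prime_five).1 ((CharP.cast_eq_zero_iff F p 5).1 e)])
      have c1 := charpoly_five hF hι hord hy (fun e => hyns 1 (by rw [e, one_smul]))
      have c2 := charpoly_five hF hι hord (y := (h : M4)) (by rw [← Units.val_pow_eq_pow_val, hh5, Units.val_one])
        (fun e => hhns 1 (by rw [e, one_smul]))
      obtain ⟨g, hg, hgh⟩ := linear_conj hm (x := y) (y := h)
        (Units.ext (by rw [Units.val_pow_eq_pow_val, hy, Units.val_one])) hh5 (c1.trans c2.symm)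
      exact ⟨g, hg, conj_into _ hxy hgh hhN⟩

end Cfsg.Agent.Linear.SymType4
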