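import Cfsg.Agent.Linear.SymType4Targets

/-!
Elements of prime order of `PSU_4(p)` and the normaliser of a group of symplectic type.
-/

set_option autoImplicit false
set_option linter.unusedSectionVars false

namespace Cfsg.Agent.Linear.SymType4

open Matrix

variable {F : Type*} [Field F] [Fintype F] {R : Subgroup (GL (Fin 4) F)}

local notation "M4" => Matrix (Fin 4) (Fin 4) F

/-- The criterion of `S6001`. -/
theorem unitary_iff {p : ℕ} [Fact p.Prime] [CharP F p] (hF : Fintype.card F = p ^ 2) (hp4 : p % 4 = 3)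
    (hRs : Cfsg.Geo.IsSymplecticTypeGroup 2 R) (hRi : Cfsg.Geo.ActsAbsolutelyIrreducibly (Cfsg.Geo.matrixSet R))
    (hRU : R ≤ Cfsg.GU 4 F p) (hR6 : Nat.card R = 2 ^ 6) (hRZ : Nat.card (Subgroup.center R) = 4)
    (r : ℕ) [Fact r.Prime]
    (hΩ : r ∣ (Cfsg.Geo.subgroupNormalizer R).relIndex (Cfsg.GU 4 F p ⊓ Cfsg.Geo.specialLinear (Fin 4) F)) :
    (∀ x ∈ Cfsg.GU 4 F p ⊓ Cfsg.Geo.specialLinear (Fin 4) F, (∃ z : F, ((x ^ r : GL (Fin 4) F) : M4) = z • (1 : M4)) →
      (∀ z : F, (x : M4) ≠ z • (1 : M4)) →
      ∃ g ∈ Cfsg.GU 4 F p ⊓ Cfsg.Geo.specialLinear (Fin 4) F, g⁻¹ * x * g ∈ Cfsg.Geo.subgroupNormalizer R) ↔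
      (r = 2 ∨ (r = 3 ∧ p % 3 = 1) ∨ (r = 5 ∧ orderOf (p : ZMod 5) = 4)) := by
  classical
  have hp : p.Prime := Fact.out
  have hr : r.Prime := Fact.out
  have hp2 : p ≠ 2 := fun h => by omega
  have h22 : (2 : F) ≠ 0 := fun h => hp2 ((Nat.prime_dvd_prime_iff_eq hp Nat.prime_two).1
    ((CharP.cast_eq_zero_iff F p 2).1 (by exact_mod_cast h)))
  have hι : Fintype.card (Fin 4) = 4 := Fintype.card_fin 4
  have S : Dat R := dat_of_type h22 hι hRs hRi (zc := 4) (Or.inr rfl) hRZ (by rw [hR6]; norm_num)
  obtain ⟨e, he, hec, hee⟩ := exists_i S hRZ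
  obtain ⟨φ⟩ := S.exists_frame (Or.inl ⟨e, he, hec, hee⟩)
  obtain ⟨i, hi⟩ := hec
  rw [Units.val_one] at hi
  have hii : i * i = -1 := by
    have h := congrArg Units.val hee
    rw [Units.val_mul, hi, smul_mul_smul_comm, mul_one, Units.val_neg, Units.val_one] at h
    simpa using congrFun (congrFun h 0) 0
  have hec : Cg 1 e := ⟨i, by rw [hi, Units.val_one]⟩
  set A := adjGU (n := 4) hF with hA
  set σ := Forms.frobQ hF with hσdef
  have hσ : ∀ c, A.σ c = c ^ p := fun c => rfl
  have hAne : Nonempty (Adj (Cfsg.GU 4 F p)) := ⟨A⟩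
  have hiN : A.σ i * i = 1 := A.sigma_of_mem (hRU he) hi
  have hcardF : Fintype.card F - 1 = (p - 1) * (p + 1) := by
    rw [hF, mul_comm]; simpa using Nat.sq_sub_sq p 1
  constructor
  · intro hall
    by_contra hcon
    push Not at hcon
    obtain ⟨hr2, hc3, hc5⟩ := hcon
    suffices h : ∃ x ∈ Cfsg.GU 4 F p ⊓ Cfsg.Geo.specialLinear (Fin 4) F,
        (∃ z : F, ((x ^ r : GL (Fin 4) F) : M4) = z • (1 : M4)) ∧
        (∀ z : F, (x : M4) ≠ z • (1 : M4)) ∧
        ∀ g ∈ Cfsg.GU 4 F p ⊓ Cfsg.Geo.specialLinear (Fin 4) F, g⁻¹ * x * g ∉ Cfsg.Geo.subgroupNormalizer R by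
      obtain ⟨x, hx, hz, hns, hbad⟩ := h
      obtain ⟨g, hg, hgx⟩ := hall x hx hz hns
      exact hbad g hg hgx
    rcases lt_or_ge r 7 with hlt | hge
    · have hr35 : r = 3 ∨ r = 5 := by
        have h2 := hr.two_le
        interval_cases r <;> first | omega | exact absurd hr (by decide)
      rcases hr35 with rfl | rfl
      · -- three
        have hp31 := hc3 rfl
        rcases eq_or_ne p 3 with hp3 | hp3
        · -- a transvection
          have h30 : (3 : F) = 0 := by exact_mod_cast (CharP.cast_eq_zero_iff F p 3).2 (hp3 ▸ dvd_rfl)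
          have hσi : i ^ p = -i := by
            rw [← hσ]
            linear_combination (-i) * hiN + A.σ i * hii
          set N : M4 := Matrix.vecMulVec ![i, i, i, 0] ![1, 1, 1, 0] with hN
          have hNN : N * N = 0 := by
            rw [hN, Matrix.vecMulVec_mul_vecMulVec, show (![1, 1, 1, 0] : Fin 4 → F) ⬝ᵥ ![i, i, i, 0] = 0 by
              simp [dotProduct, Fin.sum_univ_four]; linear_combination i * h30]
            simp
          set M : M4 := 1 + N with hM
          have h3 : M ^ 3 = 1 := by
            rw [hM, pow_succ, pow_two]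
            simp only [add_mul, mul_add, one_mul, mul_one, hNN, zero_mul, mul_zero, add_zero]
            rw [show 1 + N + N + N = 1 + (3 : F) • N by module, h30, zero_smul, add_zero]
          have hdet : M.det = 1 := by
            have h := congrArg Matrix.det h3
            rw [Matrix.det_pow, Matrix.det_one] at h
            exact sub_eq_zero.1 (pow_eq_zero_iff three_ne_zero |>.1 (show (M.det - 1) ^ 3 = 0 by
              linear_combination h - (M.det ^ 2 - M.det) * h30))
          let x : GL (Fin 4) F := Matrix.GeneralLinearGroup.mkOfDetNeZero M (by rw [hdet]; exact one_ne_zero)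
          have hxm : (x : M4) = M := rfl
          have hxG : x ∈ Cfsg.GU 4 F p := by
            rw [A.mem]
            show (M.map σ).transpose * M = 1
            have hσ1 : (1 + i) ^ p = 1 - i := by rw [← hσ, map_add, map_one, hσ, hσi]; ring
            have e : (M.map σ).transpose = 1 - N := by
              ext a b
              rw [Matrix.transpose_apply, Matrix.map_apply, hM, hN]
              fin_cases a <;> fin_cases b <;> simp [Matrix.vecMulVec, hσdef, hσi, hσ1, zero_pow hp.ne_zero]
            rw [e, hM, sub_mul, mul_add, mul_add, one_mul, one_mul, mul_one, hNN]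
            abel
          have hns : ∀ c : F, (x : M4) ≠ c • 1 := fun c h => by
            have h0 := congrFun (congrFun h 0) 1
            simp [hxm, hM, hN, Matrix.vecMulVec] at h0
            rw [h0] at hii
            simp at hii
          have hx3 : ((x ^ 3 : GL (Fin 4) F) : M4) = (1 : F) • 1 := by rw [Units.val_pow_eq_pow_val, hxm, h3, one_smul]
          exact ⟨x, ⟨hxG, Units.ext hdet⟩, ⟨1, hx3⟩, hns, fun g _ => S.conj_hyperplane hx3 hns
            (lam := 1) (a := ![i, i, i, 0]) (b := ![1, 1, 1, 0]) (by rw [hxm, hM, one_smul]) g⟩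
        · have h3p : 3 ∣ p + 1 := by
            have h0 : p % 3 ≠ 0 := fun h => hp3 ((Nat.prime_dvd_prime_iff_eq Nat.prime_three hp).1 (by omega)).symm
            omega
          obtain ⟨u, hu⟩ := exists_prime_orderOf_dvd_card' (G := Fˣ) 3
            (by rw [Nat.card_units, Nat.card_eq_fintype_card, hcardF]; exact h3p.mul_left _)
          set ω : F := (u : F)
          have hω : ω ^ 3 = 1 := by rw [← Units.val_pow_eq_pow_val, ← hu, pow_orderOf_eq_one, Units.val_one]
          have hω1 : ω ≠ 1 := fun h => by
            rw [Units.val_eq_one.1 h, orderOf_one] at hu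
            norm_num at hu
          have hωN : A.σ ω * ω = 1 := by
            obtain ⟨k, hk⟩ := h3p
            rw [hσ, ← pow_succ, hk, pow_mul, hω, one_pow]
          have hdet : (Matrix.diagonal ![ω, ω, ω, 1]).det = 1 := by
            rw [Matrix.det_diagonal, Fin.prod_univ_four]
            simp only [Matrix.cons_val]
            linear_combination hω
          let x : GL (Fin 4) F := Matrix.GeneralLinearGroup.mkOfDetNeZero _ (by rw [hdet]; exact one_ne_zero)
          have hxm : (x : M4) = Matrix.diagonal ![ω, ω, ω, 1] := rfl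
          have hxG : x ∈ Cfsg.GU 4 F p := by
            rw [A.mem]
            show ((Matrix.diagonal ![ω, ω, ω, 1] : M4).map σ).transpose * Matrix.diagonal ![ω, ω, ω, 1] = 1
            rw [Matrix.diagonal_map (map_zero σ), Matrix.diagonal_transpose, Matrix.diagonal_mul_diagonal, ← Matrix.diagonal_one]
            congr 1
            funext j
            rw [hσ] at hωN
            fin_cases j <;> simp [hσdef, hωN]
          have hx3 : ((x ^ 3 : GL (Fin 4) F) : M4) = (1 : F) • 1 := by
            rw [Units.val_pow_eq_pow_val, hxm, Matrix.diagonal_pow, one_smul, ← Matrix.diagonal_one]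
            congr 1
            funext j
            fin_cases j <;> simp [hω]
          have hns : ∀ c : F, (x : M4) ≠ c • 1 := fun c h => by
            have h0 := congrFun (congrFun h 0) 0
            have h3' := congrFun (congrFun h 3) 3
            simp [hxm] at h0 h3'
            exact hω1 (h0.trans h3'.symm)
          refine ⟨x, ⟨hxG, Units.ext hdet⟩, ⟨1, hx3⟩, hns, fun g _ => S.conj_hyperplane hx3 hns
            (lam := ω) (a := ![0, 0, 0, 1]) (b := ![0, 0, 0, 1 - ω]) ?_ g⟩
          rw [hxm]
          ext a b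
          fin_cases a <;> fin_cases b <;> simp [Matrix.vecMulVec]
      · -- five
        obtain ⟨t, ht, htp⟩ := exists_t (F := F) hp2 (hc5 rfl)
        have h50 : (5 : F) ≠ 0 := fun h => by
          have := (Nat.prime_dvd_prime_iff_eq hp Nat.prime_five).1 ((CharP.cast_eq_zero_iff F p 5).1 (by exact_mod_cast h))
          omega
        set a : F := t / 2 with ha
        have hap : a ^ p = a := by
          rw [← hσ, ha, map_div₀, map_ofNat, hσ, htp]
        obtain ⟨b, hb⟩ := GeomClasses.Unitary.exists_norm hF (1 - a * a) (by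
          show (Forms.frobQ hF) (1 - a * a) = _
          rw [map_sub, map_mul, map_one, Forms.frobQ_apply, hap])
        have hbb : (b ^ p) ^ p = b := GeomClasses.Unitary.pow_q_q hF b
        set M : M4 := !![a, -(b ^ p), 0, 0; b, a, 0, 0; 0, 0, a, -(b ^ p); 0, 0, b, a] with hM
        have h2a : 2 * a = t := by rw [ha]; field_simp
        have hdet : M.det = 1 := by
          rw [hM, Matrix.det_succ_row_zero, Fin.sum_univ_four]
          simp [Matrix.det_fin_three, Fin.succAbove]
          linear_combination (a * a + b * b ^ p + 1) * hb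
        have hq : M * M = t • M + (-1 : F) • 1 := by
          rw [hM, ← h2a]
          ext j k
          fin_cases j <;> fin_cases k <;> simp [Matrix.mul_apply, Fin.sum_univ_four] <;>
            first | ring1 | linear_combination -hb
        let x : GL (Fin 4) F := Matrix.GeneralLinearGroup.mkOfDetNeZero M (by rw [hdet]; exact one_ne_zero)
        have hxm : (x : M4) = M := rfl
        have hxG : x ∈ Cfsg.GU 4 F p := by
          rw [A.mem]
          show (M.map σ).transpose * M = 1
          rw [hM]
          ext j k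
          fin_cases j <;> fin_cases k <;>
            simp [Matrix.mul_apply, Fin.sum_univ_four, hσdef, hap, hbb, zero_pow hp.ne_zero,
              GeomClasses.Unitary.pow_neg_q hF] <;>
            first | ring1 | linear_combination hb
        have h5 : M ^ 5 = 1 := by
          have e3 : M ^ 3 = (t * t - 1) • M + (-t) • 1 := by
            rw [pow_succ, pow_two, hq, add_mul, smul_mul_assoc, hq, smul_mul_assoc, one_mul]
            module
          have e5 : M ^ 5 = (M * M) * M ^ 3 := by rw [← pow_two, ← pow_add]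
          rw [e5, e3, hq]
          simp only [mul_add, add_mul, smul_mul_assoc, mul_smul_comm, one_mul, mul_one, hq]
          match_scalars
          · linear_combination (t * t - t - 1) * ht
          · linear_combination (1 - t) * ht
        have hns : ∀ c : F, (x : M4) ≠ c • 1 := fun c h => by
          have h1 := congrFun (congrFun h 1) 0
          simp [hxm, hM] at h1
          rw [h1, zero_mul] at hb
          have haa : (a - 1) * (a + 1) = 0 := by linear_combination hb
          rcases mul_eq_zero.1 haa with h' | h'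
          · have e : t = 2 := by linear_combination -h2a + 2 * h'
            rw [e] at ht
            exact h50 (by linear_combination ht)
          · have e : t = -2 := by linear_combination -h2a + 2 * h'
            rw [e] at ht
            exact one_ne_zero (α := F) (by linear_combination ht)
        have hx5 : ((x ^ 5 : GL (Fin 4) F) : M4) = (1 : F) • 1 := by rw [Units.val_pow_eq_pow_val, hxm, h5, one_smul]
        refine ⟨x, ⟨hxG, Units.ext hdet⟩, ⟨1, hx5⟩, hns, fun g _ => S.conj_quadratic (r := 5) le_rfl hx5 hns (hxm ▸ hq) g⟩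
    · exact S.exists_large hge (by rw [hRZ]; exact Or.inr rfl) (by rw [hR6, hRZ]; norm_num) _
        (fun t ht => det_of_special ht.2) hΩ
  · intro hcase x hx hxr hns
    obtain ⟨z, hz⟩ := hxr
    have hdetx : (x : M4).det = 1 := det_of_special hx.2
    have hzN : A.σ z * z = 1 := A.sigma_of_mem (pow_mem hx.1 r) hz
    have hz4 : z ^ 4 = 1 := by
      have h := congrArg Matrix.det hz
      rw [Units.val_pow_eq_pow_val, Matrix.det_pow, hdetx, one_pow, Matrix.det_smul, Matrix.det_one, mul_one, hι] at h
      exact h.symm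
    have hz0 : z ≠ 0 := fun h => by rw [h] at hz4; simp at hz4
    -- split off the scalar
    have split : ∀ w : Fˣ, ∀ y : GL (Fin 4) F, y = sc w⁻¹ * x → x = sc w * y ∧
        (y : M4).det = ((w⁻¹ : Fˣ) : F) ^ 4 ∧ ((y ^ r : GL (Fin 4) F) : M4) = (((w⁻¹ : Fˣ) : F) ^ r * z) • 1 ∧
        (∀ c : F, (y : M4) ≠ c • 1) := by
      intro w y hy
      have hxy : x = sc w * y := by rw [hy, ← mul_assoc, sc, sc, ← map_mul, mul_inv_cancel, map_one, one_mul]
      refine ⟨hxy, ?_, ?_, fun c hc => hns ((w : F) * c) ?_⟩
      · rw [hy, Units.val_mul, Matrix.det_mul, sc_det hι, hdetx, mul_one]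
      · rw [hy, (sc_comm _ x).mul_pow, Units.val_mul, hz, Units.val_pow_eq_pow_val, sc_val, smul_pow, one_pow,
          smul_mul_smul_comm, mul_one]
      · rw [hxy, sc_val_mul, hc, smul_smul]
    have splitG : ∀ w : Fˣ, A.σ (w : F) * w = 1 → sc w⁻¹ * x ∈ Cfsg.GU 4 F p := fun w hw =>
      mul_mem (by rw [sc, map_inv]; exact inv_mem (A.sc_mem w hw)) hx.1
    rcases hcase with rfl | ⟨rfl, hp31⟩ | ⟨rfl, hord⟩
    · -- two
      obtain ⟨w, hw⟩ : ∃ w : F, w * w = z := by
        have hchar : ringChar F ≠ 2 := by rw [ringChar.eq F p]; exact hp2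
        have h8 : (Fintype.card F / 2) % 4 = 0 := by
          obtain ⟨k, hk⟩ : ∃ k, p = 4 * k + 3 := ⟨p / 4, by omega⟩
          rw [hF, hk, show (4 * k + 3) ^ 2 = 2 * (4 * (2 * k * k + 3 * k + 1)) + 1 by ring]
          omega
        obtain ⟨w, hw⟩ := (FiniteField.isSquare_iff hchar hz0).2 (by
          rw [← Nat.div_add_mod (Fintype.card F / 2) 4, h8, add_zero, pow_mul, hz4, one_pow])
        exact ⟨w, hw.symm⟩
      have hw0 : w ≠ 0 := fun h => hz0 (by rw [← hw, h, zero_mul])
      obtain ⟨hxy, hdy, hy2, hyns⟩ := split (Units.mk0 w hw0) _ rfl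
      set y := sc (Units.mk0 w hw0)⁻¹ * x with hydef
      have hy : (y : M4) * (y : M4) = 1 := by
        rw [← pow_two, ← Units.val_pow_eq_pow_val, hy2, show ((Units.mk0 w hw0)⁻¹ : Fˣ).val = w⁻¹ by simp, ← hw]
        rw [show w⁻¹ ^ 2 * (w * w) = 1 by field_simp, one_smul]
      have hy1 : (y : M4) ≠ 1 := fun e => hyns 1 (by rw [e, one_smul])
      have hy1' : (y : M4) ≠ -1 := fun e => hyns (-1) (by rw [e, neg_one_smul])
      have hwN2 : (A.σ w * w) * (A.σ w * w) = 1 := by
        have := hzN
        rw [← hw, map_mul] at this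
        linear_combination this
      rcases mul_self_eq_one_iff.1 hwN2 with hwN | hwN
      · obtain ⟨h, hhN, hh2, hcp, -, hhG⟩ := φ.target_two S he hec hee hy hy1 hy1'
        obtain ⟨g, hg, hgh⟩ := unitary_conj hF (by norm_num) (splitG (Units.mk0 w hw0) hwN) (hhG _ hAne hRU) (m := 2)
          (by exact_mod_cast h22) (Units.ext (by rw [Units.val_pow_eq_pow_val, pow_two, hy, Units.val_one]))
          (by rw [pow_two, hh2]) hcp.symm
        exact ⟨g, hg, conj_into _ hxy hgh hhN⟩
      · exfalso
        obtain ⟨b, hb, -, hdetb, htr⟩ := charpoly_two hι h22 hy hy1 hy1'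
        -- `τ y = -y`
        have hwy : (y : M4) = w⁻¹ • (x : M4) := by rw [hydef, sc_val_mul]; simp
        have hσw : A.σ w⁻¹ = -w := by
          rw [map_inv₀]
          refine inv_eq_of_mul_eq_one_right ?_
          linear_combination -hwN
        have hyinv : (y : M4) = w • ((x⁻¹ : GL (Fin 4) F) : M4) := by
          have h1 := congrArg (fun M : M4 => ((x⁻¹ : GL (Fin 4) F) : M4) * M) hz
          simp only [pow_two, Units.val_mul, ← mul_assoc] at h1
          rw [← Units.val_mul, inv_mul_cancel, Units.val_one, one_mul, mul_smul_comm, mul_one] at h1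
          rw [hwy, h1, smul_smul, ← hw, ← mul_assoc, inv_mul_cancel₀ hw0, one_mul]
        have hτ : A.τ (y : M4) = -(y : M4) := by
          rw [hwy, A.smul, A.of_mem hx.1, hσw, neg_smul, ← hyinv, hwy]
        have h1 := congrArg Matrix.trace hτ
        have e1 : (A.τ (y : M4)).trace = σ (y : M4).trace := by
          show ((y : M4).map σ).transpose.trace = _
          rw [Matrix.trace_transpose]
          simp [Matrix.trace]
        rw [e1, Matrix.trace_neg, htr, map_sub, map_mul, map_natCast, map_ofNat, map_ofNat] at h1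
        have hb2 : b = 2 := two_sep h22 hb (Or.inr (Or.inl rfl)) (by
          have h4 : (2 : F) * (4 - 2 * (b : F)) = 0 := by linear_combination h1
          rw [(mul_eq_zero.1 h4).resolve_left h22]
          norm_num)
        subst hb2
        rw [hdy] at hdetb
        have hwinv : ((Units.mk0 w hw0)⁻¹ : Fˣ).val = w⁻¹ := by simp
        rw [hwinv, neg_one_sq] at hdetb
        have hw4 : w ^ 4 = 1 := by
          rw [inv_pow, inv_eq_one] at hdetb
          exact hdetb
        -- `w` is a sign or a scalar of square minus one, of norm one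
        rcases mul_self_eq_one_iff.1 (show (w * w) * (w * w) = 1 by linear_combination hw4) with h | h
        · rcases mul_self_eq_one_iff.1 h with h' | h' <;> rw [h'] at hwN <;> simp at hwN <;>
            exact h22 (by linear_combination hwN)
        · have : w = i ∨ w = -i := by
            rcases mul_eq_zero.1 (show (w - i) * (w + i) = 0 by linear_combination h - hii) with h' | h'
            · exact Or.inl (sub_eq_zero.1 h')
            · exact Or.inr (eq_neg_of_add_eq_zero_left h')
          rcases this with h' | h' <;> rw [h'] at hwN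
          · exact h22 (by linear_combination hwN - hiN)
          · rw [map_neg] at hwN; exact h22 (by linear_combination hwN - hiN)
    · -- three
      have hp3 : p ≠ 3 := fun h => by omega
      have h33 : (3 : F) ≠ 0 := fun h => hp3 ((Nat.prime_dvd_prime_iff_eq hp Nat.prime_three).1
        ((CharP.cast_eq_zero_iff F p 3).1 (by exact_mod_cast h)))
      obtain ⟨u, hu⟩ := exists_prime_orderOf_dvd_card' (G := Fˣ) 3
        (by rw [Nat.card_units, Nat.card_eq_fintype_card, hcardF]; exact Dvd.dvd.mul_right (by omega) _)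
      set ω : F := (u : F)
      have hω : ω ^ 3 = 1 := by rw [← Units.val_pow_eq_pow_val, ← hu, pow_orderOf_eq_one, Units.val_one]
      have hω1 : ω ≠ 1 := fun h => by
        rw [Units.val_eq_one.1 h, orderOf_one] at hu
        norm_num at hu
      have hσω : A.σ ω = ω := by
        rw [hσ]
        conv_lhs => rw [← Nat.div_add_mod p 3, hp31, pow_add, pow_mul, hω, one_pow, one_mul, pow_one]
      set w : Fˣ := Units.mk0 (z ^ 3) (pow_ne_zero 3 hz0)
      have hwN : A.σ (w : F) * w = 1 := by
        show A.σ (z ^ 3) * z ^ 3 = 1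
        rw [map_pow, ← mul_pow, hzN, one_pow]
      obtain ⟨hxy, hdy, hy3, hyns⟩ := split w _ rfl
      set y := sc w⁻¹ * x
      have hwinv : (w⁻¹ : Fˣ).val = (z ^ 3)⁻¹ := by simp [w]
      have hy : (y : M4) ^ 3 = 1 := by
        rw [← Units.val_pow_eq_pow_val, hy3, hwinv]
        rw [show (z ^ 3)⁻¹ ^ 3 * z = 1 by field_simp; linear_combination -(z ^ 4 + 1) * hz4, one_smul]
      have hdy1 : (y : M4).det = 1 := by
        rw [hdy, hwinv, inv_pow, ← pow_mul, pow_mul' z 3 4, hz4, one_pow, inv_one]
      have hroot : ∀ h : GL (Fin 4) F, h ∈ Cfsg.GU 4 F p → h ^ 3 = 1 → (h : M4).det = 1 := by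
        intro h hh hh3
        have hd3 : (h : M4).det ^ 3 = 1 := by
          rw [← Matrix.det_pow, ← Units.val_pow_eq_pow_val, hh3, Units.val_one, Matrix.det_one]
        have hd : (h : M4).det ^ (p + 1) = 1 := by
          have h1 := congrArg Matrix.det ((A.mem h).1 hh)
          rw [Matrix.det_one, Matrix.det_mul] at h1
          rw [show (A.τ (h : M4)).det = σ (h : M4).det by
            show ((h : M4).map σ).transpose.det = _
            rw [Matrix.det_transpose, ← RingHom.mapMatrix_apply, ← RingHom.map_det]] at h1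
          rw [pow_succ]
          exact h1
        have := pow_gcd_eq_one.2 ⟨hd3, hd⟩
        rwa [Nat.Coprime.gcd_eq_one ((Nat.Prime.coprime_iff_not_dvd Nat.prime_three).2 (by omega)), pow_one] at this
      have hclass : ∀ h : GL (Fin 4) F, h ∈ Cfsg.GU 4 F p → h ^ 3 = 1 → h ≠ 1 → _ := fun h hh hh3 hne =>
        charpoly_three_unitary hι h33 hω hω1 A hσω hh (by rw [← Units.val_pow_eq_pow_val, hh3, Units.val_one])
          (fun e => hne (Units.ext (e.trans Units.val_one.symm))) (hroot h hh hh3)
      obtain ⟨h₁, h₂, hN1, hN2, h13, h23, h1ne, h2ne, hq1, hq2, hG⟩ := φ.target_three S h33 he hec hee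
      obtain ⟨hG1, hG2⟩ := hG _ hAne hRU
      have hy3' : y ^ 3 = 1 := Units.ext (by rw [Units.val_pow_eq_pow_val, hy, Units.val_one])
      obtain ⟨h, hhN, hhG, hh3, hcp⟩ : ∃ h : GL (Fin 4) F, h ∈ Cfsg.Geo.subgroupNormalizer R ∧ h ∈ Cfsg.GU 4 F p ∧
          h ^ 3 = 1 ∧ (y : M4).charpoly = (h : M4).charpoly := by
        rcases hclass y (splitG w hwN) hy3' (fun e => hyns 1 (by rw [e, Units.val_one, one_smul])) with ⟨-, hc⟩ | ⟨-, hc⟩
        · refine ⟨h₁, hN1, hG1, h13, hc.trans ?_⟩
          rcases hclass h₁ hG1 h13 h1ne with ⟨-, hc'⟩ | ⟨hn, -⟩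
          · exact hc'.symm
          · exact absurd hq1 hn
        · refine ⟨h₂, hN2, hG2, h23, hc.trans ?_⟩
          rcases hclass h₂ hG2 h23 h2ne with ⟨hn, -⟩ | ⟨-, hc'⟩
          · exact absurd hn hq2
          · exact hc'.symm
      obtain ⟨g, hg, hgh⟩ := unitary_conj hF (by norm_num) (splitG w hwN) hhG (m := 3) (by exact_mod_cast h33) hy3' hh3 hcp
      exact ⟨g, hg, conj_into _ hxy hgh hhN⟩
    · -- five
      obtain ⟨hsq, h5m, h5p, hp5⟩ := five_of_eq hord
      have hN5 : ¬ 5 ∣ Fintype.card F - 1 := by
        rw [hcardF, Nat.prime_five.dvd_mul]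
        exact fun h => h.elim h5m h5p
      have h50 : (5 : F) ≠ 0 := fun e => hp5 (by
        rw [(Nat.prime_dvd_prime_iff_eq hp Nat.prime_five).1 ((CharP.cast_eq_zero_iff F p 5).1 (by exact_mod_cast e))])
      have hroot : ∀ c : F, c ^ 5 = 1 → c = 1 := by
        intro c hc
        have hc0 : c ≠ 0 := fun h => by rw [h] at hc; simp at hc
        have h := pow_gcd_eq_one.2 ⟨hc, FiniteField.pow_card_sub_one_eq_one c hc0⟩
        rwa [Nat.Coprime.gcd_eq_one ((Nat.Prime.coprime_iff_not_dvd Nat.prime_five).2 hN5), pow_one] at h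
      -- the roots of `T² + T - 1`
      obtain ⟨s, hs⟩ : IsSquare ((5 : ℕ) : F) := by
        refine (FiniteField.isSquare_iff (by rw [ringChar.eq F p]; exact hp2) (by exact_mod_cast h50)).2 ?_
        have hfix : ((5 : ℕ) : F) ^ (p - 1) = 1 := by
          have h1 : ((5 : ℕ) : F) ^ p = ((5 : ℕ) : F) := by rw [← hσ, map_natCast]
          have h2 : ((5 : ℕ) : F) ^ (p - 1) * ((5 : ℕ) : F) = ((5 : ℕ) : F) := by
            rw [← pow_succ, Nat.sub_add_cancel hp.one_le, h1]
          exact (mul_eq_right₀ (by exact_mod_cast h50)).1 h2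
        obtain ⟨k, hk⟩ : p - 1 ∣ Fintype.card F / 2 := by
          refine ⟨(p + 1) / 2, ?_⟩
          have h2 : Fintype.card F / 2 = (Fintype.card F - 1) / 2 := by
            have hodd : Fintype.card F % 2 = 1 := FiniteField.odd_card_of_char_ne_two (by rw [ringChar.eq F p]; exact hp2)
            omega
          rw [h2, hcardF, Nat.mul_div_assoc _ (show 2 ∣ p + 1 by omega)]
        rw [hk, pow_mul, hfix, one_pow]
      push_cast at hs
      set t₁ : F := (s - 1) / 2 with ht1def
      set t₂ : F := -1 - t₁ with ht2def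
      have hts : t₁ + t₂ = -1 := by rw [ht2def]; ring
      have htt : t₁ * t₁ + t₁ = 1 := by
        rw [ht1def]; field_simp; linear_combination -hs
      have htp : t₁ * t₂ = -1 := by rw [ht2def]; linear_combination -htt
      have hσt : A.σ t₁ = t₂ := by
        have h1 := congrArg A.σ htt
        rw [map_add, map_mul, map_one] at h1
        have h2 : (A.σ t₁ - t₁) * (A.σ t₁ - t₂) = 0 := by
          linear_combination h1 - A.σ t₁ * hts + htp
        exact sub_eq_zero.1 ((mul_eq_zero.1 h2).resolve_left (sub_ne_zero.2 (t_not_fixed hp2 hord htt)))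
      set w : Fˣ := Units.mk0 z hz0
      have hwN : A.σ (w : F) * w = 1 := hzN
      obtain ⟨hxy, hdy, hy5, hyns⟩ := split w _ rfl
      set y := sc w⁻¹ * x
      have hy : (y : M4) ^ 5 = 1 := by
        rw [← Units.val_pow_eq_pow_val, hy5, show (w⁻¹ : Fˣ).val = z⁻¹ by simp [w]]
        rw [show z⁻¹ ^ 5 * z = 1 by field_simp; linear_combination -hz4, one_smul]
      obtain ⟨h, hhN, hh5, -, hhns, hhG⟩ := φ.exists_five S hN5
      have hhU := hhG _ hAne hRU
      have c1 := charpoly_five_unitary hι h50 hroot hts htp A hσt (g := y) (splitG w hwN) hy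
        (fun e => hyns 1 (by rw [e, one_smul]))
      have c2 := charpoly_five_unitary hι h50 hroot hts htp A hσt (g := h) hhU
        (by rw [← Units.val_pow_eq_pow_val, hh5, Units.val_one]) (fun e => hhns 1 (by rw [e, one_smul]))
      obtain ⟨g, hg, hgh⟩ := unitary_conj hF (by norm_num) (splitG w hwN) hhU (m := 5) (by exact_mod_cast h50)
        (Units.ext (by rw [Units.val_pow_eq_pow_val, hy, Units.val_one])) hh5 (c1.trans c2.symm)
      exact ⟨g, hg, conj_into _ hxy hgh hhN⟩

end Cfsg.Agent.Linear.SymType4
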