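import Cfsg.Agent.Linear.SymType4Targets

/-!
Elements of prime order of `PSp_4(p)` and the normaliser of an extraspecial group of minus type.
-/

set_option autoImplicit false
set_option linter.unusedSectionVars false

namespace Cfsg.Agent.Linear.SymType4

open Matrix

variable {F : Type*} [Field F]

local notation "M4" => Matrix (Fin 2 ⊕ Fin 2) (Fin 2 ⊕ Fin 2) F

/-- A matrix preserving the two coordinate planes. -/
def blk (a b c d : Fin 2 → F) : M4 :=
  Matrix.fromBlocks (Matrix.diagonal a) (Matrix.diagonal b) (Matrix.diagonal c) (Matrix.diagonal d)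

theorem blk_mul (a b c d a' b' c' d' : Fin 2 → F) :
    blk a b c d * blk a' b' c' d' = blk (a * a' + b * c') (a * b' + b * d') (c * a' + d * c') (c * b' + d * d') := by
  simp only [blk, Matrix.fromBlocks_multiply, Matrix.diagonal_mul_diagonal', Matrix.diagonal_add]
  rfl

theorem blk_one : (1 : M4) = blk 1 0 0 1 := by
  rw [blk, Matrix.diagonal_one', Matrix.diagonal_zero', Matrix.fromBlocks_one]

theorem blk_mem {a b c d : Fin 2 → F} (h : ∀ j, a j * d j - b j * c j = 1) :
    blk a b c d ∈ Matrix.symplecticGroup (Fin 2) F := by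
  rw [blk, SymplecticGroup.fromBlocks_mem_iff]
  refine ⟨?_, ?_, ?_⟩ <;> simp only [Matrix.diagonal_transpose, Matrix.diagonal_mul_diagonal]
  · congr 1; funext j; exact mul_comm _ _
  · congr 1; funext j; exact mul_comm _ _
  · rw [Matrix.diagonal_sub, ← Matrix.diagonal_one]
    congr 1
    funext j
    rw [mul_comm (c j)]
    exact h j

variable [Fintype F] {R : Subgroup (GL (Fin 2 ⊕ Fin 2) F)}

/-- The criterion of `S6002`. -/
theorem symplectic_iff {p : ℕ} [Fact p.Prime] [CharP F p] (hF : Fintype.card F = p) (hodd : Odd p)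
    (hRs : Cfsg.Geo.IsSymplecticTypeGroup 2 R) (hRi : Cfsg.Geo.ActsAbsolutelyIrreducibly (Cfsg.Geo.matrixSet R))
    (hRf : R ≤ Cfsg.spGL 2 F) (hR5 : Nat.card R = 2 ^ 5) (hRZ : Nat.card (Subgroup.center R) = 2)
    (hRm : Cfsg.Geo.IsOfMinusType 2 R)
    (r : ℕ) [Fact r.Prime] (hΩ : r ∣ (Cfsg.Geo.subgroupNormalizer R).relIndex (Cfsg.spGL 2 F)) :
    (∀ x ∈ Cfsg.spGL 2 F, (∃ z : F, ((x ^ r : GL (Fin 2 ⊕ Fin 2) F) : M4) = z • (1 : M4)) →
      (∀ z : F, (x : M4) ≠ z • (1 : M4)) →
      ∃ g ∈ Cfsg.spGL 2 F, g⁻¹ * x * g ∈ Cfsg.Geo.subgroupNormalizer R) ↔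
      (r = 2 ∨ (r = 5 ∧ orderOf (p : ZMod 5) = 4)) := by
  classical
  have hp : p.Prime := Fact.out
  have hr : r.Prime := Fact.out
  have hp2 : p ≠ 2 := fun h => by rw [h] at hodd; exact absurd hodd (by decide)
  have h22 : (2 : F) ≠ 0 := fun h => hp2 ((Nat.prime_dvd_prime_iff_eq hp Nat.prime_two).1
    ((CharP.cast_eq_zero_iff F p 2).1 (by exact_mod_cast h)))
  have hι : Fintype.card (Fin 2 ⊕ Fin 2) = 4 := by simp
  have S : Dat R := dat_of_type h22 hι hRs hRi (zc := 2) (Or.inl rfl) hRZ (by rw [hR5]; norm_num)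
  have hm := minus_cond S hRZ hRm
  obtain ⟨φ⟩ := S.exists_frame (Or.inr hm)
  haveI := S.nonempty
  set A := adjSp (m := 2) (F := F) with hA
  have hAne : Nonempty (Adj (Cfsg.spGL 2 F)) := ⟨A⟩
  have hσ : ∀ c : F, A.σ c = c := fun c => rfl
  have hdet1 : ∀ t ∈ Cfsg.spGL 2 F, (t : M4).det = 1 := fun t ht => SymplecticGroup.det_eq_one (mem_spGL.1 ht)
  constructor
  · intro hall
    by_contra hcon
    push Not at hcon
    obtain ⟨hr2, hc5⟩ := hcon
    suffices h : ∃ x ∈ Cfsg.spGL 2 F, (∃ z : F, ((x ^ r : GL (Fin 2 ⊕ Fin 2) F) : M4) = z • (1 : M4)) ∧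
        (∀ z : F, (x : M4) ≠ z • (1 : M4)) ∧ ∀ g ∈ Cfsg.spGL 2 F, g⁻¹ * x * g ∉ Cfsg.Geo.subgroupNormalizer R by
      obtain ⟨x, hx, hz, hns, hbad⟩ := h
      obtain ⟨g, hg, hgx⟩ := hall x hx hz hns
      exact hbad g hg hgx
    rcases lt_or_ge r 7 with hlt | hge
    · have hr35 : r = 3 ∨ r = 5 := by
        have h2 := hr.two_le
        interval_cases r <;> first | omega | exact absurd hr (by decide)
      rcases hr35 with rfl | rfl
      · -- three
        set M : M4 := blk ![0, 1] ![-1, 0] ![1, 0] ![-1, 1] with hM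
        have hMs : M ∈ Matrix.symplecticGroup (Fin 2) F := blk_mem fun j => by fin_cases j <;> simp
        let x : GL (Fin 2 ⊕ Fin 2) F := Matrix.GeneralLinearGroup.mkOfDetNeZero M
          (SymplecticGroup.symplectic_det hMs).ne_zero
        have hxm : (x : M4) = M := rfl
        have hM3 : M ^ 3 = 1 := by
          rw [pow_succ, pow_two, hM, blk_mul, blk_mul, blk_one]
          congr 1 <;> funext j <;> fin_cases j <;> simp
        have hx3 : ((x ^ 3 : GL (Fin 2 ⊕ Fin 2) F) : M4) = (1 : F) • 1 := by
          rw [Units.val_pow_eq_pow_val, hxm, hM3, one_smul]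
        have hns : ∀ c : F, (x : M4) ≠ c • 1 := fun c h => by
          have h1 := congrFun (congrFun h (Sum.inr 0)) (Sum.inl 0)
          simp [hxm, hM, blk] at h1
        refine ⟨x, mem_spGL.2 hMs, ⟨1, hx3⟩, hns, fun g _ hgx => ?_⟩
        obtain ⟨P, hP, Q, hQ, hPQ, hgP, hgQ⟩ := S.exists_pair_three (S.pow_conj hx3) (S.nonscalar_conj hns) hgx hm hRZ
          (by rw [hR5]; norm_num)
        have hback : ∀ {P : GL (Fin 2 ⊕ Fin 2) F}, Commute (g⁻¹ * x * g) P → Commute (x : M4) ((g * P * g⁻¹ : GL (Fin 2 ⊕ Fin 2) F) : M4) := by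
          intro P h
          show (x : M4) * _ = _ * (x : M4)
          rw [← Units.val_mul, ← Units.val_mul]
          congr 1
          calc x * (g * P * g⁻¹) = g * (g⁻¹ * x * g * P) * g⁻¹ := by group
            _ = g * (P * (g⁻¹ * x * g)) * g⁻¹ := by rw [h.eq]
            _ = _ := by group
        refine no_pair h22 (A := g * P * g⁻¹) (B := g * Q * g⁻¹) ?_ (hback hgP) (hback hgQ)
          (u := Sum.elim ![1, 0] ![0, 0]) (v := Sum.elim ![-1, 0] ![1, 0]) ?_ ?_ ?_
        · rw [show g * P * g⁻¹ * (g * Q * g⁻¹) = g * (P * Q) * g⁻¹ by group, hPQ, mul_neg, neg_mul,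
            show g * Q * g⁻¹ * (g * P * g⁻¹) = g * (Q * P) * g⁻¹ by group]
        · rw [hxm, hM]
          funext s
          rcases s with j | j <;> fin_cases j <;>
            simp [blk, Matrix.sub_mulVec, Matrix.fromBlocks_mulVec, Matrix.mulVec_diagonal]
        · intro h
          have h1 := congrFun h (Sum.inr 0)
          simp at h1
        · intro w
          refine ⟨w (Sum.inl 0), w (Sum.inr 0), ?_⟩
          rw [hxm, hM]
          funext s
          rcases s with j | j <;> fin_cases j <;>
            simp [blk, Matrix.sub_mulVec, Matrix.fromBlocks_mulVec, Matrix.mulVec_diagonal] <;> ring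
      · -- five
        obtain ⟨t, ht, -⟩ := exists_t (F := F) hp2 (hc5 rfl)
        set M : M4 := blk ![0, 0] ![-1, -1] ![1, 1] ![t, t] with hM
        have hMs : M ∈ Matrix.symplecticGroup (Fin 2) F := blk_mem fun j => by fin_cases j <;> simp
        let x : GL (Fin 2 ⊕ Fin 2) F := Matrix.GeneralLinearGroup.mkOfDetNeZero M
          (SymplecticGroup.symplectic_det hMs).ne_zero
        have hxm : (x : M4) = M := rfl
        have hq : M * M = t • M + (-1 : F) • 1 := by
          rw [hM, blk_mul]
          ext i j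
          rcases i with i | i <;> rcases j with j | j <;> fin_cases i <;> fin_cases j <;>
            simp [blk, Matrix.diagonal_apply, Matrix.one_apply] <;> ring
        have h5 : M ^ 5 = 1 := by
          have e3 : M ^ 3 = (t * t - 1) • M + (-t) • 1 := by
            rw [pow_succ, pow_two, hq, add_mul, smul_mul_assoc, hq, smul_mul_assoc, one_mul]
            module
          have e5 : M ^ 5 = (M * M) * M ^ 3 := by rw [← pow_two, ← pow_add]
          rw [e5, e3, hq]
          simp only [mul_add, add_mul, smul_mul_assoc, mul_smul_comm, one_mul, mul_one, hq]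
          match_scalars
          · linear_combination (t * t - t - 1) * ht
          · linear_combination (1 - t) * ht
        have hns : ∀ c : F, (x : M4) ≠ c • 1 := fun c h => by
          have h1 := congrFun (congrFun h (Sum.inr 0)) (Sum.inl 0)
          simp [hxm, hM, blk] at h1
        have hx5 : ((x ^ 5 : GL (Fin 2 ⊕ Fin 2) F) : M4) = (1 : F) • 1 := by
          rw [Units.val_pow_eq_pow_val, hxm, h5, one_smul]
        exact ⟨x, mem_spGL.2 hMs, ⟨1, hx5⟩, hns, fun g _ => S.conj_quadratic (r := 5) le_rfl hx5 hns (hxm ▸ hq) g⟩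
    · exact S.exists_large hge (by rw [hRZ]; exact Or.inl rfl) (by rw [hR5, hRZ]; norm_num) _ hdet1 hΩ
  · intro hcase x hx hxr hns
    obtain ⟨z, hz⟩ := hxr
    have hz2 : z * z = 1 := by simpa [hσ] using A.sigma_of_mem (pow_mem hx r) hz
    have hz0 : z ≠ 0 := fun h => by rw [h, zero_mul] at hz2; exact zero_ne_one hz2
    rcases hcase with rfl | ⟨rfl, hord⟩
    · -- two
      have hxx : (x : M4) * (x : M4) = z • 1 := by rw [← pow_two, ← Units.val_pow_eq_pow_val, hz]
      have hm2 : ((4 : ℕ) : F) ≠ 0 := by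
        rw [show ((4 : ℕ) : F) = 2 * 2 by norm_num]; exact mul_ne_zero h22 h22
      obtain ⟨h, hhN, hhS, hh2, hcp⟩ : ∃ h : GL (Fin 2 ⊕ Fin 2) F, h ∈ Cfsg.Geo.subgroupNormalizer R ∧
          h ∈ Cfsg.spGL 2 F ∧ (h : M4) * (h : M4) = z • 1 ∧ (x : M4).charpoly = (h : M4).charpoly := by
        rcases mul_self_eq_one_iff.1 hz2 with hz1 | hz1
        · -- involutions
          refine ⟨φ.A1, Frame.A1_mem_normalizer S φ, hRf φ.hA1, by rw [Frame.A1_sq S φ, hz1, one_smul], ?_⟩
          have hh : ∀ y : GL (Fin 2 ⊕ Fin 2) F, y ∈ Cfsg.spGL 2 F → (y : M4) * (y : M4) = 1 → (y : M4) ≠ 1 → (y : M4) ≠ -1 →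
              (y : M4).charpoly = (Polynomial.X - Polynomial.C 1) ^ (4 - 2) * (Polynomial.X + Polynomial.C 1) ^ 2 := by
            intro y hy hyy h1 h1'
            obtain ⟨b, hb, hcp, hd, -⟩ := charpoly_two hι h22 hyy h1 h1'
            rw [hdet1 y hy] at hd
            rcases hb with rfl | rfl | rfl
            · exact absurd (show (2 : F) = 0 by linear_combination hd) h22
            · exact hcp
            · exact absurd (show (2 : F) = 0 by linear_combination hd) h22
          rw [hh x hx (by rw [hxx, hz1, one_smul]) (fun e => hns 1 (by rw [e, one_smul])) (fun e => hns (-1) (by rw [e, neg_one_smul])),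
            hh φ.A1 (hRf φ.hA1) (Frame.A1_sq S φ) (Frame.A1_ne_one S φ) (Frame.A1_ne_neg_one S φ)]
        · refine ⟨φ.A2, Subgroup.mem_normalizer_fintype (fun _ hx => mul_mem (mul_mem φ.hA2 hx) (inv_mem φ.hA2)),
            hRf φ.hA2, by rw [← Units.val_mul, φ.a2, Units.val_neg, Units.val_one, hz1, neg_one_smul], ?_⟩
          have hh2' : (φ.A2 : M4) * (φ.A2 : M4) = z • 1 := by
            rw [← Units.val_mul, φ.a2, Units.val_neg, Units.val_one, hz1, neg_one_smul]
          by_cases hsq : ∃ w : F, w * w = z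
          · obtain ⟨w, hw⟩ := hsq
            have hw0 : w ≠ 0 := fun h => hz0 (by rw [← hw, h, zero_mul])
            -- both have trace zero
            have key : ∀ y : GL (Fin 2 ⊕ Fin 2) F, y ∈ Cfsg.spGL 2 F → (y : M4) * (y : M4) = z • 1 → (∀ c : F, (y : M4) ≠ c • 1) →
                (w⁻¹ • (y : M4)).charpoly = (Polynomial.X - Polynomial.C 1) ^ (4 - 2) * (Polynomial.X + Polynomial.C 1) ^ 2 := by
              intro y hy hyy hyns
              have hu : w⁻¹ • (y : M4) * (w⁻¹ • (y : M4)) = 1 := by
                rw [smul_mul_smul_comm, hyy, smul_smul, ← hw]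
                rw [show w⁻¹ * w⁻¹ * (w * w) = 1 by field_simp, one_smul]
              have htr : (y : M4).trace = 0 := by
                have h1 : A.τ (y : M4) = -(y : M4) := by
                  rw [A.of_mem hy]
                  have e : y⁻¹ = -y := inv_eq_of_mul_eq_one_right (Units.ext (by
                    rw [Units.val_mul, Units.val_neg, mul_neg, hyy, hz1, neg_one_smul, neg_neg, Units.val_one]))
                  rw [e, Units.val_neg]
                have h2 := congrArg Matrix.trace h1
                have e2 : (A.τ (y : M4)).trace = (y : M4).trace := by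
                  show (-(Matrix.J (Fin 2) F * (y : M4).transpose * Matrix.J (Fin 2) F)).trace = _
                  rw [Matrix.trace_neg, Matrix.trace_mul_cycle, Matrix.J_squared, neg_mul, one_mul, Matrix.trace_neg,
                    neg_neg, Matrix.trace_transpose]
                rw [e2, Matrix.trace_neg] at h2
                exact (mul_eq_zero.1 (show (2 : F) * (y : M4).trace = 0 by linear_combination h2)).resolve_left h22
              obtain ⟨b, hb, hcp, -, ht⟩ := charpoly_two hι h22 hu
                (fun e => hyns w (by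
                  have := congrArg (w • ·) e
                  simpa [smul_smul, mul_inv_cancel₀ hw0] using this))
                (fun e => hyns (-w) (by
                  have := congrArg (w • ·) e
                  simpa [smul_smul, mul_inv_cancel₀ hw0, neg_smul] using this))
              rw [Matrix.trace_smul, htr, smul_zero] at ht
              obtain rfl := two_sep h22 hb (Or.inr (Or.inl rfl)) (by rw [← ht]; norm_num)
              exact hcp
            have hA2ns : ∀ c : F, (φ.A2 : M4) ≠ c • 1 := fun c hc => S.not_both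
              ((show Cg 1 φ.A2 from ⟨c, by rw [hc, Units.val_one]⟩).commute (Commute.one_left φ.B2)) φ.ab2
            have e := (key x hx hxx hns).trans (key φ.A2 (hRf φ.hA2) hh2' hA2ns).symm
            have scale : ∀ M : M4, M.charpoly = Polynomial.C w ^ 4 * ((w⁻¹ • M).charpoly.comp (Polynomial.C w⁻¹ * Polynomial.X)) := fun M => by
              have hmap : (Matrix.charmatrix (w⁻¹ • M)).map (Polynomial.compRingHom (Polynomial.C w⁻¹ * Polynomial.X)) =
                  Polynomial.C w⁻¹ • Matrix.charmatrix M := by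
                ext i j
                rcases eq_or_ne i j with rfl | hij
                · simp [Matrix.charmatrix_apply_eq, mul_sub]
                · simp [Matrix.charmatrix_apply_ne _ _ _ hij]
              have h := congrArg Matrix.det hmap
              rw [Matrix.det_smul, hι] at h
              rw [Matrix.charpoly, Matrix.charpoly]
              have h' := RingHom.map_det (Polynomial.compRingHom (Polynomial.C w⁻¹ * Polynomial.X)) (Matrix.charmatrix (w⁻¹ • M))
              rw [RingHom.mapMatrix_apply, h, Polynomial.coe_compRingHom_apply] at h'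
              rw [h', ← mul_assoc, ← mul_pow, ← Polynomial.C_mul, mul_inv_cancel₀ hw0, Polynomial.C_1, one_pow, one_mul]
            rw [scale (x : M4), scale (φ.A2 : M4), e]
          · push Not at hsq
            rw [(charpoly_sq hι hsq hxx).1, (charpoly_sq hι hsq hh2').1]
      have hpow : ∀ y : GL (Fin 2 ⊕ Fin 2) F, (y : M4) * (y : M4) = z • 1 → y ^ 4 = 1 := fun y hy => Units.ext (by
        rw [Units.val_pow_eq_pow_val, show 4 = 2 * 2 from rfl, pow_mul, pow_two (y : M4), hy, smul_pow, one_pow,
          pow_two, hz2, one_smul, Units.val_one])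
      obtain ⟨g, hg, hgh⟩ := symplectic_conj (p := p) hx hhS hm2 (hpow x hxx) (hpow h hh2) hcp
      exact ⟨g, hg, hgh ▸ hhN⟩
    · -- five
      obtain ⟨-, h5, -, hp5⟩ := five_of_eq hord
      set w : Fˣ := Units.mk0 z hz0
      set y := sc w⁻¹ * x with hydef
      have hxy : x = sc w * y := by rw [hydef, ← mul_assoc, sc, sc, ← map_mul, mul_inv_cancel, map_one, one_mul]
      have hyS : y ∈ Cfsg.spGL 2 F := mul_mem (A.sc_mem _ (by
        rw [hσ]; simp only [w, Units.val_inv_eq_inv_val, Units.val_mk0]; rw [← mul_inv, hz2, inv_one])) hx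
      have hy : (y : M4) ^ 5 = 1 := by
        rw [← Units.val_pow_eq_pow_val, hydef, (sc_comm _ x).mul_pow, Units.val_mul, hz, Units.val_pow_eq_pow_val, sc_val,
          smul_pow, one_pow, smul_mul_smul_comm, mul_one, show (w⁻¹ : Fˣ).val = z⁻¹ by simp [w]]
        rw [show z⁻¹ ^ 5 * z = 1 by field_simp; linear_combination -(z * z + 1) * hz2, one_smul]
      have hyns : ∀ c : F, (y : M4) ≠ c • 1 := fun c hc => hns ((w : F) * c) (by rw [hxy, sc_val_mul, hc, smul_smul])
      obtain ⟨h, hhN, hh5, -, hhns, hhG⟩ := φ.exists_five S (by rw [hF]; exact h5)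
      have hm5 : ((5 : ℕ) : F) ≠ 0 := fun e => hp5 (by
        rw [(Nat.prime_dvd_prime_iff_eq hp Nat.prime_five).1 ((CharP.cast_eq_zero_iff F p 5).1 e)])
      have c1 := charpoly_five hF hι hord hy (fun e => hyns 1 (by rw [e, one_smul]))
      have c2 := charpoly_five hF hι hord (y := (h : M4)) (by rw [← Units.val_pow_eq_pow_val, hh5, Units.val_one])
        (fun e => hhns 1 (by rw [e, one_smul]))
      obtain ⟨g, hg, hgh⟩ := symplectic_conj (p := p) hyS (hhG _ hAne hRf) hm5
        (Units.ext (by rw [Units.val_pow_eq_pow_val, hy, Units.val_one])) hh5 (c1.trans c2.symm)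
      exact ⟨g, hg, conj_into _ hxy hgh hhN⟩

end Cfsg.Agent.Linear.SymType4
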