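import Cfsg.Agent.Linear.SymType4Bridge
import Mathlib.NumberTheory.LegendreSymbol.QuadraticReciprocity

/-!
Common targets for elements of order two, three and five, and the arithmetic of fifth roots.
-/

set_option autoImplicit false
set_option linter.unusedSectionVars false

namespace Cfsg.Agent.Linear.SymType4

open Matrix

variable {ι : Type} {F : Type*} [Fintype ι] [DecidableEq ι] [Field F]

local notation "Mx" => Matrix ι ι F

theorem neg_one_mem_normalizer [Finite F] (R : Subgroup (GL ι F)) : (-1 : GL ι F) ∈ Cfsg.Geo.subgroupNormalizer R :=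
  Subgroup.mem_normalizer_fintype fun x hx => by
    rw [neg_one_mul, neg_mul, show x * (-1 : GL ι F)⁻¹ = x * -1 by rw [inv_eq_of_mul_eq_one_right (show (-1 : GL ι F) * -1 = 1 by simp)],
      mul_neg, mul_one, neg_neg]
    exact hx

theorem Adj.neg_mem {G : Subgroup (GL ι F)} (A : Adj G) {h : GL ι F} (hh : h ∈ G) : -h ∈ G := by
  rw [A.mem, Units.val_neg, A.neg, neg_mul_neg]
  exact (A.mem h).1 hh

namespace Frame

variable {R : Subgroup (GL ι F)} (S : Dat R) (φ : Frame R)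
include S φ

theorem A1_ns : ¬ Cg 1 φ.A1 := fun h => S.not_both (h.commute (Commute.one_left φ.B1)) φ.ab1

theorem A1_ne_one : (φ.A1 : Mx) ≠ 1 := fun h => A1_ns S φ ⟨1, by rw [h, Units.val_one, one_smul]⟩

theorem A1_ne_neg_one : (φ.A1 : Mx) ≠ -1 := fun h => A1_ns S φ ⟨-1, by rw [h, Units.val_one, neg_one_smul]⟩

theorem A1_mem_normalizer [Finite F] : φ.A1 ∈ Cfsg.Geo.subgroupNormalizer R :=
  Subgroup.mem_normalizer_fintype fun _ hx => mul_mem (mul_mem φ.hA1 hx) (inv_mem φ.hA1)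

theorem A1_sq : (φ.A1 : Mx) * (φ.A1 : Mx) = 1 := by rw [← Units.val_mul, φ.a1, Units.val_one]

theorem A1_trace : (φ.A1 : Mx).trace = 0 := S.trace_zero φ.hA1 (A1_ns S φ)

/-- Every non-trivial involution has the characteristic polynomial of one in the normalizer. -/
theorem target_two [Finite F] {e : GL ι F} (he : e ∈ R) (hec : Cg 1 e) (hee : e * e = -1) {y : Mx} (hy : y * y = 1)
    (h1 : y ≠ 1) (h1' : y ≠ -1) :
    ∃ h : GL ι F, h ∈ Cfsg.Geo.subgroupNormalizer R ∧ h * h = 1 ∧ (h : Mx).charpoly = y.charpoly ∧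
      (h : Mx).det = y.det ∧ ∀ G : Subgroup (GL ι F), Nonempty (Adj G) → R ≤ G → h ∈ G := by
  classical
  have h22 := S.two
  obtain ⟨W, hWN, hW2, hWtr, hWA, hWG⟩ := φ.exists_swap S he hec hee
  obtain ⟨b, hb, hcp, hdet, htr⟩ := charpoly_two S.dim h22 hy h1 h1'
  have hmatch : ∀ (h : GL ι F), h * h = 1 → (h : Mx) ≠ 1 → (h : Mx) ≠ -1 →
      (h : Mx).trace = 4 - 2 * (b : F) → (h : Mx).charpoly = y.charpoly ∧ (h : Mx).det = y.det := by
    intro h hh hh1 hh1' hht
    obtain ⟨b', hb', hcp', hdet', htr'⟩ := charpoly_two S.dim h22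
      (y := (h : Mx)) (by rw [← Units.val_mul, hh, Units.val_one]) hh1 hh1'
    obtain rfl := two_sep h22 hb' hb (htr'.symm.trans hht)
    exact ⟨hcp'.trans hcp.symm, hdet'.trans hdet.symm⟩
  have hW1 : (W : Mx) ≠ 1 := fun h => hWA (by
    rw [show W = 1 from Units.ext (h.trans Units.val_one.symm)]; exact Commute.one_left _)
  have hW1' : (W : Mx) ≠ -1 := fun h => hWA (by
    rw [show W = -1 from Units.ext (by rw [h, Units.val_neg, Units.val_one])]; exact Commute.neg_one_left _)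
  rcases hb with rfl | rfl | rfl
  · obtain ⟨hc, hd⟩ := hmatch W hW2 hW1 hW1' (by rw [hWtr]; norm_num)
    exact ⟨W, hWN, hW2, hc, hd, hWG⟩
  · obtain ⟨hc, hd⟩ := hmatch φ.A1 φ.a1 (A1_ne_one S φ) (A1_ne_neg_one S φ) (by rw [A1_trace S φ]; norm_num)
    exact ⟨φ.A1, A1_mem_normalizer S φ, φ.a1, hc, hd, fun G _ hRG => hRG φ.hA1⟩
  · obtain ⟨hc, hd⟩ := hmatch (-W) (by rw [neg_mul_neg, hW2])
      (fun h => hW1' (by rw [← neg_neg (W : Mx), ← Units.val_neg, h]))
      (fun h => hW1 (by rw [← neg_neg (W : Mx), ← Units.val_neg, h, neg_neg]))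
      (by rw [Units.val_neg, Matrix.trace_neg, hWtr]; norm_num)
    refine ⟨-W, by rw [← neg_one_mul]; exact mul_mem (neg_one_mem_normalizer R) hWN, by rw [neg_mul_neg, hW2], hc, hd, ?_⟩
    rintro G ⟨A⟩ hRG
    exact A.neg_mem (hWG G ⟨A⟩ hRG)

/-- Two kinds of elements of order three in the normalizer. -/
theorem target_three [Finite F] (h3 : (3 : F) ≠ 0) {e : GL ι F} (he : e ∈ R) (hec : Cg 1 e) (hee : e * e = -1) :
    ∃ h₁ h₂ : GL ι F, h₁ ∈ Cfsg.Geo.subgroupNormalizer R ∧ h₂ ∈ Cfsg.Geo.subgroupNormalizer R ∧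
      h₁ ^ 3 = 1 ∧ h₂ ^ 3 = 1 ∧ h₁ ≠ 1 ∧ h₂ ≠ 1 ∧ (h₁ : Mx) * (h₁ : Mx) + (h₁ : Mx) + 1 = 0 ∧
      (h₂ : Mx) * (h₂ : Mx) + (h₂ : Mx) + 1 ≠ 0 ∧
      ∀ G : Subgroup (GL ι F), Nonempty (Adj G) → R ≤ G → h₁ ∈ G ∧ h₂ ∈ G := by
  haveI := S.nonempty
  obtain ⟨T, U, hTN, hUN, hTU, hT3, hU3, hTq, hUq, hUA, hTA, hG⟩ := φ.exists_three S he hec hee
  have hT1 : T ≠ 1 := fun h => hTA (by rw [h]; exact Commute.one_left _)
  have hpick : (((T * U : GL ι F) : Mx) * ((T * U : GL ι F) : Mx) + ((T * U : GL ι F) : Mx) + 1 ≠ 0) ∨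
      (((T * (U * U) : GL ι F) : Mx) * ((T * (U * U) : GL ι F) : Mx) + ((T * (U * U) : GL ι F) : Mx) + 1 ≠ 0) := by
    by_contra hcon
    push Not at hcon
    obtain ⟨e1, e2⟩ := hcon
    have hc : (U : Mx) * (T : Mx) = (T : Mx) * (U : Mx) := by rw [← Units.val_mul, ← Units.val_mul, hTU.eq]
    have hc' : ∀ X, (U : Mx) * ((T : Mx) * X) = (T : Mx) * ((U : Mx) * X) := fun X => by
      rw [← mul_assoc, hc, mul_assoc]
    have hUsq : (U : Mx) * (U : Mx) = -(U : Mx) - 1 := by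
      rw [eq_sub_iff_add_eq, eq_neg_iff_add_eq_zero, add_right_comm]; exact hUq
    have hTsq : (T : Mx) * (T : Mx) = -(T : Mx) - 1 := by
      rw [eq_sub_iff_add_eq, eq_neg_iff_add_eq_zero, add_right_comm]; exact hTq
    have hT' : ∀ X, (T : Mx) * ((T : Mx) * X) = -((T : Mx) * X) - X := fun X => by
      rw [← mul_assoc, hTsq, sub_mul, neg_mul, one_mul]
    have hU' : ∀ X, (U : Mx) * ((U : Mx) * X) = -((U : Mx) * X) - X := fun X => by
      rw [← mul_assoc, hUsq, sub_mul, neg_mul, one_mul]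
    simp only [Units.val_mul, mul_assoc, hc, hc', hTsq, hUsq, hT', hU', mul_sub, sub_mul, mul_neg, neg_mul, mul_add, add_mul, one_mul, mul_one, neg_neg, neg_sub, neg_add, sub_neg_eq_add] at e1 e2
    have h0 : (3 : F) • (1 : Mx) = 0 := by linear_combination (norm := module) e1 + e2
    exact one_ne_zero ((smul_eq_zero.1 h0).resolve_left h3)
  have hUU : U * U ∈ Cfsg.Geo.subgroupNormalizer R := mul_mem hUN hUN
  have hUU3 : (U * U) ^ 3 = 1 := by rw [← pow_two, ← pow_mul, mul_comm, pow_mul, hU3, one_pow]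
  have hne : ∀ V : GL ι F, Commute V φ.A1 → T * V ≠ 1 := fun V hV h => hTA (by
    rw [eq_inv_of_mul_eq_one_left h]
    exact hV.inv_left)
  rcases hpick with h | h
  · exact ⟨T, T * U, hTN, mul_mem hTN hUN, hT3, by rw [hTU.mul_pow, hT3, hU3, one_mul], hT1, hne U hUA, hTq, h,
      fun G hA hRG => ⟨(hG G hA hRG).1, mul_mem (hG G hA hRG).1 (hG G hA hRG).2⟩⟩
  · exact ⟨T, T * (U * U), hTN, mul_mem hTN hUU, hT3, by rw [(hTU.mul_right hTU).mul_pow, hT3, hUU3, one_mul], hT1,
      hne _ (hUA.mul_left hUA), hTq, h,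
      fun G hA hRG => ⟨(hG G hA hRG).1, mul_mem (hG G hA hRG).1 (mul_mem (hG G hA hRG).2 (hG G hA hRG).2)⟩⟩

end Frame

/-! ### Hypotheses -/

theorem exists_i [Finite F] {R : Subgroup (GL ι F)} (S : Dat R) (hZ : Nat.card (Subgroup.center R) = 4) :
    ∃ e ∈ R, Cg 1 e ∧ e * e = -1 := by
  haveI := S.nonempty
  have hsc : ∀ z : Subgroup.center R, Cg 1 ((z : R) : GL ι F) := fun z => S.eq_scalar fun y hy =>
    (congrArg Subtype.val (Subgroup.mem_center_iff.1 z.2 ⟨y, hy⟩)).symm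
  by_contra hall
  push Not at hall
  have hpm : ∀ z : Subgroup.center R, ((z : R) : GL ι F) = 1 ∨ ((z : R) : GL ι F) = -1 := fun z => by
    obtain ⟨c, hc⟩ := hsc z
    rw [Units.val_one] at hc
    rcases S.sq _ (z : R).2 with h | h
    · have h1 := congrArg Units.val h
      rw [Units.val_mul, hc, smul_mul_smul_comm, mul_one, Units.val_one] at h1
      have hcc : c * c = 1 := by simpa using congrFun (congrFun h1 (Classical.arbitrary ι)) (Classical.arbitrary ι)
      rcases mul_self_eq_one_iff.1 hcc with rfl | rfl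
      · exact Or.inl (Units.ext (by rw [hc, one_smul, Units.val_one]))
      · exact Or.inr (Units.ext (by rw [hc, neg_one_smul, Units.val_neg, Units.val_one]))
    · exact absurd h (hall _ (z : R).2 (hsc z))
  classical
  have := Nat.card_le_card_of_injective (fun z : Subgroup.center R => decide (((z : R) : GL ι F) = 1)) (fun z w h => by
    rw [decide_eq_decide] at h
    refine Subtype.ext (Subtype.ext ?_)
    rcases hpm z with h1 | h1 <;> rcases hpm w with h2 | h2
    · rw [h1, h2]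
    · rw [h1]; exact (h.1 h1).symm
    · rw [h2]; exact h.2 h2
    · rw [h1, h2])
  rw [hZ, Nat.card_eq_fintype_card, Fintype.card_bool] at this
  omega

theorem minus_cond [Finite F] {R : Subgroup (GL ι F)} (S : Dat R) (hZ : Nat.card (Subgroup.center R) = 2)
    (hm : Cfsg.Geo.IsOfMinusType 2 R) :
    ∀ a ∈ R, ∀ b ∈ R, a * a = 1 → b * b = 1 → Commute a b → Cg 1 a ∨ Cg 1 b ∨ Cg a b := by
  classical
  intro a ha b hb haa hbb hab
  by_contra hcon
  push Not at hcon
  obtain ⟨hna, hnb, hnab⟩ := hcon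
  haveI := S.nonempty
  have hz2 : ∀ z : Subgroup.center R, (z : R) * (z : R) = 1 := fun z => by
    have h := pow_card_eq_one' (x := z)
    rw [hZ, pow_two] at h
    exact congrArg Subtype.val h
  have hsc : ∀ z : Subgroup.center R, Cg 1 ((z : R) : GL ι F) := fun z => S.eq_scalar fun y hy =>
    (congrArg Subtype.val (Subgroup.mem_center_iff.1 z.2 ⟨y, hy⟩)).symm
  set gs : Set R := {⟨a, ha⟩, ⟨b, hb⟩} ∪ (Subgroup.center R : Set R)
  have hcomm : ∀ x ∈ gs, ∀ y ∈ gs, x * y = y * x := by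
    intro x hx y hy
    rcases hx with hx | hx
    · rcases hy with hy | hy
      · rcases hx with rfl | rfl <;> rcases hy with rfl | rfl
        · rfl
        · exact Subtype.ext hab.eq
        · exact Subtype.ext hab.eq.symm
        · rfl
      · exact Subgroup.mem_center_iff.1 hy x
    · exact (Subgroup.mem_center_iff.1 hx y).symm
  haveI hA : IsMulCommutative (Subgroup.closure gs) := Subgroup.isMulCommutative_closure hcomm
  have hsq : ∀ x ∈ Subgroup.closure gs, x * x = 1 := by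
    intro x hx
    induction hx using Subgroup.closure_induction with
    | mem y hy =>
      rcases hy with (rfl | rfl) | hy
      · exact Subtype.ext haa
      · exact Subtype.ext hbb
      · exact hz2 ⟨y, hy⟩
    | one => exact one_mul 1
    | mul u v hu hv ihu ihv =>
      have huv : u * v = v * u := congrArg Subtype.val (hA.is_comm.comm (⟨u, hu⟩ : Subgroup.closure gs) ⟨v, hv⟩)
      rw [mul_assoc u, ← mul_assoc v, ← huv, mul_assoc u v v, ← mul_assoc u u, ihu, one_mul, ihv]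
    | inv u _ ih => rw [← _root_.mul_inv_rev, ih, inv_one]
  have hlt := hm _ hA hsq
  let el : Fin 4 → R := ![1, ⟨a, ha⟩, ⟨b, hb⟩, ⟨a, ha⟩ * ⟨b, hb⟩]
  have hel : ∀ i, el i ∈ Subgroup.closure gs := fun i => by
    have m1 : (⟨a, ha⟩ : R) ∈ Subgroup.closure gs := Subgroup.subset_closure (Or.inl (Or.inl rfl))
    have m2 : (⟨b, hb⟩ : R) ∈ Subgroup.closure gs := Subgroup.subset_closure (Or.inl (Or.inr rfl))
    fin_cases i
    exacts [one_mem _, m1, m2, mul_mem m1 m2]
  have hd : ∀ i j, i ≠ j → ¬ Cg ((el i : R) : GL ι F) ((el j : R) : GL ι F) := by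
    have hab' : ¬ Cg 1 (a * b) := fun h => hnab (by simpa [← mul_assoc, haa] using (h.mul_left a).symm |>.symm)
    intro i j hij
    fin_cases i <;> fin_cases j <;> simp [el] at hij ⊢
    all_goals first
      | exact hna | exact hnb | exact hab' | exact hnab
      | exact fun h => hna h.symm | exact fun h => hnb h.symm | exact fun h => hab' h.symm | exact fun h => hnab h.symm
      | exact fun h => hnb (Cg.of_mul_left a (by simpa using h))
      | exact fun h => hnb (Cg.of_mul_left a (by simpa using h.symm))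
      | exact fun h => hna (Cg.of_mul_left b (by simpa [← hab.eq] using h))
      | exact fun h => hna (Cg.of_mul_left b (by simpa [← hab.eq] using h.symm))
  have hinj : Function.Injective (fun k : Fin 4 × Subgroup.center R =>
      (⟨el k.1 * (k.2 : R), mul_mem (hel k.1) (Subgroup.subset_closure (Or.inr k.2.2))⟩ : Subgroup.closure gs)) := by
    rintro ⟨i, s⟩ ⟨j, t⟩ h
    have h' : el i * (s : R) = el j * (t : R) := congrArg Subtype.val h
    have hij : i = j := by
      by_contra hne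
      refine hd i j hne ?_
      have hv := congrArg (fun u : R => (u : GL ι F)) h'
      simp only [Subgroup.coe_mul] at hv
      have h1 := (hsc s).mul_left ((el i : R) : GL ι F)
      have h2 := (hsc t).mul_left ((el j : R) : GL ι F)
      rw [mul_one, hv] at h1
      rw [mul_one] at h2
      exact h1.trans h2.symm
    subst hij
    exact Prod.ext rfl (Subtype.ext (mul_left_cancel h'))
  have := Nat.card_le_card_of_injective _ hinj
  rw [Nat.card_prod, Nat.card_fin, hZ] at this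
  omega

/-! ### Fifth roots -/

theorem zmod5_cases : ∀ c : ZMod 5, c = 2 ∨ c = 3 ∨ IsSquare c := by decide

theorem zmod5_pow : (¬ (2 : ZMod 5) ^ 2 ^ 1 = 1 ∧ (2 : ZMod 5) ^ 2 ^ (1 + 1) = 1) ∧
    (¬ (3 : ZMod 5) ^ 2 ^ 1 = 1 ∧ (3 : ZMod 5) ^ 2 ^ (1 + 1) = 1) ∧ ¬ (0 : ZMod 5) ^ 4 = 1 := by decide

theorem zmod5_sq : ∀ c : ZMod 5, c ≠ 0 → (IsSquare c ∨ c = 1 ∨ c = -1) → c ^ 2 = 1 := by decide

theorem five_cases {p : ℕ} (h : orderOf (p : ZMod 5) ≠ 4) : IsSquare (p : ZMod 5) := by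
  haveI : Fact (Nat.Prime 5) := ⟨Nat.prime_five⟩
  rcases zmod5_cases (p : ZMod 5) with h' | h' | h'
  · refine absurd ?_ h
    rw [h']
    exact orderOf_eq_prime_pow (p := 2) (n := 1) zmod5_pow.1.1 zmod5_pow.1.2
  · refine absurd ?_ h
    rw [h']
    exact orderOf_eq_prime_pow (p := 2) (n := 1) zmod5_pow.2.1.1 zmod5_pow.2.1.2
  · exact h'

theorem five_of_eq {p : ℕ} (h : orderOf (p : ZMod 5) = 4) : ¬ IsSquare (p : ZMod 5) ∧ ¬ 5 ∣ p - 1 ∧ ¬ 5 ∣ p + 1 ∧ p % 5 ≠ 0 := by
  haveI : Fact (Nat.Prime 5) := ⟨Nat.prime_five⟩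
  have h0 : (p : ZMod 5) ≠ 0 := fun e => by
    rw [e] at h
    have := pow_orderOf_eq_one (0 : ZMod 5)
    rw [h] at this
    exact zmod5_pow.2.2 this
  have hbad : (IsSquare (p : ZMod 5) ∨ (p : ZMod 5) = 1 ∨ (p : ZMod 5) = -1) → False := fun hc => by
    have := orderOf_dvd_of_pow_eq_one (zmod5_sq _ h0 hc)
    rw [h] at this
    omega
  refine ⟨fun hs => hbad (Or.inl hs), fun hd => ?_, fun hd => ?_, fun hd => h0 ((ZMod.natCast_eq_zero_iff p 5).2 (by omega))⟩
  · rcases Nat.eq_zero_or_pos p with rfl | hp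
    · exact h0 rfl
    refine hbad (Or.inr (Or.inl ?_))
    have := (ZMod.natCast_eq_zero_iff (p - 1) 5).2 hd
    rwa [Nat.cast_sub hp, Nat.cast_one, sub_eq_zero] at this
  · refine hbad (Or.inr (Or.inr ?_))
    have := (ZMod.natCast_eq_zero_iff (p + 1) 5).2 hd
    rwa [Nat.cast_add, Nat.cast_one, add_eq_zero_iff_eq_neg] at this

/-- A root of `T² + T - 1` in the prime field. -/
theorem exists_t {p : ℕ} [Fact p.Prime] [CharP F p] (hp2 : p ≠ 2) (h : orderOf (p : ZMod 5) ≠ 4) :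
    ∃ t : F, t * t + t = 1 ∧ t ^ p = t := by
  haveI : Fact (Nat.Prime 5) := ⟨Nat.prime_five⟩
  obtain ⟨s, hs⟩ : IsSquare ((5 : ℕ) : ZMod p) :=
    (ZMod.exists_sq_eq_prime_iff_of_mod_four_eq_one (p := 5) (q := p) (by norm_num) hp2).1 (five_cases h)
  have h2 : (2 : ZMod p) ≠ 0 := fun e => hp2 ((Nat.prime_dvd_prime_iff_eq Fact.out Nat.prime_two).1
    ((CharP.cast_eq_zero_iff (ZMod p) p 2).1 (by exact_mod_cast e)))
  push_cast at hs
  refine ⟨ZMod.castHom dvd_rfl F ((s - 1) / 2), ?_, ?_⟩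
  · rw [← map_mul, ← map_add, ← map_one (ZMod.castHom dvd_rfl F)]
    congr 1
    field_simp
    linear_combination -hs
  · rw [← map_pow, ZMod.pow_card]

/-- Roots of `T² + T - 1` are not in the prime field. -/
theorem t_not_fixed [Fintype F] {p : ℕ} [Fact p.Prime] [CharP F p] (hp2 : p ≠ 2) (h : orderOf (p : ZMod 5) = 4) {t : F}
    (ht : t * t + t = 1) : t ^ p ≠ t := by
  haveI : Fact (Nat.Prime 5) := ⟨Nat.prime_five⟩
  intro hfix
  obtain ⟨k, rfl⟩ := (mem_bot_iff_intCast p F).1 ((Subfield.mem_bot_iff_pow_eq_self F p).2 hfix)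
  have h1 : ((k : ZMod p)) * k + k = 1 := (ZMod.castHom (dvd_refl p) F).injective (by simpa using ht)
  refine (five_of_eq h).1 ((ZMod.exists_sq_eq_prime_iff_of_mod_four_eq_one (p := 5) (q := p) (by norm_num) hp2).2 ?_)
  exact ⟨2 * (k : ZMod p) + 1, by push_cast; linear_combination (-4 : ZMod p) * h1⟩

end Cfsg.Agent.Linear.SymType4
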