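import Cfsg.Agent.Forms.SympSpectrum
import Cfsg.Agent.Forms.SympOrder
import Cfsg.Agent.Linear.HomocyclicSylow

/-!
# Sylow `r`-subgroups of `Sp_2n(q)` for odd `r > n`
-/

set_option autoImplicit false
set_option linter.unusedSectionVars false

namespace Cfsg.Agent.Linear.SympSylow

open Cfsg.Agent.FGS2 Cfsg.Agent.Forms Polynomial Module

theorem exists_cyclic_hom' {G : Type*} [Group G] {N : ℕ} {z : G} (hz : orderOf z = N) :
    ∃ ψ : Multiplicative (ZMod N) →* G, Function.Injective ψ := by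
  have hc : Nat.card (Subgroup.zpowers z) = N := by rw [Nat.card_zpowers, hz]
  let e : Multiplicative (ZMod N) ≃* Subgroup.zpowers z :=
    (ZMod.ringEquivCongr hc.symm).toAddEquiv.toMultiplicative.trans (zmodCyclicMulEquiv inferInstance)
  exact ⟨(Subgroup.zpowers z).subtype.comp e.toMonoidHom, (Subgroup.zpowers z).subtype_injective.comp e.injective⟩

section Numbers

variable {q r : ℕ} [hr : Fact r.Prime]

theorem padic_pow_sub_one (hr2 : r ≠ 2) (hrq : ¬ r ∣ q) (hq1 : 1 < q) {k : ℕ} (hk : ¬ r ∣ k) :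
    padicValNat r (q ^ k - 1) =
      if orderOf (q : ZMod r) ∣ k then padicValNat r (q ^ orderOf (q : ZMod r) - 1) else 0 := by
  set e := orderOf (q : ZMod r) with he
  have he0 : e ≠ 0 := GLCross.orderOf_ne_zero hrq
  split_ifs with h
  · obtain ⟨j, rfl⟩ := h
    have hj : ¬ r ∣ j := fun hd => hk (dvd_mul_of_dvd_right hd e)
    have := padicValNat.pow_sub_pow (p := r) (x := q ^ e) (y := 1) (hr.out.odd_of_ne_two hr2)
      (Nat.one_lt_pow he0 hq1) ((GLCross.dvd_pow_sub_one_iff hrq e).mpr dvd_rfl)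
      (fun hd => hrq (hr.out.dvd_of_dvd_pow hd)) (n := j) (by rintro rfl; exact hj (dvd_zero r))
    rw [one_pow, padicValNat.eq_zero_of_not_dvd hj, add_zero] at this
    rw [pow_mul, this]
  · exact padicValNat.eq_zero_of_not_dvd (mt (GLCross.dvd_pow_sub_one_iff hrq k).mp h)

theorem padic_prod_even (hr2 : r ≠ 2) (hrq : ¬ r ∣ q) (hq1 : 1 < q) (n : ℕ) (hrn : n < r) :
    padicValNat r (∏ i ∈ Finset.range n, (q ^ (2 * (i + 1)) - 1)) =
      ((Finset.Icc 1 n).filter (fun i => orderOf (q : ZMod r) ∣ 2 * i)).card *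
        padicValNat r (q ^ orderOf (q : ZMod r) - 1) := by
  induction n with
  | zero => simp
  | succ n ih =>
    have hne : ∀ i : ℕ, q ^ (2 * (i + 1)) - 1 ≠ 0 := fun i => by
      have := Nat.one_lt_pow (show 2 * (i + 1) ≠ 0 by omega) hq1
      omega
    have hk : ¬ r ∣ 2 * (n + 1) := by
      rw [hr.out.dvd_mul, not_or]
      exact ⟨fun h => hr2 (Nat.prime_dvd_prime_iff_eq hr.out Nat.prime_two |>.1 h),
        fun h => absurd (Nat.le_of_dvd (by omega) h) (by omega)⟩
    rw [Finset.prod_range_succ, padicValNat.mul (Finset.prod_ne_zero_iff.mpr fun i _ => hne i) (hne n),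
      ih (by omega), padic_pow_sub_one hr2 hrq hq1 hk, show Finset.Icc 1 (n + 1) = insert (n + 1) (Finset.Icc 1 n) by ext; simp; omega,
      Finset.filter_insert]
    split_ifs with h
    · rw [Finset.card_insert_of_notMem (by simp), Nat.succ_mul]
    · rw [add_zero]

end Numbers

variable {F : Type*} [Field F] [Fintype F]

theorem sylow_equiv {q : ℕ} (hq : Fintype.card F = q) (n r : ℕ) [hr : Fact r.Prime] (hr2 : r ≠ 2) (hrn : n < r)
    (hrq : ¬ r ∣ q) (P : Sylow r ↥(Matrix.symplecticGroup (Fin n) F)) :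
    Nonempty (↥(P : Subgroup ↥(Matrix.symplecticGroup (Fin n) F)) ≃*
      (Fin ((Finset.Icc 1 n).filter (fun i => orderOf (q : ZMod r) ∣ 2 * i)).card →
        Multiplicative (ZMod (r ^ padicValNat r ((cyclotomic (orderOf (q : ZMod r)) ℤ).eval (q : ℤ)).natAbs)))) := by
  classical
  have hq1 : 1 < q := hq ▸ Fintype.one_lt_card
  set e := orderOf (q : ZMod r) with he
  have he0 : 0 < e := Nat.pos_of_ne_zero (GLCross.orderOf_ne_zero hrq)
  rw [HomocyclicSylow.padic_cyclotomic hq1 hrq he]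
  set A := padicValNat r (q ^ e - 1) with hA
  set m := ((Finset.Icc 1 n).filter (fun i => e ∣ 2 * i)).card with hm
  set N := r ^ A with hN
  haveI : NeZero N := ⟨pow_ne_zero _ hr.out.ne_zero⟩
  have hv : padicValNat r (Nat.card ↥(Matrix.symplecticGroup (Fin n) F)) = m * A := by
    rw [card_symplecticGroup hq n, padicValNat.mul (pow_ne_zero _ (by omega))
      (Finset.prod_ne_zero_iff.mpr fun i _ => by
        have := Nat.one_lt_pow (show 2 * (i + 1) ≠ 0 by omega) hq1
        omega),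
      padicValNat.eq_zero_of_not_dvd (fun h => hrq (hr.out.dvd_of_dvd_pow h)), zero_add,
      padic_prod_even hr2 hrq hq1 n hrn, ← he, ← hA, ← hm]
  obtain ⟨h, hh, hblock, hO⟩ : ∃ h, 0 < h ∧ (∀ i, e ∣ 2 * i ↔ h ∣ i) ∧
      (N ∣ q ^ h + 1 ∨ N ∣ q ^ h - 1) := by
    rcases Nat.even_or_odd e with ⟨h, hh⟩ | hodd
    · refine ⟨h, by omega, fun i => ?_, Or.inl ?_⟩
      · rw [hh, ← two_mul, Nat.mul_dvd_mul_iff_left two_pos]
      · have hfac : q ^ e - 1 = (q ^ h + 1) * (q ^ h - 1) := by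
          rw [hh, pow_add, ← Nat.sq_sub_sq (q ^ h) 1] <;> simp [sq]
        have hnd : ¬ r ∣ q ^ h - 1 := fun hd => by
          have := Nat.le_of_dvd (by omega) ((GLCross.dvd_pow_sub_one_iff hrq h).1 hd)
          omega
        refine (Nat.Coprime.pow_left A (hr.out.coprime_iff_not_dvd.2 hnd)).dvd_of_dvd_mul_right ?_
        rw [← hfac, hA]
        exact pow_padicValNat_dvd
    · exact ⟨e, he0, fun i => (Nat.coprime_two_right.2 hodd).dvd_mul_left, Or.inr (hN ▸ hA ▸ pow_padicValNat_dvd)⟩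
  have hmh : m * h ≤ n := by
    rw [hm, Finset.filter_congr fun i _ => hblock i, show Finset.Icc 1 n = Finset.Ioc 0 n from rfl, Nat.Ioc_filter_dvd_card_eq_div]
    exact Nat.div_mul_le_self n h
  obtain ⟨l, hl⟩ : ∃ l, m * h + l = n := ⟨n - m * h, by omega⟩
  obtain ⟨B, hBA, hB⟩ := exists_altForm (F := F) (d := h + h) (k := h) rfl
  obtain ⟨B', hBA', hB'⟩ := exists_altForm (F := F) (d := l + l) (k := l) rfl
  -- a block of order `N`
  obtain ⟨b, hb, hbN⟩ : ∃ b : (Fin (h + h) → F) ≃ₗ[F] (Fin (h + h) → F),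
      (∀ x y, B (b x) (b y) = B x y) ∧ orderOf b = N := by
    obtain ⟨a, ha, O, hNO, hord⟩ : ∃ a : (Fin (h + h) → F) ≃ₗ[F] (Fin (h + h) → F),
        (∀ x y, B (a x) (a y) = B x y) ∧ ∃ O, N ∣ O ∧
          ∀ j, (a : Module.End F (Fin (h + h) → F)) ^ j = 1 ↔ O ∣ j := by
      rcases hO with hO | hO
      · obtain ⟨a, ha, hord⟩ := exists_torus_plus hh B hBA hB
        exact ⟨a, ha, _, by rwa [hq], hord⟩
      · obtain ⟨a, ha, hord⟩ := exists_torus_minus hh B hBA hB
        exact ⟨a, ha, _, by rwa [hq], hord⟩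
    have horda : orderOf a = O := by
      refine Nat.dvd_antisymm (orderOf_dvd_of_pow_eq_one ?_) ((hord _).1 ?_)
      · exact LinearEquiv.toLinearMap_injective ((toEnd_pow a O).trans ((hord O).2 dvd_rfl))
      · rw [← toEnd_pow, pow_orderOf_eq_one]; rfl
    have hO0 : O ≠ 0 := by
      rw [← horda]
      exact orderOf_ne_zero_iff.2 (isOfFinOrder_of_finite a)
    have hpres : ∀ (j : ℕ) x y, B ((a ^ j) x) ((a ^ j) y) = B x y := by
      intro j
      induction j with
      | zero => intro x y; rfl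
      | succ j ih => intro x y; rw [pow_succ, LinearEquiv.mul_apply, LinearEquiv.mul_apply, ih, ha]
    refine ⟨a ^ (O / N), hpres _, ?_⟩
    rw [← horda]
    exact orderOf_pow_orderOf_div (by rwa [horda]) (by rwa [horda])
  let z : isomGroup B (fun _ => (0 : F)) := ⟨b, hb, fun _ => rfl⟩
  obtain ⟨ψ₀, hψ₀⟩ := exists_cyclic_hom' (z := z) ((Subgroup.orderOf_coe z).symm.trans hbN)
  let ψ := (isomGroup B (fun _ => (0 : F))).subtype.comp ψ₀
  have hψ : Function.Injective ψ := (Subgroup.subtype_injective _).comp hψ₀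
  have hψB : ∀ c x y, B (ψ c x) (ψ c y) = B x y := fun c => (ψ₀ c).2.1
  let β : LinearMap.BilinForm F ((Fin m → Fin (h + h) → F) × (Fin (l + l) → F)) :=
    (∑ i, B.compl₁₂ ((LinearMap.proj i).comp (LinearMap.fst F _ _)) ((LinearMap.proj i).comp (LinearMap.fst F _ _)))
      + B'.compl₁₂ (LinearMap.snd F _ _) (LinearMap.snd F _ _)
  have hβ : ∀ x y, β x y = (∑ i, B (x.1 i) (y.1 i)) + B' x.2 y.2 := fun x y => by simp [β]
  have hβA : β.IsAlt := fun x => by rw [hβ, Finset.sum_eq_zero fun i _ => hBA (x.1 i), hBA', add_zero]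
  have hβn : ∀ x, (∀ y, β x y = 0) → x = 0 := by
    intro x hx
    refine Prod.ext (funext fun i => hB.1 _ fun v => ?_) (hB'.1 _ fun w => ?_)
    · have h1 := hx (Pi.single i v, 0)
      rw [hβ] at h1
      simp only [map_zero, add_zero] at h1
      rwa [Finset.sum_eq_single i (fun j _ hj => by rw [Pi.single_eq_of_ne hj, map_zero])
        (by simp), Pi.single_eq_same] at h1
    · have h1 := hx (0, w)
      simpa [hβ] using h1
  let ι : (Fin (n + n) → F) ≃ₗ[F] (Fin n ⊕ Fin n → F) := LinearEquiv.funCongrLeft F F finSumFinEquiv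
  let B₀ : LinearMap.BilinForm F (Fin (n + n) → F) := (sympB n F).compl₁₂ ι.toLinearMap ι.toLinearMap
  have hA₀ : B₀.IsAlt := fun x => sympB_isAlt (ι x)
  have hB₀ : B₀.Nondegenerate := by
    refine ⟨fun x hx => ι.injective ?_, fun y hy => ι.injective ?_⟩ <;> rw [map_zero]
    · refine sympB_nondegenerate.1 _ fun v => ?_
      obtain ⟨w, rfl⟩ := ι.surjective v
      exact hx w
    · refine sympB_nondegenerate.2 _ fun v => ?_
      obtain ⟨w, rfl⟩ := ι.surjective v
      exact hy w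
  obtain ⟨e₀, he₀⟩ := Forms.exists_isometryEquiv (n := n + n)
    (by rw [finrank_prod, finrank_pi_fintype, Finset.sum_const, finrank_fin_fun, finrank_fin_fun, Finset.card_univ,
        Fintype.card_fin, smul_eq_mul, mul_add]; omega) β hβA hβn B₀ hA₀ hB₀
  let e' := e₀.trans ι
  have he' : ∀ x y, sympB n F (e' x) (e' y) = β x y := fun x y => he₀ x y
  let T : (Fin m → Multiplicative (ZMod N)) → (Fin n ⊕ Fin n → F) ≃ₗ[F] (Fin n ⊕ Fin n → F) := fun x =>
    (e'.symm.trans ((LinearEquiv.piCongrRight fun i => ψ (x i)).prodCongr (LinearEquiv.refl F _))).trans e'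
  have hT : ∀ x v, T x (e' v) = e' (fun i => ψ (x i) (v.1 i), v.2) := fun x v => by
    simp [T]
    rfl
  let Φ : (Fin m → Multiplicative (ZMod N)) →* isomGroup (sympB n F) (fun _ => 0) :=
    MonoidHom.mk' (fun x => ⟨T x, by
      refine ⟨fun u v => ?_, fun _ => rfl⟩
      obtain ⟨u, rfl⟩ := e'.surjective u
      obtain ⟨v, rfl⟩ := e'.surjective v
      rw [hT, hT, he', he', hβ, hβ]
      simp only [hψB]⟩)
      (fun x y => Subtype.ext (LinearEquiv.ext fun u => by
        obtain ⟨u, rfl⟩ := e'.surjective u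
        show T (x * y) (e' u) = T x (T y (e' u))
        rw [hT, hT, hT]
        simp only [Pi.mul_apply, map_mul, LinearEquiv.mul_apply]))
  have hΦ : Function.Injective Φ := fun x y hxy => funext fun i => hψ (LinearEquiv.ext fun v => by
    have h1 : T x (e' (Pi.single i v, 0)) = T y (e' (Pi.single i v, 0)) :=
      LinearEquiv.congr_fun (congrArg Subtype.val hxy) _
    rw [hT, hT] at h1
    have h2 := congrFun (congrArg Prod.fst (e'.injective h1)) i
    simpa using h2)
  let φ := (spEquiv n F).symm.toMonoidHom.comp Φ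
  have hφ : Function.Injective φ := (spEquiv n F).symm.injective.comp hΦ
  let Q : Sylow r ↥(Matrix.symplecticGroup (Fin n) F) := Sylow.ofCard φ.range (by
    rw [← Nat.card_congr (MonoidHom.ofInjective hφ).toEquiv, Nat.card_fun, Nat.card_fin,
      Nat.card_congr Multiplicative.toAdd, Nat.card_zmod, Nat.factorization_def _ hr.out, hv, hN, ← pow_mul, mul_comm])
  exact ⟨(P.equiv Q).trans (MonoidHom.ofInjective hφ).symm⟩

end Cfsg.Agent.Linear.SympSylow
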