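import Cfsg.Agent.Forms.IsotropicStab
import Cfsg.Agent.Forms.SympElements
import Cfsg.Agent.GeomClasses.SubspaceDerange

/-!
# Subspaces with a property, counted by their bases
-/

set_option autoImplicit false
set_option linter.unusedSectionVars false

namespace Cfsg.Agent.Linear.TSCount

open Module Cfsg.Agent.Forms Cfsg.Agent.GeomClasses.SubspaceDerange

variable {F : Type*} [Field F] [Fintype F] {V : Type*} [AddCommGroup V] [Module F V] [FiniteDimensional F V]

theorem card_with {q : ℕ} (hq : Fintype.card F = q) {b : ℕ} (P : Submodule F V → Prop) (R : (Fin b → V) → Prop)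
    (hPR : ∀ s, LinearIndependent F s → (R s ↔ P (Submodule.span F (Set.range s)))) :
    Nat.card {s : Fin b → V // LinearIndependent F s ∧ R s} =
      Nat.card {W : Submodule F V // finrank F W = b ∧ P W} * (q ^ (∑ j ∈ Finset.range b, j) * qProd q b b) := by
  classical
  have : Finite V := Module.finite_of_finite F
  let sp : {s : Fin b → V // LinearIndependent F s ∧ R s} → {W : Submodule F V // finrank F W = b ∧ P W} := fun s =>
    ⟨Submodule.span F (Set.range s.1), by rw [finrank_span_eq_card s.2.1, Fintype.card_fin], (hPR _ s.2.1).1 s.2.2⟩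
  have key : ∀ W, Nat.card {s // sp s = W} = q ^ (∑ j ∈ Finset.range b, j) * qProd q b b := by
    intro W
    have hspan : ∀ t : Fin b → ↥(W : Submodule F V), LinearIndependent F t →
        Submodule.span F (Set.range fun i => (t i : V)) = W.1 := fun t ht => by
      apply Submodule.eq_of_le_of_finrank_eq (Submodule.span_le.2 (by rintro _ ⟨i, rfl⟩; exact (t i).2))
      exact (finrank_span_eq_card (ht.map' (Submodule.subtype _) (Submodule.ker_subtype _))).trans
        ((Fintype.card_fin b).trans W.2.1.symm)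
    let e : {s // sp s = W} ≃ {t : Fin b → ↥(W : Submodule F V) // LinearIndependent F t} :=
      { toFun := fun s => ⟨fun i => ⟨s.1.1 i,
          (congrArg Subtype.val s.2).le (Submodule.subset_span ⟨i, rfl⟩)⟩,
          LinearIndependent.of_comp (Submodule.subtype _) s.1.2.1⟩
        invFun := fun t => ⟨⟨fun i => (t.1 i : V), t.2.map' _ (Submodule.ker_subtype _),
          (hPR _ (t.2.map' _ (Submodule.ker_subtype _))).2 ((hspan t.1 t.2).symm ▸ W.2.2)⟩, Subtype.ext (hspan t.1 t.2)⟩
        left_inv := fun s => rfl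
        right_inv := fun t => rfl }
    rw [Nat.card_congr e, card_linearIndependent W.2.1.ge, W.2.1, hq, prod_pow_sub q b b le_rfl]
  have : Fintype {W : Submodule F V // finrank F W = b ∧ P W} := Fintype.ofFinite _
  have h := Nat.card_congr (Equiv.sigmaFiberEquiv sp).symm
  rw [Nat.card_sigma] at h
  simp only [key, Finset.sum_const, Finset.card_univ, smul_eq_mul, ← Nat.card_eq_fintype_card] at h
  exact h

/-- Divisors of the number of totally isotropic subspaces of a symplectic space. -/
theorem symp_dvd {p q : ℕ} [Fact p.Prime] [CharP F p] (hq : Fintype.card F = q) {B : LinearMap.BilinForm F V}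
    (hA : B.IsAlt) (hB : B.Nondegenerate) {d m r : ℕ} (hr : r.Prime) (hd : finrank F V = 2 * d) (hmd : m ≤ d)
    (h : r ∣ Nat.card {W : Submodule F V // finrank F W = m ∧ ∀ u ∈ W, ∀ v ∈ W, B u v = 0}) :
    r ≠ p ∧ ∃ a, 0 < a ∧ a ≤ d ∧ d < a + m ∧ r ∣ q ^ (2 * a) - 1 := by
  classical
  have hI : IsForm (RingHom.id F) B (fun _ => (0 : F)) := isForm_alt _ hB fun x => hA x
  have h1 : Nat.card (IsoFrame B (fun _ => (0 : F)) m) = _ :=
    card_with hq (fun W => ∀ u ∈ W, ∀ v ∈ W, B u v = 0) (fun w => (∀ i j, B (w i) (w j) = 0) ∧ ∀ _i : Fin m, (0 : F) = 0)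
      (fun s _ => by
        refine ⟨fun hs u hu v hv => ?_, fun hs => ⟨fun i j => hs _ (Submodule.subset_span ⟨i, rfl⟩) _
          (Submodule.subset_span ⟨j, rfl⟩), fun _ => rfl⟩⟩
        refine Submodule.span_induction ?_ (by simp) (fun x y _ _ hx hy => by simp [hx, hy])
          (fun a x _ hx => by simp [hx]) hu
        rintro _ ⟨i, rfl⟩
        refine Submodule.span_induction ?_ (by simp) (fun x y _ _ hx hy => by simp [hx, hy])
          (fun a x _ hx => by simp [hx]) hv
        rintro _ ⟨j, rfl⟩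
        exact hs.1 i j)
  have hcount := card_isoFrame_symp hq hI hA hd m hmd
  rw [h1] at hcount
  set N := Nat.card {W : Submodule F V // finrank F W = m ∧ ∀ u ∈ W, ∀ v ∈ W, B u v = 0}
  set G := fun i : ℕ => q ^ (2 * (i + 1)) - 1
  have hq1 : 1 < q := hq ▸ Fintype.one_lt_card
  have hG : ∀ i, 0 < G i := fun i => Nat.sub_pos_of_lt (Nat.one_lt_pow (by omega) hq1)
  have hsplit : ∏ i ∈ Finset.range d, G i = (∏ i ∈ Finset.range (d - m), G i) * ∏ i ∈ Finset.range m, G (d - m + i) := by
    rw [← Finset.prod_range_add, Nat.sub_add_cancel hmd]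
  have hsum : ∑ j ∈ Finset.range m, j = m * (m - 1) / 2 := Finset.sum_range_id m
  have key : N * qProd q m m = ∏ i ∈ Finset.range m, G (d - m + i) := by
    refine Nat.eq_of_mul_eq_mul_left (Nat.mul_pos (Nat.pow_pos (by omega : 0 < q) (n := m * (m - 1) / 2))
      (Finset.prod_pos fun i _ => hG i : 0 < ∏ i ∈ Finset.range (d - m), G i)) ?_
    rw [hsum] at hcount
    simp only [G] at hsplit ⊢
    linear_combination hcount + q ^ (m * (m - 1) / 2) * hsplit
  obtain ⟨i, hi, hdvd⟩ := hr.prime.exists_mem_finset_dvd (key ▸ Dvd.dvd.mul_right h _ : r ∣ ∏ i ∈ Finset.range m, G (d - m + i))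
  have hi := Finset.mem_range.1 hi
  refine ⟨fun hrp => ?_, d - m + i + 1, by omega, by omega, by omega, hdvd⟩
  subst hrp
  obtain ⟨f, -, hf⟩ := FiniteField.card F r
  have hpq : r ∣ q ^ (2 * (d - m + i + 1)) := dvd_pow (hq ▸ hf ▸ dvd_pow_self r f.ne_zero) (by omega)
  have := Nat.dvd_sub hpq hdvd
  rw [Nat.sub_sub_self (Nat.one_le_pow _ _ (by omega))] at this
  exact hr.one_lt.ne' (Nat.dvd_one.1 this)

end Cfsg.Agent.Linear.TSCount
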