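import Cfsg.Agent.Linear.UnipSkew
import Cfsg.Agent.Linear.NdInvol
import Cfsg.Agent.Linear.OrthFreeSub

/-!
# Isometries `1 + L + L²/2` with `L³ = 0`, odd characteristic
-/

set_option autoImplicit false
set_option linter.unusedSectionVars false

namespace Cfsg.Agent.Linear.UnipClass

open Module Cfsg.Agent.Forms Cfsg.Agent.Linear.OrthSpaces

variable {F : Type*} [Field F] [Fintype F] {V : Type*} [AddCommGroup V] [Module F V] [FiniteDimensional F V]
  {Q : QuadraticForm F V}

local notation "BQ" => QuadraticMap.polarBilin Q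

/-- A skew element with `L³ = 0`. -/
structure Skew3 (Q : QuadraticForm F V) (L : Module.End F V) : Prop where
  cube : ∀ v, L (L (L v)) = 0
  adj : ∀ u v, QuadraticMap.polar Q (L u) v + QuadraticMap.polar Q u (L v) = 0

/-- The exponential. -/
noncomputable def expo (L : Module.End F V) : Module.End F V := 1 + (L + (2 : F)⁻¹ • (L * L))

theorem Skew3.self {L : Module.End F V} (h : Skew3 Q L) (h2 : (2 : F) ≠ 0) (v : V) :
    QuadraticMap.polar Q (L v) v = 0 := by
  have h1 := h.adj v v
  rw [QuadraticMap.polar_comm (⇑Q) v (L v)] at h1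
  exact (mul_eq_zero.1 (show (2 : F) * QuadraticMap.polar Q (L v) v = 0 by linear_combination h1)).resolve_left h2

theorem Skew3.isometry {L : Module.End F V} (h : Skew3 Q L) (h2 : (2 : F) ≠ 0) (v : V) : Q (expo L v) = Q v := by
  have hq : ∀ u, QuadraticMap.polar Q u u = 2 * Q u := fun u => by
    rw [QuadraticMap.polar_self, two_nsmul, two_mul]
  refine mul_left_cancel₀ h2 ?_
  rw [← hq, ← hq]
  have a1 := h.self h2 v
  have a2 := h.adj v (L v)
  have a3 := h.self h2 (L v)
  have a4 : QuadraticMap.polar Q (L (L v)) (L (L v)) = 0 := by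
    have := h.adj (L v) (L (L v))
    rw [h.cube] at this
    simpa [QuadraticMap.polar] using this
  simp only [expo, LinearMap.add_apply, Module.End.one_apply, LinearMap.smul_apply, Module.End.mul_apply,
    QuadraticMap.polar_add_left, QuadraticMap.polar_add_right, QuadraticMap.polar_smul_left,
    QuadraticMap.polar_smul_right, smul_eq_mul, QuadraticMap.polar_comm (⇑Q) v (L v),
    QuadraticMap.polar_comm (⇑Q) (L (L v)) v, QuadraticMap.polar_comm (⇑Q) (L v) (L (L v))]
  rw [a1, a3, a4]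
  field_simp
  linear_combination 4 * a2

theorem Skew3.pow_char {L : Module.End F V} (h : Skew3 Q L) {p : ℕ} [Fact p.Prime] [CharP F p] [Nontrivial V]
    (hp : p ≠ 2) : expo L ^ p = 1 := by
  haveI : CharP (Module.End F V) p :=
    charP_of_injective_algebraMap (FaithfulSMul.algebraMap_injective F _) p
  have h3 : (L + (2 : F)⁻¹ • (L * L)) ^ 3 = 0 := by
    refine LinearMap.ext fun v => ?_
    simp only [pow_succ, pow_zero, one_mul, Module.End.mul_apply, LinearMap.add_apply, LinearMap.smul_apply, map_add,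
      map_smul, h.cube, map_zero, smul_zero, add_zero, LinearMap.zero_apply]
  rw [expo, add_pow_char_of_commute (p := p) (h := Commute.one_left _), one_pow,
    show p = 3 + (p - 3) by
      have := (Fact.out : p.Prime).two_le
      omega, pow_add, h3, zero_mul, add_zero]

theorem Skew3.inv_of_expo {L : Module.End F V} (h : Skew3 Q L) {W : Submodule F V}
    (hW : ∀ w ∈ W, expo L w ∈ W) : ∀ w ∈ W, L w ∈ W := by
  let N : Module.End F V := L + (2 : F)⁻¹ • (L * L)
  have hN : ∀ w ∈ W, N w ∈ W := fun w hw => by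
    have := W.sub_mem (hW w hw) hw
    simpa [expo, N] using this
  intro w hw
  have h1 := W.sub_mem (hN w hw) (W.smul_mem ((2 : F)⁻¹) (hN _ (hN w hw)))
  have h3 : N (N w) = L (L w) := by
    simp [N, h.cube]
  rw [h3] at h1
  simpa [N] using h1

theorem Skew3.perp_inv {L : Module.End F V} (h : Skew3 Q L) {W : Submodule F V} (hW : ∀ w ∈ W, L w ∈ W) :
    ∀ v ∈ perp BQ W, L v ∈ perp BQ W := fun v hv => mem_perp_iff.2 fun b hb => by
  have h1 := h.adj b v
  rw [mem_perp_iff.1 hv _ (hW b hb), zero_add] at h1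
  exact h1

/-- Rank bookkeeping on an invariant subspace of odd dimension. -/
theorem Skew3.ranks {L : Module.End F V} (h : Skew3 Q L) (h2 : (2 : F) ≠ 0) (hB : (BQ).Nondegenerate)
    {W : Submodule F V} (hWn : Nd Q W) (hW : ∀ w ∈ W, L w ∈ W) {d w : ℕ} (hn : finrank F V = 2 * d)
    (hw : finrank F W = 2 * w + 1) :
    ∃ a a' e e', finrank F (W.map L) = a ∧ finrank F ((perp BQ W).map L) = a' ∧
      finrank F ((W.map L).map L) = e ∧ finrank F (((perp BQ W).map L).map L) = e' ∧
      a + a' = finrank F (LinearMap.range L) ∧ e + e' = finrank F (LinearMap.range (L * L)) ∧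
      2 * a ≤ 2 * w + 1 + e ∧ 2 * a' + (2 * w + 1) ≤ 2 * d + e' ∧ Even a ∧ Even a' := by
  have hP := h.perp_inv hW
  have hc : IsCompl W (perp BQ W) := nd_isCompl hB hWn
  have hPn : Nd Q (perp BQ W) := by
    have := (nd_split hB hWn (nd_top hB) le_top).1
    rwa [top_inf_eq] at this
  have hd := finrank_sup hB hWn (le_refl (perp BQ W))
  rw [hc.sup_eq_top, finrank_top, hn] at hd
  refine ⟨_, _, _, _, rfl, rfl, rfl, rfl, UnipMinus.rank_split L hc hW hP, ?_, ?_, ?_,
    UnipSkew.even_rank_of_self (h.self h2) hWn hW, UnipSkew.even_rank_of_self (h.self h2) hPn hP⟩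
  · have := UnipMinus.rank_split (L * L) hc (fun x hx => hW _ (hW x hx)) fun x hx => hP _ (hP x hx)
    rwa [Module.End.mul_eq_comp, Submodule.map_comp, Submodule.map_comp] at this
  · have := UnipMinus.two_rank_le L hW; omega
  · have := UnipMinus.two_rank_le L hP; omega

/-- The line left by a square-zero part of maximal rank. -/
theorem Skew3.line_value {L : Module.End F V} (h : Skew3 Q L) (h2 : (2 : F) ≠ 0) (hB : (BQ).Nondegenerate)
    {u : V} (hu : L u = 0) (hker : LinearMap.ker L ≤ (LinearMap.ker L ⊓ LinearMap.range L) ⊔ F ∙ u)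
    {Y : Submodule F V} (hYn : Nd Q Y) (hY : ∀ y ∈ Y, L y ∈ Y) {a : ℕ} (hYd : finrank F Y = 2 * a + 1)
    (ha : finrank F (Y.map L) = a) (he : finrank F ((Y.map L).map L) = 0) :
    ∃ (H : Submodule F V) (v : V), H ≤ Y ∧ v ∈ Y ∧ Nd Q H ∧ Plus Q H ∧ finrank F H = 2 * a ∧
      (∀ x ∈ H, QuadraticMap.polar Q v x = 0) ∧ Q v ≠ 0 ∧ ∃ c : F, Q v = c * c * Q u := by
  have hsq : ∀ y ∈ Y, L (L y) = 0 := fun y hy => by
    have : L (L y) ∈ (Y.map L).map L := ⟨L y, ⟨y, hy, rfl⟩, rfl⟩
    rwa [Submodule.finrank_eq_zero.1 he, Submodule.mem_bot] at this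
  have hS : Y.map L ≤ Y ⊓ LinearMap.ker L := by
    rintro _ ⟨y, hy, rfl⟩
    exact ⟨hY y hy, hsq y hy⟩
  have hsing : Sing Q (Y.map L) := by
    rintro _ ⟨y, hy, rfl⟩
    have h1 := h.adj y (L y)
    rw [hsq y hy] at h1
    have h3 : (2 : F) * Q (L y) = 0 := by
      rw [QuadraticMap.polar_self, two_nsmul] at h1
      simp [QuadraticMap.polar] at h1
      linear_combination h1
    exact (mul_eq_zero.1 h3).resolve_left h2
  have hlt : finrank F (Y.map L) < finrank F ↥(Y ⊓ LinearMap.ker L) := by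
    have := UnipMinus.map_add_ker L Y
    omega
  obtain ⟨v, ⟨hvY, hvK⟩, hvS⟩ := SetLike.exists_of_lt (lt_of_le_of_ne hS fun e => by rw [e] at hlt; omega)
  -- values on the kernel
  obtain ⟨s, ⟨hs1, hs2⟩, t, ht, hst⟩ := Submodule.mem_sup.1 (hker hvK)
  obtain ⟨c, rfl⟩ := Submodule.mem_span_singleton.1 ht
  obtain ⟨x, hx⟩ := hs2
  have hperpK : ∀ k, L k = 0 → QuadraticMap.polar Q s k = 0 := fun k hk => by
    have := h.adj x k
    rw [hk, hx] at this
    simpa [QuadraticMap.polar] using this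
  have hQs : Q s = 0 := by
    have h1 := hperpK s hs1
    rw [QuadraticMap.polar_self, two_nsmul, ← two_mul] at h1
    exact (mul_eq_zero.1 h1).resolve_left h2
  have hQv : Q v = c * c * Q u := by
    rw [← hst, QuadraticMap.map_add Q, hQs, zero_add, QuadraticMap.map_smul, QuadraticMap.polar_smul_right,
      hperpK u hu, smul_zero, add_zero, smul_eq_mul]
  have hvperp : ∀ z ∈ Y.map L, QuadraticMap.polar Q v z = 0 := by
    rintro _ ⟨y, hy, rfl⟩
    have := h.adj v y
    rw [show L v = 0 from hvK] at this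
    simpa [QuadraticMap.polar] using this
  have hv0 : Q v ≠ 0 := by
    intro h0
    have hs' : Sing Q (Y.map L ⊔ F ∙ v) := by
      intro z hz
      obtain ⟨z1, hz1, z2, hz2, rfl⟩ := Submodule.mem_sup.1 hz
      obtain ⟨k, rfl⟩ := Submodule.mem_span_singleton.1 hz2
      rw [QuadraticMap.map_add Q, hsing z1 hz1, QuadraticMap.map_smul, h0, QuadraticMap.polar_smul_right,
        QuadraticMap.polar_comm, hvperp z1 hz1]
      simp
    have h1 := sing_le hYn (sup_le (hS.trans inf_le_left) ((Submodule.span_singleton_le_iff_mem _ _).2 hvY)) hs'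
    have h3 : finrank F (Y.map L) < finrank F ↥(Y.map L ⊔ F ∙ v) :=
      Submodule.finrank_lt_finrank_of_lt (lt_of_le_of_ne le_sup_left fun e => hvS (e ▸
        Submodule.mem_sup_right (Submodule.mem_span_singleton_self v)))
    omega
  have hln : Nd Q (F ∙ v) := fun z hz hzz => by
    obtain ⟨k, rfl⟩ := Submodule.mem_span_singleton.1 hz
    have h1 := hzz v (Submodule.mem_span_singleton_self v)
    rw [QuadraticMap.polar_smul_left, QuadraticMap.polar_self, smul_eq_mul, two_nsmul, ← two_mul] at h1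
    rw [(mul_eq_zero.1 h1).resolve_right (mul_ne_zero h2 hv0), zero_smul]
  obtain ⟨hHn, hHd, -⟩ := nd_split hB hln hYn ((Submodule.span_singleton_le_iff_mem _ _).2 hvY)
  rw [finrank_span_singleton (fun e => hv0 (by rw [e, map_zero]))] at hHd
  refine ⟨Y ⊓ perp BQ (F ∙ v), v, inf_le_left, hvY, hHn, ⟨Y.map L, fun z hz => ⟨(hS hz).1, mem_perp_iff.2 fun k hk => ?_⟩,
    hsing, by omega⟩, by omega, fun z hz => mem_perp_iff.1 hz.2 v (Submodule.mem_span_singleton_self v), hv0, c, hQv⟩
  obtain ⟨k', rfl⟩ := Submodule.mem_span_singleton.1 hk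
  rw [QuadraticMap.polar_smul_left, hvperp z hz, smul_zero]

/-- The class of the line in an odd-dimensional space. -/
theorem line_class (hB : (BQ).Nondegenerate) {X X' : Submodule F V} (hX : Nd Q X) (hiso : Iso Q X' X)
    {H H' : Submodule F V} {v v' : V} (hH : H ≤ X) (hv : v ∈ X) (hHn : Nd Q H) (hHp : Plus Q H)
    (hH' : H' ≤ X') (hv' : v' ∈ X') (hH'n : Nd Q H') (hH'p : Plus Q H') {a : ℕ} (hHd : finrank F H = 2 * a)
    (hH'd : finrank F H' = 2 * a) (hXd : finrank F X = 2 * a + 1)
    (hvp : ∀ x ∈ H, QuadraticMap.polar Q v x = 0) (hv'p : ∀ x ∈ H', QuadraticMap.polar Q v' x = 0)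
    (hv0 : Q v ≠ 0) : ∃ c : F, Q v' = c * c * Q v := by
  obtain ⟨g, hg, hgX⟩ := exists_map_eq hB hiso
  have hgH : H'.map g.toLinearMap ≤ X := hgX ▸ Submodule.map_mono hH'
  have hgv : g v' ∈ X := hgX ▸ Submodule.mem_map_of_mem hv'
  let K := Q.comp X.subtype
  have hKn := res_nondeg hX
  have hmap : ∀ S : Submodule F V, S ≤ X → (S.comap X.subtype).map X.subtype = S := fun S hS => by
    rw [Submodule.map_comap_subtype, inf_eq_right.2 hS]
  have hd : ∀ S : Submodule F V, S ≤ X → finrank F (S.comap X.subtype) = finrank F S := fun S hS =>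
    (Submodule.comapSubtypeEquivOfLe hS).finrank_eq
  have hAn : Nd K (H.comap X.subtype) := by rw [OrthFreeSub.nd_res, hmap H hH]; exact hHn
  have hA'n : Nd K ((H'.map g.toLinearMap).comap X.subtype) := by
    rw [OrthFreeSub.nd_res, hmap _ hgH]; exact (map_isom hg).1 hH'n
  have hAp : Plus K (H.comap X.subtype) := by rw [OrthFreeSub.plus_res, hmap H hH]; exact hHp
  have hA'p : Plus K ((H'.map g.toLinearMap).comap X.subtype) := by
    rw [OrthFreeSub.plus_res, hmap _ hgH]; exact plus_map hg hH'p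
  have hi := iso_of_type hA'n hAn (by rw [hd _ hgH, hd H hH, LinearEquiv.finrank_map_eq, hH'd, hHd])
    ⟨a, by rw [hd _ hgH, LinearEquiv.finrank_map_eq, hH'd]; omega⟩ (iff_of_true hA'p hAp)
  obtain ⟨f, hf, hfA⟩ := exists_map_eq hKn hi
  set w : X := f ⟨g v', hgv⟩
  have hwp : w ∈ perp (QuadraticMap.polarBilin K) (H.comap X.subtype) := mem_perp_iff.2 fun z hz => by
    rw [← hfA] at hz
    obtain ⟨y, hy, rfl⟩ := hz
    have hy' : (y : V) ∈ H'.map g.toLinearMap := hy
    obtain ⟨y', hy'H, hyy⟩ := hy'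
    have e : QuadraticMap.polar K y ⟨g v', hgv⟩ = 0 := by
      show QuadraticMap.polar K y ⟨g v', hgv⟩ = 0
      rw [← QuadraticMap.polarBilin_apply_apply, polar_res, ← hyy]
      simp only [LinearEquiv.coe_coe, QuadraticMap.polar, ← map_add, hg]
      have := hv'p y' hy'H
      rw [QuadraticMap.polar, add_comm v' y'] at this
      linear_combination this
    rw [← e]
    show QuadraticMap.polar K (f y) (f ⟨g v', hgv⟩) = _
    simp only [QuadraticMap.polar, ← map_add]
    rw [hf, hf, hf]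
  have hvp' : (⟨v, hv⟩ : X) ∈ perp (QuadraticMap.polarBilin K) (H.comap X.subtype) := mem_perp_iff.2 fun z hz => by
    rw [← QuadraticMap.polarBilin_apply_apply, polar_res, QuadraticMap.polar_comm]
    exact hvp _ hz
  obtain ⟨-, hRd, -⟩ := nd_split hKn hAn (nd_top hKn) le_top
  rw [top_inf_eq, finrank_top, hd H hH, hHd, hXd] at hRd
  have hne : (⟨v, hv⟩ : X) ≠ 0 := fun e => hv0 (by
    have := congrArg Subtype.val e
    simp only [Submodule.coe_zero] at this
    rw [this, map_zero])
  have hspan : F ∙ (⟨v, hv⟩ : X) = perp (QuadraticMap.polarBilin K) (H.comap X.subtype) :=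
    Submodule.eq_of_le_of_finrank_le ((Submodule.span_singleton_le_iff_mem _ _).2 hvp')
      (by
        rw [finrank_span_singleton hne]
        show finrank F (perp (QuadraticMap.polarBilin (Q.comp X.subtype)) (H.comap X.subtype)) ≤ 1
        omega)
  rw [← hspan, Submodule.mem_span_singleton] at hwp
  obtain ⟨c, hc⟩ := hwp
  refine ⟨c, ?_⟩
  have h1 := hf ⟨g v', hgv⟩
  show Q v' = _
  rw [show f ⟨g v', hgv⟩ = c • (⟨v, hv⟩ : X) from hc.symm, QuadraticMap.map_smul] at h1
  change c * c * Q v = Q (g v') at h1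
  rw [h1, hg]

end Cfsg.Agent.Linear.UnipClass
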