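import Cfsg.Agent.Linear.UnipClass

/-!
# Elements with a block of size three
-/

set_option autoImplicit false
set_option linter.unusedSectionVars false

namespace Cfsg.Agent.Linear.UnipClassElem

open Module Cfsg.Agent.Forms Cfsg.Agent.Linear.OrthSpaces Cfsg.Agent.Linear.UnipClass

variable {F : Type*} [Field F] [Fintype F] {V : Type*} [AddCommGroup V] [Module F V] [FiniteDimensional F V]
  {Q : QuadraticForm F V} {q : ℕ}

local notation "BQ" => QuadraticMap.polarBilin Q

/-- The skew element of two orthogonal vectors. -/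
noncomputable def wedge (Q : QuadraticForm F V) (e z : V) : Module.End F V :=
  ((QuadraticMap.polarBilin Q) z).smulRight e - ((QuadraticMap.polarBilin Q) e).smulRight z

theorem wedge_apply (e z v : V) :
    wedge Q e z v = QuadraticMap.polar Q z v • e - QuadraticMap.polar Q e v • z := rfl

theorem wedge_adj (e z u v : V) :
    QuadraticMap.polar Q (wedge Q e z u) v + QuadraticMap.polar Q u (wedge Q e z v) = 0 := by
  simp only [wedge_apply, sub_eq_add_neg, ← neg_smul, QuadraticMap.polar_add_left, QuadraticMap.polar_add_right,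
    QuadraticMap.polar_smul_left, QuadraticMap.polar_smul_right, smul_eq_mul, QuadraticMap.polar_comm (⇑Q) u e,
    QuadraticMap.polar_comm (⇑Q) u z]
  ring

/-- Data of a block of size three: a singular `e`, a partner `f`, and an anisotropic `z`. -/
structure Triple (Q : QuadraticForm F V) (e f z : V) : Prop where
  ee : Q e = 0
  ef : QuadraticMap.polar Q e f = 1
  ez : QuadraticMap.polar Q e z = 0
  zf : QuadraticMap.polar Q z f = 0
  zz : Q z ≠ 0

theorem Triple.images (h2 : (2 : F) ≠ 0) {e f z : V} (h : Triple Q e f z) :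
    wedge Q e z e = 0 ∧ wedge Q e z f = -z ∧ ∃ t : F, t ≠ 0 ∧ wedge Q e z z = t • e := by
  refine ⟨?_, ?_, 2 * Q z, mul_ne_zero h2 h.zz, ?_⟩
  · rw [wedge_apply, QuadraticMap.polar_comm (⇑Q) z e, h.ez, QuadraticMap.polar_self, h.ee]; simp
  · rw [wedge_apply, h.zf, h.ef]; simp
  · rw [wedge_apply, h.ez, QuadraticMap.polar_self, two_nsmul, ← two_mul]; simp

theorem Triple.twice (h2 : (2 : F) ≠ 0) {e f z : V} (h : Triple Q e f z) (v : V) :
    ∃ s : F, wedge Q e z (wedge Q e z v) = s • e ∧ wedge Q e z (wedge Q e z (wedge Q e z v)) = 0 := by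
  obtain ⟨he, -, t, -, hz⟩ := h.images h2
  have key : ∀ v, ∃ s : F, wedge Q e z (wedge Q e z v) = s • e := fun v =>
    ⟨-(QuadraticMap.polar Q e v * t), by
      rw [wedge_apply e z v, map_sub, map_smul, map_smul, he, hz, smul_smul, smul_zero, zero_sub, neg_smul]⟩
  obtain ⟨s, hs⟩ := key v
  exact ⟨s, hs, by rw [hs, map_smul, he, smul_zero]⟩

theorem wedge_zero {e z v : V} (h1 : QuadraticMap.polar Q e v = 0) (h3 : QuadraticMap.polar Q z v = 0) :
    wedge Q e z v = 0 := by
  rw [wedge_apply, h1, h3]; simp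

/-- A pair with an orthogonal anisotropic vector inside a space of dimension at least three. -/
theorem exists_triple (hB : (BQ).Nondegenerate) (hF : Fintype.card F = q) (hq : Odd q) {X : Submodule F V}
    (hX : Nd Q X) (hd : 3 ≤ finrank F X) :
    ∃ e f z, e ∈ X ∧ f ∈ X ∧ z ∈ X ∧ Triple Q e f z := by
  have h2 := two_ne_zero_of_odd hF hq
  obtain ⟨P, hPX, hPn, hPp, hPd⟩ := exists_hyp hX (u := 1) (Or.inl (by omega))
  obtain ⟨U, hUP, hU, hUd⟩ := hPp
  obtain ⟨e, heU, he0⟩ := U.ne_bot_iff.1 fun h => by rw [h, finrank_bot] at hUd; omega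
  obtain ⟨f₀, hf₀, hef⟩ : ∃ f ∈ P, QuadraticMap.polar Q e f ≠ 0 := by
    by_contra hcon
    push Not at hcon
    exact he0 (hPn e (hUP heU) hcon)
  obtain ⟨hRn, hRd, -⟩ := nd_split hB hPn hX hPX
  obtain ⟨z, hz, hzz⟩ : ∃ z ∈ X ⊓ perp BQ P, Q z ≠ 0 := by
    by_contra hcon
    push Not at hcon
    have := sing_le hRn le_rfl hcon
    omega
  refine ⟨e, (QuadraticMap.polar Q e f₀)⁻¹ • f₀, z, hPX (hUP heU), X.smul_mem _ (hPX hf₀), hz.1, hU e heU, ?_,
    mem_perp_iff.1 hz.2 e (hUP heU), ?_, hzz⟩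
  · rw [QuadraticMap.polar_smul_right, smul_eq_mul, inv_mul_cancel₀ hef]
  · have h0 : QuadraticMap.polar Q z f₀ = 0 := by rw [QuadraticMap.polar_comm]; exact mem_perp_iff.1 hz.2 f₀ hf₀
    rw [QuadraticMap.polar_smul_right, h0, smul_zero]

/-- A square-zero element supported on a hyperbolic subspace. -/
theorem exists_L0 (hB : (BQ).Nondegenerate) {H : Submodule F V} (hHn : Nd Q H) (hHp : Plus Q H) {k : ℕ}
    (hHd : finrank F H = 2 * (2 * k)) :
    ∃ L : Module.End F V, UnipSkew.Skew Q L ∧ (∀ v, L v ∈ H) ∧ (∀ v ∈ perp BQ H, L v = 0) ∧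
      finrank F (LinearMap.range L) = 2 * k := by
  obtain ⟨L', hL', hrk⟩ := UnipSkew.exists_skew (Q := Q.comp H.subtype) (res_nondeg hHn) (k := k)
    (Or.inr ⟨hHd.symm, (OrthFreeSub.plus_top_res H).2 hHp⟩)
  let π : V →ₗ[F] H := H.projectionOnto (perp BQ H) (nd_isCompl hB hHn)
  have hπH : ∀ x : H, π x = x := fun x => Submodule.projectionOnto_apply_left (nd_isCompl hB hHn) x
  have hπK : ∀ v ∈ perp BQ H, π v = 0 := fun v hv => by
    rw [← Submodule.ker_projectionOnto (nd_isCompl hB hHn)] at hv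
    exact hv
  have hrem : ∀ v, v - (π v : V) ∈ perp BQ H := fun v => by
    rw [← Submodule.ker_projectionOnto (nd_isCompl hB hHn), LinearMap.mem_ker, map_sub]
    exact sub_eq_zero.2 (hπH (π v)).symm
  refine ⟨H.subtype ∘ₗ L' ∘ₗ π, ⟨fun v => ?_, fun v => ?_, fun v => hL'.sing (π v)⟩,
    fun v => (L' (π v)).2, fun v hv => ?_, ?_⟩
  · show ((L' (π ((L' (π v) : H) : V)) : H) : V) = 0
    rw [hπH, hL'.sq, Submodule.coe_zero]
  · show QuadraticMap.polar Q ((L' (π v) : H) : V) v = 0
    conv_lhs => arg 3; rw [show v = (π v : V) + (v - π v) by abel]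
    rw [QuadraticMap.polar_add_right, mem_perp_iff.1 (hrem v) _ (L' (π v)).2, add_zero]
    exact (polar_res H _ _).symm.trans (hL'.self (π v))
  · show ((L' (π v) : H) : V) = 0
    rw [hπK v hv, map_zero, Submodule.coe_zero]
  · have hr : LinearMap.range (H.subtype ∘ₗ L' ∘ₗ π) = (LinearMap.range L').map H.subtype := by
      rw [← LinearMap.range_comp]
      refine le_antisymm ?_ ?_
      · rintro _ ⟨v, rfl⟩; exact ⟨_, rfl⟩
      · rintro _ ⟨z, rfl⟩; exact ⟨(z : V), by show ((L' (π z) : H) : V) = _; rw [hπH]; rfl⟩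
    rw [hr, Submodule.finrank_map_subtype_eq, hrk]

theorem adj_of_skew {L : Module.End F V} (h : UnipSkew.Skew Q L) (u v : V) :
    QuadraticMap.polar Q (L u) v + QuadraticMap.polar Q u (L v) = 0 := by
  have h1 := h.self (u + v)
  rw [map_add, QuadraticMap.polar_add_left, QuadraticMap.polar_add_right, QuadraticMap.polar_add_right, h.self u,
    h.self v, QuadraticMap.polar_comm (⇑Q) (L v) u] at h1
  linear_combination h1

/-- One block of size three and a prescribed line. -/
theorem exists_one (hB : (BQ).Nondegenerate) (hF : Fintype.card F = q) (hq : Odd q) {k : ℕ}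
    (hn : finrank F V = 2 * (2 * k + 2)) {lam : F} (hlam : lam ≠ 0) :
    ∃ (L : Module.End F V) (u : V), Skew3 Q L ∧ L u = 0 ∧ Q u = lam ∧
      2 * k + 2 ≤ finrank F (LinearMap.range L) ∧ finrank F (LinearMap.range (L * L)) ≤ 1 ∧
      LinearMap.ker L ≤ (LinearMap.ker L ⊓ LinearMap.range L) ⊔ F ∙ u := by
  have h2 := two_ne_zero_of_odd hF hq
  obtain ⟨u, -, hu⟩ := NdInvol.exists_value hF hq (nd_top hB) (by rw [finrank_top]; omega) (c := lam)
  have hu0 : u ≠ 0 := fun e => hlam (by rw [← hu, e, map_zero])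
  have hln : Nd Q (F ∙ u) := fun z hz hzz => by
    obtain ⟨c, rfl⟩ := Submodule.mem_span_singleton.1 hz
    have h1 := hzz u (Submodule.mem_span_singleton_self u)
    rw [QuadraticMap.polar_smul_left, QuadraticMap.polar_self, hu, smul_eq_mul, two_nsmul, ← two_mul] at h1
    rw [(mul_eq_zero.1 h1).resolve_right (mul_ne_zero h2 hlam), zero_smul]
  obtain ⟨hYn, hYd, -⟩ := nd_split hB hln (nd_top hB) le_top
  rw [top_inf_eq] at hYn hYd
  rw [finrank_top, finrank_span_singleton hu0] at hYd
  obtain ⟨H, hHY, hHn, hHp, hHd⟩ := exists_hyp hYn (u := 2 * k) (Or.inl (by omega))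
  obtain ⟨hXn, hXd, -⟩ := nd_split hB hHn hYn hHY
  obtain ⟨e, f, z, he, hf, hz, ht⟩ := exists_triple hB hF hq hXn (by omega)
  obtain ⟨L0, hL0, hL0H, hL0K, hrk⟩ := exists_L0 hB hHn hHp hHd
  obtain ⟨hwe, hwf, t, ht0, hwz⟩ := ht.images h2
  have hwH : ∀ x ∈ H, wedge Q e z x = 0 := fun x hx => wedge_zero
    (by rw [QuadraticMap.polar_comm]; exact mem_perp_iff.1 he.2 x hx)
    (by rw [QuadraticMap.polar_comm]; exact mem_perp_iff.1 hz.2 x hx)
  have hL0w : ∀ v, L0 (wedge Q e z v) = 0 := fun v => by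
    rw [wedge_apply, map_sub, map_smul, map_smul, hL0K e he.2, hL0K z hz.2]; simp
  set L := L0 + wedge Q e z with hL
  have hLL : ∀ v, L (L v) = wedge Q e z (wedge Q e z v) := fun v => by
    simp only [hL, LinearMap.add_apply, map_add, hL0.sq, hL0w, hwH _ (hL0H v), zero_add]
  have huH : u ∈ perp BQ H := mem_perp_iff.2 fun x hx => by
    rw [QuadraticMap.polar_comm]
    exact mem_perp_iff.1 (hHY hx) u (Submodule.mem_span_singleton_self u)
  have hue : ∀ x ∈ perp BQ (F ∙ u), QuadraticMap.polar Q x u = 0 := fun x hx => by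
    rw [QuadraticMap.polar_comm]; exact mem_perp_iff.1 hx u (Submodule.mem_span_singleton_self u)
  have hLu : L u = 0 := by
    rw [hL, LinearMap.add_apply, hL0K u huH, wedge_zero (hue e he.1) (hue z hz.1), zero_add]
  have hLH : ∀ x ∈ H, L x = L0 x := fun x hx => by rw [hL, LinearMap.add_apply, hwH x hx, add_zero]
  have hLe : L e = 0 := by rw [hL, LinearMap.add_apply, hL0K e he.2, hwe, zero_add]
  have hLz : L z = t • e := by rw [hL, LinearMap.add_apply, hL0K z hz.2, hwz, zero_add]
  have hLf : L f = -z := by rw [hL, LinearMap.add_apply, hL0K f hf.2, hwf, zero_add]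
  have heR : e ∈ LinearMap.range L := ⟨t⁻¹ • z, by rw [map_smul, hLz, smul_smul, inv_mul_cancel₀ ht0, one_smul]⟩
  have hzR : z ∈ LinearMap.range L := ⟨-f, by rw [map_neg, hLf, neg_neg]⟩
  have hR0 : LinearMap.range L0 ≤ LinearMap.range L := by
    rintro _ ⟨v, rfl⟩
    obtain ⟨a, ha, b, hb, rfl⟩ := Submodule.mem_sup.1
      (show v ∈ H ⊔ perp BQ H from (nd_isCompl hB hHn).sup_eq_top ▸ Submodule.mem_top)
    exact ⟨a, by rw [hLH a ha, map_add, hL0K b hb, add_zero]⟩
  have hliez : LinearIndependent F ![e, z] := LinearIndependent.pair_iff.2 fun a b hab => by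
    have h1 := congrArg (fun w => QuadraticMap.polar Q w z) hab
    have h3 := congrArg (fun w => QuadraticMap.polar Q w f) hab
    simp only [QuadraticMap.polar_add_left, QuadraticMap.polar_smul_left, ht.ez, ht.ef, ht.zf, smul_eq_mul,
      mul_zero, mul_one, zero_add, add_zero, QuadraticMap.polar_self] at h1 h3
    simp only [QuadraticMap.polar, zero_add, map_zero, sub_zero, sub_self, two_nsmul, ← two_mul] at h1 h3
    exact ⟨h3, (mul_eq_zero.1 h1).resolve_right (mul_ne_zero h2 ht.zz)⟩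
  have hrange : 2 * k + 2 ≤ finrank F (LinearMap.range L) := by
    have hS : Submodule.span F (Set.range ![e, z]) ≤ perp BQ H := Submodule.span_le.2 (by
      rintro _ ⟨i, rfl⟩; fin_cases i; exacts [he.2, hz.2])
    have hb : LinearMap.range L0 ⊓ Submodule.span F (Set.range ![e, z]) = ⊥ :=
      le_bot_iff.1 (inf_bot hB hHn (le_refl _) ▸ inf_le_inf (by rintro _ ⟨v, rfl⟩; exact hL0H v) hS)
    have h1 := Submodule.finrank_sup_add_finrank_inf_eq (LinearMap.range L0) (Submodule.span F (Set.range ![e, z]))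
    rw [hb, finrank_bot, hrk, finrank_span_eq_card hliez, Fintype.card_fin] at h1
    have h3 := Submodule.finrank_mono (sup_le hR0 (Submodule.span_le.2 (by
      rintro _ ⟨i, rfl⟩; fin_cases i; exacts [heR, hzR]) : Submodule.span F (Set.range ![e, z]) ≤ LinearMap.range L))
    omega
  refine ⟨L, u, ⟨fun v => ?_, fun v w => ?_⟩, hLu, hu, hrange, ?_, ?_⟩
  · obtain ⟨s, hs, -⟩ := ht.twice h2 v
    rw [hLL v, hs, map_smul, hLe, smul_zero]
  · simp only [hL, LinearMap.add_apply, QuadraticMap.polar_add_left, QuadraticMap.polar_add_right]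
    linear_combination adj_of_skew hL0 v w + wedge_adj (Q := Q) e z v w
  · have he0 : e ≠ 0 := fun h => one_ne_zero (α := F) (ht.ef.symm.trans (by rw [h]; simp [QuadraticMap.polar]))
    refine (Submodule.finrank_mono (t := F ∙ e) ?_).trans (by rw [finrank_span_singleton he0])
    rintro _ ⟨v, rfl⟩
    obtain ⟨s, hs, -⟩ := ht.twice h2 v
    rw [Module.End.mul_apply, hLL, hs]
    exact Submodule.smul_mem _ _ (Submodule.mem_span_singleton_self e)
  · have hle : LinearMap.range L0 ⊔ F ∙ e ⊔ F ∙ u ≤ LinearMap.ker L := by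
      refine sup_le (sup_le ?_ ?_) ?_
      · rintro _ ⟨v, rfl⟩
        rw [LinearMap.mem_ker, hLH _ (hL0H v), hL0.sq]
      · exact (Submodule.span_singleton_le_iff_mem _ _).2 hLe
      · exact (Submodule.span_singleton_le_iff_mem _ _).2 hLu
    have heu : LinearIndependent F ![e, u] := LinearIndependent.pair_iff.2 fun a b hab => by
      have h1 := congrArg (fun w => QuadraticMap.polar Q w f) hab
      have h3 := congrArg (fun w => QuadraticMap.polar Q w u) hab
      simp only [QuadraticMap.polar_add_left, QuadraticMap.polar_smul_left, ht.ef, hue e he.1,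
        (QuadraticMap.polar_comm (⇑Q) u f).trans (hue f hf.1), smul_eq_mul, mul_zero, mul_one, add_zero, zero_add,
        QuadraticMap.polar_self, hu] at h1 h3
      simp only [QuadraticMap.polar, zero_add, map_zero, sub_zero, sub_self, two_nsmul, ← two_mul] at h1 h3
      exact ⟨h1, (mul_eq_zero.1 h3).resolve_right (mul_ne_zero h2 hlam)⟩
    have hS : Submodule.span F (Set.range ![e, u]) ≤ perp BQ H := Submodule.span_le.2 (by
      rintro _ ⟨i, rfl⟩; fin_cases i; exacts [he.2, huH])
    have hb : LinearMap.range L0 ⊓ Submodule.span F (Set.range ![e, u]) = ⊥ :=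
      le_bot_iff.1 (inf_bot hB hHn (le_refl _) ▸ inf_le_inf (by rintro _ ⟨v, rfl⟩; exact hL0H v) hS)
    have h1 := Submodule.finrank_sup_add_finrank_inf_eq (LinearMap.range L0) (Submodule.span F (Set.range ![e, u]))
    rw [hb, finrank_bot, hrk, finrank_span_eq_card heu, Fintype.card_fin] at h1
    have hspan : Submodule.span F (Set.range ![e, u]) = F ∙ e ⊔ F ∙ u := by
      rw [Matrix.range_cons_cons_empty, Submodule.span_insert]
    rw [hspan, ← sup_assoc] at h1
    have h3 := L.finrank_range_add_finrank_ker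
    have heq := Submodule.eq_of_le_of_finrank_le hle (by omega)
    rw [← heq]
    refine sup_le_sup_right (le_inf le_sup_left (sup_le hR0 ((Submodule.span_singleton_le_iff_mem _ _).2 heR))) _

/-- Two blocks of size three. -/
theorem exists_two (hB : (BQ).Nondegenerate) (hF : Fintype.card F = q) (hq : Odd q) {k : ℕ}
    (hn : finrank F V = 2 * (2 * k + 3)) :
    ∃ L : Module.End F V, Skew3 Q L ∧ 2 * k + 4 ≤ finrank F (LinearMap.range L) ∧
      finrank F (LinearMap.range (L * L)) ≤ 2 := by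
  have h2 := two_ne_zero_of_odd hF hq
  obtain ⟨H, -, hHn, hHp, hHd⟩ := exists_hyp (nd_top hB) (u := 2 * k) (Or.inl (by rw [finrank_top]; omega))
  obtain ⟨hXn, hXd, -⟩ := nd_split hB hHn (nd_top hB) le_top
  rw [finrank_top] at hXd
  -- split the six-dimensional rest into two halves
  obtain ⟨v, hv, hvo⟩ := NdInvol.exists_family hB hF hq 3 _ hXn (by omega) (fun _ => (1 : F)) fun _ => one_ne_zero
  let U := Submodule.span F (Set.range v)
  have hpv : ∀ i j, QuadraticMap.polar Q (v i) (v j) = if i = j then 2 else 0 := fun i j => by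
    rcases eq_or_ne i j with rfl | hij
    · rw [if_pos rfl, QuadraticMap.polar_self, (hv i).2]; simp
    · rw [if_neg hij, hvo i j hij]
  have hUn : Nd Q U := fun x hx hz => by
    obtain ⟨c, rfl⟩ := (Submodule.mem_span_range_iff_exists_fun F).1 hx
    refine Finset.sum_eq_zero fun i _ => ?_
    have h := hz (v i) (Submodule.subset_span ⟨i, rfl⟩)
    rw [QuadraticMap.polar_comm, ← QuadraticMap.polarBilin_apply_apply, map_sum] at h
    simp only [map_smul, QuadraticMap.polarBilin_apply_apply, hpv, smul_eq_mul, mul_ite, mul_zero,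
      Finset.sum_ite_eq, Finset.mem_univ, if_true] at h
    rw [(mul_eq_zero.1 h).resolve_right h2, zero_smul]
  have hUd : finrank F U = 3 := by
    rw [finrank_span_eq_card (LinearMap.BilinForm.linearIndependent_of_iIsOrtho (B := BQ) (v := v)
      (LinearMap.BilinForm.iIsOrtho_def.2 fun s t hst => by
        rw [QuadraticMap.polarBilin_apply_apply, hpv, if_neg hst])
      fun s => by rw [QuadraticMap.polarBilin_apply_apply, hpv, if_pos rfl]; exact h2)]
    simp
  have hUX : U ≤ ⊤ ⊓ perp BQ H := Submodule.span_le.2 (by rintro _ ⟨i, rfl⟩; exact (hv i).1)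
  obtain ⟨hU'n, hU'd, -⟩ := nd_split hB hUn hXn hUX
  obtain ⟨e, f, z, he, hf, hz, ht⟩ := exists_triple hB hF hq hUn (by omega)
  obtain ⟨e', f', z', he', hf', hz', ht'⟩ := exists_triple hB hF hq hU'n (by omega)
  obtain ⟨L0, hL0, hL0H, hL0K, hrk⟩ := exists_L0 hB hHn hHp hHd
  obtain ⟨hwe, hwf, t, ht0, hwz⟩ := ht.images h2
  obtain ⟨hwe', hwf', t', ht0', hwz'⟩ := ht'.images h2
  have hcross : ∀ x ∈ U, ∀ y ∈ (⊤ ⊓ perp BQ H) ⊓ perp BQ U, QuadraticMap.polar Q x y = 0 := fun x hx y hy =>
    mem_perp_iff.1 hy.2 x hx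
  have hcross' : ∀ x ∈ U, ∀ y ∈ (⊤ ⊓ perp BQ H) ⊓ perp BQ U, QuadraticMap.polar Q y x = 0 := fun x hx y hy => by
    rw [QuadraticMap.polar_comm]; exact hcross x hx y hy
  have hw'U : ∀ x ∈ U, wedge Q e' z' x = 0 := fun x hx => wedge_zero (hcross' x hx e' he') (hcross' x hx z' hz')
  have hwU' : ∀ y ∈ (⊤ ⊓ perp BQ H) ⊓ perp BQ U, wedge Q e z y = 0 := fun y hy =>
    wedge_zero (hcross e he y hy) (hcross z hz y hy)
  have hHperp : ∀ {x y : V}, x ∈ perp BQ H → y ∈ H → QuadraticMap.polar Q x y = 0 := fun hx hy => by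
    rw [QuadraticMap.polar_comm]; exact mem_perp_iff.1 hx _ hy
  have hwH : ∀ x ∈ H, wedge Q e z x = 0 ∧ wedge Q e' z' x = 0 := fun x hx =>
    ⟨wedge_zero (hHperp (hUX he).2 hx) (hHperp (hUX hz).2 hx), wedge_zero (hHperp he'.1.2 hx) (hHperp hz'.1.2 hx)⟩
  have hwmem : ∀ w, wedge Q e z w ∈ U := fun w => by
    rw [wedge_apply]; exact U.sub_mem (U.smul_mem _ he) (U.smul_mem _ hz)
  have hwmem' : ∀ w, wedge Q e' z' w ∈ (⊤ ⊓ perp BQ H) ⊓ perp BQ U := fun w => by
    rw [wedge_apply]; exact Submodule.sub_mem _ (Submodule.smul_mem _ _ he') (Submodule.smul_mem _ _ hz')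
  set L := L0 + wedge Q e z + wedge Q e' z' with hL
  have hLU : ∀ x ∈ U, L x = wedge Q e z x := fun x hx => by
    rw [hL, LinearMap.add_apply, LinearMap.add_apply, hL0K x (hUX hx).2, hw'U x hx, zero_add, add_zero]
  have hLU' : ∀ x ∈ (⊤ ⊓ perp BQ H) ⊓ perp BQ U, L x = wedge Q e' z' x := fun x hx => by
    rw [hL, LinearMap.add_apply, LinearMap.add_apply, hL0K x hx.1.2, hwU' x hx, zero_add, zero_add]
  have hLH : ∀ x ∈ H, L x = L0 x := fun x hx => by
    rw [hL, LinearMap.add_apply, LinearMap.add_apply, (hwH x hx).1, (hwH x hx).2, add_zero, add_zero]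
  have hLL : ∀ w, L (L w) = wedge Q e z (wedge Q e z w) + wedge Q e' z' (wedge Q e' z' w) := fun w => by
    conv_lhs => rw [show L w = L0 w + wedge Q e z w + wedge Q e' z' w from rfl]
    rw [map_add, map_add, hLH _ (hL0H w), hLU _ (hwmem w), hLU' _ (hwmem' w), hL0.sq, zero_add]
  have hLe : L e = 0 := by rw [hLU e he, hwe]
  have hLe' : L e' = 0 := by rw [hLU' e' he', hwe']
  refine ⟨L, ⟨fun w => ?_, fun v w => ?_⟩, ?_, ?_⟩
  · obtain ⟨s, hs, -⟩ := ht.twice h2 w
    obtain ⟨s', hs', -⟩ := ht'.twice h2 w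
    rw [hLL w, hs, hs', map_add, map_smul, map_smul, hLe, hLe', smul_zero, smul_zero, add_zero]
  · simp only [hL, LinearMap.add_apply, QuadraticMap.polar_add_left, QuadraticMap.polar_add_right]
    linear_combination adj_of_skew hL0 v w + wedge_adj (Q := Q) e z v w + wedge_adj (Q := Q) e' z' v w
  · have hmem : ∀ i, ![e, z, e', z'] i ∈ LinearMap.range L ⊓ perp BQ H := by
      intro i
      fin_cases i
      · exact ⟨⟨t⁻¹ • z, by rw [map_smul, hLU z hz, hwz, smul_smul, inv_mul_cancel₀ ht0, one_smul]; rfl⟩, (hUX he).2⟩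
      · exact ⟨⟨-f, by rw [map_neg, hLU f hf, hwf, neg_neg]; rfl⟩, (hUX hz).2⟩
      · exact ⟨⟨t'⁻¹ • z', by rw [map_smul, hLU' z' hz', hwz', smul_smul, inv_mul_cancel₀ ht0', one_smul]; rfl⟩,
          he'.1.2⟩
      · exact ⟨⟨-f', by rw [map_neg, hLU' f' hf', hwf', neg_neg]; rfl⟩, hz'.1.2⟩
    have hli : LinearIndependent F ![e, z, e', z'] := by
      refine Fintype.linearIndependent_iff.2 fun c hc i => ?_
      simp only [Fin.sum_univ_four, Matrix.cons_val] at hc
      have k1 := congrArg (fun w => QuadraticMap.polar Q w f) hc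
      have k2 := congrArg (fun w => QuadraticMap.polar Q w z) hc
      have k3 := congrArg (fun w => QuadraticMap.polar Q w f') hc
      have k4 := congrArg (fun w => QuadraticMap.polar Q w z') hc
      simp only [QuadraticMap.polar_add_left, QuadraticMap.polar_smul_left, ht.ef, ht.ez, ht.zf, ht'.ef, ht'.ez,
        ht'.zf, hcross e he f' hf', hcross z hz f' hf', hcross e he z' hz', hcross z hz z' hz',
        hcross' f hf e' he', hcross' f hf z' hz', hcross' z hz e' he', hcross' z hz z' hz',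
        smul_eq_mul, mul_zero, mul_one, add_zero, zero_add, QuadraticMap.polar_self] at k1 k2 k3 k4
      simp only [QuadraticMap.polar, zero_add, map_zero, sub_zero, sub_self, two_nsmul, ← two_mul] at k1 k2 k3 k4
      have k2' := (mul_eq_zero.1 k2).resolve_right (mul_ne_zero h2 ht.zz)
      have k4' := (mul_eq_zero.1 k4).resolve_right (mul_ne_zero h2 ht'.zz)
      fin_cases i <;> assumption
    have hS : Submodule.span F (Set.range ![e, z, e', z']) ≤ LinearMap.range L ⊓ perp BQ H :=
      Submodule.span_le.2 (by rintro _ ⟨i, rfl⟩; exact hmem i)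
    have hb : LinearMap.range L0 ⊓ Submodule.span F (Set.range ![e, z, e', z']) = ⊥ :=
      le_bot_iff.1 (inf_bot hB hHn (le_refl _) ▸ inf_le_inf (by rintro _ ⟨w, rfl⟩; exact hL0H w)
        (hS.trans inf_le_right))
    have h1 := Submodule.finrank_sup_add_finrank_inf_eq (LinearMap.range L0)
      (Submodule.span F (Set.range ![e, z, e', z']))
    rw [hb, finrank_bot, hrk, finrank_span_eq_card hli, Fintype.card_fin] at h1
    have hR0 : LinearMap.range L0 ≤ LinearMap.range L := by
      rintro _ ⟨w, rfl⟩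
      obtain ⟨a, ha, b, hb', rfl⟩ := Submodule.mem_sup.1
        (show w ∈ H ⊔ perp BQ H from (nd_isCompl hB hHn).sup_eq_top ▸ Submodule.mem_top)
      exact ⟨a, by rw [hLH a ha, map_add, hL0K b hb', add_zero]⟩
    have h3 := Submodule.finrank_mono (sup_le hR0 (hS.trans inf_le_left))
    omega
  · refine (Submodule.finrank_mono (t := Submodule.span F (Set.range ![e, e'])) ?_).trans
      ((finrank_range_le_card _).trans (by simp))
    rintro _ ⟨w, rfl⟩
    obtain ⟨s, hs, -⟩ := ht.twice h2 w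
    obtain ⟨s', hs', -⟩ := ht'.twice h2 w
    rw [Module.End.mul_apply, hLL, hs, hs']
    exact Submodule.add_mem _ (Submodule.smul_mem _ _ (Submodule.subset_span ⟨0, rfl⟩))
      (Submodule.smul_mem _ _ (Submodule.subset_span ⟨1, rfl⟩))

end Cfsg.Agent.Linear.UnipClassElem
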