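import Cfsg.Agent.Linear.OrthSpaces
import Cfsg.Agent.Linear.OrthFree

/-!
# A unipotent element of `O_{2d+1}` all whose nondegenerate invariant subspaces of even dimension are hyperbolic
-/

set_option autoImplicit false
set_option linter.unusedSectionVars false

namespace Cfsg.Agent.Linear.UnipMinus

open Module Cfsg.Agent.Forms Cfsg.Agent.Linear.OrthSpaces

variable {F : Type*} [Field F] [Fintype F] {V : Type*} [AddCommGroup V] [Module F V] [FiniteDimensional F V]
  {Q : QuadraticForm F V}

local notation "BQ" => QuadraticMap.polarBilin Q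

theorem map_add_ker (N : Module.End F V) (W : Submodule F V) :
    finrank F (W.map N) + finrank F ↥(W ⊓ LinearMap.ker N) = finrank F W := by
  have h := (N.domRestrict W).finrank_range_add_finrank_ker
  rw [LinearMap.range_domRestrict, LinearMap.ker_domRestrict] at h
  rw [← h]
  congr 1
  rw [← Submodule.finrank_map_subtype_eq W ((LinearMap.ker N).comap W.subtype),
    Submodule.map_comap_subtype]

theorem two_rank_le (N : Module.End F V) {W : Submodule F V} (hW : ∀ w ∈ W, N w ∈ W) :
    2 * finrank F (W.map N) ≤ finrank F W + finrank F ((W.map N).map N) := by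
  have h1 := map_add_ker N W
  have h2 := map_add_ker N (W.map N)
  have h3 : finrank F ↥(W.map N ⊓ LinearMap.ker N) ≤ finrank F ↥(W ⊓ LinearMap.ker N) :=
    Submodule.finrank_mono (inf_le_inf_right _ (by rintro _ ⟨x, hx, rfl⟩; exact hW x hx))
  omega

theorem rank_split (N : Module.End F V) {W W' : Submodule F V} (hc : IsCompl W W') (hW : ∀ w ∈ W, N w ∈ W)
    (hW' : ∀ w ∈ W', N w ∈ W') :
    finrank F (W.map N) + finrank F (W'.map N) = finrank F (LinearMap.range N) := by
  rw [← Submodule.map_top, ← hc.sup_eq_top, Submodule.map_sup]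
  have h := Submodule.finrank_sup_add_finrank_inf_eq (W.map N) (W'.map N)
  have hb : W.map N ⊓ W'.map N = ⊥ := le_bot_iff.1 (hc.inf_eq_bot ▸ inf_le_inf
    (by rintro _ ⟨x, hx, rfl⟩; exact hW x hx) (by rintro _ ⟨x, hx, rfl⟩; exact hW' x hx))
  rw [hb, finrank_bot, add_zero] at h
  exact h.symm

/-- Every invariant nondegenerate subspace of even dimension is hyperbolic. -/
theorem plus_of_rank (h2 : (2 : F) ≠ 0) (hB : (BQ).Nondegenerate) {d ε : ℕ} (hn : finrank F V = 2 * d + 1)
    (hε : ε ≤ 1) {N : Module.End F V} (hinj : Function.Injective ⇑(1 + N)) (hQ : ∀ v, Q ((1 + N) v) = Q v)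
    (hN1 : d + ε ≤ finrank F (LinearMap.range N)) (hN2 : finrank F (LinearMap.range (N * N)) ≤ ε)
    {W : Submodule F V} (hWn : Nd Q W) (hWe : Even (finrank F W)) (hW : ∀ w ∈ W, (1 + N) w ∈ W) : Plus Q W := by
  obtain ⟨w, hw⟩ := hWe
  have hc : IsCompl W (perp BQ W) := nd_isCompl hB hWn
  have hWN : ∀ x ∈ W, N x ∈ W := fun x hx => by
    have := W.sub_mem (hW x hx) hx
    simpa using this
  have hPN : ∀ x ∈ perp BQ W, N x ∈ perp BQ W := fun x hx => by
    have := (perp BQ W).sub_mem (OrthFree.perp_invariant hQ hinj hW x hx) hx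
    simpa using this
  have ha := rank_split N hc hWN hPN
  have he := rank_split (N * N) hc (fun x hx => hWN _ (hWN x hx)) fun x hx => hPN _ (hPN x hx)
  have h1 := two_rank_le N hWN
  have h1' := two_rank_le N hPN
  rw [← Submodule.map_comp, ← Module.End.mul_eq_comp] at h1 h1'
  have hd := finrank_sup hB hWn (le_refl (perp BQ W))
  rw [hc.sup_eq_top, finrank_top, hn] at hd
  have hz : finrank F (W.map (N * N)) = 0 := by omega
  have ha2 : 2 * finrank F (W.map N) = finrank F W := by omega
  refine ⟨W.map N, by rintro _ ⟨x, hx, rfl⟩; exact hWN x hx, ?_, ha2⟩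
  rintro _ ⟨x, hx, rfl⟩
  have hNN : N (N x) = 0 := by
    have h : (N * N) x ∈ W.map (N * N) := ⟨x, hx, rfl⟩
    rw [Submodule.finrank_eq_zero.1 hz, Submodule.mem_bot] at h
    exact h
  have e1 := hQ x
  have e2 := hQ ((1 + N) x)
  rw [e1] at e2
  simp only [LinearMap.add_apply, Module.End.one_apply, map_add, hNN, add_zero] at e1 e2
  rw [show x + N x + N x = x + (2 : F) • N x by rw [two_smul, add_assoc]] at e2
  rw [QuadraticMap.map_add Q] at e1 e2
  rw [QuadraticMap.map_smul, QuadraticMap.polar_smul_right, smul_eq_mul, smul_eq_mul] at e2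
  exact (mul_eq_zero.1 (show (2 : F) * Q (N x) = 0 by linear_combination e2 - 2 * e1)).resolve_left h2

/-- The unipotent element. -/
theorem exists_N {p : ℕ} [Fact p.Prime] [CharP F p] (h2 : (2 : F) ≠ 0) (d : ℕ) :
    ∃ (ε : ℕ) (N : Module.End F (Unit ⊕ (Fin d ⊕ Fin d) → F)), ε ≤ 1 ∧ (1 + N) ^ p = 1 ∧
      (∀ v, qOdd d F ((1 + N) v) = qOdd d F v) ∧ d + ε ≤ finrank F (LinearMap.range N) ∧
      finrank F (LinearMap.range (N * N)) ≤ ε := by
  classical
  obtain ⟨k, ε, hd, hε⟩ : ∃ k ε, d = 2 * k + ε ∧ ε ≤ 1 := ⟨d / 2, d % 2, by omega, by omega⟩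
  obtain ⟨e⟩ : Nonempty (Fin d ≃ (Fin k ⊕ Fin k) ⊕ Fin ε) := ⟨Fintype.equivOfCardEq (by simp; omega)⟩
  let G : (Unit ⊕ (Fin d ⊕ Fin d) → F) → (Fin k ⊕ Fin k) ⊕ Fin ε → F := fun v =>
    Sum.elim (Sum.elim (fun j => v (.inr (.inr (e.symm (.inl (.inr j))))))
      (fun j => -v (.inr (.inr (e.symm (.inl (.inl j)))))))
      (fun s => -2 * v (.inl ()) - v (.inr (.inr (e.symm (.inr s)))))
  let N : Module.End F (Unit ⊕ (Fin d ⊕ Fin d) → F) :=
    { toFun := fun v => Sum.elim (fun _ => ∑ s, v (.inr (.inr (e.symm (.inr s)))))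
        (Sum.elim (fun l => G v (e l)) fun _ => 0)
      map_add' := fun u v => by
        funext x
        rcases x with _ | l | l
        · simp [Finset.sum_add_distrib]
        · rcases hl : e l with (j | j) | j <;> simp [G, hl] <;> ring
        · simp
      map_smul' := fun c v => by
        funext x
        rcases x with _ | l | l
        · simp [Finset.mul_sum]
        · rcases hl : e l with (j | j) | j <;> simp [G, hl] <;> ring
        · simp }
  have hN0 : ∀ v, N v (.inl ()) = ∑ s, v (.inr (.inr (e.symm (.inr s)))) := fun v => rfl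
  have hNx : ∀ v l, N v (.inr (.inl l)) = G v (e l) := fun v l => rfl
  have hNy : ∀ v l, N v (.inr (.inr l)) = 0 := fun v l => rfl
  have hNN : ∀ v, (N * N) v = Sum.elim (fun _ => 0) (Sum.elim (fun l => Sum.elim 0
      (fun _ => -2 * ∑ s, v (.inr (.inr (e.symm (.inr s))))) (e l)) fun _ => 0) := fun v => by
    funext x
    rw [Module.End.mul_apply]
    rcases x with _ | l | l
    · simp [hN0, hNy]
    · rcases hl : e l with (j | j) | j <;> simp [hNx, G, hl, hN0, hNy]
    · simp [hNy]
  have hN3 : N ^ 3 = 0 := by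
    refine LinearMap.ext fun v => ?_
    rw [pow_succ', pow_two, Module.End.mul_apply, hNN]
    funext x
    rcases x with _ | l | l
    · simp [hN0]
    · rcases hl : e l with (j | j) | j <;> simp [hNx, G, hl]
    · simp [hNy]
  refine ⟨ε, N, hε, ?_, fun v => ?_, ?_, ?_⟩
  · haveI : CharP (Module.End F (Unit ⊕ (Fin d ⊕ Fin d) → F)) p :=
      charP_of_injective_algebraMap (FaithfulSMul.algebraMap_injective F _) p
    rw [add_pow_char_of_commute (p := p) (h := Commute.one_left N), one_pow]
    have hp3 : 3 ≤ p := by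
      have := (Fact.out : p.Prime).two_le
      rcases this.lt_or_eq with h | h
      · omega
      · subst h; exact absurd (by exact_mod_cast CharP.cast_eq_zero F 2) h2
    rw [show p = 3 + (p - 3) by omega, pow_add, hN3, zero_mul, add_zero]
  · simp only [coe_qOdd, Cfsg.quadFormOdd, LinearMap.add_apply, Module.End.one_apply, Pi.add_apply, hN0, hNx, hNy,
      add_zero, add_mul, Finset.sum_add_distrib]
    have hsum : ∑ l, G v (e l) * v (.inr (.inr l)) =
        ∑ y, G v y * v (.inr (.inr (e.symm y))) := Fintype.sum_equiv e _ _ fun l => by rw [e.symm_apply_apply]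
    rw [hsum, Fintype.sum_sum_type, Fintype.sum_sum_type]
    simp only [G, Sum.elim_inl, Sum.elim_inr, neg_mul, Finset.sum_neg_distrib]
    rw [show ∑ j : Fin k, v (.inr (.inr (e.symm (.inl (.inl j))))) * v (.inr (.inr (e.symm (.inl (.inr j))))) =
      ∑ j : Fin k, v (.inr (.inr (e.symm (.inl (.inr j))))) * v (.inr (.inr (e.symm (.inl (.inl j))))) from
      Finset.sum_congr rfl fun j _ => mul_comm _ _]
    obtain rfl | rfl : ε = 0 ∨ ε = 1 := by omega
    · simp
    · simp only [Fin.sum_univ_one]; ring
  · let π : (Unit ⊕ (Fin d ⊕ Fin d) → F) →ₗ[F] (Fin d → F) × (Fin ε → F) :=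
      { toFun := fun v => (fun l => v (.inr (.inl l)), fun _ => v (.inl ()))
        map_add' := fun u v => rfl
        map_smul' := fun c v => rfl }
    have hsurj : Function.Surjective (π ∘ₗ N) := by
      intro gc
      let y : (Fin k ⊕ Fin k) ⊕ Fin ε → F :=
        Sum.elim (Sum.elim (fun j => -gc.1 (e.symm (.inl (.inr j)))) (fun j => gc.1 (e.symm (.inl (.inl j))))) gc.2
      refine ⟨Sum.elim (fun _ => -(2 : F)⁻¹ * ∑ s, (gc.1 (e.symm (.inr s)) + gc.2 s))
        (Sum.elim (fun _ => 0) fun l => y (e l)), ?_⟩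
      refine Prod.ext (funext fun l => ?_) (funext fun s => ?_)
      · show G _ (e l) = gc.1 l
        conv_rhs => rw [← e.symm_apply_apply l]
        rcases hl : e l with (j | j) | j
        · simp [G, y]
        · simp [G, y]
        · obtain rfl : ε = 1 := by have := j.2; omega
          simp only [G, y, Sum.elim_inl, Sum.elim_inr, Equiv.apply_symm_apply, Fin.sum_univ_one,
            Subsingleton.elim j 0]
          field_simp
          ring
      · show ∑ t, y (e (e.symm (.inr t))) = gc.2 s
        obtain rfl : ε = 1 := by have := s.2; omega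
        simp [y, Subsingleton.elim s 0]
    have h1 := Submodule.finrank_map_le π (LinearMap.range N)
    rw [← LinearMap.range_comp, LinearMap.range_eq_top.2 hsurj, finrank_top, Module.finrank_prod, finrank_fin_fun,
      finrank_fin_fun] at h1
    exact h1
  · let lam : (Fin ε → F) →ₗ[F] (Unit ⊕ (Fin d ⊕ Fin d) → F) :=
      { toFun := fun c => Sum.elim (fun _ => 0) (Sum.elim (fun l => Sum.elim 0 c (e l)) fun _ => 0)
        map_add' := fun a b => by
          funext x
          rcases x with _ | l | l
          · simp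
          · rcases hl : e l with j | j <;> simp [hl]
          · simp
        map_smul' := fun a b => by
          funext x
          rcases x with _ | l | l
          · simp
          · rcases hl : e l with j | j <;> simp [hl]
          · simp }
    have hle : LinearMap.range (N * N) ≤ LinearMap.range lam := by
      rintro _ ⟨v, rfl⟩
      exact ⟨_, (hNN v).symm⟩
    exact (Submodule.finrank_mono hle).trans ((LinearMap.finrank_range_le lam).trans (le_of_eq (finrank_fin_fun F)))

end Cfsg.Agent.Linear.UnipMinus
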